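import Cfsg.Agent.H19.TA4

/-! Tensor products of two symplectic spaces, in matrices. -/

set_option autoImplicit false
set_option maxHeartbeats 400000

namespace Cfsg.Agent.H19.TA

open Module H10 H11 H26 H26.MX Cfsg.Geo Matrix Kronecker

variable {F : Type*} [Field F]

theorem TF.exists_not_tn {U W : Type*} [AddCommGroup U] [Module F U] [AddCommGroup W] [Module F W]
    {g : U →ₗ[F] U →ₗ[F] F} {f : W →ₗ[F] W →ₗ[F] F}
    {B : (W →ₗ[F] U) →ₗ[F] (W →ₗ[F] U) →ₗ[F] F} {Q : (W →ₗ[F] U) → F} [FiniteDimensional F W]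
    [Nontrivial U] (h : TF g f B Q) (hn : 5 ≤ finrank F W) : ∃ k ∈ h.hV.Om, ¬ Tn k := by
  have : Nontrivial W := Module.nontrivial_of_finrank_pos (R := F) (by omega)
  obtain ⟨w, hw⟩ := exists_ne (0 : W)
  obtain ⟨a, ha⟩ := exists_ne (0 : U)
  obtain ⟨x, hx⟩ := h.hW.form.exists_right_eq_one h.hW.sep hw
  obtain ⟨b, hb⟩ := h.hU.form.exists_right_eq_one h.hU.sep ha
  obtain ⟨c, c', h1, -, h2, -, h3⟩ := exists_hyp2 h.hW hn w w
  have h4 : B (pt U f b c) (pt U f b x) = 0 := by simp [h.Bp, alt_self h.hU]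
  refine ⟨_, h.hV.eich_mem_om (c := 0) (h.Qp b c) h4 (h.Qp b x).symm, fun ⟨s, φ, h5⟩ => ?_⟩
  have h6 := h5 (f.flip w) a
  rw [show (f.flip w).smulRight a = pt U f a w from rfl, h.hV.eich_of_perp (h.Qp b c) h4 _
    (by simp [h.Bp, h.hW.refl h1])] at h6
  have h7 := LinearMap.congr_fun h6 c'
  have h8 := LinearMap.congr_fun h6 x
  simp [h.Bp, h.hW.flip_one hx, h.hW.flip_one h3, h.hU.flip_one hb, h.hW.refl h2] at h7 h8
  have h9 := congrArg₂ (g · ·) h8 h7
  simp [hb, alt_self h.hU] at h9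

variable {ι : Type} [Fintype ι] [DecidableEq ι] {a b : ℕ}

theorem tn_of_mem_ten {e : ι ≃ Fin a × Fin b} {P g : GL ι F} (h : g ∈ tensorProductSubgroup a b e P) :
    Tn (cjE (tenE e P) (glEquiv ι F g)) := by
  obtain ⟨x, y, h⟩ := (mem_tensorProductSubgroup e P g).1 h
  let D := LinearEquiv.piRing F F (Fin b) F
  refine ⟨glEquiv _ F x, cjE D (glEquiv _ F y), fun β z => (tenE e P).symm_apply_eq.2 ?_⟩
  refine (glEquiv_apply _ _).trans ?_
  simp only [LinearEquiv.coe_coe]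
  rw [h, tenE_apply, tenE_apply, trA_mulVec]
  congr 2
  ext ⟨i, j⟩
  have h1 : cjE D (glEquiv _ F y) β (eb j) = (y.val *ᵥ D β) j :=
    congrFun (D.apply_symm_apply (y.val *ᵥ D β)) j
  simp only [LinearMap.smulRight_apply, Pi.smul_apply, smul_eq_mul, h1]
  simp [D, glEquiv_apply, mulVec, dotProduct, Fintype.sum_prod_type, Finset.sum_mul_sum]
  rw [Finset.sum_comm]
  exact Finset.sum_congr rfl fun _ _ => Finset.sum_congr rfl fun _ _ => by ring

theorem gram_eq {κ : Type} [Fintype κ] [DecidableEq κ] {f : (κ → F) → (κ → F) → F}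
    (hf : IsBilinearForm f) (x y : κ → F) : f x y = ∑ i, ∑ j, x i * gramMatrix f i j * y j := by
  rw [← bilinOf_apply hf, ← Matrix.toBilin'_toMatrix' (bilinOf hf), Matrix.toBilin'_apply]
  rfl

theorem exists_theta {κ : Type} [Fintype κ] [DecidableEq κ] {f : (κ → F) →ₗ[F] (κ → F) →ₗ[F] F}
    (hf : f.SeparatingLeft) : ∃ θ : (κ → F) ≃ₗ[F] (κ → F), ∀ y x, f (θ y) x = y ⬝ᵥ x := by
  let L : End F (κ → F) := (LinearEquiv.piRing F F κ F).toLinearMap ∘ₗ f
  have h1 : ∀ y x, f y x = L y ⬝ᵥ x := fun y x => by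
    rw [LinearMap.pi_apply_eq_sum_univ (f y) x]
    simp only [L, dotProduct, mul_comm _ (x _)]
    refine Finset.sum_congr rfl fun i _ => ?_
    simp; left; congr; ext j; simp [Pi.single_apply, eq_comm]
  let E := LinearEquiv.ofInjectiveEndo L ((injective_iff_map_eq_zero _).2 fun y hy =>
    hf y fun x => by simp [h1, hy])
  exact ⟨E.symm, fun y x => by rw [h1]; exact congrArg (· ⬝ᵥ x) (E.apply_symm_apply y)⟩

theorem sep_of {κ : Type} [Fintype κ] [DecidableEq κ] {f : (κ → F) → (κ → F) → F} (hf : IsBilinearForm f)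
    (h : IsNondegenerateForm f) : (bilinOf hf).SeparatingLeft := fun v hv => by_contra fun h0 =>
  let ⟨x, hx⟩ := (h v h0).2; hx (hv x)

theorem tensor_form {e : ι ≃ Fin a × Fin b} {P : GL ι F} {f₁ : (Fin a → F) → (Fin a → F) → F}
    {f₂ : (Fin b → F) → (Fin b → F) → F} (h₁ : IsBilinearForm f₁) (h₂ : IsBilinearForm f₂)
    {β : (ι → F) → (ι → F) → F} {c : F} (hT : ∀ x y : Fin a × Fin b → F,
      β (P.val *ᵥ (x ∘ e)) (P.val *ᵥ (y ∘ e)) = c * formOfGram id (gramMatrix f₁ ⊗ₖ gramMatrix f₂) x y)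
    {θ : (Fin b → F) ≃ₗ[F] (Fin b → F)} (hθ : ∀ y x, bilinOf h₂ (θ y) x = y ⬝ᵥ x) (x : Fin a → F)
    (w : Fin b → F) (v : (Fin b → F) →ₗ[F] (Fin a → F)) :
    tenE e P (pt _ (pull (bilinOf h₂) θ.toLinearMap) x w) = P.val *ᵥ ((fun p => x p.1 * θ w p.2) ∘ e) ∧
    β (tenE e P (pt _ (pull (bilinOf h₂) θ.toLinearMap) x w)) (tenE e P v) = c * f₁ x (v w) := by
  have h1 : tenE e P (pt _ (pull (bilinOf h₂) θ.toLinearMap) x w) =
      P.val *ᵥ ((fun p => x p.1 * θ w p.2) ∘ e) := by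
    rw [tenE_apply]; congr 2; ext p
    simp only [pt_apply, pull_apply, LinearEquiv.coe_coe, hθ]; simp [mul_comm]
  refine ⟨h1, ?_⟩
  rw [h1, tenE_apply, hT, gram_eq h₁]
  congr 1
  have h2 : ∀ j, w j = ∑ i, θ w i * gramMatrix f₂ i j := fun j => by
    have := hθ w (eb j)
    rw [bilinOf_apply, gram_eq h₂] at this
    simpa [Pi.single_apply] using this.symm
  have h3 : ∀ i, v w i = ∑ j, w j * v (eb j) i := fun i => by
    rw [LinearMap.pi_apply_eq_sum_univ v w]
    simp only [Finset.sum_apply, Pi.smul_apply, smul_eq_mul]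
    refine Finset.sum_congr rfl fun j _ => ?_
    rw [show (fun k => if j = k then (1 : F) else 0) = eb j by ext; simp [Pi.single_apply, eq_comm]]
  simp only [formOfGram, Fintype.sum_prod_type, kroneckerMap_apply, id, h3, h2, Finset.mul_sum,
    Finset.sum_mul]
  refine Finset.sum_congr rfl fun i _ => Finset.sum_comm.trans (Finset.sum_congr rfl fun i' _ =>
    Finset.sum_comm.trans (Finset.sum_congr rfl fun _ _ => Finset.sum_congr rfl fun _ _ => by ring))

theorem spsp_max [Fintype F] {Q : (ι → F) → F} (hQ : IsNondegenerateQuadraticForm Q)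
    (hn : 13 ≤ Fintype.card ι) (hab : a < b) (hq : ¬ (Fintype.card F = 2 ∧ a = 2))
    (e : ι ≃ Fin a × Fin b) (P : GL ι F) {f₁ : (Fin a → F) → (Fin a → F) → F}
    {f₂ : (Fin b → F) → (Fin b → F) → F} (h₁ : IsSymplecticForm f₁) (h₂ : IsSymplecticForm f₂)
    (hT : IsTensorFormStructure id (QuadraticMap.polar Q) f₁ f₂ e P)
    (hp : ∀ (x : Fin a → F) (y : Fin b → F), Q (P.val *ᵥ ((fun p => x p.1 * y p.2) ∘ e)) = 0) :
    IsMaximalIn (omegaGL Q) (tensorProductSubgroup a b e P ⊓ omegaGL Q) := by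
  classical
  obtain ⟨c, hc, hT⟩ := hT
  have s₁ := sep_of h₁.bilinear h₁.nondegenerate
  have s₂ := sep_of h₂.bilinear h₂.nondegenerate
  obtain ⟨θ, hθ⟩ := exists_theta s₂
  have h1 := tensor_form h₁.bilinear h₂.bilinear hT hθ
  have h : TF (c • bilinOf h₁.bilinear) _ _ _ := ⟨clAlt (fun x => by simp [h₁.alternating])
    fun x hx => s₁ x fun y => by simpa [hc] using hx y, (clAlt (B := bilinOf h₂.bilinear) h₂.alternating s₂).pullback θ,
    (clO hQ).pullback (tenE e P), fun x w v => (h1 x w v).2, fun x w => by rw [(h1 x w 0).1, hp]⟩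
  have a₁ : (bilinOf h₁.bilinear).IsAlt := h₁.alternating
  have a₂ : (bilinOf h₂.bilinear).IsAlt := h₂.alternating
  obtain ⟨a', ha'⟩ := even_finrank_of_alt (a₁.isRefl.nondegenerate_iff_separatingLeft.mpr s₁) a₁
  obtain ⟨b', hb'⟩ := even_finrank_of_alt (a₂.isRefl.nondegenerate_iff_separatingLeft.mpr s₂) a₂
  rw [Fintype.card_congr e] at hn
  simp only [finrank_fintype_fun_eq_card, Fintype.card_fin, Fintype.card_prod] at ha' hb' hn
  have ha : 2 ≤ a := by
    by_contra h2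
    rw [show a = 0 by omega] at hn; omega
  have hb : 5 ≤ b := by
    by_contra h2
    rw [show a = 2 by omega, show b = 4 by omega] at hn; omega
  have : Nontrivial (Fin a → F) := Module.nontrivial_of_finrank_pos (R := F) (by simp; omega)
  let φ := (glEquiv ι F).trans (cjE (tenE e P))
  have h2 : ∀ g, g ∈ omegaGL Q ↔ φ g ∈ h.hV.Om := fun g => (mem_omegaGL_iff (clO hQ) (by
    rw [Fintype.card_congr e]; simp; omega) g).trans (mem_om_cjE _ _ _)
  refine MaxP.isMaximalIn (fun M hM hM' g hg hg' x hx => ?_) fun hle => ?_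
  · have h3 : ∀ k ∈ h.hV.Om, Tn k → k ∈ M.map φ.toMonoidHom := fun k hk hk' => ⟨φ.symm k, hM
      ⟨mem_ten_of_tn (by rwa [← φ.apply_symm_apply k] at hk'), (h2 _).2 (by simpa)⟩, by simp⟩
    have h4 : TM _ _ _ _ (M.map φ.toMonoidHom) := ⟨h, by
      rintro _ ⟨y, hy, rfl⟩; exact h.hV.om_le_isom ((h2 y).1 (hM' hy)),
      fun s hs => h3 _ (h.lf_mem hs) ⟨s, 1, fun β z => by ext; simp⟩,
      fun t ht => h3 _ (h.rt_mem ht) ⟨1, t⁻¹.dualMap, fun β z => by ext; simp⟩⟩
    by_contra h5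
    refine hg' (mem_ten_of_tn (h4.tn_of_mem (by simpa) ?_ (fun h6 => h5 ?_) (by simp; omega) ⟨g, hg, rfl⟩))
    · by_cases h : a = 2
      · obtain ⟨c, hc⟩ := exists_not_mem_card (F := F) (n := 2) (by
          have := Fintype.one_lt_card (α := F); rw [Nat.card_eq_fintype_card]; omega) {0, 1}
          Finset.card_le_two
        exact Or.inr ⟨c, by simpa using hc⟩
      · exact Or.inl (by simp; omega)
    · obtain ⟨y, hy, h7⟩ := h6 ((h2 x).1 hx)
      rwa [← φ.injective h7]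
  · obtain ⟨k, h3, h4⟩ := h.exists_not_tn (by simpa)
    exact h4 ((φ.apply_symm_apply k).subst (tn_of_mem_ten (hle ((h2 (φ.symm k)).2 (by simpa)))))

end Cfsg.Agent.H19.TA
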