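import Cfsg.Agent.H19.TB5
import Cfsg.Agent.H19.TA5

/-! Tensor products with an orthogonal factor, in matrices. -/

set_option autoImplicit false
set_option maxHeartbeats 400000

namespace Cfsg.Agent.H19.TA

open Module H10 H11 H26 H26.MX Cfsg.Geo Matrix Kronecker
open scoped commutatorElement

variable {F : Type*} [Field F]

section abs
variable {U W : Type*} [AddCommGroup U] [Module F U] [AddCommGroup W] [Module F W]
  {g : U →ₗ[F] U →ₗ[F] F} {f : W →ₗ[F] W →ₗ[F] F} {p : U → F} {q : W → F}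
  {B : (W →ₗ[F] U) →ₗ[F] (W →ₗ[F] U) →ₗ[F] F} {Q : (W →ₗ[F] U) → F} {ε κ ε' κ' : F} {τ τ' : F →+ F}

theorem clSym (h2 : (2 : F) ≠ 0) (hs : ∀ x y, g x y = g y x) (h : g.SeparatingLeft) :
    Cl (σ := RingHom.id F) 1 2 (AddMonoidHom.id F) g fun x => g x x / 2 :=
  clQuad (IsQuad.of_add_smul (fun x y => by simp [hs y x]; field_simp; ring) fun c x => by
    simp; field_simp) h

theorem q_eq_of (h : Cl (σ := RingHom.id F) ε κ τ g p) (h2 : (2 : F) ≠ 0) {x y : U} (h1 : g x x = g y y) :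
    p x = p y := by
  rcases h.kind with ⟨-, rfl, rfl, rfl⟩ | ⟨-, rfl, rfl, rfl⟩ | ⟨h, -⟩
  · obtain ⟨s, hs⟩ := h.exists_tau x
    obtain ⟨t, ht⟩ := h.exists_tau y
    rw [← hs, ← ht]; rfl
  · exact mul_left_cancel₀ h2 (by rw [← qd h, ← qd h, h1])
  · exact absurd rfl h

variable [FiniteDimensional F U] [FiniteDimensional F W]

theorem mem_comm_of_om (h : Cl (σ := RingHom.id F) 1 2 (AddMonoidHom.id F) g p) (h2 : (2 : F) ≠ 0)
    {s : U ≃ₗ[F] U} (hs : s ∈ h.Om) : s ∈ (commutator (Isom g p)).map (Isom g p).subtype := by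
  refine h.om_le (fun u w c hu h1 (hc : c = p w) => ?_) hs
  by_cases h0 : u = 0
  · rw [h0, h.eich_zero_left]; exact one_mem _
  obtain ⟨x, hx, h3⟩ := h.form.exists_partner h.sep hu h0
  obtain ⟨r, h4, h5⟩ := IsForm.exists_isom_of_linear (Q := p) h.sep
    (1 - (2 : F) • ((g x).smulRight u + (g u).smulRight x)) (fun y z => by
      simp [h3, h.flip_one h3, h.diag0, hu, hx, qs h y x, qs h y u]; ring) fun y => q_eq_of h h2 (by
      simp [h3, h.flip_one h3, h.diag0, hu, hx, qs h y x, qs h y u]; ring)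
  obtain ⟨z, h6, h7, h8⟩ : ∃ z, g u z = 0 ∧ g x z = 0 ∧ w = (z + z) + g x w • u :=
    ⟨(2 : F)⁻¹ • (w - g x w • u), by simp [h1, h.diag0 hu], by simp [h.flip_one h3], by
      rw [← two_smul F, smul_smul, mul_inv_cancel₀ h2]; simp⟩
  refine ⟨⁅⟨_, h.eich_mem_isom hu h6 rfl⟩, ⟨r, h4⟩⁆, Subgroup.commutator_mem_commutator trivial trivial, ?_⟩
  change h.eich u z (p z) * r * (h.eich u z (p z))⁻¹ * r⁻¹ = _
  rw [mul_assoc, mul_assoc, ← mul_assoc r, h.eich_inv hu h6, h.conj_eich h4,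
    show r u = (-1 : F) • u by rw [h5]; simp [h.flip_one h3, h.diag0 hu]; module,
    show r (-z) = -z by rw [h5]; simp [h6, h7], h.eich_smul_left hu (by simp [h6]),
    h.eich_mul hu h6 (by simp [h6]), hc, h8, h.eich_add_smul hu (by simp [h6])]
  simp [h.Q_add, h.Q_smul, hu, h.refl h6, qd h z]; ring_nf

theorem mem_om_of_hom [Finite F] (h : Cl (σ := RingHom.id F) ε κ τ g p) (h2 : (2 : F) ≠ 0)
    (hn : 5 ≤ finrank F U) {G : Type*} [Group G] (Φ : G →* (U ≃ₗ[F] U))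
    (h1 : ∀ s x y, g (Φ s x) (Φ s y) = g x y) {s : G} (hs : s ∈ commutator G) : Φ s ∈ h.Om := by
  rcases h.kind with ⟨-, rfl, rfl, rfl⟩ | ⟨-, rfl, rfl, rfl⟩ | ⟨h, -⟩
  · exact (mem_om_alt h).2 (h1 s)
  · let Ψ := Φ.codRestrict (Isom g p) fun s => ⟨h1 s, fun x => q_eq_of h h2 (h1 s x x)⟩
    exact (mem_om_quad h hn (Ψ s)).2 (Subgroup.commutator_mono le_top le_top
      ((Subgroup.map_commutator ⊤ ⊤ Ψ).le ⟨s, hs, rfl⟩))
  · exact absurd rfl h

theorem lf_iso (h : Cl (σ := RingHom.id F) ε κ τ f q) (Bp : ∀ a w v, B (pt U f a w) v = g a (v w))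
    {s : U ≃ₗ[F] U} (hs : ∀ x y, g (s x) (s y) = g x y) (v v' : W →ₗ[F] U) :
    B (lf W s v) (lf W s v') = B v v' := sub_eq_zero.1 <|
  pt_ind h (S := LinearMap.ker (B.flip (lf W s v') ∘ₗ (lf W s).toLinearMap - B.flip v'))
    (fun a w => by simp [lf_pt, Bp, hs]) v

theorem rt_iso (h : Cl (σ := RingHom.id F) ε κ τ f q) (Bp : ∀ a w v, B (pt U f a w) v = g a (v w))
    {t : W ≃ₗ[F] W} (ht : ∀ x y, f (t x) (t y) = f x y) (v v' : W →ₗ[F] U) :
    B (rt U t v) (rt U t v') = B v v' := sub_eq_zero.1 <|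
  pt_ind h (S := LinearMap.ker (B.flip (rt U t v') ∘ₗ (rt U t).toLinearMap - B.flip v'))
    (fun a w => by simp [rt_pt ht, Bp]) v

theorem to_om [Finite F] (hU : Cl (σ := RingHom.id F) ε κ τ g p)
    (hW : Cl (σ := RingHom.id F) 1 2 (AddMonoidHom.id F) f q) (hV : Cl (σ := RingHom.id F) ε κ τ B Q)
    (h2 : (2 : F) ≠ 0) (Bp : ∀ a w v, B (pt U f a w) v = g a (v w)) (hn : 5 ≤ finrank F (W →ₗ[F] U)) :
    TO ε κ τ g p f q B Q hV.Om := by
  refine ⟨hU, hW, hV, h2, Bp, fun a w hw => (q_eq_of hV h2 (y := 0) (by simp [Bp, hW.diag0 hw])).trans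
    hV.Q_zero, hV.om_le_isom, fun s hs => ?_, fun t ht => ?_⟩
  · rcases hU.kind with ⟨-, rfl, rfl, rfl⟩ | ⟨-, rfl, rfl, rfl⟩ | ⟨h, -⟩
    · exact (mem_om_alt hV).2 (lf_iso hW Bp (hU.om_le_isom hs).1)
    · obtain ⟨s, h3, rfl⟩ := mem_comm_of_om hU h2 hs
      exact mem_om_of_hom hV h2 hn ((lf W).comp (Isom g p).subtype) (fun s => lf_iso hW Bp s.2.1) h3
    · exact absurd rfl h
  · obtain ⟨t, h3, rfl⟩ := mem_comm_of_om hW h2 ht
    exact mem_om_of_hom hV h2 hn ((rt U).comp (Isom f q).subtype) (fun s => rt_iso hW Bp s.2.1) h3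

omit [FiniteDimensional F U] [FiniteDimensional F W] in
theorem not_tn_eich (hV : Cl (σ := RingHom.id F) ε κ τ B Q) (Bp : ∀ a w v, B (pt U f a w) v = g a (v w))
    {a b b' : U} {w x c c' : W} (h1 : Q (pt U f b c) = 0) (h2 : f c x = 0) (h3 : f c w = 0)
    (h4 : f x c = 0) (h5 : f c' w = 0) (h6 : f x w ≠ 0) (h7 : f c' c ≠ 0) (h8 : g b' a ≠ 0)
    (h9 : b ∉ F ∙ a) : ∃ k ∈ hV.Om, ¬ Tn k := by
  have h10 : B (pt U f b c) (pt U f b' x) = 0 := by simp [Bp, h2]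
  obtain ⟨d, hd⟩ := hV.exists_tau (pt U f b' x)
  refine ⟨_, hV.eich_mem_om h1 h10 hd, fun ⟨s, φ, h11⟩ => h9 ?_⟩
  have h12 := h11 (f.flip w) a
  rw [show (f.flip w).smulRight a = pt U f a w from rfl, hV.eich_of_perp h1 h10 _ (by simp [Bp, h3])] at h12
  have h13 := LinearMap.congr_fun h12 c'
  have h14 := LinearMap.congr_fun h12 x
  simp only [Bp, LinearMap.add_apply, LinearMap.smul_apply, pt_apply, h4, h5, zero_smul, zero_add,
    smul_zero, add_zero, LinearMap.smulRight_apply, map_smul, smul_smul] at h13 h14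
  have h15 : φ (f.flip w) x ≠ 0 := fun h => by
    rw [h, zero_smul, smul_eq_zero_iff_right h6] at h14; simp [h14] at h8
  rw [← Submodule.smul_mem_iff _ (mul_ne_zero (mul_ne_zero h6 h8) h7), ← smul_eq_mul (f x w), h13,
    ← Submodule.smul_mem_iff _ h15, smul_comm, ← h14]
  exact Submodule.smul_mem _ _ (Submodule.smul_mem _ _ (Submodule.mem_span_singleton_self a))

theorem TO.max [Finite F] {hV : Cl (σ := RingHom.id F) ε κ τ B Q} (h : TO ε κ τ g p f q B Q hV.Om)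
    (hm : 2 ≤ finrank F U) (hn : 5 ≤ finrank F W) (hc : Co h.hU) (hr : Rk g (finrank F W)) :
    (∃ k ∈ hV.Om, ¬ Tn k) ∧ ∀ M ≤ hV.Om, (∀ k ∈ hV.Om, Tn k → k ∈ M) → ¬ hV.Om ≤ M → ∀ k ∈ M, Tn k := by
  have : Nontrivial U := Module.nontrivial_of_finrank_pos (R := F) (by omega)
  refine ⟨?_, fun M h1 h2 h3 k hk => TO.tn_mem ⟨h.hU, h.hW, hV, h.two, h.Bp, h.Qp, h1.trans h.le,
    fun s hs => h2 _ (h.lm s hs) ⟨s, 1, fun β z => by ext; simp⟩,
    fun t ht => h2 _ (h.rm t ht) ⟨1, t⁻¹.dualMap, fun β z => by ext; simp⟩⟩ hn hc h3 hr hk⟩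
  obtain ⟨w, -, h0, hw⟩ := h.hW.exists_sing3 (W := ⊤) (by simp; omega)
  obtain ⟨x, hx, h1⟩ := h.hW.form.exists_partner h.hW.sep hw h0
  obtain ⟨c, h2, h3, h4, h5⟩ := exists_sing2 h.hW hn w x
  obtain ⟨c', h6, h7⟩ := exists_perp_one h.hW (w := w) (y := c) fun h6 => by
    obtain ⟨d, rfl⟩ := Submodule.mem_span_singleton.1 h6
    simp [h.hW.flip_one h1] at h4; simp [h4] at h2
  obtain ⟨a, ha⟩ := exists_ne (0 : U)
  obtain ⟨b', hb'⟩ := h.hU.exists_ne ha
  obtain ⟨b, -, hb⟩ := exists_not_mem_of_lt (U := ⊤) (W := F ∙ a) (by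
    rw [finrank_span_singleton ha, finrank_top]; omega)
  exact not_tn_eich hV h.Bp (h.Qp b c h5) (h.hW.refl h4) (h.hW.refl h3) h4 (h.hW.refl h6)
    (by simp [h.hW.flip_one h1]) (by simp [h.hW.flip_one h7]) (h.hU.refl_ne hb') hb

end abs

variable {ι : Type} [Fintype ι] [DecidableEq ι] {a b : ℕ}

theorem ten_max_of {e : ι ≃ Fin a × Fin b} {P : GL ι F} {G : Subgroup (GL ι F)} {O : Subgroup _}
    (h2 : ∀ g, g ∈ G ↔ cjE (tenE e P) (glEquiv ι F g) ∈ O)
    (h : (∃ k ∈ O, ¬ Tn k) ∧ ∀ M ≤ O, (∀ k ∈ O, Tn k → k ∈ M) → ¬ O ≤ M → ∀ k ∈ M, Tn k) :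
    IsMaximalIn G (tensorProductSubgroup a b e P ⊓ G) := by
  let φ := (glEquiv ι F).trans (cjE (tenE e P))
  replace h2 : ∀ g, g ∈ G ↔ φ g ∈ O := h2
  refine MaxP.isMaximalIn (fun M hM hM' g hg hg' x hx => ?_) fun hle => ?_
  · by_contra h5
    refine hg' (mem_ten_of_tn (h.2 (M.map φ.toMonoidHom) (by rintro _ ⟨y, hy, rfl⟩; exact (h2 y).1 (hM' hy))
      (fun k hk hk' => ⟨φ.symm k, hM ⟨mem_ten_of_tn (by rwa [← φ.apply_symm_apply k] at hk'),
        (h2 _).2 (by simpa)⟩, by simp⟩) (fun h6 => h5 ?_) _ ⟨g, hg, rfl⟩))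
    obtain ⟨y, hy, h7⟩ := h6 ((h2 x).1 hx)
    rwa [← φ.injective h7]
  · obtain ⟨k, h3, h4⟩ := h.1
    exact h4 ((φ.apply_symm_apply k).subst (tn_of_mem_ten (hle ((h2 (φ.symm k)).2 (by simpa)))))

theorem ten_swap (e : ι ≃ Fin a × Fin b) (P : GL ι F) :
    tensorProductSubgroup b a (e.trans (Equiv.prodComm _ _)) P = tensorProductSubgroup a b e P := by
  ext g
  simp only [mem_tensorProductSubgroup, trA_apply]
  exact ⟨fun ⟨x, y, h⟩ => ⟨y, x, h.trans (by congr 1; ext; simp [mul_comm])⟩,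
    fun ⟨x, y, h⟩ => ⟨y, x, h.trans (by congr 1; ext; simp [mul_comm])⟩⟩

theorem tfs_swap {e : ι ≃ Fin a × Fin b} {P : GL ι F} {f₁ : (Fin a → F) → (Fin a → F) → F}
    {f₂ : (Fin b → F) → (Fin b → F) → F} {β : (ι → F) → (ι → F) → F} {σ : F → F}
    (h : IsTensorFormStructure σ β f₁ f₂ e P) :
    IsTensorFormStructure σ β f₂ f₁ (e.trans (Equiv.prodComm _ _)) P := by
  obtain ⟨c, hc, h⟩ := h
  refine ⟨c, hc, fun x y => (h (x ∘ Prod.swap) (y ∘ Prod.swap)).trans ?_⟩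
  congr 1
  exact Fintype.sum_equiv (Equiv.prodComm _ _) _ _ fun i => Fintype.sum_equiv (Equiv.prodComm _ _) _ _
    fun j => by simp [mul_comm (gramMatrix f₁ _ _)]

theorem exists_sq_ne [Fintype F] (h2 : (2 : F) ≠ 0) (h : Fintype.card F ≠ 3) : ∃ t : F, t ≠ 0 ∧ t * t ≠ 1 := by
  classical
  have h1 := H26.two_ne_zero_iff_odd.1 h2
  obtain ⟨c, hc⟩ := exists_not_mem_card (F := F) (n := 3) (by
    have := Fintype.one_lt_card (α := F); rw [Nat.card_eq_fintype_card]; obtain ⟨k, hk⟩ := h1; omega)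
    {0, 1, -1} Finset.card_le_three
  simp only [Finset.mem_insert, Finset.mem_singleton, not_or] at hc
  exact ⟨c, hc.1, fun h => (mul_self_eq_one_iff.1 h).elim hc.2.1 hc.2.2⟩

/-- `O ⊗ O` -/
theorem oo_max [Fintype F] (h2 : (2 : F) ≠ 0) {β : (ι → F) →ₗ[F] (ι → F) →ₗ[F] F} {Q : (ι → F) → F}
    (hQ : Cl (σ := RingHom.id F) 1 2 (AddMonoidHom.id F) β Q) (ha : 3 ≤ a) (hab : a < b) (hb : 5 ≤ b)
    (hq : ¬ (Fintype.card F = 3 ∧ a = 3)) (e : ι ≃ Fin a × Fin b) (P : GL ι F)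
    {f₁ : (Fin a → F) → (Fin a → F) → F} {f₂ : (Fin b → F) → (Fin b → F) → F} (h₁ : IsSymmetricForm f₁)
    (h₂ : IsSymmetricForm f₂) (h4 : a = 4 → ¬ IsPlusTypeOn (fun v => f₁ v v) ⊤)
    (hT : IsTensorFormStructure id (QuadraticMap.polar Q) f₁ f₂ e P) :
    IsMaximalIn (omegaGL Q) (tensorProductSubgroup a b e P ⊓ omegaGL Q) := by
  obtain ⟨c, hc, hT⟩ := hT
  have s₁ := sep_of h₁.bilinear h₁.nondegenerate
  have s₂ := sep_of h₂.bilinear h₂.nondegenerate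
  obtain ⟨θ, hθ⟩ := exists_theta s₂
  have h1 := tensor_form h₁.bilinear h₂.bilinear hT hθ
  have h3 : 5 ≤ a * b := by nlinarith
  have hU := clSym (g := c • bilinOf h₁.bilinear) h2 (fun x y => by simp [h₁.symm x y])
    fun x hx => s₁ x fun y => by simpa [hc] using hx y
  have h := to_om hU ((clSym h2 h₂.symm s₂).pullback θ) (hQ.pullback (tenE e P)) h2
    (fun x w v => by simpa [QuadraticMap.polar, hQ.Q_add, sub_sub] using (h1 x w v).2)
    (by simpa [finrank_linearMap, mul_comm])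
  refine ten_max_of (fun g => (mem_omegaGL_iff hQ (by rw [Fintype.card_congr e]; simpa) g).trans
    (mem_om_cjE _ _ _)) (h.max (by simp; omega) (by simpa) (fun E hE m hm h0 => hE.all_quad h2 (by simpa)
      ?_ ?_ hm h0) fun s d l h5 h6 h7 => no_tv hU h2 (by simpa) h5 h6 ?_)
  · by_cases h : a = 3
    · exact Or.inr (exists_sq_ne h2 fun h' => hq ⟨h', h⟩)
    · exact Or.inl (by simp; omega)
  · refine or_iff_not_imp_left.2 fun h5 x y h6 h7 h8 h9 => by_contra fun h10 => ?_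
    have h11 : finrank F (Submodule.span F {x, y}) = 2 := by
      have := finrank_span_eq_card
        ((LinearIndependent.pair_iff' h9).2 fun d hd => h10 (Submodule.mem_span_singleton.2 ⟨d, hd⟩))
      rwa [show Set.range ![x, y] = {x, y} by simp [Set.pair_comm y x]] at this
    have h12 : ∀ v ∈ Submodule.span F {x, y}, ∀ v' ∈ Submodule.span F {x, y},
        (c • bilinOf h₁.bilinear) v v' = 0 := fun v hv v' hv' => by
      obtain ⟨_, _, rfl⟩ := Submodule.mem_span_pair.1 hv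
      obtain ⟨_, _, rfl⟩ := Submodule.mem_span_pair.1 hv'
      have h11 := hU.refl h8
      have h12 := hU.diag0 h6
      have h13 := hU.diag0 h7
      generalize c • bilinOf h₁.bilinear = g at h8 h11 h12 h13
      simp [h8, h11, h12, h13]
    have h13 := hU.form.finrank_perp hU.sep (Submodule.span F {x, y})
    have h14 := Submodule.finrank_mono (show Submodule.span F {x, y} ≤ perp (c • bilinOf h₁.bilinear)
      (Submodule.span F {x, y}) from fun v hv v' hv' => h12 v' hv' v hv)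
    simp only [finrank_fintype_fun_eq_card, Fintype.card_fin] at h5 h13
    exact h4 (by omega) ⟨_, le_top, fun v hv => by simpa [hc] using h12 v hv v hv, by simp; omega⟩
  · simp only [finrank_fintype_fun_eq_card, Fintype.card_fin] at h7
    by_contra! h8
    nlinarith

/-- `Sp₂ ⊗ O` -/
theorem sp2o_max [Fintype F] (h2 : (2 : F) ≠ 0) {m : ℕ} (hb : 5 ≤ b)
    (e : Fin m ⊕ Fin m ≃ Fin 2 × Fin b) (P : GL (Fin m ⊕ Fin m) F)
    {f₁ : (Fin 2 → F) → (Fin 2 → F) → F} {f₂ : (Fin b → F) → (Fin b → F) → F} (h₁ : IsSymplecticForm f₁)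
    (h₂ : IsSymmetricForm f₂) (hT : IsTensorFormStructure id (sympForm m F) f₁ f₂ e P) :
    IsMaximalIn (spGL m F) (tensorProductSubgroup 2 b e P ⊓ spGL m F) := by
  obtain ⟨c, hc, hT⟩ := hT
  have s₁ := sep_of h₁.bilinear h₁.nondegenerate
  have s₂ := sep_of h₂.bilinear h₂.nondegenerate
  obtain ⟨θ, hθ⟩ := exists_theta s₂
  have h1 := tensor_form h₁.bilinear h₂.bilinear hT hθ
  have hU := clAlt (B := c • bilinOf h₁.bilinear) (fun x => by simp [h₁.alternating])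
    fun x hx => s₁ x fun y => by simpa [hc] using hx y
  have h := to_om hU ((clSym h2 h₂.symm s₂).pullback θ) ((clSp m F).pullback (tenE e P)) h2
    (fun x w v => by simpa [spBilin_eq_sympForm] using (h1 x w v).2) (by simp [finrank_linearMap]; omega)
  refine ten_max_of (fun g => (mem_spGL_iff g).trans (mem_om_cjE _ _ _)) (h.max (by simp) (by simpa)
    (fun E hE m hm h0 => hE.all_alt h2 (by simp) hm h0) fun s d l h5 h6 h7 x => ?_)
  simp only [finrank_fintype_fun_eq_card, Fintype.card_fin] at h7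
  have h8 : finrank F (LinearMap.range (s.toLinearMap - d • 1)) = 0 := by
    by_contra h8
    nlinarith [Nat.pos_of_ne_zero h8]
  simpa [sub_eq_zero] using (Submodule.finrank_eq_zero.1 h8).le (LinearMap.mem_range_self _ x)

end Cfsg.Agent.H19.TA
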