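import Cfsg.Agent.H19.TW4

/-! Maximality of the tensor induced subgroups of the special linear group. -/

set_option autoImplicit false
set_option maxHeartbeats 400000

namespace Cfsg.Agent.H19.TW

open Module H11 H26 H26.MX Cfsg.Geo Matrix

variable {F : Type*} [Field F] {κ : Type} [Fintype κ] [DecidableEq κ] {m t : ℕ}
  (e : κ ≃ (Fin t → Fin m)) (P : GL κ F)

/-- the tensor factors -/
noncomputable def fe (i : Fin t) : End F (Fin m → F) →ₐ[F] End F (κ → F) :=
  toLinAlgEquiv'.toAlgHom.comp ((trA e P).toAlgHom.comp ((fac i).comp LinearMap.toMatrixAlgEquiv'.toAlgHom))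

theorem fe_apply (i : Fin t) (x : End F (Fin m → F)) :
    fe e P i x = toLinAlgEquiv' (trA e P (fac i (LinearMap.toMatrixAlgEquiv' x))) := rfl

theorem cg_fe (g : GL κ F) (i : Fin t) (x : End F (Fin m → F)) : cg (glEquiv κ F g) (fe e P i) x =
    toLinAlgEquiv' (cj g (trA e P (fac i (LinearMap.toMatrixAlgEquiv' x)))) := LinearMap.ext fun v => by
  rw [cg_apply, ← map_inv]
  simp only [glEquiv_apply, fe_apply, cj_apply, toLinAlgEquiv'_apply, mulVec_mulVec, mul_assoc]

theorem fe_cc (i j : Fin t) (h : i ≠ j) : CC (fe e P i) (fe e P j) := fun x y v => by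
  rw [← End.mul_apply, ← End.mul_apply, fe_apply, fe_apply, ← map_mul, ← map_mul, ← map_mul, ← map_mul,
    fac_apply, fac_apply, ← map_mul, ← map_mul, (Pi.mulSingle_commute h _ _).eq]

theorem fe_gen (A : Subalgebra F (End F (κ → F))) (h : ∀ i x, fe e P i x ∈ A) : A = ⊤ :=
  top_unique fun x _ => by
    simpa using (eq_top_of_fac_mem (A := A.comap (toLinAlgEquiv'.toAlgHom.comp (trA e P).toAlgHom))
      fun i y => by simpa [fe_apply] using h i (toLinAlgEquiv' y)).ge
      (Algebra.mem_top (x := (trA e P).symm (LinearMap.toMatrixAlgEquiv' x)))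

variable {e P}

theorem mem_wr [Nonempty (Fin t)] [Nonempty (Fin m)] {g : GL κ F} (σ : Equiv.Perm (Fin t))
    (h : ∀ i, (cg (glEquiv κ F g) (fe e P i)).range ≤ (fe e P (σ i)).range) :
    g ∈ tensorWreathSubgroup m t e P := by
  obtain ⟨a, ha⟩ := exists_eq_facPerm_mul ((trG e P).symm g) σ fun i x => by
    obtain ⟨y, hy⟩ := h i ⟨toLinAlgEquiv' x, rfl⟩
    refine ⟨LinearMap.toMatrixAlgEquiv' y, (trA e P).injective (toLinAlgEquiv'.injective ?_)⟩
    rw [trA_cj, MulEquiv.apply_symm_apply]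
    simpa [cg_fe, fe_apply] using hy.symm
  rw [mem_tensorWreathSubgroup, ha]
  exact mem_tensorWreathStandard_of σ a

theorem fact_lt (ht : 2 ≤ t) : t.factorial < 2 ^ (3 ^ t - 1) := by
  have h1 : ∀ s : ℕ, (s + 1).factorial ≤ 2 ^ (2 * 3 ^ s) := fun s => by
    induction s with
    | zero => simp
    | succ s ih =>
      have h2 : s + 1 < 3 ^ (s + 1) := Nat.lt_pow_self (by omega)
      have h3 : 3 ^ (s + 1) < 2 ^ 3 ^ (s + 1) := Nat.lt_pow_self (by omega)
      rw [Nat.factorial_succ]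
      refine (Nat.mul_le_mul (h2.trans h3) ih).trans ?_
      rw [← pow_add]; exact Nat.pow_le_pow_right (by omega) (by omega)
  obtain ⟨s, rfl⟩ := Nat.exists_eq_add_of_le' ht
  have : 0 < 3 ^ s := by positivity
  exact (h1 _).trans_lt (Nat.pow_lt_pow_right (by omega) (by rw [pow_add, pow_add]; omega))

theorem not_le_wr [Fintype F] (hm : 3 ≤ m) (ht : 2 ≤ t) {G : Subgroup (GL κ F)}
    (hG : specialLinear κ F ≤ G) : ¬ G ≤ tensorWreathSubgroup m t e P := fun hle => by
  let i : κ := e.symm fun _ => ⟨0, by omega⟩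
  let φ : ({j // j ≠ i} → F) → κ → F := fun c j => if h : j = i then 0 else c ⟨j, h⟩
  have hφ : ∀ c, φ c ⬝ᵥ Pi.single i 1 = 0 := fun c => by simp [φ]
  obtain ⟨c, d, h1, h2⟩ := exists_eq_of_mem_wreath ht (α := {j // j ≠ i} → F) (by
      refine (fact_lt ht).trans_le ?_
      simp only [Fintype.card_pi, Finset.prod_const, Finset.card_univ, Fintype.card_subtype_compl,
        Fintype.card_unique, Fintype.card_congr e, Fintype.card_fin]
      exact (Nat.pow_le_pow_left Fintype.one_lt_card _).trans (Nat.pow_le_pow_right Fintype.card_pos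
        (Nat.sub_le_sub_right (Nat.pow_le_pow_left hm t) 1)))
    (fun c => tv _ _ (hφ c)) (fun c => hle (hG (tv_mem_specialLinear _ _ _))) fun c d => by
      rw [tv_inv, tv_mul_tv]
      exact (rank_tv_sub_one _ _ _).trans_lt (by omega)
  exact h1 (funext fun ⟨j, hj⟩ => by
    simpa [coe_tv, Matrix.vecMulVec_apply, φ, hj, hj.symm] using congrArg (fun g : GL κ F => g.val i j) h2)

theorem wr_max [Fintype F] (hm : 3 ≤ m) (ht : 2 ≤ t) (e : κ ≃ (Fin t → Fin m)) (P : GL κ F) :
    IsMaximalIn (specialLinear κ F) (tensorWreathSubgroup m t e P ⊓ specialLinear κ F) := by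
  have : Nonempty (Fin m) := ⟨⟨0, by omega⟩⟩
  have : Nontrivial (Fin t) := Fin.nontrivial_iff_two_le.2 ht
  have : Nonempty κ := e.nonempty
  refine H10.isMaximalIn_inf (not_le_wr hm ht le_rfl) fun M hM _ g hg hg' x hx => by_contra fun h1 => hg' ?_
  have h2 : ∀ k ∈ SLv F (κ → F), ∀ σ : Equiv.Perm (Fin t), (∀ i, (cg k (fe e P i)).range ≤ (fe e P (σ i)).range) →
      k ∈ M.map (glEquiv κ F).toMonoidHom := fun k hk σ h => ⟨(glEquiv κ F).symm k, hM
    ⟨mem_wr σ (by simpa), (mem_sl_iff _).2 (by simpa)⟩, by simp⟩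
  obtain ⟨σ, h3⟩ := exists_perm (M := M.map (glEquiv κ F).toMonoidHom) (by simpa) (fe_cc e P) (fe_gen e P)
    (fun i u φ h0 => ⟨unip (fe e P i (r1 u φ)) (by simp [h0]), h2 _ (unip_mem_SLv _ _) 1 fun j => by
      rintro _ ⟨y, rfl⟩
      by_cases h : i = j
      · exact ⟨(1 + r1 u φ) * y * (1 - r1 u φ), LinearMap.ext fun v => by simp [← h]⟩
      · exact ⟨y, LinearMap.ext fun v => by simp [fe_cc e P j i (Ne.symm h) _ _, h0]⟩, fun _ => rfl⟩)
    (fun i j k h3 h4 h5 => by
      let τ := Equiv.swap i j * Equiv.swap i k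
      have h6 : ∀ a, cg (glEquiv κ F (trG e P (facPerm _ F (τ * τ)))) (fe e P a) = fe e P ((τ * τ) a) :=
        fun a => AlgHom.ext fun y => by rw [cg_fe, ← trA_cj, cj_facPerm_fac]; rfl
      refine ⟨_, h2 _ ((mem_sl_iff _).1 (mem_specialLinear.2 ?_)) _ fun a => by rw [h6], ?_, ?_⟩
      · rw [coe_trG, det_trA, facPerm_mul, Units.val_mul, det_mul]
        erw [Matrix.det_permutation]
        rw [← Int.cast_mul, ← Units.val_mul, Int.units_mul_self]; simp
      all_goals simp [h6, τ, Equiv.swap_apply_def, h3, h4, h5, h3.symm, h4.symm, h5.symm])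
    (by
      by_cases h : m = 3
      · exact .inr (by simp [Fintype.card_congr e, h, Odd.pow (show Odd 3 by decide)])
      · exact .inl (by simp; omega))
    (fun h => h1 (by
      obtain ⟨y, hy, h3⟩ := h ((mem_sl_iff x).1 hx)
      rwa [← (glEquiv κ F).injective h3])) ⟨g, hg, rfl⟩
  exact mem_wr σ h3

end Cfsg.Agent.H19.TW
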