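import Cfsg.Agent.H19.TU2

/-! Tensor products of unitary spaces: the stabiliser theorem. -/

set_option autoImplicit false
set_option maxHeartbeats 400000

namespace Cfsg.Agent.H19.TA

open Module H10 H11 H26.MX

theorem dihedral_or {G : Type*} [Group G] [Finite G] {a b : G} (ha : a * a = 1) (hb : b * b = 1)
    {K : Subgroup G} (h1 : a ∈ K) (h2 : b ∈ K) : (∃ g ∈ K, g⁻¹ * a * g = b) ∨ ∃ v ∈ K, v ≠ 1 ∧ v * v = 1 ∧
      v⁻¹ * a * v = a ∧ v⁻¹ * b * v = b ∧ (∃ g ∈ K, v * a = g⁻¹ * a * g ∨ v * a = g⁻¹ * b * g) ∧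
      ∃ g ∈ K, v * b = g⁻¹ * a * g ∨ v * b = g⁻¹ * b * g := by
  obtain ⟨c, rfl⟩ : ∃ c, b = a * c := ⟨a * b, by rw [← mul_assoc, ha, one_mul]⟩
  have hc : c ∈ K := (mul_mem_cancel_left h1).1 h2
  have h3 : ∀ n : ℕ, (c ^ n)⁻¹ * a = a * c ^ n := fun n => by
    rw [← inv_pow]; exact (SemiconjBy.pow_right (show a * c = c⁻¹ * a by
      rw [eq_inv_mul_iff_mul_eq, ← mul_left_cancel_iff (a := a), ha, ← hb]; group) n).eq.symm
  have h4 : ∀ n : ℕ, ∃ g ∈ K, a * c ^ n = g⁻¹ * a * g ∨ a * c ^ n = g⁻¹ * (a * c) * g := fun n => by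
    obtain ⟨i, rfl | rfl⟩ := Nat.even_or_odd' n <;> refine ⟨c ^ i, pow_mem hc i, ?_⟩
    · left; rw [h3]; group
    · right; rw [← mul_assoc, h3]; group
  have h5 := pow_orderOf_eq_one c
  have h6 := orderOf_pos c
  obtain ⟨i, h7 | h7⟩ := Nat.even_or_odd' (orderOf c)
  · have h8 : c ^ i * c ^ i = 1 := by rw [← pow_add, ← two_mul, ← h7, h5]
    have h9 : c ^ i * a = a * c ^ i := by rw [← h3, inv_eq_of_mul_eq_one_right h8]
    exact Or.inr ⟨c ^ i, pow_mem hc i, pow_ne_one_of_lt_orderOf (by omega) (by omega), h8,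
      by rw [h3, mul_assoc, h8, mul_one], by
        rw [← mul_assoc, h3, mul_assoc a, ← pow_succ, pow_succ', mul_assoc, mul_assoc, h8, mul_one],
      h9 ▸ h4 i, by rw [← mul_assoc, h9, mul_assoc, ← pow_succ]; exact h4 _⟩
  · exact Or.inl ⟨c ^ (i + 1), pow_mem hc _, by
      rw [h3, mul_assoc, ← pow_add, show i + 1 + (i + 1) = orderOf c + 1 by omega, pow_succ, h5, one_mul]⟩

variable {F : Type*} [Field F] {σ : F →+* F} {U W : Type*} [AddCommGroup U] [Module F U] [AddCommGroup W]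
  [Module F W] {g : U →ₛₗ[σ] U →ₗ[F] F} {f : W →ₛₗ[σ] W →ₗ[F] F} {p : U → F} {q : W → F}
  {B : (W →ₗ[F] U) →ₛₗ[σ] (W →ₗ[F] U) →ₗ[F] F} {Q : (W →ₗ[F] U) → F}
  {M : Subgroup ((W →ₗ[F] U) ≃ₗ[F] (W →ₗ[F] U))} {j k : (W →ₗ[F] U) ≃ₗ[F] (W →ₗ[F] U)}

/-- acting on the right factor only -/
def Pr (k : (W →ₗ[F] U) ≃ₗ[F] (W →ₗ[F] U)) : Prop := ∃ ψ : End F W, ∀ v, k v = v ∘ₗ ψ

theorem Pr.mul (h : Pr j) (h' : Pr k) : Pr (j * k) :=
  let ⟨ψ, h⟩ := h; let ⟨φ, h'⟩ := h'; ⟨φ * ψ, fun v => by rw [mul_app, h', h]; rfl⟩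

theorem tn_mul (h : Tn j) (h' : Tn k) : Tn (j * k) :=
  let ⟨s, φ, h⟩ := h; let ⟨s', φ', h'⟩ := h'; ⟨s * s', φ * φ', fun β z => by rw [mul_app, h', h]; rfl⟩

variable [FiniteDimensional F U] [FiniteDimensional F W]

theorem Pr.tn [Nontrivial U] (hn : 2 ≤ finrank F W) (h : Pr k) : Tn k :=
  let ⟨ψ, h⟩ := h; tn_of_Wt hn fun β _ => ⟨β ∘ₗ ψ, fun z => ⟨z, by rw [h]; rfl⟩⟩

theorem Pr.conj (h : Pr j) (h' : Tn k) : Pr (k⁻¹ * j * k) := by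
  obtain ⟨φ, h⟩ := h
  obtain ⟨s, ψ, h'⟩ := tn_form h'
  exact ⟨ψ.toLinearMap * φ * ψ⁻¹.toLinearMap, fun v => inv_eq_of (y := j (k v)) (by ext; simp [h, h'])⟩

theorem pu_of_form (h : Hm σ f q) {s : U ≃ₗ[F] U} {ψ : W ≃ₗ[F] W} (hk : ∀ v x, k v x = s (v (ψ x))) (y : W) :
    ∃ y', ∀ a, k (pu U f y a) = pu U f y' (s a) :=
  (h.exists_B (f y ∘ₗ ψ.toLinearMap)).imp fun y' h a => LinearMap.ext fun x => by simp [hk, h]

omit [FiniteDimensional F U] in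
theorem exists_pu_comp (h : Hm σ f q) {ψ : End F W} (h0 : ψ ≠ 0) :
    ∃ y y', y' ≠ 0 ∧ ∀ a, pu U f y a ∘ₗ ψ = pu U f y' a := by
  obtain ⟨x, hx⟩ : ∃ x, ψ x ≠ 0 := by by_contra! h1; exact h0 (LinearMap.ext h1)
  obtain ⟨y, hy⟩ := h.exists_ne hx
  obtain ⟨y', h1⟩ := h.exists_B (f y ∘ₗ ψ)
  exact ⟨y, y', by rintro rfl; simpa [h.refl_ne hy] using (LinearMap.congr_fun h1 x).symm,
    fun a => by ext; simp [h1]⟩

namespace TH
variable (h : TH g p f q B Q M) [Finite F] (hn : 4 ≤ finrank F W) (hm : 2 ≤ finrank F U)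
  (hq : 3 ≤ finrank F U ∨ ∃ t : F, σ t = t ∧ t ≠ 0 ∧ t ≠ 1) (hM : ¬ h.hV.Om ≤ M) [Nontrivial U]
include h hn hm hq hM

omit [Nontrivial U] in
theorem r2_scal {w y : W} {hw : f w w = 0} (h0 : w ≠ 0) (hy : f w y = 0)
    {ψ : (W →ₗ[F] U) →ₗ[F] U} (hψ : ψ ∈ R2 M hw) : ∃ c : F, ∀ a, ψ (pu U f y a) = c • a := by
  by_contra! h2
  obtain ⟨a, h3, h4, h5⟩ := exists_rank_one_herm h.hU (fun s hs _ h1 _ => h.e3_conj (h.lm s hs) h1) hm hq
    (h.hW.mem_of_sing hn h0 ((h.hW.qq w).trans hw) (S := (E3 f M).comap (LinearMap.llcomp F _ _ _ ψ ∘ₛₗ pu U f))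
      (fun y h3 h4 h5 => h.mem_e3 hn h0 h5 h4 (h.r2_comp h4 h3 hψ)) hy)
    fun c hc => (h2 c).elim fun a ha => ha (LinearMap.congr_fun hc a)
  exact hM (h.om_le_of_e3 hn h3 h4 h5)

theorem st2 (hk : k ∈ M) {s : U ≃ₗ[F] U} {w y : W} (hw : w ≠ 0) (hw' : q w = 0)
    (hs : ∀ a, k (pu U f w a) = pu U f w (s a)) (hy : f w y = 0) (hy' : q y = 0) :
    ∃ y', ∀ a, k (pu U f y a) = pu U f y' (s a) := by
  have hww := h.hW.diag0 hw'
  have h1 : ∀ k ∈ M, ∀ s : U ≃ₗ[F] U, (∀ a, k (pu U f w a) = pu U f w (s a)) → ∀ y z, f w y = 0 →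
      f w z = 0 → ∃ c : F, ∀ a, k (pu U f y a) z = c • s a := fun k hk s hs y z hy hz => by
    obtain ⟨c, hc⟩ := h.r2_scal hn hm hq hM hw hy (h.r2_conj hk s hww hs (h.one_mem_e3 w hww z hz)
      (ψ' := s⁻¹.toLinearMap ∘ₗ LinearMap.applyₗ z ∘ₗ k.toLinearMap) fun v => by simp)
    exact ⟨c, fun a => by rw [← map_smul, ← hc]; simp⟩
  by_cases h2 : y ∈ F ∙ w
  · obtain ⟨c, rfl⟩ := Submodule.mem_span_singleton.1 h2
    exact ⟨c • w, fun a => by simp [hs]⟩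
  obtain ⟨a₀, ha₀⟩ := exists_ne (0 : U)
  obtain ⟨b₀, hb₀⟩ := h.hU.form.exists_right_eq_one h.hU.sep ha₀
  obtain ⟨χ, hχ⟩ := exists_dual_one (F := F) (app_ne_zero s ha₀)
  obtain ⟨y₁, h3⟩ := h.hW.exists_B (χ ∘ₗ k (pu U f y a₀))
  replace h3 : ∀ z, f y₁ z = χ (k (pu U f y a₀) z) := LinearMap.congr_fun h3
  have h4 : f y₁ w = 0 := by rw [h3, h.perp_map hk hs (by simp [h.hW.refl hy]), map_zero]
  obtain ⟨x, hx⟩ := h.hW.form.exists_right_eq_one h.hW.sep hw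
  let κ : End F U := LinearMap.applyₗ x ∘ₗ (k.toLinearMap ∘ₗ pu U f y - pu U f y₁ ∘ₗ s.toLinearMap)
  have h5 : ∀ a, k (pu U f y a) = pu U f y₁ (s a) + pu U f w (κ a) := fun a =>
    sub_eq_iff_eq_add'.1 (eq_pu_of hx fun z hz => by
      obtain ⟨c, hc⟩ := h1 k hk s hs y z hy hz
      simp [h3, hc, hχ])
  have h6 : y₁ ∉ F ∙ w := fun h6 => by
    obtain ⟨c, rfl⟩ := Submodule.mem_span_singleton.1 h6
    obtain ⟨z, h6, h7⟩ := h.hW.perp_one h2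
    have := LinearMap.congr_fun (k.injective (a₁ := pu U f y a₀) (a₂ := pu U f w (s⁻¹ (σ c • s a₀ + κ a₀)))
      (by rw [h5, hs, app_inv]; simp)) z
    simp [h6, h7, ha₀] at this
  obtain ⟨z, h7, h8⟩ := h.hW.perp_one h6
  have h9 : ∀ a (v : W →ₗ[F] U), v w = 0 → g a (k⁻¹ v y) = g (s a) (v y₁) := fun a v hv => by
    rw [← h.Bp, ← (h.le hk).1, app_inv, h5]; simp [h.Bp, hv]
  obtain ⟨l, hl⟩ := h1 k⁻¹ (inv_mem hk) s⁻¹ (fun a => inv_eq_of (by rw [hs, app_inv])) z y h7 hy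
  have h10 : ∀ a b, g (s a) b = l * g a (s⁻¹ b) := fun a b => by
    have := h9 a (pu U f z b) (by simp [h.hW.refl h7])
    rw [hl] at this
    simpa [h.hW.flip_one h8] using this.symm
  have h11 : l ≠ 0 := by
    obtain ⟨b, hb⟩ := h.hU.exists_ne (app_ne_zero s ha₀)
    rintro rfl
    simp [h10] at hb
  have h11' : σ l = l := by
    simpa [h10, hb₀, h.hU.flip_one hb₀] using h.hU.hs (s a₀) (s b₀)
  have h12 : ∀ v : W →ₗ[F] U, v w = 0 → k⁻¹ v y = l • s⁻¹ (v y₁) := fun v hv =>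
    sub_eq_zero.1 (h.gs fun a => by rw [map_sub, h9 a v hv, h10]; simp)
  have h13 : q y₁ = 0 := (h.hW.qq _).trans (by
    simpa [h5, h.Bp, h4, h.hW.refl h4, hww, h10, hb₀, h11, h.hW.diag0 hy'] using
      (h.le hk).1 (pu U f y a₀) (pu U f y b₀))
  obtain ⟨μ, hμ⟩ := h.r2_scal hn hm hq hM (hw := hww) hw h7 (h.r2_of_r1 (m := κ ∘ₗ s⁻¹.toLinearMap) hw h6
    (h.hW.refl h4) h13 fun c hc => ⟨fun a => by simp [h.hW.refl h4], by
      obtain ⟨t, h14, h15⟩ := h.exists_T hy' (c := c / l) (by simp [hc, h11', neg_div])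
      obtain ⟨t', h16, h17⟩ := h.exists_T h13 (c := -c) (by simp [hc])
      refine ⟨t' * (k * t * k⁻¹), mul_mem h16 (mul_mem (mul_mem hk h14) (inv_mem hk)), fun v hv => ?_⟩
      rw [mul_app, mul_app, mul_app, h15, map_add k, app_inv, map_smul k, h5, h12 v hv, h17]
      simp [h.hW.refl h4, h.hW.diag0 h13]
      match_scalars <;> field_simp <;> ring⟩)
  refine ⟨y₁ + σ μ • w, fun a => ?_⟩
  have h14 : κ a = μ • s a := by rw [← hμ]; simp [h.hW.flip_one h8]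
  simp [h5, h14, h.hW.invol]

theorem st3 (hk : k ∈ M) {s : U ≃ₗ[F] U} {w w' y : W} (h0 : w ≠ 0) (hw : q w = 0)
    (hs : ∀ a, k (pu U f w a) = pu U f w' (s a)) (hy : f w y = 0) (hq' : q y = 0) :
    ∃ y', ∀ a, k (pu U f y a) = pu U f y' (s a) := by
  obtain ⟨a₀, ha₀⟩ := exists_ne (0 : U)
  obtain ⟨b₀, hb₀⟩ := h.hU.form.exists_right_eq_one h.hU.sep ha₀
  obtain ⟨x, hx⟩ := h.hW.form.exists_right_eq_one h.hW.sep h0
  obtain ⟨t, h2, c, h3, h4⟩ := h.hW.om_apply hn h0 (w' := w') (by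
    rintro rfl
    simpa [hx, ha₀] using LinearMap.congr_fun (k.map_eq_zero_iff.1 ((hs a₀).trans (by simp))) x)
    hw ((h.hW.qq _).trans (by
      have := (h.le hk).1 (pu U f w (s⁻¹ a₀)) (pu U f w (s⁻¹ b₀))
      simpa [hs, h.Bp, hb₀, h.hW.diag0 hw] using this))
  have h5 := (h.hW.om_le_isom h2).1
  obtain ⟨y', h6⟩ := h.st2 hn hm hq hM (mul_mem (h.rm t h2) hk) h0 hw
    (s := s.trans (LinearEquiv.smulOfNeZero F U _ (h.hW.sigma_ne h3)))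
    (fun a => by simp [mul_app, hs, rt_pu h5, h4]) hy hq'
  exact ⟨c • t⁻¹ y', fun a => (rt U t).injective (by simpa [rt_pu h5, mul_app] using h6 a)⟩

theorem tn_st (hk : k ∈ M) {w w' : W} (h0 : w ≠ 0) (hw : q w = 0)
    (hs : ∀ a, ∃ a', k (pu U f w a) = pu U f w' a') : Tn k := by
  obtain ⟨x, hx⟩ := h.hW.form.exists_right_eq_one h.hW.sep h0
  have h1 : ∀ a, pu U f w a = 0 → a = 0 := fun a ha => by simpa [hx] using LinearMap.congr_fun ha x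
  obtain ⟨a₀, ha₀⟩ := exists_ne (0 : U)
  obtain ⟨x', hx'⟩ := h.hW.form.exists_right_eq_one h.hW.sep (x := w') (by
    rintro rfl
    obtain ⟨a, ha⟩ := hs a₀
    exact ha₀ (h1 _ (by simpa using ha)))
  let s : End F U := LinearMap.applyₗ x' ∘ₗ k.toLinearMap ∘ₗ pu U f w
  have h4 : ∀ a, k (pu U f w a) = pu U f w' (s a) := fun a => by
    obtain ⟨a', ha⟩ := hs a
    simp [s, ha, hx']
  obtain ⟨s, h4⟩ : ∃ s : U ≃ₗ[F] U, ∀ a, k (pu U f w a) = pu U f w' (s a) :=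
    ⟨LinearEquiv.ofInjectiveEndo s ((injective_iff_map_eq_zero _).2 fun a ha =>
      h1 a (k.injective (by rw [h4, ha]; simp))), h4⟩
  let S : Submodule F W :=
    { carrier := {y | ∃ y', ∀ a, k (pu U f y a) = pu U f y' (s a)}
      zero_mem' := ⟨0, by simp⟩
      add_mem' := fun ⟨y, hy⟩ ⟨z, hz⟩ => ⟨y + z, by simp [hy, hz]⟩
      smul_mem' := fun c _ ⟨y, hy⟩ => ⟨c • y, by simp [hy]⟩ }
  refine tn_of_Wt (by omega) fun β _ => ?_
  obtain ⟨y, rfl⟩ := h.hW.exists_B β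
  obtain ⟨y', h5⟩ := h.hW.eq_top h0 hw (S := S) ⟨w', h4⟩ (fun b hb _ => by
    obtain ⟨z, h5, h6, h7, h8⟩ := h.hW.sing2 hn w b
    obtain ⟨z', h9⟩ := h.st3 hn hm hq hM hk h0 hw h4 h6 h8
    exact h.st3 hn hm hq hM hk h5 h8 h9 (h.hW.refl h7) hb) y
  exact ⟨f y', fun a => ⟨_, (h5 a).symm⟩⟩

theorem rk (hmn : finrank F U < finrank F W) (hk : k ∈ M) {w : W} (hw : w ≠ 0) (hw' : q w = 0) {c : F}
    (hc : c ≠ 0) (h1 : ∀ v, j v = v + c • pu U f w (v w)) (ht : Tn (k⁻¹ * j * k)) : Tn k := by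
  have : Nontrivial W := ⟨w, 0, hw⟩
  obtain ⟨s, ψ, h2⟩ := tn_form ht
  have h3 : ∀ v, k ((k⁻¹ * j * k) v - v) = pu U f w (c • k v w) := fun v => by simp [mul_app, h1]
  have h4 : ∀ (n : ℕ) v, (j ^ n) v = v + ((n : F) * c) • pu U f w (v w) := fun n => by
    induction n with
    | zero => simp
    | succ n ih => intro v; rw [pow_succ', mul_app, ih, h1]; simp [h.hW.diag0 hw']; module
  obtain ⟨d, -, h5⟩ := rank_le h2 (by
    rw [← inv_inv k, inv_inv k⁻¹, conj_pow, show j ^ ringChar F = 1 by ext1; simp [h4]]; simp)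
    (Y := (LinearMap.range (pu U f w)).map k⁻¹.toLinearMap) fun v => ⟨_, ⟨_, rfl⟩, inv_eq_of (h3 v)⟩
  replace h5 := h5.trans ((Submodule.finrank_map_le _ _).trans (LinearMap.finrank_range_le _))
  have h6' : finrank F (LinearMap.range (s.toLinearMap - d • 1)) = 0 := by_contra fun h6 => by
    nlinarith [Nat.pos_of_ne_zero h6]
  have h6 : ∀ x, s x = d • x := fun x => by
    simpa [sub_eq_zero] using (Submodule.finrank_eq_zero.1 h6').le (LinearMap.mem_range_self _ x)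
  generalize k⁻¹ * j * k = i at h2 h3
  have h7 : ∀ v, i v - v = v ∘ₗ (d • ψ.toLinearMap - 1) := fun v => by ext; simp [h2, h6]
  obtain ⟨a₀, ha₀⟩ := exists_ne (0 : U)
  obtain ⟨b₀, hb₀⟩ := h.hU.form.exists_right_eq_one h.hU.sep ha₀
  obtain ⟨y, y', h8, h9⟩ := exists_pu_comp (U := U) h.hW (ψ := d • ψ.toLinearMap - 1) fun h8 => by
    obtain ⟨x, hx⟩ := h.hW.form.exists_right_eq_one h.hW.sep hw
    have := h3 (k⁻¹ (pu U f x a₀))
    rw [h7, h8] at this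
    simpa [hx, h.hW.flip_one hx, ha₀, hc] using (LinearMap.congr_fun this x).symm
  have h10 : ∀ a, k (pu U f y' a) = pu U f w (c • k (pu U f y a) w) := fun a => by rw [← h9, ← h7, h3]
  exact h.tn_st hn hm hq hM hk h8 ((h.hW.qq _).trans (by
    simpa [h10, h.Bp, h.hW.diag0 hw', hb₀] using ((h.le hk).1 (pu U f y' a₀) (pu U f y' b₀)).symm))
    fun a => ⟨_, h10 a⟩

end TH

end Cfsg.Agent.H19.TA
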