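import Cfsg.Agent.H19.TX4

/-! Tensor factors carrying a symplectic or unitary form: small fields of characteristic two. -/

set_option autoImplicit false
set_option maxHeartbeats 400000

namespace Cfsg.Agent.H19.TX

open Module H10 H11 H26.MX TW

variable {F : Type*} [Field F] {σ : F →+* F} {ε κ : F} {τ : F →+ F} {U V : Type*} [AddCommGroup U] [Module F U]
  [AddCommGroup V] [Module F V] {f : U →ₛₗ[σ] U →ₗ[F] F} {q : U → F} {B : V →ₛₗ[σ] V →ₗ[F] F}
  {ι ι' : End F U →ₐ[F] End F V} {M : Subgroup (V ≃ₗ[F] V)} {u u' : U} {h : Cl ε κ τ f q}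

theorem eig_four [Nontrivial V] (two : (2 : F) = 0) (hs : ∀ a, σ (σ a) = a) (h1 : σ ≠ RingHom.id F)
    (h2 : ∀ c, σ c = c → c = 0 ∨ c = 1) (sep : ∀ v, (∀ x, B x v = 0) → v = 0) (rf : ∀ x y, B x y = 0 → B y x = 0)
    {e : End F V} {m a t : F} (h3 : ∀ v w, m * B (e v) (e w) = B v w) (h4 : ∀ v, t • e v - v - a • e (e v) = 0) :
    ∃ (c : F) (v : V), v ≠ 0 ∧ e v = c • v := by
  have h5 : ∀ x : F, x ≠ 0 → σ x * x = 1 := fun x hx =>
    (h2 _ (by simp [hs, mul_comm])).resolve_left (mul_ne_zero ((map_ne_zero σ).2 hx) hx)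
  have h6 : ∀ c d : F, (∀ v, e (e v - c • v) = d • (e v - c • v)) → ∃ (c : F) (v : V), v ≠ 0 ∧ e v = c • v :=
    fun c d h => let ⟨v, hv⟩ := exists_ne (0 : V); by
      by_cases h7 : e v - c • v = 0
      exacts [⟨c, v, hv, sub_eq_zero.1 h7⟩, ⟨d, _, h7, h v⟩]
  have h7 : ∀ w, (t * m * m - a * m * σ t) • e w = (m * m - a * σ a) • w := fun w => sub_eq_zero.1 (sep _ fun v => by
    have h7 := congrArg (B · (e (e w))) (h4 v)
    have h8 := congrArg (B v) (h4 w)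
    simp only [map_sub, LinearMap.map_smulₛₗ, LinearMap.sub_apply, LinearMap.smul_apply, smul_eq_mul, map_zero,
      LinearMap.zero_apply, RingHom.id_apply] at h7 h8 ⊢
    linear_combination m * m * h8 - a * m * m * h7 + a * m * σ t * h3 v (e w) - a * σ a * m * h3 (e v) (e w) -
      a * σ a * h3 v w)
  obtain ⟨v, hv⟩ := exists_ne (0 : V)
  by_cases h8 : t * m * m - a * m * σ t = 0
  swap
  · exact ⟨_, v, hv, ((eq_inv_smul_iff₀ h8).2 (h7 v)).trans (smul_smul ..)⟩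
  have h9 : m * m - a * σ a = 0 := by simpa [h8, hv] using (h7 v).symm
  have hm : m ≠ 0 := by rintro rfl; exact hv (sep v fun x => by simpa using (h3 x v).symm)
  have ha : a ≠ 0 := by rintro rfl; simp [hm] at h9
  have h10 : m = 1 := by
    have : (m - 1) ^ 2 = 0 := by linear_combination h9 + h5 a ha + (1 - m) * two
    exact sub_eq_zero.1 (pow_eq_zero_iff two_ne_zero |>.1 this)
  obtain ⟨w, hw⟩ := DFunLike.ne_iff.1 h1
  have h11 : ∀ x : F, x ≠ 0 → x ≠ 1 → x * x + x + 1 = 0 := fun x h0 h1 => by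
    rcases h2 (x + σ x) (by simp [hs, add_comm]) with h | h
    · have : (x - 1) ^ 2 = 0 := by linear_combination x * h - h5 x h0 - x * two
      exact absurd (sub_eq_zero.1 (pow_eq_zero_iff two_ne_zero |>.1 this)) h1
    · linear_combination x * h - h5 x h0 + x * two
  have h12 : ∀ x : F, x ≠ 0 → x * x * x = 1 := fun x h0 => by
    by_cases h1 : x = 1
    · simp [h1]
    · linear_combination (x - 1) * h11 x h0 h1
  have h13 := h11 w (by rintro rfl; simp at hw) (by rintro rfl; simp at hw)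
  have h14 : ∀ c d : F, a * (c + d) = t → a * (c * d) = 1 → ∃ (c : F) (v : V), v ≠ 0 ∧ e v = c • v :=
    fun c d h14 h15 => h6 c d fun v => (smul_right_inj ha).1 (by
      rw [map_sub, map_smul]; linear_combination (norm := module) -h4 v - h14 • e v + h15 • v)
  by_cases ht : t = 0
  · exact h14 a a (by linear_combination a * a * two - ht) (by linear_combination h12 a ha)
  have h15 : a = t * t := by subst h10; linear_combination -t * h8 - a * h5 t ht
  have h16 := h12 w (by rintro rfl; simp at hw)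
  exact h14 (t * t * w) (t * t * w * w)
    (by linear_combination (t * t * w + t * t * w * w) * h15 + t ^ 4 * h13 - t * h12 t ht - t * two)
    (by linear_combination t ^ 4 * w ^ 3 * h15 + (t ^ 3 + 1) * w ^ 3 * h12 t ht + h16)

variable [FiniteDimensional F U] [Nontrivial V] [FiniteDimensional F V] [Finite F]

omit [Nontrivial V] [FiniteDimensional F V] [Finite F] in
theorem Fm.sim (H : Fm h B M ι) {z : V ≃ₗ[F] V} (hz : z ∈ M) {g : End F U} {e : End F V} (h1 : Cm ι e)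
    (h2 : ∀ v, z v = ι g (e v)) {a b : U} (h3 : f a b = 1) (v w : V) : f (g a) (g b) * B (e v) (e w) = B v w := by
  rw [← sum_ir ι w]
  simp only [map_sum, Finset.mul_sum]
  refine Finset.sum_congr rfl fun k _ => mul_left_cancel₀ h.eps_ne ?_
  have := H.iso z hz (ι (r1 a (f (finBasis F U k))) v) (ι (r1 b ((finBasis F U).coord k)) w)
  simp only [h2, h1 _, i_i ι g, mul_r1, H.adj, ir_ir, h3, map_smul, one_smul, smul_eq_mul] at this
  rw [← this, h1]

namespace Ext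
variable (E : Ext h B M ι ι' u u') (two : (2 : F) = 0) (hn : 4 ≤ finrank F U) {b : U} (hb : q b = 0) (h1 : f u b = 0)
  (h2 : ∀ c : F, b ≠ c • u)
include E two hn hb h1

theorem ffB {y : U} (hy : y ∈ Submodule.span F {u, b}) (h0 : y ≠ 0) {v : V} (hv : v ∈ Xs ι u ⊔ Xs ι b ⊔ Xs ι' u')
    (h3 : ι (r1 y (f y)) v = 0) (a : U) {φ : Dual F U} (h4 : φ u = 0) (h5 : φ b = 0) : ι (r1 a φ) v = 0 := by
  obtain ⟨c, d, rfl⟩ := Submodule.mem_span_pair.1 hy
  have h6 : f (c • u + d • b) u = 0 := by simp [h.diag0 E.hu, h.refl h1]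
  obtain ⟨_, h7, x', h8, rfl⟩ := Submodule.mem_sup.1 hv
  obtain ⟨x, h9, w, h10, rfl⟩ := Submodule.mem_sup.1 h7
  rw [map_add, map_add, xs_kill h9 _ h6, xs_kill h10 _ (by simp [h.diag0 hb, h1]), zero_add, zero_add] at h3
  simp [xs_kill h9 _ h4, xs_kill h10 _ h5, xs_kill (E.symm.f2 two hn (q_add h (h.sing_smul E.hu c) hb (by simp [h1]))
    h0 h6 h8 (h3 ▸ zero_mem _)) _ h4]

include h2

theorem perpB (c : U) : ∃ y ∈ Submodule.span F {u, b}, y ≠ 0 ∧ f y c = 0 := by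
  by_cases h3 : f u c = 0
  · exact ⟨u, Submodule.subset_span (by simp), E.ne, h3⟩
  · exact ⟨_, Submodule.mem_span_pair.2 ⟨-σ (f b c / f u c), 1, rfl⟩, fun h4 => h2 (σ (f b c / f u c))
      (by linear_combination (norm := module) h4), by simp [-map_div₀, h.invol, h3]⟩

variable (hc : 5 ≤ finrank F U ∨ σ ≠ RingHom.id F ∧ ∀ c, σ c = c → c = 0 ∨ c = 1) {z : V ≃ₗ[F] V} (hz : z ∈ M)
  (h3 : (cg z ι).range = ι.range) (h4 : ∀ v, z v - v ∈ Xs ι u ⊔ Xs ι b ⊔ Xs ι' u')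
include hc hz h3 h4

theorem pureB : ∃ g, ∀ v, z v = ι g v := by
  obtain ⟨g, e, h5, h6⟩ := norm_form h3
  have h7 : ∀ a χ v, z (ι (r1 a χ) v) = ι (r1 (g a) χ) (e v) := fun a χ v => by rw [h6, h5, i_i, mul_r1]
  have h8 := H10.finrank_span_pair_le (F := F) u b
  have hu : u ∈ Submodule.span F {u, b} := Submodule.subset_span (by simp)
  have hb' : b ∈ Submodule.span F {u, b} := Submodule.subset_span (by simp)
  by_cases h9 : ∃ y ∈ Submodule.span F {u, b}, y ≠ 0 ∧ ∃ a ∉ Submodule.span F {u, b}, f y a = 0 ∧ f y (g a) = 0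
  · obtain ⟨y, h9, h10, a, h11, h12, h13⟩ := h9
    obtain ⟨χ, h14, h15⟩ := exists_dual h11
    exact pure_of h5 h6 h14 fun v hv => E.ffB two hn hb h1 h9 h10 (h4 v) (by
      simp [h6, xs_kill hv _ h12, xs_kill (xs_map (h5.mem hv) g) _ h13]) _ (h15 u hu) (h15 b hb')
  push Not at h9
  rcases hc with hc | hc
  · obtain ⟨a, h10, h11⟩ := exists_not_mem_of_lt (W := Submodule.span F {u, b})
      (U := (⊤ ⊓ LinearMap.ker (f u)) ⊓ LinearMap.ker (f u ∘ₗ g)) (by
        have := H26.MX.finrank_le_inf_ker ⊤ (f u)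
        have := H26.MX.finrank_le_inf_ker (⊤ ⊓ LinearMap.ker (f u)) (f u ∘ₗ g)
        rw [finrank_top] at *; omega)
    exact absurd h10.2 (h9 u hu E.ne a h11 h10.1.2)
  obtain ⟨a, -, ha⟩ := exists_not_mem_of_lt (W := Submodule.span F {u, b}) (U := ⊤) (by rw [finrank_top]; omega)
  have h10 : ∀ y ∈ Submodule.span F {u, b}, f y u = 0 ∧ f y b = 0 := fun y hy => by
    obtain ⟨c, d, rfl⟩ := Submodule.mem_span_pair.1 hy
    simp [h.diag0 E.hu, h.refl h1, h.diag0 hb, h1]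
  obtain ⟨α, hα, h11, h12⟩ : ∃ y ∈ Submodule.span F {u, b}, f y (g a) = 0 ∧ f y a = 1 := by
    obtain ⟨y, h11, h12, h13⟩ := E.perpB two hn hb h1 h2 (g a)
    exact ⟨σ (f y a)⁻¹ • y, Submodule.smul_mem _ _ h11, by simp [h13], by
      simpa [-map_inv₀, h.invol] using inv_mul_cancel₀ (h9 y h11 h12 a ha · h13)⟩
  obtain ⟨γ, hγ, h13, h14⟩ : ∃ y ∈ Submodule.span F {u, b}, f y a = 0 ∧ f y (g a) = 1 := by
    obtain ⟨y, h11, h12, h13⟩ := E.perpB two hn hb h1 h2 a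
    exact ⟨σ (f y (g a))⁻¹ • y, Submodule.smul_mem _ _ h11, by simp [h13], by
      simpa [-map_inv₀, h.invol] using inv_mul_cancel₀ (h9 y h11 h12 a ha h13)⟩
  obtain ⟨y, -, hy⟩ := part h E.hu E.ne
  obtain ⟨c, w, h15, h16⟩ := eig_four two h.invol hc.1 hc.2 E.s.sep E.s.rf (E.s.sim hz h5 h6 hy)
    (a := -f α (g (g a))) (t := f γ (g (g a))) fun w => eq_zero_of_ir (ι := ι) E.ne fun χ => by
      have := E.ffB two hn hb h1 hα (by rintro rfl; simp at h12)
        (sub_mem (h4 (ι (r1 (g a) χ) w)) (h4 (ι (r1 a χ) (-f α (g (g a)) • e w)))) (by simp [h7, h11, h12])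
        u (h10 γ hγ).1 (h10 γ hγ).2
      simp only [h7, map_sub, ir_ir, h13, h14, map_smul] at this ⊢
      linear_combination (norm := module) this
  exact absurd (eq_zero_of_ir (ι := ι) E.ne fun χ => by
    simpa [h7, h11, h12] using E.ffB two hn hb h1 (add_mem (Submodule.smul_mem _ (σ c) hα) hγ) (fun h => by
      simpa [h11, h14] using congrArg (f · (g a)) h) (h4 (ι (r1 a χ) w))
      (by simp [h7, h11, h12, h13, h14, h16, h.invol]) u (h10 α hα).1 (h10 α hα).2) h15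

theorem imgB (v : V) : ι (r1 u (f u)) (z v - v) = 0 ∧ ∃ g, (∀ v, z v = ι g v) ∧ ∀ a, g a - a ∈ Submodule.span F {u, b} := by
  obtain ⟨g, h5⟩ := E.pureB two hn hb h1 h2 hc hz h3 h4
  have h6 : ∀ a, g a - a ∈ Submodule.span F {u, b} := fun a => by_contra fun h6 => by
    obtain ⟨y, h7, h8, h9⟩ := E.perpB two hn hb h1 h2 (g a - a)
    obtain ⟨χ, h10, h11⟩ := exists_dual h6
    refine r1_ne E.ne (φ := χ) (by rintro rfl; simp at h10) (i_inj (ι := ι) fun v => ?_)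
    have h12 : z (ι (r1 a χ) v) - ι (r1 a χ) v = ι (r1 (g a - a) χ) v := by simp [-map_mul, h5, i_i ι g, mul_r1]
    simpa [-map_sub, h12, h10] using E.ffB two hn hb h1 h7 h8 (h4 (ι (r1 a χ) v)) (by simp [-map_sub, h12, h9]) u
      (h11 u (Submodule.subset_span (by simp))) (h11 b (Submodule.subset_span (by simp)))
  refine ⟨?_, g, h5, h6⟩
  have : r1 u (f u) * (g - 1) = 0 := LinearMap.ext fun a => by
    obtain ⟨c, d, h7⟩ := Submodule.mem_span_pair.1 (h6 a)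
    simp [-map_sub, ← h7, h.diag0 E.hu, h1]
  simpa [h5] using congrArg (ι · v) this

end Ext

theorem Ext.false₂ (E : Ext h B M ι ι' u u') (two : (2 : F) = 0) (hn : 4 ≤ finrank F U)
    (hc : 5 ≤ finrank F U ∨ σ ≠ RingHom.id F ∧ ∀ c, σ c = c → c = 0 ∨ c = 1) : False := by
  obtain ⟨b, hb, h1, h2⟩ := sing3 h E.s.nq hn E.hu E.ne
  have h0 := h.diag0 E.hu
  have h0' := h.diag0 E.hu'
  have hb0 : b ≠ 0 := fun h => h2 0 (by simp [h])
  obtain ⟨δ, hδ, h3⟩ := E.s.nq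
  have : Finite V := Module.finite_of_finite F
  have : Finite (V ≃ₗ[F] V) := DFunLike.finite _
  obtain ⟨T', h4, h5⟩ := E.symm.s.tv E.hu' h3
  have h6 : ∀ y, q y = 0 → y ≠ 0 → f y u = 0 → Xs ι y ≤ Xs ι u ⊔ Xs ι b → (∀ z : V ≃ₗ[F] V, (∃ g, (∀ v, z v = ι g v) ∧
      ∀ a, g a - a ∈ Submodule.span F {u, b}) → (∀ v, z v - v ∈ Xs ι y ⊔ Xs ι u ⊓ Xs ι' u') → ∀ v, z v - v ∈ Xs ι y) →
      ∃ T g, g ∈ Sg M (Xs ι u ⊔ Xs ι b ⊔ Xs ι' u') ⊥ ∧ (∀ v, T v = v + (δ • ι (r1 y (f y))) v) ∧ g⁻¹ * T * g = T' :=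
    fun y hy hy0 h6 h7 h8 => by
    obtain ⟨T, hT, h9⟩ := E.s.tvS hy h3 (Z := Xs ι y ⊔ Xs ι' u') (D := ⊥) le_sup_left (by simp)
    have h10 : ∀ z ∈ Sg M (Xs ι y ⊔ Xs ι' u') ⊥, z ∈ Sg M (Xs ι u ⊔ Xs ι b ⊔ Xs ι' u') ⊥ := fun z hz =>
      ⟨hz.1, fun v => sup_le_sup_right h7 _ (hz.2.1 v), hz.2.2⟩
    obtain ⟨g, h11, h12⟩ := (TA.dihedral_or (by ext v; simp [mul_app, h9, h.diag0 hy, add_assoc, ← two_smul F, two])
        (by ext v; simp [mul_app, h5, h0', add_assoc, ← two_smul F, two]) hT ⟨h4, fun v => by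
          simpa [h5] using Submodule.mem_sup_right ((Xs ι' u').smul_mem δ (ir_mem _ _ _ v)), by simp⟩).resolve_right (by
      rintro ⟨z, h11, h12, -, h13, h14, -⟩
      have h15 := E.imgB two hn hb h1 h2 hc h11.1 (E.s.norm h11.1 hy hy0 hy0
        (comm_mem (by rw [← inv_mul_eq_iff_eq_mul, ← mul_assoc, h13]) hy0 hδ h9 h9 h)) (h10 z h11).2.1
      obtain ⟨c, h16⟩ := E.s.cen hy hy0 h11.1 fun v => E.s.fix_ker hy hy0 h11.1 (h8 z (h15 0).2 fun v => by
        obtain ⟨x, h16, x', h17, h18⟩ := Submodule.mem_sup.1 (h11.2.1 v)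
        have h19 := (h15 v).1
        rw [← h18, map_add, xs_kill h16 _ (h.refl h6), zero_add] at h19
        exact h18 ▸ Submodule.add_mem_sup h16 ⟨E.symm.f1 h17 (h19 ▸ zero_mem _), h17⟩)
      exact E.bad (E.s.gd E.cj E.hk hy hy0 (c := c) (by rintro rfl; exact h12 (by ext; simp [h16])) h16
        (E.symm.s.norm h11.1 E.hu' E.ne' E.ne' (comm_mem (by rw [← inv_mul_eq_iff_eq_mul, ← mul_assoc, h14])
          E.ne' hδ h5 h5 h))))
    exact ⟨T, g, h10 g h11, h9, h12⟩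
  obtain ⟨T, g, h7, h8, h9⟩ := h6 u E.hu E.ne h0 le_sup_left fun z _ h v => sup_le (c := Xs ι u) le_rfl inf_le_left (h v)
  obtain ⟨T₂, g₂, h10, h11, h12⟩ := h6 b hb hb0 (h.refl h1) le_sup_right fun z ⟨g, h10, h11⟩ h12 v y hy => by
    have h13 : y * (g - 1) = 0 := LinearMap.ext fun a => by
      obtain ⟨c, d, h13⟩ := Submodule.mem_span_pair.1 (h11 a)
      by_cases h14 : c = 0
      · simp [-map_sub, ← h13, h14, hy]
      obtain ⟨χ, h15, h16⟩ := exists_dual_pair (F := F) (u := b) (x := u) fun k hk => h2 k⁻¹ (by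
        rw [hk, inv_smul_smul₀]; rintro rfl; exact E.ne (by simp [hk]))
      refine (E.ne_xs E.ne E.ne' (.inl E.hu) fun x hx => ?_).elim
      obtain ⟨w, h17, w', h18, h19⟩ := Submodule.mem_sup.1 (h12 (ι (r1 a χ) x))
      have h20 : z (ι (r1 a χ) x) - ι (r1 a χ) x = ι (r1 (g a - a) χ) x := by simp [-map_mul, h10, i_i ι g, mul_r1]
      have h21 := congrArg (ι (r1 u χ)) (h19.trans h20)
      rw [map_add, xs_kill h17 _ h16, xs_eq h18.1 h15, ir_ir, xs_eq hx h15, ← h13] at h21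
      simp only [zero_add, map_add, map_smul, h15, h16, smul_eq_mul, mul_one, mul_zero, add_zero] at h21
      exact (Submodule.smul_mem_iff _ h14).1 (h21 ▸ h18.2)
    simpa [h10] using congrArg (ι · v) h13
  have h15 := mul_mem h7 (inv_mem h10)
  have h16 : T * (g * g₂⁻¹) = g * g₂⁻¹ * T₂ := by
    rw [show T = g * (g⁻¹ * T * g) * g⁻¹ by group, h9, ← h12]; group
  generalize g * g₂⁻¹ = z at h15 h16
  have h17 := comm_mem h16 hb0 hδ h8 h11 h
  have h18 := E.imgB two hn hb h1 h2 hc h15.1 (E.s.norm h15.1 hb hb0 E.ne h17) h15.2.1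
  refine r1_ne hb0 (f_ne h hb0) (i_inj (ι := ι) fun v => ?_)
  have h19 := ir_mem ι b (f b) v
  generalize ι (r1 b (f b)) v = x at h19
  refine xs_inf h2 (sub_eq_zero.1 (E.s.sep (z x - x) fun w => ?_) ▸ h17 x h19) h19
  have h20 := E.s.rf _ _ ((E.s.ker_iff E.ne).1 (h18 w).1 _ (h17 x h19))
  rw [map_sub, LinearMap.sub_apply, E.s.iso z h15.1] at h20
  rw [map_sub]; linear_combination -h20

end Cfsg.Agent.H19.TX
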