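import Cfsg.Agent.H19.TU4

/-! Tensor products of unitary spaces, in matrices. -/

set_option autoImplicit false
set_option maxHeartbeats 400000

namespace Cfsg.Agent.H19.TA

open Module H10 H11 H26 H26.MX Cfsg.Geo Matrix Kronecker

variable {F : Type*} [Field F] {σ : F →+* F}

section abs
variable {U W : Type*} [AddCommGroup U] [Module F U] [AddCommGroup W] [Module F W]
  {g : U →ₛₗ[σ] U →ₗ[F] F} {f : W →ₛₗ[σ] W →ₗ[F] F} {q : W → F}
  {B : (W →ₗ[F] U) →ₛₗ[σ] (W →ₗ[F] U) →ₗ[F] F}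

theorem hom_om [Finite F] {ε κ : F} {τ : F →+ F} (h : Cl ε κ τ f q) (χ : (W ≃ₗ[F] W) →* F)
    {s : W ≃ₗ[F] W} (hs : s ∈ h.Om) : χ s = 1 := by
  have := Fact.mk (CharP.char_is_prime F (ringChar F))
  refine congrArg Units.val (h.om_le (M := χ.toHomUnits.ker) (fun u w c hu h1 _ => Units.ext ?_) hs)
  have h2 : ∀ n : ℕ, ∃ d, h.eich u w c ^ n = h.eich u ((n : F) • w) d := fun n => by
    induction n with
    | zero => exact ⟨0, by simp [h.eich_zero]⟩
    | succ n ih =>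
      obtain ⟨d, ih⟩ := ih
      exact ⟨_, by rw [pow_succ, ih, h.eich_mul hu (by simp [h1]) h1, Nat.cast_succ, add_smul, one_smul]⟩
  have h3 : ∀ (n : ℕ) d, h.eich u 0 d ^ n = h.eich u 0 (n * d) := fun n d => by
    induction n with
    | zero => simp [h.eich_zero]
    | succ n ih => rw [pow_succ, ih, h.eich_mul hu (map_zero _) (map_zero _)]; simp [add_mul]
  obtain ⟨d, h4⟩ := h2 (ringChar F)
  refine frobenius_inj F (ringChar F) (frobenius_inj F (ringChar F) ?_)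
  simp [frobenius_def, ← map_pow, h4, h3, h.eich_zero]

variable [FiniteDimensional F U] [FiniteDimensional F W]

theorem iso_of_pu (h : Hm σ f q) {k : (W →ₗ[F] U) ≃ₗ[F] (W →ₗ[F] U)}
    (hk : ∀ a w v, B (k (pu U f w a)) (k v) = B (pu U f w a) v) (v v' : W →ₗ[F] U) :
    B (k v) (k v') = B v v' := sub_eq_zero.1 <|
  pu_ind h (S := LinearMap.ker (B.flip (k v') ∘ₛₗ k.toLinearMap - B.flip v')) (fun a w => by simp [hk]) v

theorem gu_core [Finite F] (hW : Hm σ f q) (hV : Hm σ B fun v => B v v)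
    (Bp : ∀ a w v, B (pu U f w a) v = g a (v w)) (hn : 4 ≤ finrank F W) (hm : 2 ≤ finrank F U)
    (hq : 3 ≤ finrank F U ∨ ∃ t : F, σ t = t ∧ t ≠ 0 ∧ t ≠ 1) (hmn : finrank F U < finrank F W) :
    (∃ k ∈ hV.Om, ¬ Tn k) ∧ ∀ M ≤ hV.Om, (∀ k ∈ hV.Om, Tn k → k ∈ M) → ¬ hV.Om ≤ M → ∀ k ∈ M, Tn k := by
  have : Nontrivial U := Module.nontrivial_of_finrank_pos (R := F) (by omega)
  obtain ⟨w, hw, -, -, hw'⟩ := hW.sing2 hn 0 0
  obtain ⟨x, hx⟩ := hW.form.exists_right_eq_one hW.sep hw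
  have hU : Hm σ g fun a => g a a := clHerm ⟨hW.isHerm.ne, hW.invol, fun a b => by
    simpa [Bp, hx, hW.flip_one hx] using hV.hs (pu U f w a) (pu U f x b)⟩ fun a ha => by
      simpa [hx] using LinearMap.congr_fun (hV.sep (pu U f w a) fun v => by simp [Bp, ha]) x
  let D := (LinearMap.det (A := F)).comp (LinearEquiv.automorphismGroup.toLinearMapMonoidHom (M := W →ₗ[F] U))
  have h1 : ∀ k, (∀ a w v, B (k (pu U f w a)) (k v) = B (pu U f w a) v) → D k = 1 → k ∈ hV.Om :=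
    fun k h1 h2 => (mem_om_herm hV.isHerm hV).2 ⟨iso_of_pu hW h1, h2⟩
  have h : TH g _ f q B _ hV.Om := ⟨hU, hW, hV, Bp, hV.om_le_isom, fun s hs => h1 _
    (fun a w v => by simp [lf_pu, Bp, (hU.om_le_isom hs).1]) (hom_om hU (D.comp (lf W)) hs), fun t ht => h1 _
    (fun a w v => by simp [rt_pu (hW.om_le_isom ht).1, Bp]) (hom_om hW (D.comp (rt U)) ht)⟩
  refine ⟨?_, fun M h1 h2 h3 k hk => TH.tn_mem ⟨hU, hW, hV, Bp, h1.trans h.le,
    fun s hs => h2 _ (h.lm s hs) ⟨s, 1, fun β z => by ext; simp⟩,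
    fun t ht => h2 _ (h.rm t ht) ⟨1, t⁻¹.dualMap, fun β z => by ext; simp⟩⟩ hn hm hq h3 hmn hk⟩
  obtain ⟨δ, hδ, hδ'⟩ := hW.nq
  obtain ⟨a, -, ha, hp⟩ := hU.exists_sing (W := ⊤) (.inr ⟨by simpa, hU.nq'⟩)
  obtain ⟨b, hb⟩ := hU.form.exists_right_eq_one hU.sep ha
  obtain ⟨y, h2, h3, -, -⟩ := hW.sing3 hn hx
  obtain ⟨y', h4, h5⟩ := hW.perp_one h2
  refine ⟨_, hV.eich_mem_om (w := 0) (c := δ) (h.Qp a hw') (map_zero _) (by simp [hδ']), fun h6 => ?_⟩
  obtain ⟨s, ψ, h6⟩ := tn_form h6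
  have h7 : ∀ c z u, f z u • c - (δ * (f z w * g a c) * f w u) • a = f z (ψ u) • s c := fun c z u => by
    simpa [hV.tv (h.Qp a hw'), Bp, smul_smul] using h6 (pu U f z c) u
  have h8 : ∀ c, c = f y (ψ y') • s c := fun c => by simpa [h4, h5] using h7 c y y'
  have h9 : ∀ c, (f y (ψ y') * f x x - f x (ψ x)) • c = (f y (ψ y') * δ * g a c) • a := fun c => by
    have := congrArg (f y (ψ y') • ·) (h7 c x x)
    simp only [smul_comm (f y (ψ y')) (f x (ψ x)), ← h8, hx, hW.flip_one hx] at this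
    linear_combination (norm := module) this
  have h10 := h9 b
  rw [(smul_eq_zero_iff_left ha).1 ((h9 a).trans (by simp [hU.diag0 hp])), hb] at h10
  exact ha ((h8 a).trans (by simp [show f y (ψ y') = 0 by simpa [ha, hδ] using h10.symm]))

end abs

variable {ι : Type} [Fintype ι] [DecidableEq ι] {a b : ℕ}

theorem exists_dual_form {G : Matrix ι ι F} (h : HF σ G 1) (hσ : σ ≠ RingHom.id F) :
    ∃ f : (ι → F) →ₛₗ[σ] (ι → F) →ₗ[F] F, Hm σ f (fun x => f x x) ∧
      ∀ w j, ∑ i, G j i * σ (f w (eb i)) = w j := by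
  have h0 := (Matrix.isUnit_iff_isUnit_det _).1 h.unit
  have h1 : ∀ i j, σ (G⁻¹ i j) = G⁻¹ j i := fun i j => congrFun (congrFun (Matrix.inv_eq_left_inv
    (B := (G⁻¹.map σ)ᵀ) (by
      nth_rw 2 [← one_smul F G]
      rw [← h.herm, ← transpose_mul, ← Matrix.map_mul, mul_nonsing_inv _ h0]; simp)).symm j) i
  have h2 : ∀ w j, ∑ i, G j i * σ (toLinearMapₛₗ₂' F σ (RingHom.id F) G⁻¹ w (eb i)) = w j := fun w j => by
    have := congrFun (congrArg (· *ᵥ w) (mul_nonsing_inv G h0)) j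
    simp only [← mulVec_mulVec, one_mulVec] at this
    simpa [toLinearMapₛₗ₂'_apply, Pi.single_apply, h1, h.inv, mulVec, dotProduct, mul_comm] using this
  refine ⟨_, clHerm ⟨hσ, h.inv, fun x y => ?_⟩ fun w hw => funext fun j => by simp [← h2 w j, hw], h2⟩
  simp only [toLinearMapₛₗ₂'_apply, smul_eq_mul, map_sum, map_mul, h1, h.inv, RingHom.id_apply]
  exact Finset.sum_comm.trans (Finset.sum_congr rfl fun _ _ => Finset.sum_congr rfl fun _ _ => by ring)

/-- `GU ⊗ GU` in `SU` -/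
theorem gugu_max [Fintype F] {n q : ℕ} (hF : Fintype.card F = q ^ 2) (ha : 2 ≤ a) (hab : a < b) (hb : 4 ≤ b)
    (hq : ¬ (a = 2 ∧ q = 2)) (e : Fin n ≃ Fin a × Fin b) (P : GL (Fin n) F)
    {f₁ : (Fin a → F) → (Fin a → F) → F} {f₂ : (Fin b → F) → (Fin b → F) → F} (h₂ : IsUnitaryFormPow q f₂)
    (hT : IsTensorFormStructure (fun x : F => x ^ q) (hermForm n F q) f₁ f₂ e P) :
    IsMaximalIn (GU n F q ⊓ specialLinear (Fin n) F)
      (tensorProductSubgroup a b e P ⊓ (GU n F q ⊓ specialLinear (Fin n) F)) := by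
  obtain ⟨c, hc, hT⟩ := hT
  have h1 := qConj_conjQ hF
  obtain ⟨f, hW, h2⟩ := exists_dual_form (hf_gram_unitary (σ := conjQ hF) rfl h1.invol h₂) h1.ne_id
  refine ten_max_of (fun g => (mem_SU_iff hF g).trans (mem_om_cjE _ _ _)) (gu_core
    (g := toLinearMapₛₗ₂' F _ (RingHom.id F) (c • (gramMatrix f₁)ᵀ)) hW _ (fun x w v => ?_)
    (by simpa) (by simpa) ?_ (by simpa))
  · have h3 : ∀ i, v w i = ∑ j, w j * v (eb j) i := fun i => by
      rw [LinearMap.pi_apply_eq_sum_univ v w]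
      simp only [Finset.sum_apply, Pi.smul_apply, smul_eq_mul]
      refine Finset.sum_congr rfl fun j _ => ?_
      rw [show (fun k => if j = k then (1 : F) else 0) = eb j by ext; simp [Pi.single_apply, eq_comm]]
    rw [pull_apply, ← hermForm_eq, LinearEquiv.coe_coe, tenE_apply, tenE_apply, hT]
    simp only [formOfGram, Fintype.sum_prod_type, kroneckerMap_apply, h3, ← h2 w, Finset.mul_sum,
      Finset.sum_mul, toLinearMapₛₗ₂'_apply, pu_apply, Pi.smul_apply, smul_eq_mul, ← h1.eq, map_mul,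
      RingHom.id_apply, Matrix.smul_apply, transpose_apply]
    refine .trans ?_ Finset.sum_comm
    exact Finset.sum_congr rfl fun i _ => Finset.sum_comm.trans (Finset.sum_congr rfl fun i' _ =>
      Finset.sum_congr rfl fun _ _ => Finset.sum_congr rfl fun _ _ => by ring)
  · by_cases h : a = 2
    · classical
      have := h1.two_le
      obtain ⟨⟨t, h3⟩, -, h4⟩ := Finset.exists_mem_notMem_of_card_lt_card (t := Finset.univ)
        (s := ({⟨0, by simp⟩, ⟨1, by simp⟩} : Finset {x : F // conjQ hF x = x})) (Finset.card_le_two.trans_lt (by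
          rw [Finset.card_univ, ← Nat.card_eq_fintype_card, h1.card_fixed]; omega))
      exact Or.inr ⟨t, h3, by simpa using h4⟩
    · exact Or.inl (by simp; omega)

end Cfsg.Agent.H19.TA
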