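import Cfsg.Agent.H19.TX9
import Cfsg.Agent.H19.TU5
import Cfsg.Agent.H10.Ag22

/-! Maximality of tensor induced subgroups of classical groups, in matrices. -/

set_option autoImplicit false
set_option maxHeartbeats 400000

namespace Cfsg.Agent.H19.TX

open Module H10 H11 H26 H26.MX TW TA Function Cfsg.Geo Matrix H10.Cf

variable {F : Type*} [Field F] {σ : F →+* F} {κ : Type} [Fintype κ] [DecidableEq κ] {m t : ℕ}
  (e : κ ≃ (Fin t → Fin m)) (P : GL κ F)

/-- pure tensors -/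
noncomputable def ptm : MultilinearMap F (fun _ : Fin t => Fin m → F) (κ → F) :=
  (P.val.mulVecLin ∘ₗ LinearMap.funLeft F F e).compMultilinearMap (MultilinearMap.pi fun a =>
    (MultilinearMap.mkPiAlgebra F (Fin t) F).compLinearMap fun i => LinearMap.proj (a i))

theorem ptm_eq (a : Fin t → Fin m → F) : ptm e P a = pten e P a := rfl

theorem perm_ptm (τ : Equiv.Perm (Fin t)) (a : Fin t → Fin m → F) :
    glEquiv κ F (trG e P (facPerm _ F τ)) (ptm e P a) = ptm e P (a ∘ τ.symm) := by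
  rw [glEquiv_apply, ptm_eq, ptm_eq, pten, coe_trG, trA_mulVec, pten]
  congr 2
  ext x
  simp only [mulVec, dotProduct, facPerm_apply, ite_mul, one_mul, zero_mul, Finset.sum_ite_eq', Finset.mem_univ, if_true]
  exact Fintype.prod_equiv τ _ _ (by simp)

theorem fact_lt' (ht : 2 ≤ t) : t.factorial < 2 ^ (3 ^ t - 2) := by
  have h1 : ∀ s : ℕ, (s + 1).factorial ≤ 2 ^ (2 * 3 ^ s) := fun s => by
    induction s with
    | zero => simp
    | succ s ih =>
      have h2 : s + 1 < 3 ^ (s + 1) := Nat.lt_pow_self (by omega)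
      have h3 : 3 ^ (s + 1) < 2 ^ 3 ^ (s + 1) := Nat.lt_pow_self (by omega)
      rw [Nat.factorial_succ]
      refine (Nat.mul_le_mul (h2.trans h3) ih).trans ?_
      rw [← pow_add]; exact Nat.pow_le_pow_right (by omega) (by omega)
  obtain ⟨s, rfl⟩ := Nat.exists_eq_add_of_le' ht
  have : 0 < 3 ^ s := by positivity
  exact (h1 _).trans_lt (Nat.pow_lt_pow_right (by omega) (by rw [pow_add, pow_add]; omega))

variable {e P} {ε μ ε' μ' c₀ : F} {τ τ' : F →+ F} {f : (Fin m → F) →ₛₗ[σ] (Fin m → F) →ₗ[F] F} {q : (Fin m → F) → F}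
  {B : (κ → F) →ₛₗ[σ] (κ → F) →ₗ[F] F} {Q : (κ → F) → F} {G : Subgroup (GL κ F)}

theorem not_le_wr' [Finite F] (hV : Cl ε' μ' τ' B Q) (hm : 3 ≤ m) (ht : 2 ≤ t) (hG : ∀ g, g ∈ G ↔ glEquiv κ F g ∈ hV.Om) :
    ¬ G ≤ tensorWreathSubgroup m t e P := fun hle => by
  have h1 : 3 ^ t ≤ finrank F (κ → F) := by
    simpa [Fintype.card_congr e] using Nat.pow_le_pow_left hm t
  obtain ⟨x, -, h2, hx⟩ := hV.exists_sing3 (W := ⊤) (by
    have := Nat.pow_le_pow_right (show 0 < 3 by omega) ht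
    rw [finrank_top]; omega)
  obtain ⟨y, hy, h3⟩ := part hV hx h2
  have h4 := H10.finrank_span_pair_le (F := F) x y
  have h5 := hV.form.finrank_perp hV.sep (Submodule.span F {x, y})
  have h6 : ∀ w : perp B (Submodule.span F {x, y}), B x w = 0 ∧ B y w = 0 := fun w =>
    ⟨w.2 x (Submodule.subset_span (by simp)), w.2 y (Submodule.subset_span (by simp))⟩
  choose c hc using hV.exists_tau
  have := Fintype.ofFinite F
  have := Fintype.ofFinite (perp B (Submodule.span F {x, y}))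
  obtain ⟨w, w', h7, h8⟩ := exists_eq_of_mem_wreath ht (α := perp B (Submodule.span F {x, y})) (by
      rw [Module.card_eq_pow_finrank (K := F)]
      exact (fact_lt' ht).trans_le ((Nat.pow_le_pow_left Fintype.one_lt_card _).trans
        (Nat.pow_le_pow_right Fintype.card_pos (by omega))))
    (fun w => (glEquiv κ F).symm (hV.eich x w (c w))) (fun w => hle ((hG _).2 (by
      simpa using hV.eich_mem_om hx (h6 w).1 (hc w)))) fun w w' => by
      rw [← map_inv, ← map_mul, hV.eich_inv hx (h6 w).1, hV.eich_mul hx (by simp [h6]) (h6 w').1]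
      generalize (_ + _ + _ : F) = d
      refine ((Submodule.finrank_mono (t := Submodule.span F {x, -w.1 + w'.1}) ?_).trans
        (H10.finrank_span_pair_le _ _)).trans_lt hm
      rintro _ ⟨v, rfl⟩
      rw [mulVecLin_apply, sub_mulVec, ← glEquiv_apply, MulEquiv.apply_symm_apply, one_mulVec,
        hV.eich_apply hx (by simp [h6]), Submodule.mem_span_pair]
      exact ⟨B (-w.1 + w'.1) v - d * B x v, -(ε' * B x v), by module⟩
  have h9 := LinearEquiv.congr_fun ((glEquiv κ F).symm.injective h8) y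
  rw [hV.eich_apply hx (h6 w).1, hV.eich_apply hx (h6 w').1] at h9
  have h10 := congrArg (B y) h9
  simp [h6, hV.refl (h6 _).2, h3, hV.flip_one h3, hV.eps_ne] at h9 h10
  exact h7 (Subtype.ext (by simpa [h10, hV.eps_ne] using h9))

theorem wr_of [Finite F] (h : Cl ε μ τ f q) (hV : Cl ε' μ' τ' B Q) (hm : 3 ≤ m) (ht : 2 ≤ t)
    (hG : ∀ g, g ∈ G ↔ glEquiv κ F g ∈ hV.Om) (bp : ∀ a b, B (ptm e P a) (ptm e P b) = c₀ * ∏ i, f (a i) (b i))
    (hc : c₀ ≠ 0) (h1 : ∀ i, ∀ s ∈ h.Om, ∃ g ∈ hV.Om, ∀ v, g v = fe e P i s.toLinearMap v)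
    (h2 : ∀ π : Equiv.Perm (Fin t), glEquiv κ F (trG e P (facPerm _ F (π * π))) ∈ hV.Om)
    (h3 : ∀ M, MF h hV M (fe e P) (ptm e P) c₀ → M ≤ hV.Om → ¬ hV.Om ≤ M → ∀ k ∈ M,
      ∃ π : Equiv.Perm (Fin t), ∀ i, (cg k (fe e P i)).range ≤ (fe e P (π i)).range) :
    IsMaximalIn G (tensorWreathSubgroup m t e P ⊓ G) := by
  have : Nonempty (Fin m) := ⟨⟨0, by omega⟩⟩
  have : Nonempty (Fin t) := ⟨⟨0, by omega⟩⟩
  refine H10.isMaximalIn_inf (not_le_wr' hV hm ht hG) fun M hM hM' g hg hg' x hx => by_contra fun h4 => hg' ?_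
  have h5 : ∀ k ∈ hV.Om, ∀ π : Equiv.Perm (Fin t), (∀ i, (cg k (fe e P i)).range ≤ (fe e P (π i)).range) →
      k ∈ M.map (glEquiv κ F).toMonoidHom := fun k hk π h => ⟨(glEquiv κ F).symm k, hM
    ⟨mem_wr π (by simpa), (hG _).2 (by simpa)⟩, by simp⟩
  have h6 : M.map (glEquiv κ F).toMonoidHom ≤ hV.Om := by rintro _ ⟨y, hy, rfl⟩; exact (hG y).1 (hM' hy)
  obtain ⟨π, h7⟩ := h3 _ ⟨fe_pten e P, fun _ => pten_span e P, fe_gen e P, bp, hc, h6.trans hV.om_le_isom,
    fun i s hs => (h1 i s hs).imp fun k hk => ⟨h5 k hk.1 1 fun j => by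
      by_cases h7 : i = j
      · exact h7 ▸ (range_cg hk.2).le
      · rintro _ ⟨y, rfl⟩
        exact ⟨y, LinearMap.ext fun v => by
          obtain ⟨v, rfl⟩ := k.surjective v
          change fe e P j y _ = cg k (fe e P j) y _
          rw [cg_apply, inv_app, hk.2, hk.2]; exact (fe_cc e P j i (Ne.symm h7) _ _ _).symm⟩, hk.2⟩,
    fun i j l h7 h8 h9 => by
      let π := Equiv.swap i j * Equiv.swap i l
      have h10 : ∀ a, cg (glEquiv κ F (trG e P (facPerm _ F (π * π)))) (fe e P a) = fe e P ((π * π) a) :=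
        fun a => AlgHom.ext fun y => by rw [cg_fe, ← trA_cj, cj_facPerm_fac]; rfl
      refine ⟨_, h5 _ (h2 π) _ fun a => by rw [h10], ?_, ?_, ?_, fun a h11 h12 h13 => ?_⟩
      all_goals simp [h10, π, Equiv.swap_apply_def, *, h7.symm, h8.symm, h9.symm]⟩ h6
    (fun h7 => h4 (by
      obtain ⟨y, hy, h8⟩ := h7 ((hG x).1 hx)
      rwa [← (glEquiv κ F).injective h8])) _ ⟨g, hg, rfl⟩
  exact mem_wr π h7

theorem iso_ptm {k : End F (κ → F)} (h : ∀ a b, B (k (ptm e P a)) (k (ptm e P b)) = B (ptm e P a) (ptm e P b)) (v w : κ → F) :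
    B (k v) (k w) = B v w := sub_eq_zero.1 <|
  pten_span e P (W := LinearMap.ker (B.flip (k w) ∘ₛₗ k - B.flip w)) (fun a =>
    pten_span e P (W := LinearMap.ker (B (k (pten e P a)) ∘ₗ k - B (pten e P a))) (fun b => sub_eq_zero.2 (h a b)) w) v

theorem det_perm (π : Equiv.Perm (Fin t)) :
    LinearMap.det (glEquiv κ F (trG e P (facPerm _ F (π * π)))).toLinearMap = 1 := by
  refine (mem_specialLinear_iff _).1 (mem_specialLinear.2 ?_)
  rw [coe_trG, det_trA, facPerm_mul, Units.val_mul, det_mul]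
  erw [Matrix.det_permutation]
  rw [← Int.cast_mul, ← Units.val_mul, Int.units_mul_self]; simp

/-- `GU ≀ S_t` in `SU` -/
theorem guwr_max [Fintype F] {n q : ℕ} (hF : Fintype.card F = q ^ 2) (hm : 3 ≤ m) (ht : 2 ≤ t) (hq : ¬ (q = 2 ∧ m = 3))
    (e : Fin n ≃ (Fin t → Fin m)) (P : GL (Fin n) F) {f₁ : (Fin m → F) → (Fin m → F) → F} (h₁ : IsUnitaryFormPow q f₁)
    (hT : IsTensorPowerFormStructure (fun x : F => x ^ q) (hermForm n F q) f₁ e P) :
    IsMaximalIn (GU n F q ⊓ specialLinear (Fin n) F)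
      (tensorWreathSubgroup m t e P ⊓ (GU n F q ⊓ specialLinear (Fin n) F)) := by
  obtain ⟨c, hc, hT⟩ := hT
  have h1 := qConj_conjQ hF
  have h2 := hf_gram_unitary (σ := conjQ hF) rfl h1.invol h₁
  have h : Hm (conjQ hF) (fmB (conjQ hF) (gramMatrix f₁)) _ := clHerm ⟨h1.ne_id, h1.invol, fun x y => by
    simpa using h2.swap x y⟩ h2.sep
  have bp : ∀ a b, hermB (Fin n) (conjQ hF) (ptm e P a) (ptm e P b) =
      c * ∏ i, fmB (conjQ hF) (gramMatrix f₁) (a i) (b i) := fun a b => by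
    rw [← hermForm_eq, ptm_eq, ptm_eq, pten, pten, hT]
    simp only [fmB_apply, ← formOfGram_eq, formOfGram, Finset.prod_univ_sum, Fintype.piFinset_univ,
      Finset.prod_mul_distrib, ← h1.eq, map_prod]
  have : Nontrivial (Fin t) := Fin.nontrivial_iff_two_le.2 ht
  have : Nonempty (Fin n) := e.symm.nonempty_congr.1 ⟨fun _ => ⟨0, by omega⟩⟩
  refine wr_of h (clSU hF n) hm ht (mem_SU_iff hF) bp hc (fun i s hs => ?_) (fun π => (mem_om_herm (h1.isHerm _) _).2
    ⟨iso_ptm (e := e) (P := P) fun a b => ?_, det_perm π⟩) fun M D _ hM k => D.perm (by simpa) ?_ hM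
  · have h3 := hom_om h ((LinearMap.det (A := F)).comp ((fe e P i).toMonoidHom.comp
      LinearEquiv.automorphismGroup.toLinearMapMonoidHom)) hs
    refine ⟨LinearMap.equivOfDetNeZero (fe e P i s.toLinearMap) (h3 ▸ one_ne_zero), (mem_om_herm (h1.isHerm _) _).2
      ⟨iso_ptm (e := e) (P := P) (k := fe e P i s.toLinearMap) fun a b => ?_, h3⟩, fun _ => rfl⟩
    rw [bp, ptm_eq, ptm_eq, fe_pten, fe_pten, ← ptm_eq, ← ptm_eq, bp]
    refine congrArg _ (Finset.prod_congr rfl fun j _ => ?_)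
    by_cases h4 : j = i
    · simpa [h4, -fmB_apply] using (h.om_le_isom hs).1 _ _
    · simp [h4]
  · rw [LinearEquiv.coe_coe, perm_ptm, perm_ptm, bp, bp]
    exact congrArg _ (Fintype.prod_equiv (π * π).symm _ _ fun _ => rfl)
  · by_cases h3 : m = 3
    · classical
      have := h1.two_le
      obtain ⟨⟨l, h4⟩, -, h5⟩ := Finset.exists_mem_notMem_of_card_lt_card (t := Finset.univ)
        (s := ({⟨0, by simp⟩, ⟨1, by simp⟩} : Finset {x : F // conjQ hF x = x})) (Finset.card_le_two.trans_lt (by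
          rw [Finset.card_univ, ← Nat.card_eq_fintype_card, h1.card_fixed]; omega))
      exact .inl ⟨l, h4, by simpa using h5⟩
    · exact .inr (by simp; omega)

end Cfsg.Agent.H19.TX
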