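import Mathlib

/-! # Schreier's lemma with word certificates for permutation groups on `Fin N` -/

set_option autoImplicit false

namespace Cfsg.Agent.H19

open Subgroup MulAction

theorem schreier_step {G Ω : Type*} [Group G] [Finite G] [MulAction G Ω] {S : Set G} {K : Subgroup G} {a : Ω}
    {O : Set Ω} (τ : Ω → G) (hK : K ≤ closure S ⊓ stabilizer G a) (ha : a ∈ O) (ta : τ a = 1)
    (hτ : ∀ p ∈ O, τ p ∈ closure S ∧ τ p • a = p)
    (h : ∀ s ∈ S, ∀ p ∈ O, s • p ∈ O ∧ (τ (s • p))⁻¹ * (s * τ p) ∈ K) :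
    closure S ⊓ stabilizer G a = K ∧ Nat.card (closure S) = O.ncard * Nat.card K := by
  have key : ∀ g ∈ closure S, g • a ∈ O ∧ (τ (g • a))⁻¹ * g ∈ K := fun g hg => by
    rw [← mem_toSubmonoid, closure_toSubmonoid_of_finite] at hg
    induction hg using Submonoid.closure_induction_left with
    | one => simp [ha, ta]
    | mul_left s hs g _ ih =>
      obtain ⟨k1, k2⟩ := h s hs _ ih.1
      rw [mul_smul]
      exact ⟨k1, by simpa [mul_assoc] using mul_mem k2 ih.2⟩
  have e : closure S ⊓ stabilizer G a = K := le_antisymm (fun g hg => by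
    simpa [show g • a = a from hg.2, ta] using (key g hg.1).2) hK
  refine ⟨e, ?_⟩
  have : orbit (closure S) a = O := Set.Subset.antisymm (by rintro _ ⟨g, rfl⟩; exact (key g g.2).1)
    fun p hp => ⟨⟨_, (hτ p hp).1⟩, (hτ p hp).2⟩
  rw [← this, ← index_stabilizer, ← e, mul_comm, ← (stabilizer (closure S) a).card_mul_index, inf_comm,
    ← Nat.card_congr (subgroupOfEquivOfLe (inf_le_right : stabilizer G a ⊓ closure S ≤ _)).toEquiv,
    inf_subgroupOf_right]
  rfl

variable {N k : ℕ} (g : Fin k → Equiv.Perm (Fin N))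

/-- the subgroup generated by the first `n` generators -/
def ssL (n : ℕ) : Subgroup (Equiv.Perm (Fin N)) := closure (g '' {i | i.val < n})

/-- the check of one level -/
def ssChk (N : ℕ) (f : Fin k → ℕ → ℕ) (m n a : ℕ) (O : List ℕ) (τ : ℕ → List (Fin k)) (c : ℕ → ℕ → List (Fin k)) :
    Prop :=
  m ≤ n ∧ a ∈ O ∧ τ a = [] ∧ O.Nodup ∧ (∀ i : Fin k, i.val < m → f i a = a) ∧ ∀ p ∈ O, p < N ∧
    (∀ i ∈ τ p, i.val < n) ∧ (τ p).foldr f a = p ∧ ∀ i : Fin k, i.val < n → f i p ∈ O ∧ (∀ j ∈ c i p, j.val < m) ∧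
      ∀ q < N, f i ((τ p).foldr f q) = (τ (f i p)).foldr f ((c i p).foldr f q)

theorem ss_step {f : Fin k → ℕ → ℕ} (hf : ∀ i p, (g i p).val = f i p) {m n : ℕ} (a : Fin N) {O τ c}
    (H : ssChk N f m n a O τ c) :
    ssL g n ⊓ stabilizer _ a = ssL g m ∧ Nat.card (ssL g n) = O.length * Nat.card (ssL g m) := by
  obtain ⟨h1, h2, h3, h4, h5, h6⟩ := H
  have ev : ∀ (w : List (Fin k)) (p : Fin N), ((w.map g).prod p).val = w.foldr f p := fun w p => by
    induction w with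
    | nil => rfl
    | cons i w ih => simp [hf, ih]
  have mem : ∀ n (w : List (Fin k)), (∀ i ∈ w, i.val < n) → (w.map g).prod ∈ ssL g n := fun n w h =>
    Subgroup.list_prod_mem _ fun x hx => by
      obtain ⟨i, hi, rfl⟩ := List.mem_map.1 hx
      exact subset_closure ⟨i, h i hi, rfl⟩
  have := schreier_step (S := g '' {i | i.val < n}) (K := ssL g m) (a := a) (O := {p | p.val ∈ O})
    (fun p => ((τ p).map g).prod) ((closure_le _).2 (by
      rintro _ ⟨i, hi, rfl⟩
      exact ⟨subset_closure ⟨i, lt_of_lt_of_le hi h1, rfl⟩, Fin.ext ((hf i a).trans (h5 i hi))⟩)) h2 (by simp [h3])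
    (fun p hp => ⟨mem _ _ (h6 p hp).2.1, Fin.ext ((ev _ _).trans (h6 p hp).2.2.1)⟩) (by
      rintro _ ⟨i, hi, rfl⟩ p hp
      obtain ⟨k1, k2, k3⟩ := (h6 p hp).2.2.2 i hi
      refine ⟨by rwa [← hf] at k1, ?_⟩
      convert mem _ _ k2
      rw [inv_mul_eq_iff_eq_mul]
      ext q
      simp only [Equiv.Perm.mul_apply, hf, ev, Equiv.Perm.smul_def, k3 q q.2])
  refine ⟨this.1, this.2.trans ?_⟩
  rw [← Set.ncard_image_of_injective _ Fin.val_injective, ← List.toFinset_card_of_nodup h4, ← Set.ncard_coe_finset]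
  congr 2
  ext p
  simp only [Set.mem_image, Set.mem_ofPred_eq, List.coe_toFinset]
  exact ⟨by rintro ⟨q, h, rfl⟩; exact h, fun h => ⟨⟨p, (h6 p h).1⟩, h, rfl⟩⟩

theorem ssL_zero : ssL g 0 = ⊥ := by simp [ssL]

end Cfsg.Agent.H19
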