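import Mathlib
import Cfsg.Prelude.Def_Balance
import Cfsg.Agent.H3.Two
import Cfsg.Agent.H3.OddRank
import Cfsg.Agent.H3.Bridge

/-! connectivity of the rank two commuting graph of a `p`-group -/

set_option autoImplicit false
set_option linter.unusedSectionVars false

namespace Cfsg.Agent.H19.Conn

open Cfsg Subgroup Cfsg.Agent.H3

variable {P : Type*} [Group P] [Finite P] {p : ℕ} [hp : Fact p.Prime]

abbrev Adj (p : ℕ) (A B : Subgroup P) : Prop :=
  IsElementaryAbelian p A ∧ p ^ 2 ≤ Nat.card A ∧ IsElementaryAbelian p B ∧ p ^ 2 ≤ Nat.card B ∧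
    ∀ a ∈ A, ∀ b ∈ B, a * b = b * a

theorem self_le {A : Subgroup P} (hA : IsElementaryAbelian p A) : A ≤ centralizer (A : Set P) :=
  fun _ hx _ ha => comm_of_isMulCommutative hA.1 ha hx

theorem exU (hP : IsPGroup p P) (hrk : ¬ PRankLE p 2 P) :
    ∃ U : Subgroup P, U.Normal ∧ IsElementaryAbelian p U ∧ Nat.card U = p ^ 2 := by
  have hnc : ¬ IsCyclic P := fun h => hrk (pRankLE_mono (pRankLE_one_of_isCyclic h) (by norm_num))
  by_cases h2 : p = 2
  · subst h2
    by_contra hn
    push Not at hn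
    rcases cyc_or_mc_of_no_normal_four (S := (⊤ : Subgroup P)) (pGrp_top hP) (fun A hA hE =>
      hn A (normalizer_eq_top_iff.1 (top_le_iff.1 hA.nrm)) hE.abelem hE.card) with h | ⟨a, b, m, h⟩
    · exact hnc (isCyclic_top_iff.1 h)
    · refine hrk (pRankLE_iff.2 fun E hE => ?_)
      have h1 := card_le_card_inf_mul_index (zpowers a) E
      have h2 : (zpowers a).index = 2 := by rw [← relIndex_top_right]; exact h.relIndex
      have h3 : Nat.card (zpowers a ⊓ E : Subgroup P) ≤ 2 :=
        card_le_p_of_isCyclic_of_pow (isCyclic_of_le' (isCyclic_zpowers' a) inf_le_left) fun x hx => hE.2 x hx.2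
      rw [h2] at h1
      omega
  · exact exists_normal_elemAb_sq hP h2 hnc

theorem le_of_rank {X B : Subgroup P} (hX : IsElementaryAbelian p X) (h2 : p ^ 2 ≤ Nat.card X)
    (hC : PRankLE p 2 (centralizer (X : Set P))) (hB : IsElementaryAbelian p B) (h : B ≤ centralizer (X : Set P)) :
    B ≤ X := by
  have h1 := pRankLE_subgroup_iff.1 hC (X ⊔ B) (sup_le (self_le hX) h) (elemAb_sup hX hB h)
  exact le_sup_right.trans (eq_of_le_of_card_ge le_sup_left (h1.trans h2)).ge

theorem cU (hP : IsPGroup p P) (hrk : ¬ PRankLE p 2 P) {U : Subgroup P} [U.Normal] (hU : IsElementaryAbelian p U)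
    (h : Nat.card U = p ^ 2) : ¬ PRankLE p 2 (centralizer (U : Set P)) := fun hC =>
  hrk (pRankLE_two_of_max hP h.le fun _ hx hxp =>
    le_of_rank hU h.ge hC (elemAb_zpowers hxp) (zpowers_le.2 hx) (mem_zpowers _))

theorem path (hP : IsPGroup p P) {U X : Subgroup P} [U.Normal] (hU : IsElementaryAbelian p U)
    (h : Nat.card U = p ^ 2) (hX : IsElementaryAbelian p X) (h2 : p ^ 2 ≤ Nat.card X)
    (hC : ¬ PRankLE p 2 (centralizer (X : Set P))) : Relation.ReflTransGen (Adj p) X U := by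
  obtain ⟨E, hle, hE, hc⟩ := not_pRankLE_subgroup_iff.1 hC
  have h5 := (card_le_card_inf_mul_index (centralizer (U : Set P)) E).trans
    (Nat.mul_le_mul_left _ (index_centralizer_le_of_card_le_sq hP U h.le))
  have h6 : p ^ 2 ≤ Nat.card (centralizer (U : Set P) ⊓ E : Subgroup P) :=
    Nat.le_of_mul_le_mul_right (by rw [← pow_succ]; exact hc.ge.trans h5) hp.out.pos
  have h7 : p ^ 2 ≤ Nat.card E := by rw [hc]; exact sq_lt_cube.le
  have hF : IsElementaryAbelian p (centralizer (U : Set P) ⊓ E) := elemAb_of_le hE inf_le_right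
  refine .head (b := E) ⟨hX, h2, hE, h7, fun a ha b hb => hle hb a ha⟩ (.head (b := centralizer (U : Set P) ⊓ E)
    ⟨hE, h7, hF, h6, fun a ha b hb => comm_of_isMulCommutative hE.1 ha hb.2⟩ (.single
    ⟨hF, h6, hU, h.ge, fun a ha b hb => (ha.1 b hb).symm⟩))

theorem stuck {X U : Subgroup P} (hC : PRankLE p 2 (centralizer (X : Set P)))
    (h : Relation.ReflTransGen (Adj p) X U) : U = X := by
  induction h with
  | refl => rfl
  | tail _ h ih =>
    subst ih
    have h1 := le_of_rank h.1 h.2.1 hC h.2.2.1 fun b hb a ha => h.2.2.2.2 a ha b hb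
    refine eq_of_le_of_card_ge h1 ?_
    exact (pRankLE_subgroup_iff.1 hC _ (self_le h.1) h.1).trans h.2.2.2.1

theorem card_le_ker_mul {A : Type*} [Group A] [Finite A] (f : A →* A) (H : Subgroup A) :
    Nat.card H ≤ Nat.card f.ker * Nat.card (H.map f) := by
  have h1 := card_le_card_inf_mul_index (f.domRestrict H).ker ⊤
  rw [index_ker, MonoidHom.domRestrict_range, inf_top_eq, card_top] at h1
  refine h1.trans (Nat.mul_le_mul_right _ ?_)
  exact Nat.card_le_card_of_injective (fun x : (f.domRestrict H).ker => (⟨x.1.1, x.2⟩ : f.ker))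
    fun x y e => Subtype.ext (Subtype.ext (Subtype.mk.inj e))

theorem nine_le {A : Subgroup P} [hn : A.Normal] (hA : IsElementaryAbelian 3 A) (hc : Nat.card A = 3 ^ 4) {x : P}
    (hx : x ^ 3 = 1) : 3 ^ 2 ≤ Nat.card (A ⊓ centralizer {x} : Subgroup P) := by
  haveI : Fact (Nat.Prime 3) := ⟨Nat.prime_three⟩
  haveI := hA.1
  letI : CommGroup A := { (inferInstance : Group A) with mul_comm := mul_comm' }
  let s : A →* A := (MulAut.conjNormal x).toMonoidHom
  let f : A →* A := s / MonoidHom.id A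
  have hf : ∀ a, f a = s a / a := fun a => rfl
  have s3 : ∀ a, s (s (s a)) = a := fun a => Subtype.ext (by
    show x * (x * (x * a * x⁻¹) * x⁻¹) * x⁻¹ = a
    calc _ = x ^ 3 * a * (x ^ 3)⁻¹ := by simp only [pow_succ, pow_zero, one_mul, mul_inv_rev, mul_assoc]
      _ = a := by simp [hx])
  have p3 : ∀ a : A, a ^ 3 = 1 := fun a => Subtype.ext (hA.2 a a.2)
  have f3 : ∀ a, f (f (f a)) = 1 := fun a => by
    simp only [hf, map_div, s3]
    have e1 := p3 (s a)
    have e2 := p3 (s (s a))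
    calc _ = (s a) ^ 3 / (s (s a)) ^ 3 := by
          apply Additive.ofMul.injective
          simp only [ofMul_div, ofMul_pow]
          abel
      _ = 1 := by rw [e1, e2, div_one]
  have h1 := card_le_ker_mul f ⊤
  have h2 := card_le_ker_mul f ((⊤ : Subgroup A).map f)
  have h3 : Nat.card (((⊤ : Subgroup A).map f).map f) ≤ Nat.card f.ker := card_le_of_le (by
    rintro _ ⟨_, ⟨a, -, rfl⟩, rfl⟩
    exact f3 a)
  have h4 : Nat.card f.ker ≤ Nat.card (A ⊓ centralizer {x} : Subgroup P) :=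
    Nat.card_le_card_of_injective (fun a : f.ker => (⟨a.1.1, a.1.2, by
      have := congrArg Subtype.val (div_eq_one.1 ((hf a.1).symm.trans a.2))
      refine mem_centralizer_singleton_iff.2 ?_
      have e : x * a.1.1 * x⁻¹ = a.1.1 := this
      rw [mul_inv_eq_iff_eq_mul] at e
      exact e.symm⟩ : (A ⊓ centralizer {x} : Subgroup P)))
      fun x y e => Subtype.ext (Subtype.ext (Subtype.mk.inj e))
  rw [card_top, hc] at h1
  refine pow_succ_le_card_of_lt (k := 1) (isPGroup_of_elemAb (elemAb_of_le hA inf_le_left)) ?_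
  by_contra hlt
  have h5 : Nat.card f.ker ≤ 3 := by omega
  have := h1.trans (Nat.mul_le_mul h5 (h2.trans (Nat.mul_le_mul h5 (h3.trans h5))))
  omega

theorem three (hP : IsPGroup 3 P) (hrk : ¬ PRankLE 3 3 P) {X : Subgroup P} (hX : IsElementaryAbelian 3 X)
    (h2 : 3 ^ 2 ≤ Nat.card X) : ¬ PRankLE 3 2 (centralizer (X : Set P)) := by
  haveI : Fact (Nat.Prime 3) := ⟨Nat.prime_three⟩
  intro hC
  obtain ⟨E, hE, hc⟩ := not_pRankLE_iff.1 hrk
  obtain ⟨A, hn, hA, hAc⟩ := exists_normal_elemAb_four (p := 3) (by norm_num) _ rfl hP E hE hc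
  have hX2 := le_antisymm (pRankLE_subgroup_iff.1 hC _ (self_le hX) hX) h2
  haveI : Nontrivial P := by
    rw [← Finite.one_lt_card_iff_nontrivial]
    exact lt_of_lt_of_le (by omega) (card_le_card_group X)
  haveI := hP.center_nontrivial
  obtain ⟨z, hz⟩ := exists_prime_orderOf_dvd_card' (G := center P) 3 (by
    obtain ⟨n, hn0, hn⟩ := (IsPGroup.nontrivial_iff_card (hP.to_subgroup (center P))).1 inferInstance
    rw [hn]; exact dvd_pow_self 3 hn0.ne')
  have hz3 : (z : P) ^ 3 = 1 := by rw [← coe_pow, ← hz, pow_orderOf_eq_one, coe_one]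
  have hzc : ∀ g : P, g * z = z * g := fun g => mem_center_iff.1 z.2 g
  have hzX : zpowers (z : P) ≤ X := le_of_rank hX h2 hC (elemAb_zpowers hz3) (zpowers_le.2 fun g _ => hzc g)
  have hcz : Nat.card (zpowers (z : P)) = 3 := by rw [Nat.card_zpowers, orderOf_coe, hz]
  obtain ⟨x, hx, hxz⟩ := SetLike.exists_of_lt (lt_of_le_of_ne hzX (by intro e; rw [e] at hcz; omega))
  have hs : zpowers (z : P) ⊔ zpowers x = X := by
    refine eq_of_le_of_card_ge (sup_le hzX (zpowers_le.2 hx)) ?_
    rw [card_sup_zpowers_of_elemAb (hX.2 x hx) (fun g hg => comm_of_isMulCommutative hX.1 (hzX hg) hx) hxz, hcz, hX2]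
    norm_num
  have hle : A ⊓ centralizer {x} ≤ centralizer (X : Set P) := by
    rw [le_centralizer_iff, ← hs]
    refine sup_le (zpowers_le.2 fun g _ => hzc g) (zpowers_le.2 fun g hg => ?_)
    exact mem_centralizer_singleton_iff.1 hg.2
  have h9 := nine_le hA hAc (hX.2 x hx)
  have e := eq_of_le_of_card_ge (le_of_rank hX h2 hC (elemAb_of_le hA inf_le_left) hle) (hX2.le.trans h9)
  have hXA : X ≤ A := e ▸ inf_le_left
  have := pRankLE_subgroup_iff.1 hC A (fun a ha g hg => comm_of_isMulCommutative hA.1 (hXA hg) ha) hA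
  omega

end Cfsg.Agent.H19.Conn
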