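import Cfsg.Agent.H1.G2a
import Cfsg.Agent.H12.GtM
import Cfsg.Agent.H9.GtN
import Cfsg.Agent.H16.GtS

/-! A Sylow `2`-subgroup of type `G₂(q)`, `q` odd, carries the data `Gz`. -/

set_option autoImplicit false

namespace Cfsg.Agent.H19.G2R

open Cfsg.Agent.H19.Gt Cfsg.Agent.H1.G2

theorem exGz {G : Type*} [Group G] [Finite G] {F : Type*} [Field F] [Fintype F]
    (hF : Odd (Fintype.card F)) (S : Sylow 2 G) (P : Sylow 2 ↥(Cfsg.Lie.chevG2.group F))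
    (hS : Nonempty (↥(S : Subgroup G) ≃* ↥(P : Subgroup ↥(Cfsg.Lie.chevG2.group F)))) :
    ∃ (K : Type) (_ : CommGroup K) (τ : K × K →* G) (u v : G) (z : K),
      Gz (S : Subgroup G) τ u v z := by
  obtain ⟨e⟩ := hS
  obtain ⟨Φ, h1, h2⟩ := H12.gM hF
  obtain ⟨n, H, τ, u, v, hn, h3, h4⟩ := H9.GtN.gN hF Φ h1 h2
  haveI : NeZero n := ⟨hn⟩
  obtain ⟨K2, τ2, u2, v2, h5, h6⟩ := H16.GtS.gS h3 h4 S P e
  obtain ⟨ρ, r1, r2, -, -⟩ := cyc_data h6.cyc h6.four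
  exact ⟨K2, inferInstance, τ2, u2, v2, ρ * ρ, h6, inferInstance, h5, r1, r2⟩

end Cfsg.Agent.H19.G2R
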