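import Mathlib
import Cfsg.Agent.H10.SL
import Cfsg.Agent.H10.Sp

/-! # Homocyclic Sylow subgroups of linear groups -/

set_option autoImplicit false

namespace Cfsg.Agent.H19.Homo

open Polynomial

variable {r q : ℕ} [hr : Fact r.Prime]

/-- the order of `q` modulo `r` -/
noncomputable abbrev od (r q : ℕ) : ℕ := orderOf (q : ZMod r)

/-- the exponent of `r` in `Φ_d(q)` -/
noncomputable abbrev kk (r q : ℕ) : ℕ := padicValNat r ((cyclotomic (od r q) ℤ).eval (q : ℤ)).natAbs

theorem dvd_iff (hq : 1 < q) (i : ℕ) : r ∣ q ^ i - 1 ↔ od r q ∣ i := by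
  rw [orderOf_dvd_iff_pow_eq_one, ← ZMod.natCast_eq_zero_iff, Nat.cast_sub (Nat.one_le_pow _ _ (by omega)), sub_eq_zero]
  simp

theorem od_pos (h : ¬ r ∣ q) : 0 < od r q :=
  (isOfFinOrder_iff_pow_eq_one.2 ⟨r - 1, by have := hr.1.two_le; omega,
    ZMod.pow_card_sub_one_eq_one (by rwa [Ne, ZMod.natCast_eq_zero_iff])⟩).orderOf_pos

theorem val_od (hq : 1 < q) (h : ¬ r ∣ q) : padicValNat r (q ^ od r q - 1) = kk r q := by
  have d0 := od_pos h
  have e := congrArg (fun f : ℤ[X] => (f.eval (q : ℤ)).natAbs) (prod_cyclotomic_eq_X_pow_sub_one d0 ℤ)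
  simp only [← Nat.cons_self_properDivisors d0.ne', Finset.prod_cons, eval_mul, Int.natAbs_mul, eval_sub, eval_pow,
    eval_X, eval_one] at e
  have k : ∀ i, ((q : ℤ) ^ i - 1).natAbs = q ^ i - 1 := fun i => by
    have := Nat.one_le_pow i q (by omega); zify [this]; exact abs_of_nonneg (by norm_cast; simpa)
  have n : ¬ r ∣ (eval (q : ℤ) (∏ i ∈ (od r q).properDivisors, cyclotomic i ℤ)).natAbs := fun c => by
    rw [← Int.natCast_dvd, eval_prod, (Nat.prime_iff_prime_int.1 hr.1).dvd_finsetProd_iff] at c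
    obtain ⟨i, hi, c⟩ := c
    have := c.trans (eval_dvd (x := (q : ℤ)) (cyclotomic.dvd_X_pow_sub_one i ℤ))
    simp only [eval_sub, eval_pow, eval_X, eval_one, Int.natCast_dvd, k, dvd_iff hq] at this
    exact (Nat.le_of_dvd (Nat.pos_of_mem_properDivisors hi) this).not_gt (Nat.mem_properDivisors.1 hi).2
  have z := (Nat.sub_pos_of_lt (Nat.one_lt_pow d0.ne' hq)).ne'
  rw [k] at e
  rw [← e] at z ⊢
  rw [padicValNat.mul (left_ne_zero_of_mul z) (right_ne_zero_of_mul z), padicValNat.eq_zero_of_not_dvd n, add_zero]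

theorem val_pow (hq : 1 < q) (h : ¬ r ∣ q) {i : ℕ} (hi : ¬ od r q * r ∣ i) :
    (q ^ i - 1).factorization r = if od r q ∣ i then kk r q else 0 := by
  split_ifs with c
  · obtain ⟨j, rfl⟩ := c
    have p := Nat.prime_iff_prime_int.1 hr.1
    have k : ∀ i, (q : ℤ) ^ i - 1 = (q ^ i - 1 : ℕ) := fun i => by
      rw [Nat.cast_sub (Nat.one_le_pow i q (by omega))]; simp
    have := emultiplicity_pow_sub_pow_of_prime p (x := (q : ℤ) ^ od r q) (y := 1) (n := j)
      (by rw [k, Int.natCast_dvd_natCast, dvd_iff hq]) (fun c => h (Int.natCast_dvd_natCast.1 (p.dvd_of_dvd_pow c)))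
      fun c => hi (Nat.mul_dvd_mul_left _ (Int.natCast_dvd_natCast.1 c))
    rw [← pow_mul, one_pow, k, k, Int.natCast_emultiplicity, Int.natCast_emultiplicity] at this
    rw [← val_od hq h, Nat.factorization_def _ hr.1, padicValNat_def', padicValNat_def', multiplicity_eq_of_emultiplicity_eq this]
    all_goals first | exact hr.1.ne_one | exact (Nat.sub_pos_of_lt (Nat.one_lt_pow (by
      first | exact (od_pos h).ne' | (intro z; simp [z] at hi)) hq)).ne'
  · exact Nat.factorization_eq_zero_of_not_dvd (by rwa [dvd_iff hq])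

theorem val_prod (hq : 1 < q) (h : ¬ r ∣ q) {n : ℕ} (f : ℕ → ℕ) (hf : ∀ i < n, ¬ od r q * r ∣ f i) (e : ℕ) :
    (q ^ e * ∏ i ∈ Finset.range n, (q ^ f i - 1)).factorization r =
      kk r q * ((Finset.range n).filter fun i => od r q ∣ f i).card := by
  have z : ∀ i ∈ Finset.range n, q ^ f i - 1 ≠ 0 := fun i hi => (Nat.sub_pos_of_lt (Nat.one_lt_pow
    (fun z => hf i (Finset.mem_range.1 hi) (by simp [z])) hq)).ne'
  rw [Nat.factorization_mul (by positivity) (Finset.prod_ne_zero_iff.2 z), Nat.factorization_prod z]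
  simp only [Finsupp.coe_add, Pi.add_apply, Finsupp.coe_finsetSum, Finset.sum_apply]
  rw [Nat.factorization_eq_zero_of_not_dvd fun c => h (hr.1.dvd_of_dvd_pow c), zero_add,
    Finset.sum_congr rfl fun i hi => val_pow hq h (hf i (Finset.mem_range.1 hi)), ← Finset.sum_filter]
  simp [mul_comm]

/-- the homocyclic group -/
abbrev T (a m : ℕ) := Fin a → Multiplicative (ZMod m)

theorem syl {G : Type*} [Group G] [Finite G] {a k : ℕ} (ψ : T a (r ^ k) →* G) (hψ : Function.Injective ψ)
    (hv : (Nat.card G).factorization r = k * a) (P : Sylow r G) : Nonempty (P ≃* T a (r ^ k)) :=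
  ⟨(P.equiv (.ofCard ψ.range (by
    rw [← Nat.card_congr (MonoidHom.ofInjective hψ).toEquiv, hv]; simp [pow_mul]))).trans (MonoidHom.ofInjective hψ).symm⟩

theorem syl' {G H K : Type*} [Group G] [Finite G] [Group H] [Finite H] [Group K] (φ : H →* G)
    (hφ : Function.Injective φ) (hv : (Nat.card H).factorization r = (Nat.card G).factorization r)
    (h : ∀ Q : Sylow r G, Nonempty (Q ≃* K)) (P : Sylow r H) : Nonempty (P ≃* K) := by
  obtain ⟨e⟩ := h (.ofCard ((P : Subgroup H).map φ) (by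
    rw [Subgroup.card_map_of_injective hφ, P.card_eq_multiplicity, hv]))
  exact ⟨(Subgroup.equivMapOfInjective _ φ hφ).trans e⟩

theorem units_hom (K : Type*) [Field K] [Finite K] {m : ℕ} (h : m ∣ Nat.card K - 1) (a : ℕ) :
    ∃ ψ : T a m →* (Fin a → Kˣ), Function.Injective ψ := by
  obtain ⟨g, hg⟩ := IsCyclic.exists_ofOrder_eq_natCard (α := Kˣ)
  rw [← Nat.card_units, ← hg] at h
  have := orderOf_pow_orderOf_div (orderOf_pos g).ne' h
  have e : Multiplicative (ZMod m) ≃* Subgroup.zpowers (g ^ (orderOf g / m)) :=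
    mulEquivOfCyclicCardEq (by rw [Nat.card_zpowers, this]; exact Nat.card_zmod m)
  exact ⟨((Subgroup.subtype _).comp e.toMonoidHom).compLeft _,
    (Subtype.val_injective.comp e.injective).comp_left⟩

variable {F : Type*} [Field F] [Fintype F]

theorem gl_hom {a d n m : ℕ} (hd : 0 < d) (h : m ∣ Fintype.card F ^ d - 1) (hn : a * d ≤ n) :
    ∃ ψ : T a m →* GL (Fin n) F, Function.Injective ψ := by
  obtain ⟨p, _⟩ := CharP.exists F
  have := Fact.mk (CharP.char_is_prime F p)
  have := NeZero.of_pos hd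
  let K := FiniteField.Extension F p d
  obtain ⟨ψ, hψ⟩ := units_hom K (m := m) (by rwa [FiniteField.natCard_extension, Nat.card_eq_fintype_card]) a
  let b := Module.finBasisOfFinrankEq F ((Fin a → K) × (Fin (n - a * d) → F)) (n := n) (by
    simp [Module.finrank_pi_fintype, K, FiniteField.finrank_extension, hn])
  let ρ : (Fin a → Kˣ) →* Matrix (Fin n) (Fin n) F :=
    (LinearMap.toMatrixAlgEquiv b).toMulEquiv.toMonoidHom.comp <| (LinearMap.prodMapRingHom F _ _).toMonoidHom.comp <|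
      (MonoidHom.inl _ _).comp <| (Algebra.lmul F _).toMonoidHom.comp ((Units.coeHom K).compLeft _)
  refine ⟨ρ.toHomUnits.comp ψ, Function.Injective.comp (g := ρ.toHomUnits) (fun x y e => ?_) hψ⟩
  have := LinearMap.congr_fun ((LinearMap.toMatrixAlgEquiv b).injective (congrArg Units.val e)) (1, 0)
  exact funext fun i => Units.ext (by simpa using congrFun (congrArg Prod.fst this) i)

theorem card_gl (n : ℕ) : ∃ e, Nat.card (GL (Fin n) F) =
    Fintype.card F ^ e * ∏ i ∈ Finset.range n, (Fintype.card F ^ (i + 1) - 1) := by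
  refine ⟨∑ i ∈ Finset.range n, i, ?_⟩
  rw [Matrix.card_GL_field, Fin.prod_univ_eq_prod_range (fun i => Fintype.card F ^ n - Fintype.card F ^ i),
    ← Finset.prod_range_reflect (fun i => Fintype.card F ^ (i + 1) - 1), ← Finset.prod_pow_eq_pow_sum,
    ← Finset.prod_mul_distrib]
  refine Finset.prod_congr rfl fun i hi => ?_
  have := Finset.mem_range.1 hi
  rw [Nat.mul_sub, ← pow_add, mul_one]
  congr 2; omega

theorem val_gl (hq : Fintype.card F = q) (h : ¬ r ∣ q) {n : ℕ} (hn : n < od r q * r) :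
    (Nat.card (GL (Fin n) F)).factorization r = kk r q * (n / od r q) := by
  obtain ⟨e, he⟩ := card_gl (F := F) n
  rw [he, hq, val_prod (hq ▸ Fintype.one_lt_card) h (· + 1) fun i hi c => (Nat.le_of_dvd i.succ_pos c).not_gt (by omega),
    Nat.card_multiples]

theorem gl_hom' (hq : Fintype.card F = q) (h : ¬ r ∣ q) (n : ℕ) :
    ∃ ψ : T (n / od r q) (r ^ kk r q) →* GL (Fin n) F, Function.Injective ψ :=
  gl_hom (od_pos h) (by rw [hq, ← val_od (hq ▸ Fintype.one_lt_card) h]; exact pow_padicValNat_dvd) (Nat.div_mul_le_self _ _)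

theorem gl (hq : Fintype.card F = q) (h : ¬ r ∣ q) {n : ℕ} (hn : n < od r q * r) (P : Sylow r (GL (Fin n) F)) :
    Nonempty (P ≃* T (n / od r q) (r ^ kk r q)) :=
  have ⟨ψ, hψ⟩ := gl_hom' hq h n
  syl ψ hψ (val_gl hq h hn) P

end Cfsg.Agent.H19.Homo
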