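import Mathlib
import Cfsg.Agent.H19.Special

/-! A rank one group with a quadratic module is special. -/

namespace Cfsg.Agent.H19

open Cfsg

variable {X : Type*} [Group X] {N : Type*} [AddCommGroup N] [DistribMulAction X N]

/-- `[N, A]` -/
def cmod (N : Type*) [AddCommGroup N] [DistribMulAction X N] (A : Subgroup X) : AddSubgroup N :=
  AddSubgroup.closure {v | ∃ a ∈ A, ∃ n : N, v = a • n - n}

theorem mem_cmod {A : Subgroup X} {a : X} (ha : a ∈ A) (n : N) : a • n - n ∈ cmod N A :=
  AddSubgroup.subset_closure ⟨a, ha, n, rfl⟩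

theorem smul_mem_cmod {A : Subgroup X} (g : X) {v : N} (hv : v ∈ cmod N A) :
    g • v ∈ cmod N (cj g A) := by
  induction hv using AddSubgroup.closure_induction with
  | mem x hx =>
    obtain ⟨a, ha, n, rfl⟩ := hx
    have := mem_cmod (conj_mem_cj g ha) (g • n)
    rwa [← mul_smul, inv_mul_cancel_right, mul_smul, ← smul_sub] at this
  | zero => rw [smul_zero]; exact AddSubgroup.zero_mem _
  | add x y _ _ hx hy => rw [smul_add]; exact AddSubgroup.add_mem _ hx hy
  | neg x _ hx => rw [smul_neg]; exact AddSubgroup.neg_mem _ hx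

/-- quadratic action -/
def QuadOn (N : Type*) [AddCommGroup N] [DistribMulAction X N] (A : Subgroup X) : Prop :=
  ∀ a ∈ A, ∀ v ∈ cmod N A, a • v = v

theorem quadOn_of {A : Subgroup X}
    (hq : ∀ a ∈ A, ∀ a' ∈ A, ∀ n : N, a' • (a • n - n) = a • n - n) : QuadOn N A := by
  intro a' ha' v hv
  induction hv using AddSubgroup.closure_induction with
  | mem x hx =>
    obtain ⟨a, ha, n, rfl⟩ := hx
    exact hq a ha a' ha' n
  | zero => rw [smul_zero]
  | add x y _ _ hx hy => rw [smul_add, hx, hy]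
  | neg x _ hx => rw [smul_neg, hx]

theorem QuadOn.cj {A : Subgroup X} (h : QuadOn N A) (g : X) : QuadOn N (cj g A) := by
  intro x hx v hv
  obtain ⟨a, ha, rfl⟩ := exists_of_mem_cj hx
  have := smul_mem_cmod g⁻¹ hv
  rw [cj_inv_cj] at this
  rw [mul_smul, mul_smul, h a ha _ this, smul_inv_smul]

theorem special_of_quadOn {A B : Subgroup X} (hsup : A ⊔ B = ⊤) (h : IsRankOnePair A B)
    (hA : QuadOn N A) (hX : ∃ x y : X, ∃ n : N, y • (x • n - n) ≠ x • n - n) :
    IsSpecialRankOnePair A B := by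
  have hB : QuadOn N B := by
    obtain ⟨w, -, e, -⟩ := RO.ex_swap h
    rw [← e]; exact hA.cj w
  have hfix : ∀ v : N, (∀ a ∈ A, a • v = v) → (∀ b ∈ B, b • v = v) → ∀ x : X, x • v = v := by
    intro v h1 h2 x
    refine sup_induction (p := fun x => x • v = v) h1 h2 ?_ (hsup ▸ Subgroup.mem_top x)
    intro x y hx hy
    rw [mul_smul, hy, hx]
  -- the basic computation
  have key : ∀ {A B : Subgroup X}, QuadOn N A → QuadOn N B →
      (∀ v : N, (∀ a ∈ A, a • v = v) → (∀ b ∈ B, b • v = v) → ∀ x : X, x • v = v) →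
      ∀ a ∈ A, ∀ b ∈ B, cj b A = cj a B → ∀ p ∈ cmod N A,
        ∀ x : X, x • (p - (a • (b • p - p) - (b • p - p))) = p - (a • (b • p - p) - (b • p - p)) := by
    intro A B hA hB hfix a ha b hb e p hp
    have h1 := smul_mem_cmod b hp
    rw [e] at h1
    have h2 := smul_mem_cmod a⁻¹ h1
    rw [cj_inv_cj] at h2
    set q := a⁻¹ • b • p with hq
    have h3 : a • q = b • p := by rw [hq, smul_inv_smul]
    have h4 : p - (a • q - q) = q - (b • p - p) := by rw [h3]; abel
    have h5 : ∀ x : X, x • (p - (a • q - q)) = p - (a • q - q) := by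
      apply hfix
      · intro a' ha'
        exact hA a' ha' _ (AddSubgroup.sub_mem _ hp (mem_cmod ha q))
      · intro b' hb'
        rw [h4]
        exact hB b' hb' _ (AddSubgroup.sub_mem _ h2 (mem_cmod hb p))
    have h6 : a • (b • p - p) - (b • p - p) = a • q - q := by
      have h7 := h5 a
      have : b • p - p = q - (p - (a • q - q)) := by rw [h4]; abel
      rw [this, smul_sub, h7]; abel
    rw [h6]; exact h5
  have hfix' : ∀ v : N, (∀ a ∈ B, a • v = v) → (∀ b ∈ A, b • v = v) → ∀ x : X, x • v = v :=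
    fun v h1 h2 => hfix v h2 h1
  refine RO.special_of_inv h fun a ha ha1 b hb hb1 e => ?_
  obtain ⟨b', hb', -, e'⟩ := RO.ex_b h (A.inv_mem ha) (inv_ne_one.2 ha1)
  by_cases hbb : b * b' = 1
  · rw [inv_eq_of_mul_eq_one_right hbb, e']
  exfalso
  obtain ⟨a'', ha'', -, e''⟩ := RO.ex_a h (B.mul_mem hb hb') hbb
  have hP : ∀ p ∈ cmod N A, ∀ x : X, x • p = p := by
    intro p hp
    have k1 := key hA hB hfix a ha b hb e p hp
    have k2 := key hA hB hfix a⁻¹ (A.inv_mem ha) b' hb' e' p hp
    have k3 := key hA hB hfix a'' ha'' (b * b') (B.mul_mem hb hb') e'' p hp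
    have s1 : (b * b') • p - p = (b • p - p) + (b' • p - p) := by
      have := hB b hb _ (mem_cmod hb' p)
      rw [smul_sub] at this
      rw [mul_smul, eq_add_of_sub_eq this]; abel
    have s2 : ∀ v : N, a⁻¹ • v - v = -(a • v - v) := by
      intro v
      have := hA a⁻¹ (A.inv_mem ha) _ (mem_cmod ha v)
      rw [smul_sub, inv_smul_smul] at this
      rw [← this]; abel
    set q := (b * b') • p - p with hq
    have hqB : q ∈ cmod N B := mem_cmod (B.mul_mem hb hb') p
    have s3 : ∀ x : X, x • (a • q - q) = a • q - q := by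
      intro x
      have : a • q - q = (p - (a⁻¹ • (b' • p - p) - (b' • p - p))) -
          (p - (a • (b • p - p) - (b • p - p))) := by
        rw [s2, s1, smul_add]; abel
      rw [this, smul_sub, k1, k2]
    have k4 := key hB hA hfix' b hb a ha e.symm q hqB
    simp only [s3, sub_self, sub_zero] at k4
    simpa [k4] using k3
  have hQ : ∀ q ∈ cmod N B, ∀ x : X, x • q = q := by
    intro q hq
    have k4 := key hB hA hfix' b hb a ha e.symm q hq
    simpa [hP _ (mem_cmod ha q)] using k4
  obtain ⟨x, y, n, hne⟩ := hX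
  apply hne
  refine sup_induction (p := fun x => ∀ n : N, ∀ y : X, y • (x • n - n) = x • n - n) ?_ ?_ ?_
    (hsup ▸ Subgroup.mem_top x) n y
  · intro a ha n y; exact hP _ (mem_cmod ha n) y
  · intro a ha n y; exact hQ _ (mem_cmod ha n) y
  · intro x x' hx hx' n y
    have : (x * x') • n - n = (x • (x' • n) - x' • n) + (x' • n - n) := by rw [mul_smul]; abel
    rw [this, smul_add, hx, hx']

end Cfsg.Agent.H19
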