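import Mathlib
import Cfsg.Agent.H19.Root2

/-! Abstract root subgroups: lines. -/

namespace Cfsg.Agent.H19

open Cfsg
open scoped commutatorElement

variable {G : Type*} [Group G] {S : Set (Subgroup G)} {A B C D E : Subgroup G}

/-- `A` and `E` span a line: usable form of `E ∈ Λ_A` -/
structure Line (S : Set (Subgroup G)) (A E : Subgroup G) : Prop where
  memA : A ∈ S
  memE : E ∈ S
  ne : E ≠ A
  comm : Comm A E
  cover : ∀ x ∈ A ⊔ E, x ≠ 1 → ∃ M ∈ S, M ≤ A ⊔ E ∧ x ∈ M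

theorem Line.symm (h : Line S A E) : Line S E A :=
  ⟨h.memE, h.memA, h.ne.symm, h.comm.symm, by rw [sup_comm]; exact h.cover⟩

namespace Root

theorem line_of_mem (hA : A ∈ S) (h : E ∈ linePartners S A) : Line S A E :=
  ⟨hA, h.1.1, h.1.2.1, comm_iff.2 h.1.2.2, fun x hx hx1 => by
    obtain ⟨M, hM, hxM⟩ := h.2.2.1 x hx hx1
    exact ⟨M, hM.1, hM.2, hxM⟩⟩

theorem mem_of_line (hS : IsRootSubgroupSet S) (hN : AllNI S) (h : Line S A E) :
    E ∈ linePartners S A := by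
  refine ⟨⟨h.memE, h.ne, comm_iff.1 h.comm⟩, fun C hC => hC.2, fun x hx hx1 => ?_, ?_⟩
  · obtain ⟨M, hM, hle, hxM⟩ := h.cover x hx hx1
    exact ⟨M, ⟨hM, hle⟩, hxM⟩
  · intro C hC D hD hne
    by_contra hc
    obtain ⟨a, ha, ha1⟩ := exists_ne_one_of_ne_bot hc
    exact hne (ti hS (hN C hC.1) hD.1 ha.1 ha1 ha.2)

theorem line_cj (hS : IsRootSubgroupSet S) (h : Line S A E) (g : G) : Line S (cj g A) (cj g E) := by
  refine ⟨cj_mem hS h.memA g, cj_mem hS h.memE g, fun e => h.ne (cj_injective g e), h.comm.cj g, ?_⟩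
  intro x hx hx1
  rw [← cj_sup] at hx ⊢
  obtain ⟨y, hy, rfl⟩ := exists_of_mem_cj hx
  obtain ⟨M, hM, hle, hyM⟩ := h.cover y hy (by rintro rfl; simp at hx1)
  exact ⟨cj g M, cj_mem hS hM g, cj_mono g hle, conj_mem_cj g hyM⟩

theorem line_of_cc (hS : IsRootSubgroupSet S) (hA : A ∈ S) (h : CC S A B) : Line S A ⁅A, B⁆ := by
  refine ⟨hA, h.mem, cc_ne hS hA h, h.commA.symm, fun x hx _ => ?_⟩
  rcases cc_cover h hx with h1 | ⟨b, hb, h1⟩
  · exact ⟨_, h.mem, le_sup_right, h1⟩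
  · exact ⟨_, cj_mem hS hA b, by rw [← cj_sup_cc h hb]; exact le_sup_left, h1⟩

theorem line_comm (hS : IsRootSubgroupSet S) (h : Line S A E) : Comm (A ⊔ E) (A ⊔ E) :=
  ((comm hS h.memA).sup_right h.comm).sup_left (h.comm.symm.sup_right (comm hS h.memE))

/-- a member commuting with `A` and with a conjugate under a partner commutes with the partner -/
theorem comm_of_comm_cj (h : IsRankOnePair B A) {b : G} (hb : b ∈ B) (hb1 : b ≠ 1)
    (h1 : Comm C A) (h2 : Comm C (cj b A)) : Comm C B := by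
  have := h1.sup_right h2
  rw [RO.sup_cj h hb hb1] at this
  exact this.mono le_rfl le_sup_left

theorem ti' (hS : IsRootSubgroupSet S) (hN : AllNI S) (hA : A ∈ S) (hB : B ∈ S) (hne : A ≠ B)
    {a : G} (ha : a ∈ A) (haB : a ∈ B) : a = 1 := by
  by_contra h; exact hne (ti hS (hN A hA) hB ha h haB)

/-- `[E, B]` does not commute with a partner `A` of `B` -/
theorem not_comm_cc (hS : IsRootSubgroupSet S) (hA : A ∈ S) (hB : B ∈ S) (hE : E ∈ S)
    (hAB : IsRankOnePair A B) (hEB : CC S E B) : ¬ Comm ⁅E, B⁆ A := by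
  intro hc
  obtain ⟨e, he, he1⟩ := exists_ne_one_of_ne_bot (hS.ne_bot E hE)
  obtain ⟨b, hb, hb1⟩ := exists_ne_one_of_ne_bot (hS.ne_bot B hB)
  have hz := Subgroup.commutator_mem_commutator he hb
  have := central hS (RO.symm hAB) hA (hEB.commB _ hz) (hc _ hz) hb hb1 (cj_mem hS hB e)
    (by rw [← conj_eq_comm_mul]; exact conj_mem_cj e hb)
  exact he1 (cc_inj hS hB ⟨A, hA, RO.symm hAB⟩ hEB.symm hb hb1 he
    (commutatorElement_eq_one_iff_mul_comm.1 this).symm)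

theorem lemK_cj (hS : IsRootSubgroupSet S) (hA : A ∈ S) (hB : B ∈ S) (hE : E ∈ S)
    (hAB : IsRankOnePair A B) (hEB : CC S E B)
    (hcov : ∀ a ∈ A, a ≠ 1 → ∀ e ∈ E, ∃ M ∈ S, a * e ∈ M ∧ Comm M E ∧ Comm M A)
    {a b : G} (ha : a ∈ A) (ha1 : a ≠ 1) (hb : b ∈ B) (hab : cj b A = cj a B) :
    cj a ⁅E, B⁆ = cj b E := by
  have hnro := cc_not_ro hS hB hEB
  have key : ∀ e ∈ E, IsRankOnePair B (cj (a * e) B) ∧ b * e * b⁻¹ ∈ cj a (B ⊔ ⁅E, B⁆) := by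
    intro e he
    obtain ⟨M, hM, haeM, hME, hMA⟩ := hcov a ha ha1 e he
    have hMB : IsRankOnePair M B := (ro_or_ro hS hM hB hE hAB hME ha ha1 (by
      have := Subgroup.mul_mem _ (Subgroup.mem_sup_left haeM : a * e ∈ M ⊔ E)
        (Subgroup.mem_sup_right (E.inv_mem he))
      simpa using this)).resolve_right hnro
    have hae : a * e ≠ 1 := by
      intro h
      have h1 : a ∈ E := by rw [eq_inv_of_mul_eq_one_left h]; exact E.inv_mem he
      exact hnro (ti hS ⟨B, hB, hAB⟩ hE ha ha1 h1 ▸ hAB)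
    refine ⟨RO.pair_cj hMB haeM hae, ?_⟩
    obtain ⟨b', hb', -, e'⟩ := RO.ex_b hMB haeM hae
    have h1 : Comm (cj b A) (cj b' M) := by
      rw [hab, e', cj_mul]
      exact (comm_cj_of_not_ro hS hE hB hnro he).cj a
    have h2 : b⁻¹ * b' = 1 := by
      by_contra hne
      have h3 : Comm A (cj (b⁻¹ * b') M) := by
        have := h1.cj b⁻¹
        rwa [cj_inv_cj, cj_cj] at this
      exact RO.not_comm hAB (comm_of_comm_cj (RO.symm hMB) (B.mul_mem (B.inv_mem hb) hb') hne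
        hMA.symm h3)
    obtain rfl : b = b' := inv_mul_eq_one.1 h2
    have h3 : b * (a * e) * b⁻¹ ∈ cj a (B ⊔ ⁅E, B⁆) := by
      have := conj_mem_cj b haeM
      rw [e', cj_mul] at this
      exact cj_mono a (cj_le_sup_commutator he) this
    have h4 : b * a * b⁻¹ ∈ cj a (B ⊔ ⁅E, B⁆) := by
      have := conj_mem_cj b ha
      rw [hab] at this
      exact cj_mono a le_sup_left this
    have := Subgroup.mul_mem _ (Subgroup.inv_mem _ h4) h3
    convert this using 1; group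
  have hle : cj (a⁻¹ * b) E ≤ B ⊔ ⁅B, E⁆ := by
    rw [cj_mul, ← cj_le_cj (g := a), cj_cj_inv, Subgroup.commutator_comm B E]
    intro x hx
    obtain ⟨e, he, rfl⟩ := exists_of_mem_cj hx
    exact (key e he).2
  rcases cc_members hS hB ⟨A, hA, RO.symm hAB⟩ hEB.symm (cj_mem hS hE _) hle with h | ⟨e, he, h⟩
  · rw [Subgroup.commutator_comm E B, ← h, cj_mul, cj_cj_inv]
  · exfalso
    have h1 := (key e he).1
    rw [cj_mul, ← h, cj_mul, cj_cj_inv] at h1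
    apply hnro
    rw [← RO.cj_pair_iff (g := b), cj_of_mem hb]
    exact RO.symm h1

/-- the key lemma on lines -/
theorem lemK (hS : IsRootSubgroupSet S) (hN : AllNI S) (hA : A ∈ S) (hB : B ∈ S) (hE : E ∈ S)
    (hAB : IsRankOnePair A B) (hEB : CC S E B) (hAE : Comm A E)
    (hcov : ∀ a ∈ A, a ≠ 1 → ∀ e ∈ E, ∃ M ∈ S, a * e ∈ M ∧ Comm M E ∧ Comm M A) :
    CC S A ⁅E, B⁆ ∧ ⁅A, ⁅E, B⁆⁆ = E := by
  have key : ∀ a ∈ A, ∃ b ∈ B, cj a ⁅E, B⁆ = cj b E ∨ a = 1 := by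
    intro a ha
    by_cases ha1 : a = 1
    · exact ⟨1, B.one_mem, Or.inr ha1⟩
    obtain ⟨b, hb, -, hab⟩ := RO.ex_b hAB ha ha1
    exact ⟨b, hb, Or.inl (lemK_cj hS hA hB hE hAB hEB hcov ha ha1 hb hab)⟩
  have h1 : CC S A ⁅E, B⁆ := by
    rcases cases hS hA hEB.mem with h | h | h
    · exact absurd h.symm (not_comm_cc hS hA hB hE hAB hEB)
    · exfalso
      obtain ⟨a, ha, ha1⟩ := exists_ne_one_of_ne_bot (hS.ne_bot A hA)
      obtain ⟨b, hb, e | e⟩ := key a ha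
      · refine ha1 (RO.eq_one_of_comm_cj h ha ?_)
        rw [e]
        have := hEB.commA.cj b
        rwa [hEB.commB.symm.cj_eq hb] at this
      · exact ha1 e
    · exact h
  refine ⟨h1, ?_⟩
  have hle : ⁅A, ⁅E, B⁆⁆ ≤ E ⊔ ⁅E, B⁆ := by
    rw [Subgroup.commutator_le]
    intro a ha f hf
    obtain ⟨b, hb, e | rfl⟩ := key a ha
    · rw [commutatorElement_def]
      refine Subgroup.mul_mem _ ?_ (Subgroup.mem_sup_right (Subgroup.inv_mem _ hf))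
      have := conj_mem_cj a hf
      rw [e] at this
      rw [← cj_sup_cc hEB hb]
      exact Subgroup.mem_sup_left this
    · simp
  rcases cc_members hS hE (hN E hE) hEB h1.mem hle with h | ⟨b, hb, h⟩
  · exact absurd (Subgroup.commutator_comm A _ ▸ h) (cc_ne hS hEB.mem h1.symm)
  · by_cases hb1 : b = 1
    · rw [h, hb1, cj_one]
    · exfalso
      have h2 := h1.commA
      rw [h] at h2
      have h3 := h2.cj b⁻¹
      rw [cj_inv_cj] at h3
      exact cc_not_comm hS hEB (comm_of_comm_cj (RO.symm hAB) (B.inv_mem hb) (by simpa using hb1)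
        hAE.symm h3)

theorem lemK_line (hS : IsRootSubgroupSet S) (hN : AllNI S) (hL : Line S A E) (hB : B ∈ S)
    (hAB : IsRankOnePair A B) {E₀ : Subgroup G} (hE₀ : E₀ ∈ S) (hle : E₀ ≤ A ⊔ E)
    (hEB : CC S E₀ B) : CC S A ⁅E₀, B⁆ ∧ ⁅A, ⁅E₀, B⁆⁆ = E₀ := by
  have hc := line_comm hS hL
  refine lemK hS hN hL.memA hB hE₀ hAB hEB (hc.mono le_sup_left hle) fun a ha ha1 e he => ?_
  obtain ⟨M, hM, hMle, hx⟩ := hL.cover (a * e)
    (Subgroup.mul_mem _ (Subgroup.mem_sup_left ha) (hle he)) (by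
      intro h
      have h1 : a ∈ E₀ := by rw [eq_inv_of_mul_eq_one_left h]; exact E₀.inv_mem he
      exact cc_not_ro hS hB hEB (ti hS ⟨B, hB, hAB⟩ hE₀ ha ha1 h1 ▸ hAB))
  exact ⟨M, hM, hx, hc.mono hMle hle, hc.mono hMle le_sup_left⟩

/-- a line through `A` has a point in the commutator case with a partner of `A` -/
theorem ex_cc_le (hS : IsRootSubgroupSet S) (hL : Line S A E) (hB : B ∈ S)
    (hAB : IsRankOnePair A B) : ∃ E₀ ∈ S, E₀ ≤ A ⊔ E ∧ CC S E₀ B := by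
  have hc := line_comm hS hL
  have hinf : ∀ a ∈ A, a ∈ E → a = 1 := fun a ha haE => by
    by_contra h; exact hL.ne (ti hS ⟨B, hB, hAB⟩ hL.memE ha h haE).symm
  rcases cases hS hL.memE hB with h | h | h
  · exfalso
    obtain ⟨e, he, he1⟩ := exists_ne_one_of_ne_bot (hS.ne_bot E hL.memE)
    obtain ⟨a, ha, ha1⟩ := exists_ne_one_of_ne_bot (hS.ne_bot A hL.memA)
    obtain ⟨M, hM, -, hx⟩ := hL.cover (e * a)
      (Subgroup.mul_mem _ (Subgroup.mem_sup_right he) (Subgroup.mem_sup_left ha)) (by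
        intro h
        exact ha1 (hinf a ha (by rw [eq_inv_of_mul_eq_one_right h]; exact E.inv_mem he)))
    exact he1 (central hS hAB hB (hL.comm.symm e he) (h e he) ha ha1 hM hx)
  · obtain ⟨b, hb, hb1⟩ := exists_ne_one_of_ne_bot (hS.ne_bot B hB)
    obtain ⟨a, ha, ha1, e1⟩ := RO.ex_a hAB hb hb1
    obtain ⟨e, he, he1, e2⟩ := RO.ex_a h hb hb1
    have hz : a⁻¹ * e ∈ A ⊔ E :=
      Subgroup.mul_mem _ (Subgroup.mem_sup_left (A.inv_mem ha)) (Subgroup.mem_sup_right he)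
    have hz1 : a⁻¹ * e ≠ 1 := fun h => ha1 (hinf a ha (by rw [inv_mul_eq_one.1 h]; exact he))
    obtain ⟨M, hM, hle, hx⟩ := hL.cover _ hz hz1
    refine ⟨M, hM, hle, ?_⟩
    rcases cases hS hM hB with h' | h' | h'
    · exfalso
      have hza : ∀ x ∈ A, a⁻¹ * e * x = x * (a⁻¹ * e) := fun x hx' =>
        hc _ hz x (Subgroup.mem_sup_left hx')
      refine hz1 (central hS hAB hB hza (h' _ hx) ha ha1 hL.memE ?_)
      rw [hza a ha]; simpa using he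
    · exfalso
      refine hz1 (RO.eq_one_of_comm_cj h' hx ?_)
      have := (hL.comm.cj b).cj a⁻¹
      rwa [e1, e2, cj_inv_cj, cj_cj] at this
    · exact h'
  · exact ⟨E, hL.memE, le_sup_right, h⟩

theorem line_sup_eq (hS : IsRootSubgroupSet S) (hN : AllNI S) (hL : Line S A E) {E₀ : Subgroup G}
    (hL' : Line S A E₀) (hle : E₀ ≤ A ⊔ E) : A ⊔ E₀ = A ⊔ E := by
  refine le_antisymm (sup_le le_sup_left hle) (sup_le le_sup_left ?_)
  obtain ⟨w, hw, hw1⟩ := exists_ne_one_of_ne_bot (hS.ne_bot E₀ hL'.memE)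
  obtain ⟨a, ha, e, he, rfl⟩ := hL.comm.mem_sup (hle hw)
  have he1 : e ≠ 1 := by
    rintro rfl
    exact hw1 (ti' hS hN hL'.memE hL.memA hL'.ne hw (by simpa using ha))
  obtain ⟨M, hM, hMle, heM⟩ := hL'.cover e (by
    have := Subgroup.mul_mem _ (Subgroup.mem_sup_left (A.inv_mem ha) : a⁻¹ ∈ A ⊔ E₀)
      (Subgroup.mem_sup_right hw)
    simpa using this) he1
  rw [ti hS (hN E hL.memE) hM he he1 heM]
  exact hMle

/-- the structure of a line relative to a partner of one of its points -/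
theorem line_struct (hS : IsRootSubgroupSet S) (hN : AllNI S) (hL : Line S A E) (hB : B ∈ S)
    (hAB : IsRankOnePair A B) : ∃ E₀ ∈ S, CC S E₀ B ∧ CC S A ⁅E₀, B⁆ ∧ ⁅A, ⁅E₀, B⁆⁆ = E₀ ∧
      A ⊔ E₀ = A ⊔ E ∧ Line S A E₀ := by
  obtain ⟨E₀, hE₀, hle, h⟩ := ex_cc_le hS hL hB hAB
  obtain ⟨h1, h2⟩ := lemK_line hS hN hL hB hAB hE₀ hle h
  have h3 := line_of_cc hS hL.memA h1
  rw [h2] at h3
  exact ⟨E₀, hE₀, h, h1, h2, line_sup_eq hS hN hL h3 hle, h3⟩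

theorem cj_line_cc (h : CC S A B) {b : G} (hb : b ∈ B) : cj b (A ⊔ ⁅A, B⁆) = A ⊔ ⁅A, B⁆ := by
  rw [cj_sup, h.commB.symm.cj_eq hb, cj_sup_cc h hb]

theorem cj_ne_cc (hS : IsRootSubgroupSet S) (h : CC S A B) {b : G} (hb : b ∈ B) (hb1 : b ≠ 1) :
    cj b A ≠ A := by
  intro e
  have h1 := sup_cj_cc h hb hb1
  rw [e, sup_idem] at h1
  obtain ⟨c, hc, hc1⟩ := exists_ne_one_of_ne_bot (hS.ne_bot _ h.mem)
  exact hc1 (cc_inf hS h (h1 ▸ Subgroup.mem_sup_right hc) hc)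

/-- the group generated by the members normalizing `L` -/
abbrev nGroup (S : Set (Subgroup G)) (L : Subgroup G) : Subgroup G :=
  ⨆ E ∈ normalizingMembers S L, E

theorem mem_nGroup {L : Subgroup G} (hB : B ∈ S) (h : ∀ b ∈ B, cj b L = L) {b : G} (hb : b ∈ B) :
    b ∈ nGroup S L :=
  (le_iSup₂_of_le (f := fun E (_ : E ∈ normalizingMembers S L) => E) B
    ⟨hB, fun b hb => cj_eq_self_iff.1 (h b hb)⟩ le_rfl) hb

theorem cj_nGroup {L : Subgroup G} {x : G} (hx : x ∈ nGroup S L) : cj x L = L :=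
  cj_eq_self_iff.2 ((iSup₂_le fun _ hE => hE.2 : nGroup S L ≤ _) hx)

/-- double transitivity on the points of a line -/
theorem two_trans (hS : IsRootSubgroupSet S) (hN : AllNI S) (hL : Line S A E)
    {C₁ C₂ D₁ D₂ : Subgroup G} (hC₁ : C₁ ∈ membersIn S (A ⊔ E)) (hC₂ : C₂ ∈ membersIn S (A ⊔ E))
    (hD₁ : D₁ ∈ membersIn S (A ⊔ E)) (hD₂ : D₂ ∈ membersIn S (A ⊔ E)) (hC : C₁ ≠ C₂)
    (hD : D₁ ≠ D₂) : ∃ x ∈ nGroup S (A ⊔ E), cj x C₁ = D₁ ∧ cj x C₂ = D₂ := by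
  obtain ⟨B, hB, hAB⟩ := hN A hL.memA
  obtain ⟨E₀, hE₀, h0, h1, h2, h3, h4⟩ := line_struct hS hN hL hB hAB
  obtain ⟨B', hB', hEB'⟩ := hN E₀ hE₀
  obtain ⟨E₁, -, h5', h5, h6, h7, -⟩ := line_struct hS hN h4.symm hB' hEB'
  set F := ⁅E₀, B⁆
  set F' := ⁅E₁, B'⁆
  set L := A ⊔ E
  have hF : ∀ f ∈ F, f ∈ nGroup S L := fun f hf => mem_nGroup h0.mem (fun b hb => by
    have := cj_line_cc h1 hb
    rwa [h2, h3] at this) hf
  have hF' : ∀ f ∈ F', f ∈ nGroup S L := fun f hf => mem_nGroup h5'.mem (fun b hb => by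
    have := cj_line_cc h5 hb
    rwa [h6, h7, sup_comm, h3] at this) hf
  have hmem : ∀ M ∈ membersIn S L, M = E₀ ∨ ∃ f ∈ F, M = cj f A := by
    intro M hM
    have := cc_members hS hL.memA (hN A hL.memA) h1 hM.1 (by rw [h2, h3]; exact hM.2)
    rwa [h2] at this
  have hcj : ∀ x ∈ nGroup S L, ∀ M ∈ membersIn S L, cj x M ∈ membersIn S L := fun x hx M hM =>
    ⟨cj_mem hS hM.1 x, by rw [← cj_nGroup hx]; exact cj_mono x hM.2⟩
  have hE₀L : E₀ ∈ membersIn S L := ⟨hE₀, h3 ▸ le_sup_right⟩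
  have hfix : ∀ f ∈ F, cj f E₀ = E₀ := fun f hf => h0.commA.cj_eq hf
  have step1 : ∀ M ∈ membersIn S L, ∃ x ∈ nGroup S L, cj x M = E₀ := by
    intro M hM
    rcases hmem M hM with rfl | ⟨f, hf, rfl⟩
    · exact ⟨1, Subgroup.one_mem _, cj_one _⟩
    · obtain ⟨f', hf', hf1⟩ := exists_ne_one_of_ne_bot (hS.ne_bot _ h5'.mem)
      rcases hmem _ (hcj f' (hF' f' hf') E₀ hE₀L) with e | ⟨f₂, hf₂, e⟩
      · exact absurd e (cj_ne_cc hS h5 hf' hf1)
      · refine ⟨f'⁻¹ * f₂ * f⁻¹, Subgroup.mul_mem _ (Subgroup.mul_mem _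
          (Subgroup.inv_mem _ (hF' _ hf')) (hF _ hf₂)) (Subgroup.inv_mem _ (hF _ hf)), ?_⟩
        rw [cj_mul, cj_mul, cj_inv_cj, ← e, cj_inv_cj]
  have step2 : ∀ M ∈ membersIn S L, ∀ M' ∈ membersIn S L, M ≠ M' →
      ∃ x ∈ nGroup S L, cj x M = E₀ ∧ cj x M' = A := by
    intro M hM M' hM' hne
    obtain ⟨x, hx, e⟩ := step1 M hM
    rcases hmem _ (hcj x hx M' hM') with e' | ⟨f, hf, e'⟩
    · exact absurd (cj_injective x (e.trans e'.symm)) hne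
    · refine ⟨f⁻¹ * x, Subgroup.mul_mem _ (Subgroup.inv_mem _ (hF _ hf)) hx, ?_, ?_⟩
      · rw [cj_mul, e, hfix _ (F.inv_mem hf)]
      · rw [cj_mul, e', cj_inv_cj]
  obtain ⟨x, hx, e1, e2⟩ := step2 C₁ hC₁ C₂ hC₂ hC
  obtain ⟨y, hy, e3, e4⟩ := step2 D₁ hD₁ D₂ hD₂ hD
  refine ⟨y⁻¹ * x, Subgroup.mul_mem _ (Subgroup.inv_mem _ hy) hx, ?_, ?_⟩
  · rw [cj_mul, e1, ← e3, cj_inv_cj]
  · rw [cj_mul, e2, ← e4, cj_inv_cj]

/-- for a line `A E` some partner of `A` is in the commutator case with `E` -/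
theorem ex_opp (hS : IsRootSubgroupSet S) (hN : AllNI S) (hL : Line S A E) :
    ∃ B ∈ S, IsRankOnePair A B ∧ CC S E B := by
  obtain ⟨B, hB, hAB⟩ := hN A hL.memA
  obtain ⟨E₀, hE₀, h0, -, -, h3, h4⟩ := line_struct hS hN hL hB hAB
  obtain ⟨x, -, e1, e2⟩ := two_trans hS hN hL ⟨hL.memA, le_sup_left⟩ ⟨hE₀, h3 ▸ le_sup_right⟩
    ⟨hL.memA, le_sup_left⟩ ⟨hL.memE, le_sup_right⟩ h4.ne.symm hL.ne.symm
  refine ⟨cj x B, cj_mem hS hB x, ?_, ?_⟩
  · rw [← e1]; exact RO.cj_pair hAB x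
  · rw [← e2]; exact cc_cj hS hE₀ hB h0 x

/-- for a line `A E` there is `P ∈ Λ_E` with `[A, P] = E` -/
theorem ex_cc_eq (hS : IsRootSubgroupSet S) (hN : AllNI S) (hL : Line S A E) :
    ∃ P ∈ S, CC S A P ∧ ⁅A, P⁆ = E ∧ Line S E P := by
  obtain ⟨B, hB, hAB, hEB⟩ := ex_opp hS hN hL
  obtain ⟨h1, h2⟩ := lemK_line hS hN hL hB hAB hL.memE le_sup_right hEB
  exact ⟨_, hEB.mem, h1, h2, line_of_cc hS hL.memE hEB⟩

theorem line_of_le (hS : IsRootSubgroupSet S) (hN : AllNI S) (hL : Line S A E) (hC : C ∈ S)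
    (hle : C ≤ A ⊔ E) (hne : C ≠ A) : Line S A C ∧ A ⊔ C = A ⊔ E := by
  obtain ⟨x, hx, e1, e2⟩ := two_trans hS hN hL ⟨hL.memA, le_sup_left⟩ ⟨hL.memE, le_sup_right⟩
    ⟨hL.memA, le_sup_left⟩ ⟨hC, hle⟩ hL.ne.symm hne.symm
  have := line_cj hS hL x
  rw [e1, e2] at this
  exact ⟨this, line_sup_eq hS hN hL this hle⟩

/-- a commuting pair with a common partner is swapped by some element -/
theorem triangle_match (hAD : IsRankOnePair A D) (hCD : IsRankOnePair C D) (hAC : Comm A C)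
    {a c d : G} (hd : d ∈ D) (e : cj d A = cj a D) (hc : c ∈ C) (hc1 : c ≠ 1)
    (h : Comm (cj a D) (cj c D)) : cj d C = cj c D := by
  obtain ⟨d', hd', -, e'⟩ := RO.ex_b hCD hc hc1
  by_cases hdd : d⁻¹ * d' = 1
  · rw [inv_mul_eq_one.1 hdd, e']
  · exfalso
    rw [← e, ← e'] at h
    have h3 := h.cj d⁻¹
    rw [cj_inv_cj, cj_cj] at h3
    exact RO.not_comm hAD (comm_of_comm_cj (RO.symm hCD) (D.mul_mem (D.inv_mem hd) hd') hdd hAC h3)

theorem triangle_inv (hAD : IsRankOnePair A D) (hCD : IsRankOnePair C D) (hAC : Comm A C)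
    {a c d d' : G} (ha : a ∈ A) (hc : c ∈ C) (hc1 : c ≠ 1) (e1 : cj d A = cj a D)
    (e2 : cj d C = cj c D) (hd' : d' ∈ D) (e3 : cj d' A = cj a⁻¹ D) : cj d' C = cj c⁻¹ D := by
  refine triangle_match hAD hCD hAC hd' e3 (C.inv_mem hc) (by simpa using hc1) ?_
  have h := hAC.cj d
  rw [e1, e2] at h
  have h' := h.symm.cj (a⁻¹ * c⁻¹)
  rwa [cj_cj, cj_cj, inv_mul_cancel_right, show a⁻¹ * c⁻¹ * a = c⁻¹ by
    rw [hAC _ (A.inv_mem ha) _ (C.inv_mem hc), inv_mul_cancel_right]] at h'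

theorem triangle_swap (hAD : IsRankOnePair A D) (hCD : IsRankOnePair C D) (hAC : Comm A C) :
    ∃ g : G, cj g A = C ∧ cj g C = A := by
  obtain ⟨d, hd, hd1⟩ := exists_ne_one_of_ne_bot (RO.ne_bot_right hAD)
  obtain ⟨a, ha, ha1, e1⟩ := RO.ex_a hAD hd hd1
  obtain ⟨c, hc, hc1, e2⟩ := RO.ex_a hCD hd hd1
  obtain ⟨d', hd', -, e3⟩ := RO.ex_b hAD (A.inv_mem ha) (by simpa using ha1)
  have e4 := triangle_inv hAD hCD hAC ha hc hc1 e1 e2 hd' e3
  refine ⟨d'⁻¹ * (c⁻¹ * a⁻¹) * d, ?_, ?_⟩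
  · rw [cj_mul, cj_mul, e1, cj_cj, cj_cj, mul_assoc, inv_mul_cancel_right, cj_mul, ← e4, cj_inv_cj]
  · rw [cj_mul, cj_mul, e2, cj_cj, cj_cj, mul_assoc, ← hAC _ (A.inv_mem ha) _ (C.inv_mem hc),
      inv_mul_cancel_right, cj_mul, ← e3, cj_inv_cj]

/-- if `C_Σ(A) ⊆ C_Σ(C)` then `Ω_C ⊆ Ω_A` -/
theorem ro_of_cent_le (hS : IsRootSubgroupSet S) (hA : A ∈ S) (hD : D ∈ S)
    (h : ∀ M ∈ S, Comm M A → Comm M C) (hC : C ∈ S) (hCD : IsRankOnePair C D) :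
    IsRankOnePair A D := by
  rcases cases hS hA hD with h1 | h1 | h1
  · exact absurd (h D hD h1.symm).symm (RO.not_comm hCD)
  · exact h1
  · exact absurd (h _ h1.mem h1.commA) (not_comm_cc hS hC hD hA hCD h1)

section Nondeg

theorem allNI_of_nondeg (hS : IsRootSubgroupClass S) (hnd : IsNondegenerateRootSet S) :
    AllNI S := by
  obtain ⟨A, hA, B, hB, h⟩ := hnd.2.1
  exact allNI_of_class hS hA ⟨B, hB, h⟩

theorem ex_line (hS : IsRootSubgroupClass S) (hnd : IsNondegenerateRootSet S) (hA : A ∈ S) :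
    ∃ E, Line S A E := by
  obtain ⟨P, hP, Q, -, h⟩ := hnd.2.2
  obtain ⟨g, rfl⟩ := hS.2.2 P hP A hA
  exact ⟨_, line_cj hS.1 (line_of_cc hS.1 hP (cc_iff.1 h)) g⟩

theorem line_path (hS : IsRootSubgroupClass S) (hnd : IsNondegenerateRootSet S) (hA : A ∈ S)
    (hB : B ∈ S) : Relation.ReflTransGen (Line S) A B := by
  have hN := allNI_of_nondeg hS hnd
  have h := conn_of_class hS hN hA hB
  clear hB
  induction h with
  | refl => exact .refl
  | @tail B C _ h ih =>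
    obtain ⟨E, hL⟩ := ex_line hS hnd h.1
    obtain ⟨E₀, hE₀, h0, -, -, -, h4⟩ := line_struct hS.1 hN hL h.2.1 h.2.2
    have h5 := (line_of_cc hS.1 h.2.1 h0.symm).symm
    rw [Subgroup.commutator_comm] at h5
    exact ((ih.tail h4).tail (line_of_cc hS.1 hE₀ h0)).tail h5

/-- `G = ⟨Λ_A, B⟩` -/
theorem eq_top_of_lines (hS : IsRootSubgroupClass S) (hnd : IsNondegenerateRootSet S) (hA : A ∈ S)
    (hB : B ∈ S) (hAB : IsRankOnePair A B) {H : Subgroup G} (hH : ∀ E, Line S A E → E ≤ H)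
    (hBH : B ≤ H) : H = ⊤ := by
  have hN := allNI_of_nondeg hS hnd
  have key : ∀ E, Line S A E → ∃ h ∈ H, E = cj h A := by
    intro E hL
    obtain ⟨E₀, hE₀, h0, h1, h2, h3, h4⟩ := line_struct hS.1 hN hL hB hAB
    obtain ⟨f, hf, hf1⟩ := exists_ne_one_of_ne_bot (hS.1.ne_bot _ h0.mem)
    have hfH : f ∈ H := commutator_le_of_le (hH _ h4) hBH hf
    have hle : cj f A ≤ E ⊔ A := by
      rw [sup_comm, ← h3, ← h2, ← cj_line_cc h1 hf]; exact cj_mono f le_sup_left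
    obtain ⟨P, -, h5, h6, h7⟩ := ex_cc_eq hS.1 hN hL.symm
    rcases cc_members hS.1 hL.memE (hN _ hL.memE) h5 (cj_mem hS.1 hA f) (h6.symm ▸ hle) with
      e | ⟨p, hp, e⟩
    · exact absurd (e.trans h6) (cj_ne_cc hS.1 h1 hf hf1)
    · exact ⟨p⁻¹ * f, H.mul_mem (H.inv_mem (hH P h7 hp)) hfH, by rw [cj_mul, e, cj_inv_cj]⟩
  have hAH : A ≤ H := by
    obtain ⟨E, hL⟩ := ex_line hS hnd hA
    obtain ⟨h, hh, e⟩ := key E hL
    have := cj_le_of_le (hH E hL) (H.inv_mem hh)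
    rwa [e, cj_inv_cj] at this
  have key2 : ∀ M, Relation.ReflTransGen (Line S) A M → ∃ h ∈ H, M = cj h A := by
    intro M h
    induction h with
    | refl => exact ⟨1, H.one_mem, (cj_one A).symm⟩
    | tail _ h ih =>
      obtain ⟨x, hx, rfl⟩ := ih
      have := line_cj hS.1 h x⁻¹
      rw [cj_inv_cj] at this
      obtain ⟨y, hy, e⟩ := key _ this
      exact ⟨x * y, H.mul_mem hx hy, by rw [cj_mul, ← e, cj_cj_inv]⟩
  rw [eq_top_iff, ← hS.1.generates]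
  refine iSup₂_le fun M hM => ?_
  obtain ⟨h, hh, rfl⟩ := key2 M (line_path hS hnd hA hM)
  exact cj_le_of_le hAH hh

end Nondeg

end Root

end Cfsg.Agent.H19
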