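import Mathlib
import Cfsg.Agent.H19.Root3

/-! Abstract root subgroups: rank one pairs in a triangle are special; normal subgroups. -/

namespace Cfsg.Agent.H19

open Cfsg
open scoped commutatorElement

variable {G : Type*} [Group G] {S : Set (Subgroup G)} {A B C D E : Subgroup G}

theorem comm_cj_inv {u : G} (h : Comm D (cj u D)) : Comm D (cj u⁻¹ D) := by
  have := h.symm.cj u⁻¹
  rwa [cj_inv_cj] at this

theorem tri_cent {y a : G} (hA : Comm A A) (hc : Comm A (cj y A)) (ha : a ∈ A) :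
    ∀ x ∈ A, ⁅a, y⁆ * x = x * ⁅a, y⁆ := by
  intro x hx
  have h1 : Commute x a := hA x hx a ha
  have h2 : Commute x (y * a⁻¹ * y⁻¹) := hc x hx _ (conj_mem_cj y (A.inv_mem ha))
  have := (h1.mul_right h2).symm.eq
  rwa [show a * (y * a⁻¹ * y⁻¹) = ⁅a, y⁆ by rw [commutatorElement_def]; group] at this

theorem tri_mul {y a a' : G} (hA : Comm A A) (hc : Comm A (cj y A)) (ha : a ∈ A) (ha' : a' ∈ A) :
    ⁅a * a', y⁆ = ⁅a, y⁆ * ⁅a', y⁆ := by
  rw [hA a ha a' ha']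
  exact comm_mul_left (tri_cent hA hc ha a' ha')

theorem tri_inv {y a : G} (hA : Comm A A) (hc : Comm A (cj y A)) (ha : a ∈ A) :
    ⁅a⁻¹, y⁆ = ⁅a, y⁆⁻¹ := comm_inv_left (tri_cent hA hc ha a ha)

theorem cj_tri {y a : G} (hy : ∀ d ∈ D, y * d = d * y) :
    cj ⁅a, y⁆ D = cj a (cj y (cj a⁻¹ D)) := by
  rw [commutatorElement_def, cj_mul, cj_mul, cj_mul,
    cj_inv_eq_self (cj_eq_self_of_forall_commute hy)]

theorem tri_comm {y a : G} (h : IsRankOnePair A D) (hD : Comm D D) (hy : ∀ d ∈ D, y * d = d * y)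
    (hc : Comm A (cj y A)) (ha : a ∈ A) : Comm D (cj ⁅a, y⁆ D) := by
  by_cases ha1 : a = 1
  · simpa [ha1] using hD
  obtain ⟨d, hd, -, e⟩ := RO.ex_b h (A.inv_mem ha) (by simpa using ha1)
  rw [cj_tri hy, ← e, cj_cj y d, hy d hd, cj_mul]
  have := (hc.cj d).cj a
  rwa [e, cj_cj_inv] at this

namespace Root

theorem tri_eq_one (hS : IsRootSubgroupSet S) (hA : A ∈ S) (hD : D ∈ S) {y a : G}
    (h : IsRankOnePair A D) (hy : ∀ d ∈ D, y * d = d * y) (hc : Comm A (cj y A)) (hne : cj y A ≠ A)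
    (ha : a ∈ A) (e : cj ⁅a, y⁆ D = D) : a = 1 := by
  by_contra ha1
  have hc' : y * a⁻¹ * y⁻¹ ∈ cj y A := conj_mem_cj y (A.inv_mem ha)
  have e' : cj (y * a⁻¹ * y⁻¹) D = cj a⁻¹ D := by
    rw [← cj_eq_iff, cj_cj, ← e, commutatorElement_def]
    congr 1; group
  obtain ⟨-, -, h3⟩ := (wr_of_root hS).unip_of_cj h (cj_mem hS hA y) hD hc' (A.inv_mem ha)
    (by simpa using ha1) e'
  exact hne (RO.unip_eq_of_commute h h3 RO.left_mem_unip hc'
    (by simpa [mul_eq_one_iff_eq_inv] using ha1) ha ha1 (hc a ha _ hc').symm)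

/-- the element `[v, d⁻¹] y` centralizes `A` -/
theorem tri_s {y a d : G} (hA : Comm A A) (hy : ∀ d ∈ D, y * d = d * y) (hc : Comm A (cj y A))
    (ha : a ∈ A) (hd : d ∈ D) (e : cj d A = cj a D) :
    ∀ x ∈ A, (⁅⁅a, y⁆⁻¹, d⁻¹⁆ * y) * x = x * (⁅⁅a, y⁆⁻¹, d⁻¹⁆ * y) := by
  intro x hx
  have h1 : a⁻¹ * (d * x * d⁻¹) * a ∈ D := by rw [← mem_cj, ← e]; exact conj_mem_cj d hx
  have h2 : Commute y (a⁻¹ * (d * x * d⁻¹) * a) := hy _ h1
  have h3 : Commute (d⁻¹ * (a * y * a⁻¹) * d) x := by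
    have := h2.eq
    calc d⁻¹ * (a * y * a⁻¹) * d * x = d⁻¹ * a * (y * (a⁻¹ * (d * x * d⁻¹) * a)) * a⁻¹ * d := by group
      _ = _ := by rw [this]; group
  have h4 : Commute ⁅a, y⁆ x := tri_cent hA hc ha x hx
  have h5 := (h4.inv_left.mul_left h3).eq
  have e1 : ⁅a, y⁆⁻¹ * (d⁻¹ * (a * y * a⁻¹) * d) = ⁅⁅a, y⁆⁻¹, d⁻¹⁆ * y := by
    rw [conj_eq_comm_mul, commutatorElement_def ⁅a, y⁆⁻¹]
    simp only [inv_inv, mul_assoc, hy d hd]
  rwa [e1] at h5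

/-- a rank one pair in a triangle is special -/
theorem special_of_tri (hS : IsRootSubgroupSet S) (hA : A ∈ S) (hD : D ∈ S) {y : G}
    (h : IsRankOnePair A D) (hy : ∀ d ∈ D, y * d = d * y) (hc : Comm A (cj y A))
    (hne : cj y A ≠ A) : IsSpecialRankOnePair A D := by
  have hAA := comm hS hA
  have hDD := comm hS hD
  refine RO.special_of_inv h fun a ha ha1 d hd hd1 e => ?_
  obtain ⟨a', ha', -, e'⟩ := RO.ex_a h (D.inv_mem hd) (by simpa using hd1)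
  suffices hh : a * a' = 1 by rw [e', eq_inv_of_mul_eq_one_right hh]
  have s1 := tri_s hAA hy hc ha hd e
  have s2 := tri_s hAA hy hc ha' (D.inv_mem hd) e'
  rw [inv_inv] at s2
  rw [← tri_inv hAA hc ha] at s1
  rw [← tri_inv hAA hc ha'] at s2
  set v := ⁅a⁻¹, y⁆ with hv
  set v' := ⁅a'⁻¹, y⁆ with hv'
  have hvA := tri_cent hAA hc (A.inv_mem ha)
  have hv'A := tri_cent hAA hc (A.inv_mem ha')
  have hvD := tri_comm h hDD hy hc (A.inv_mem ha)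
  have hv'D := tri_comm h hDD hy hc (A.inv_mem ha')
  have hvv : ⁅a⁻¹ * a'⁻¹, y⁆ = v * v' := tri_mul hAA hc (A.inv_mem ha) (A.inv_mem ha')
  have hvv'D := tri_comm h hDD hy hc (A.mul_mem (A.inv_mem ha) (A.inv_mem ha'))
  rw [← hv] at hvA hvD
  rw [← hv'] at hv'A hv'D
  rw [hvv] at hvv'D
  -- `y' = [v', d]`
  have hy'A : Comm A (cj ⁅v', d⁆ A) := by
    rw [← commutatorElement_inv]
    exact comm_cj_inv (tri_comm (RO.symm h) hAA hv'A hv'D hd)
  have hy'y : cj ⁅v', d⁆ (cj y A) = A := by rw [cj_cj]; exact cj_eq_self_of_forall_commute s2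
  have hz : ∀ x ∈ A, ⁅v * v', d⁆ * x = x * ⁅v * v', d⁆ := by
    intro x hx
    have k1 : Commute v x := hvA x hx
    have k2 : Commute (⁅v, d⁻¹⁆ * y) x := s1 x hx
    have k3 : Commute (⁅v', d⁆ * y) x := s2 x hx
    have k4 : Commute (⁅v', d⁆ * v⁻¹ * ⁅v', d⁆⁻¹) x := by
      have e1 : v⁻¹ = (y * a⁻¹ * y⁻¹) * a := by rw [hv, commutatorElement_def]; group
      have m1 : ⁅v', d⁆ * (y * a⁻¹ * y⁻¹) * ⁅v', d⁆⁻¹ ∈ A := by
        rw [← hy'y]; exact conj_mem_cj _ (conj_mem_cj _ (A.inv_mem ha))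
      have m2 : Commute (⁅v', d⁆ * a * ⁅v', d⁆⁻¹) x := (hy'A x hx _ (conj_mem_cj _ ha)).symm
      have := (show Commute _ x from hAA _ m1 x hx).mul_left m2
      rwa [show ⁅v', d⁆ * (y * a⁻¹ * y⁻¹) * ⁅v', d⁆⁻¹ * (⁅v', d⁆ * a * ⁅v', d⁆⁻¹) =
        ⁅v', d⁆ * v⁻¹ * ⁅v', d⁆⁻¹ by rw [e1]; simp only [mul_assoc, inv_mul_cancel_left]] at this
    have e2 : ⁅v, d⁆ = ⁅v, d⁻¹⁆⁻¹ := by
      rw [comm_inv_right, inv_inv]
      have := tri_cent hDD hvD hd d hd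
      rw [← commutatorElement_inv, inv_mul_eq_iff_eq_mul, ← mul_assoc, eq_mul_inv_iff_mul_eq] at this
      exact this.symm
    have := ((k1.mul_left k4).mul_left (k3.mul_left k2.inv_left)).eq
    convert this using 2 <;>
    · rw [show ⁅v * v', d⁆ = v * ⁅v', d⁆ * v⁻¹ * ⁅v, d⁆ by simp only [commutatorElement_def]; group, e2]
      group
  have hzD : ∀ x ∈ D, ⁅v * v', d⁆ * x = x * ⁅v * v', d⁆ := by
    intro x hx
    have := (show Commute _ x from tri_cent hDD hvv'D hd x hx).inv_left.eq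
    rwa [commutatorElement_inv] at this
  have h1 := central hS (RO.symm h) hA hzD hz hd hd1 (cj_mem hS hD (v * v'))
    (by rw [← conj_eq_comm_mul]; exact conj_mem_cj _ hd)
  have h2 : cj (v * v') D = D := (wr_of_root hS).cj_eq_of_commute (RO.symm h) hA (cj_mem hS hD _)
    hd hd1 (commutatorElement_eq_one_iff_mul_comm.1 h1)
  have h3 := tri_eq_one hS hA hD h hy hc hne (A.mul_mem (A.inv_mem ha) (A.inv_mem ha'))
    (hvv ▸ h2)
  rw [hAA a ha a' ha', ← inv_eq_one, mul_inv_rev, h3]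

theorem tri_of_triangle (hS : IsRootSubgroupSet S) (hA : A ∈ S) (hC : C ∈ S) (hD : D ∈ S)
    (hAD : IsRankOnePair A D) (hCD : IsRankOnePair C D) (hAC : Comm A C) (hne : C ≠ A) :
    ∃ z : G, (∀ a ∈ A, z * a = a * z) ∧ Comm D (cj z D) ∧ cj z D ≠ D := by
  obtain ⟨d, hd, hd1⟩ := exists_ne_one_of_ne_bot (RO.ne_bot_right hAD)
  obtain ⟨a, ha, ha1, e1⟩ := RO.ex_a hAD hd hd1
  obtain ⟨c, hc, hc1, e2⟩ := RO.ex_a hCD hd hd1
  refine ⟨a⁻¹ * c, fun x hx => ?_, ?_, fun e => ?_⟩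
  · exact ((show Commute a x from comm hS hA a ha x hx).inv_left.mul_left (hAC x hx c hc).symm).eq
  · have := (hAC.cj d).cj a⁻¹
    rwa [e1, e2, cj_inv_cj, cj_cj] at this
  · rw [← cj_eq_cj_iff] at e
    obtain ⟨-, -, h3⟩ := (wr_of_root hS).unip_of_cj hAD hC hD hc ha ha1 e
    exact hne (RO.unip_eq_of_commute hAD h3 RO.left_mem_unip hc hc1 ha ha1 (hAC a ha c hc).symm)

theorem special_of_triangle (hS : IsRootSubgroupSet S) (hA : A ∈ S) (hC : C ∈ S) (hD : D ∈ S)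
    (hAD : IsRankOnePair A D) (hCD : IsRankOnePair C D) (hAC : Comm A C) (hne : C ≠ A) :
    IsSpecialRankOnePair A D := by
  obtain ⟨z, h1, h2, h3⟩ := tri_of_triangle hS hA hC hD hAD hCD hAC hne
  exact RO.special_symm (special_of_tri hS hD hA (RO.symm hAD) h1 h2 h3)

theorem special_of_line (hS : IsRootSubgroupSet S) (hN : AllNI S) (hL : Line S A E) (hB : B ∈ S)
    (hAB : IsRankOnePair A B) : IsSpecialRankOnePair A B := by
  obtain ⟨E₀, -, h0, h1, -, -, -⟩ := line_struct hS hN hL hB hAB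
  obtain ⟨f, hf, hf1⟩ := exists_ne_one_of_ne_bot (hS.ne_bot _ h0.mem)
  exact special_of_tri hS hL.memA hB hAB (h0.commB f hf)
    (comm_cj_of_not_ro hS h0.mem hL.memA (cc_not_ro hS hL.memA h1.symm) hf) (cj_ne_cc hS h1 hf hf1)

/-- a triangle with large unipotent subgroups prevents `Σ_A ⊆ C(B)` -/
theorem tri_large (hS : IsRootSubgroupSet S) (hA : A ∈ S) (hD : D ∈ S) {y : G}
    (h : IsRankOnePair A D) (hy : ∀ d ∈ D, y * d = d * y) (hc : Comm A (cj y A))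
    (hne : cj y A ≠ A) (hAB : IsRankOnePair A B) (hB : ∀ M ∈ S, M ≠ A → Comm A M → Comm M B)
    {δ ε : G} (hδ : δ ∈ D) (hε : ε ∈ D) (h1 : δ * δ ≠ 1) (h2 : ε ≠ 1) (h3 : ε ≠ δ)
    (h4 : ε ≠ δ * δ) : False := by
  have hAA := comm hS hA
  have hDD := comm hS hD
  have hδ1 : δ ≠ 1 := by rintro rfl; simp at h1
  obtain ⟨a, ha, ha1, e⟩ := RO.ex_a h (D.inv_mem hδ) (by simpa using hδ1)
  have s1 := tri_s hAA hy hc ha (D.inv_mem hδ) e
  rw [inv_inv, ← tri_inv hAA hc ha] at s1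
  set z := ⁅a⁻¹, y⁆ with hz
  have hzA : ∀ x ∈ A, z * x = x * z := tri_cent hAA hc (A.inv_mem ha)
  have hzD : Comm D (cj z D) := tri_comm h hDD hy hc (A.inv_mem ha)
  have hzne : cj z D ≠ D := fun e =>
    ha1 (by simpa using tri_eq_one hS hA hD h hy hc hne (A.inv_mem ha) e)
  -- the group `Y = [D, z]`
  have hYB : ∀ d ∈ D, d ≠ 1 → Comm (cj ⁅d, z⁆ A) B := fun d hd hd1 =>
    hB _ (cj_mem hS hA _) (fun e => hd1 (tri_eq_one hS hD hA (RO.symm h) hzA hzD hzne hd e))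
      (tri_comm (RO.symm h) hAA hzA hzD hd)
  have hYB' : ∀ d ∈ D, ∀ d' ∈ D, d ≠ d' → Comm (cj ⁅d, z⁆ A) (cj ⁅d', z⁆ B) := by
    intro d hd d' hd' hne
    have := (hYB (d'⁻¹ * d) (D.mul_mem (D.inv_mem hd') hd)
      (fun e => hne (inv_mul_eq_one.1 e).symm)).cj ⁅d', z⁆
    rwa [cj_cj, ← tri_mul hDD hzD hd' (D.mul_mem (D.inv_mem hd') hd), mul_inv_cancel_left] at this
  set y₁ := ⁅δ, z⁆ with hy₁
  -- `z⁻¹ = [a, y] = [a, y₁]`
  have hu : ⁅a, y₁⁆ = z⁻¹ := by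
    rw [hz, tri_inv hAA hc ha, inv_inv]
    have k := s1 a ha
    rw [← commutatorElement_inv, ← hy₁] at k
    have k2 : y * a⁻¹ * y⁻¹ = y₁ * a⁻¹ * y₁⁻¹ := by
      calc y * a⁻¹ * y⁻¹ = y₁ * ((y₁⁻¹ * y) * a * (y₁⁻¹ * y)⁻¹)⁻¹ * y₁⁻¹ := by group
        _ = _ := by rw [k]; group
    calc ⁅a, y₁⁆ = a * (y₁ * a⁻¹ * y₁⁻¹) := by rw [commutatorElement_def]; group
      _ = _ := by rw [← k2, commutatorElement_def]; group
  -- `t = [y₁, z⁻¹]`
  set η := ⁅ε, z⁆ with hη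
  have ht1 : Commute ⁅y₁, z⁻¹⁆ η := by
    -- both lie in the abelian group generated by `D`, `z D z⁻¹`, `z⁻¹ D z`
    have c1 : Comm (cj z⁻¹ D) D := (comm_cj_inv hzD).symm
    have c2 : Comm (cj z⁻¹ D) (cj z D) := by
      have : Comm D (cj (z * z) D) := by
        rw [hz, ← tri_mul hAA hc (A.inv_mem ha) (A.inv_mem ha)]
        exact tri_comm h hDD hy hc (A.mul_mem (A.inv_mem ha) (A.inv_mem ha))
      have := this.cj z⁻¹
      rwa [cj_cj, inv_mul_cancel_left] at this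
    have c3 : Comm (D ⊔ cj z D ⊔ cj z⁻¹ D) (D ⊔ cj z D) :=
      ((hDD.sup_right hzD).sup_left (hzD.symm.sup_right (hDD.cj z))).sup_left (c1.sup_right c2)
    refine c3 _ ?_ _ ?_
    · have e1 : ⁅y₁, z⁻¹⁆ = δ * (z * δ⁻¹ * z⁻¹) * δ * (z⁻¹ * δ⁻¹ * z⁻¹⁻¹) := by
        rw [hy₁]; simp only [commutatorElement_def]; group
      rw [e1]
      refine Subgroup.mul_mem _ (Subgroup.mem_sup_left (Subgroup.mul_mem _ (Subgroup.mul_mem _
        (Subgroup.mem_sup_left hδ) (Subgroup.mem_sup_right (conj_mem_cj _ (D.inv_mem hδ))))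
        (Subgroup.mem_sup_left hδ))) (Subgroup.mem_sup_right (conj_mem_cj _ (D.inv_mem hδ)))
    · have e1 : η = ε * (z * ε⁻¹ * z⁻¹) := by rw [hη, commutatorElement_def]; group
      rw [e1]
      exact Subgroup.mul_mem _ (Subgroup.mem_sup_left hε)
        (Subgroup.mem_sup_right (conj_mem_cj _ (D.inv_mem hε)))
  have hyy : ⁅δ * δ, z⁆ = y₁ * y₁ := tri_mul hDD hzD hδ hδ
  have e2 : ⁅y₁, z⁻¹⁆ = (y₁ * a * y₁⁻¹) * (y₁ * y₁ * a⁻¹ * (y₁ * y₁)⁻¹) * (y₁ * a * y₁⁻¹) * a⁻¹ := by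
    rw [← hu]; simp only [commutatorElement_def]; group
  have ht2 : ∀ b ∈ cj η B, Commute ⁅y₁, z⁻¹⁆ b := by
    intro b hb
    have k1 : Commute (y₁ * a * y₁⁻¹) b := hYB' δ hδ ε hε h3.symm _ (conj_mem_cj _ ha) b hb
    have k2 : Commute (y₁ * y₁ * a⁻¹ * (y₁ * y₁)⁻¹) b := by
      rw [← hyy]
      exact hYB' _ (D.mul_mem hδ hδ) ε hε h4.symm _ (conj_mem_cj _ (A.inv_mem ha)) b hb
    have k3 : Commute a⁻¹ b := by
      have := hYB' 1 D.one_mem ε hε h2.symm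
      simp only [commutatorElement_one_left, cj_one] at this
      exact this _ (A.inv_mem ha) b hb
    rw [e2]
    exact ((k1.mul_left k2).mul_left k1).mul_left k3
  apply ha1
  rw [← inv_eq_one]
  refine RO.eq_one_of_commute hAB (A.inv_mem ha) fun b hb => ?_
  have k0 : Commute ⁅y₁, z⁻¹⁆ b := by
    have := (ht1.inv_right.mul_right (ht2 _ (conj_mem_cj η hb))).mul_right ht1
    rwa [show η⁻¹ * (η * b * η⁻¹) * η = b by group] at this
  have k1 : Commute (y₁ * a * y₁⁻¹) b := hYB δ hδ hδ1 _ (conj_mem_cj _ ha) b hb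
  have k2 : Commute (y₁ * y₁ * a⁻¹ * (y₁ * y₁)⁻¹) b := by
    rw [← hyy]
    exact hYB _ (D.mul_mem hδ hδ) h1 _ (conj_mem_cj _ (A.inv_mem ha)) b hb
  have := ((k1.mul_left k2).mul_left k1).inv_left.mul_left k0
  rw [e2, inv_mul_cancel_left] at this
  exact this

theorem special_of_small (h : IsRankOnePair A B) {δ : G} (h1 : δ * δ ≠ 1)
    (hall : ∀ a ∈ A, a = 1 ∨ a = δ ∨ a = δ * δ) (hδ : δ ∈ A) : IsSpecialRankOnePair A B := by
  have hδ1 : δ ≠ 1 := by rintro rfl; simp at h1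
  have h3 : δ * δ * δ = 1 := by
    rcases hall δ⁻¹ (A.inv_mem hδ) with e | e | e
    · exact absurd (inv_eq_one.1 e) hδ1
    · exact absurd (by rw [← mul_inv_cancel δ, e]) h1
    · rw [← e, inv_mul_cancel]
  have hcube : ∀ a ∈ A, a * a * a = 1 := by
    intro a ha
    rcases hall a ha with rfl | rfl | rfl
    · simp
    · exact h3
    · calc _ = (δ * δ * δ) * (δ * δ * δ) := by group
        _ = 1 := by rw [h3, one_mul]
  refine RO.special_of_inv h fun a ha ha1 b hb hb1 e => ?_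
  obtain ⟨a', ha', ha1', e'⟩ := RO.ex_a h (B.inv_mem hb) (by simpa using hb1)
  by_cases haa : a' = a
  · exfalso
    have e1 : b⁻¹ = b := RO.eq_of_cj_eq (RO.symm h) (B.inv_mem hb) hb (by rw [e', haa, e])
    obtain ⟨w, -, e2, -⟩ := RO.ex_swap h
    rw [← e2] at hb
    have := hcube _ (mem_cj.1 hb)
    apply hb1
    calc b = b⁻¹ * b * b := by group
      _ = w * (w⁻¹ * b * w * (w⁻¹ * b * w) * (w⁻¹ * b * w)) * w⁻¹ := by rw [e1]; group
      _ = 1 := by rw [this]; group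
  · rw [e']
    congr 1
    rw [eq_inv_iff_mul_eq_one]
    rcases hall a ha with rfl | rfl | rfl <;> rcases hall a' ha' with rfl | rfl | rfl <;>
      first | exact absurd rfl ‹_› | exact h3 | (rw [← mul_assoc]; exact h3)

theorem special_of_class (hS : IsRootSubgroupClass S)
    (hcomm : ∃ A ∈ S, ∃ C ∈ S, A ≠ C ∧ ⁅A, C⁆ = ⊥) (hA : A ∈ S) (hB : B ∈ S)
    (hAB : IsRankOnePair A B) : IsSpecialRankOnePair A B := by
  have hN := allNI_of_class hS hA ⟨B, hB, hAB⟩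
  by_cases hdeg : ∃ P ∈ S, ∃ Q ∈ S, RootCommutatorCase S P Q
  · obtain ⟨E, hL⟩ := ex_line hS ⟨hcomm, ⟨A, hA, B, hB, hAB⟩, hdeg⟩ hA
    exact special_of_line hS.1 hN hL hB hAB
  have hcase : ∀ P ∈ S, ∀ Q ∈ S, Comm P Q ∨ IsRankOnePair P Q := fun P hP Q hQ => by
    rcases cases hS.1 hP hQ with h | h | h
    exacts [Or.inl h, Or.inr h, absurd ⟨P, hP, Q, hQ, cc_iff.2 h⟩ hdeg]
  by_cases htri : ∃ C ∈ S, C ≠ A ∧ Comm A C ∧ IsRankOnePair C B
  · obtain ⟨C, hC, h1, h2, h3⟩ := htri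
    exact special_of_triangle hS.1 hA hC hB hAB h3 h2 h1
  have hB' : ∀ M ∈ S, M ≠ A → Comm A M → Comm M B := fun M hM h1 h2 =>
    (hcase M hM B hB).resolve_right fun h => htri ⟨M, hM, h1, h2, h⟩
  by_cases h2 : ∀ a ∈ A, a * a = 1
  · exact RO.special_of_sq hAB h2
  push Not at h2
  obtain ⟨δ, hδ, h1⟩ := h2
  by_cases hall : ∀ a ∈ A, a = 1 ∨ a = δ ∨ a = δ * δ
  · exact special_of_small hAB h1 hall hδ
  push Not at hall
  obtain ⟨ε, hε, h2, h3, h4⟩ := hall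
  exfalso
  -- some triangle at `A`
  have hex : ∃ P ∈ S, ∃ D ∈ S, ∃ C ∈ S, C ≠ P ∧ Comm P C ∧ IsRankOnePair P D ∧
      IsRankOnePair C D := by
    by_contra hc
    obtain ⟨P, hP, C, hC, hne, hPC⟩ := hcomm
    have key : ∀ M, Conn S P M → C ≠ M ∧ Comm M C := by
      intro M h
      induction h with
      | refl => exact ⟨hne.symm, comm_iff.2 hPC⟩
      | @tail M M' _ h ih =>
        refine ⟨?_, ((hcase C hC M' h.2.1).resolve_right fun h' =>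
          hc ⟨M, h.1, M', h.2.1, C, hC, ih.1, ih.2, h.2.2, h'⟩).symm⟩
        rintro rfl
        exact RO.not_comm h.2.2 ih.2
    exact (key C (conn_of_class hS hN hP hC)).1 rfl
  obtain ⟨P, hP, D, hD, C, hC, k1, k2, k3, k4⟩ := hex
  obtain ⟨g, rfl⟩ := hS.2.2 P hP A hA
  rw [conjBy_eq] at *
  have hD' := cj_mem hS.1 hD g
  have hAD := RO.cj_pair k3 g
  obtain ⟨z, l1, l2, l3⟩ := tri_of_triangle hS.1 hA (cj_mem hS.1 hC g) hD' hAD (RO.cj_pair k4 g)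
    (k2.cj g) (fun e => k1 (cj_injective g e))
  obtain ⟨d, hd, hd1⟩ := exists_ne_one_of_ne_bot (hS.1.ne_bot _ hD')
  obtain ⟨w, -, e, -⟩ := RO.ex_swap hAD
  refine tri_large hS.1 hA hD' hAD (tri_cent (comm hS.1 hD') l2 hd)
    (tri_comm (RO.symm hAD) (comm hS.1 hA) l1 l2 hd)
    (fun e => hd1 (tri_eq_one hS.1 hD' hA (RO.symm hAD) l1 l2 l3 hd e)) hAB hB'
    (δ := w * δ * w⁻¹) (ε := w * ε * w⁻¹) (e ▸ conj_mem_cj w hδ) (e ▸ conj_mem_cj w hε) ?_ ?_ ?_ ?_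
  · intro e; apply h1
    calc δ * δ = w⁻¹ * (w * δ * w⁻¹ * (w * δ * w⁻¹)) * w := by group
      _ = 1 := by rw [e]; group
  · simpa [mul_eq_one_iff_eq_inv] using h2
  · simpa using h3
  · intro e; apply h4
    calc ε = w⁻¹ * (w * ε * w⁻¹) * w := by group
      _ = _ := by rw [e]; group

/-- a normal subgroup containing a member of a class is everything -/
theorem eq_top_of_le (hS : IsRootSubgroupClass S) (hA : A ∈ S) {N : Subgroup G} [N.Normal]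
    (h : A ≤ N) : N = ⊤ := by
  rw [eq_top_iff, ← hS.1.generates]
  refine iSup₂_le fun M hM => ?_
  obtain ⟨g, rfl⟩ := hS.2.2 A hA M hM
  rw [← cj_of_normal g N]
  exact cj_mono g h

end Root

end Cfsg.Agent.H19
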