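import Mathlib
import Cfsg.Agent.H19.SL2

/-! In a special rank one group with elementary abelian unipotent subgroups, `⟨a, b(a)⟩` is `(P)SL₂(p)`. -/

namespace Cfsg.Agent.H19

open Cfsg Matrix
open scoped MatrixGroups

variable {G : Type*} [Group G] {p : ℕ} [hp : Fact p.Prime]

theorem pow_val_natCast {g : G} (hg : g ^ p = 1) (n : ℕ) : g ^ (n : ZMod p).val = g ^ n := by
  rw [ZMod.val_natCast, ← pow_eq_pow_mod n hg]

theorem pow_val_add {g : G} (hg : g ^ p = 1) (s t : ZMod p) :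
    g ^ (s + t).val = g ^ s.val * g ^ t.val := by
  rw [← pow_add, ← pow_val_natCast hg (s.val + t.val)]; simp

theorem pow_val_mul {g : G} (hg : g ^ p = 1) (s t : ZMod p) :
    g ^ (s * t).val = (g ^ s.val) ^ t.val := by
  rw [← pow_mul, ← pow_val_natCast hg (s.val * t.val)]; simp

theorem St.Rel.of_w_y {k : Type*} [Field k] {x y : k → G} (hx : ∀ s t, x (s + t) = x s * x t)
    (hy : ∀ s t, y (s + t) = y s * y t)
    (h : ∀ t, t ≠ 0 → ∀ u, St.ww x y t * y u = x (-(t ^ 2 * u)) * St.ww x y t) : St.Rel x y := by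
  have x0 : x 0 = 1 := by simpa using hx 0 0
  have y0 : y 0 = 1 := by simpa using hy 0 0
  have xn : ∀ t, x (-t) = (x t)⁻¹ := fun t =>
    eq_inv_of_mul_eq_one_left (by rw [← hx, neg_add_cancel, x0])
  have yn : ∀ t, y (-t) = (y t)⁻¹ := fun t =>
    eq_inv_of_mul_eq_one_left (by rw [← hy, neg_add_cancel, y0])
  refine ⟨hx, hy, fun t ht u => ?_⟩
  have hw : St.ww x y (-t) = (St.ww x y t)⁻¹ := by
    simp only [St.ww, inv_neg, neg_neg, xn, yn, _root_.mul_inv_rev, inv_inv, mul_assoc]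
  have := h (-t) (neg_ne_zero.2 ht) (-u / t ^ 2)
  rw [hw, show -((-t) ^ 2 * (-u / t ^ 2)) = u by field_simp] at this
  change St.ww x y t * _ = _ * St.ww x y t
  calc _ = St.ww x y t * (x u * (St.ww x y t)⁻¹) * St.ww x y t := by group
    _ = _ := by rw [← this]; group

theorem RO.rel_of_special {A B : Subgroup G} (hs : IsSpecialRankOnePair A B) (hA : Comm A A)
    (hp' : ∀ a ∈ A, a ^ p = 1) {a b : G} (ha : a ∈ A) (ha1 : a ≠ 1) (hb : b ∈ B)
    (e : cj b A = cj a B) :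
    St.Rel (fun t : ZMod p => a ^ t.val) (fun t : ZMod p => b ^ t.val) := by
  have hB : ∀ b ∈ B, b ^ p = 1 := by
    obtain ⟨w, -, e1, -⟩ := RO.ex_swap hs.1
    intro b hb
    rw [← e1] at hb
    obtain ⟨a, ha, rfl⟩ := exists_of_mem_cj hb
    rw [conj_pow, hp' a ha]; simp
  have hbf : RO.bf hs.1 a = b := RO.bf_eq hs.1 ha ha1 hb e
  have hord : orderOf a = p := orderOf_eq_prime (hp' a ha) ha1
  refine St.Rel.of_w_y (pow_val_add (hp' a ha)) (pow_val_add (hB b hb)) fun t ht u => ?_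
  obtain ⟨n, hn⟩ : ∃ n, t.val = n + 1 := Nat.exists_eq_succ_of_ne_zero (by simpa using ht)
  have hne : ∀ k, 1 ≤ k → k ≤ n + 1 → a ^ k ≠ 1 := fun k h1 h2 =>
    pow_ne_one_of_lt_orderOf (by omega) (by rw [hord]; have := t.val_lt; omega)
  have h1 := RO.mu_pow hs hA ha n hne
  have h2 := RO.bf_pow hs hA ha n hne
  rw [hbf, ← hn] at h1 h2
  have hc := (RO.bf_spec hs.1 (A.pow_mem ha t.val) (hn ▸ hne _ (by omega) le_rfl)).1
  have h3 : (RO.bf hs.1 (a ^ t.val))⁻¹ = b ^ (-t⁻¹).val := by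
    rw [← h2, ← pow_val_mul (hB _ hc), mul_neg, mul_inv_cancel₀ ht, inv_eq_iff_mul_eq_one]
    have := pow_val_add (hB _ hc) 1 (-1)
    rw [ZMod.val_one, pow_one] at this
    rw [← this]; simp
  have h4 : St.ww (fun t : ZMod p => a ^ t.val) (fun t : ZMod p => b ^ t.val) t =
      RO.mu hs.1 (a ^ t.val) := by rw [RO.mu, h3]; rfl
  rw [h4, ← mul_inv_eq_iff_eq_mul, ← conj_pow, h1]
  change _ = a ^ (-(t ^ 2 * u)).val
  rw [← neg_mul, pow_val_mul (hp' a ha)]
  congr 1
  rw [inv_eq_iff_mul_eq_one, ← pow_val_natCast (hp' a ha), ← pow_val_add (hp' a ha)]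
  simp

theorem RO.closure_pair_equiv {A B : Subgroup G} (hs : IsSpecialRankOnePair A B) (hA : Comm A A)
    (hp' : ∀ a ∈ A, a ^ p = 1) {a b : G} (ha : a ∈ A) (ha1 : a ≠ 1) (hb : b ∈ B) (hb1 : b ≠ 1)
    (e : cj b A = cj a B) :
    Nonempty (↥(Subgroup.closure ({a, b} : Set G)) ≃* SL(2, ZMod p)) ∨
    Nonempty (↥(Subgroup.closure ({a, b} : Set G)) ≃*
      ProjectiveSpecialLinearGroup (Fin 2) (ZMod p)) := by
  have h := RO.rel_of_special hs hA hp' ha ha1 hb e
  obtain ⟨φ, hx, hy⟩ := St.exists_hom_of_finite h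
  have hr : φ.range = Subgroup.closure {a, b} := by
    apply le_antisymm
    · rintro _ ⟨g, rfl⟩
      induction g using St.sl_induction with
      | hx t => rw [hx]; exact Subgroup.pow_mem _ (Subgroup.subset_closure (by simp)) _
      | hy t => rw [hy]; exact Subgroup.pow_mem _ (Subgroup.subset_closure (by simp)) _
      | hmul a b ha hb => rw [map_mul]; exact Subgroup.mul_mem _ ha hb
    · rw [Subgroup.closure_le]
      rintro _ (rfl | rfl)
      · exact ⟨St.xx 1, by rw [hx, ZMod.val_one, pow_one]⟩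
      · exact ⟨St.yy 1, by rw [hy, ZMod.val_one, pow_one]⟩
  rw [← hr]
  refine St.range_equiv φ (St.ker_le_center φ fun t u hc => ?_)
  rw [hx, hy] at hc
  by_contra hne
  push Not at hne
  have hord : orderOf a = p := orderOf_eq_prime (hp' a ha) ha1
  have hbp : b ^ p = 1 := by
    have := h.y_add (-1) 1
    rw [neg_add_cancel, h.y_zero, ZMod.val_one, pow_one, ← pow_succ] at this
    have e2 : (-1 : ZMod p).val + 1 = p := by
      obtain ⟨n, rfl⟩ : ∃ n, p = n + 1 := Nat.exists_eq_succ_of_ne_zero hp.out.ne_zero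
      rw [ZMod.val_neg_one]
    rw [← e2, ← this]
  have hordb : orderOf b = p := orderOf_eq_prime hbp hb1
  exact RO.not_commute hs.1 (A.pow_mem ha _)
    (pow_ne_one_of_lt_orderOf (by simpa using hne.1) (hord ▸ t.val_lt)) (B.pow_mem hb _)
    (pow_ne_one_of_lt_orderOf (by simpa using hne.2) (hordb ▸ u.val_lt)) hc

end Cfsg.Agent.H19
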