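import Cfsg.Agent.H26.C4b
import Cfsg.Agent.H26.F3c

/-! Tensor products of two symplectic spaces: the basic elements, and root elements give `Ω`. -/

set_option autoImplicit false
set_option maxHeartbeats 400000

namespace Cfsg.Agent.H19.TA

open Module H10 H11 H26.MX

variable {F : Type*} [Field F]

section ts
variable {V : Type*} [AddCommGroup V] [Module F V] [FiniteDimensional F V]
  {B : V →ₗ[F] V →ₗ[F] F} {Q : V → F}

theorem mem_om_ts (h : Cl (σ := RingHom.id F) 1 2 (AddMonoidHom.id F) B Q) {X : Submodule F V}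
    (hX : ∀ x ∈ X, Q x = 0) (n : ℕ) : ∀ D : End F V, finrank F (LinearMap.range D) = n →
    (∀ v, D v ∈ X) → (∀ v, B (D v) v = 0) → ∀ k : V ≃ₗ[F] V, (∀ v, k v = v + D v) → k ∈ h.Om := by
  induction n using Nat.strong_induction_on with
  | _ n ih =>
  intro D hn h1 h2 k hk
  have h3 : ∀ x ∈ X, ∀ y ∈ X, B x y = 0 := fun x hx y hy => by
    have := h.Q_add x y
    simpa [hX x hx, hX y hy, hX _ (add_mem hx hy)] using this.symm
  have h4 : ∀ v v', B (D v) v' = -B (D v') v := fun v v' => by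
    have := h2 (v + v')
    simp only [map_add, LinearMap.add_apply, h2] at this
    linear_combination this
  have h5 : ∀ x ∈ X, D x = 0 := fun x hx => h.sep _ fun y => by
    rw [h4, h3 _ (h1 y) x hx, neg_zero]
  by_cases h0 : ∀ v, D v = 0
  · rw [show k = 1 from LinearEquiv.ext fun v => by simp [hk, h0]]; exact one_mem _
  push Not at h0
  obtain ⟨v₀, h0⟩ := h0
  obtain ⟨v₁, h6⟩ := h.form.exists_right_eq_one h.sep h0
  have h7 := h3 _ (h1 v₀) _ (h1 v₁)
  have h8 := fun v => h.eich_apply (hX _ (h1 v₀)) h7 0 v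
  have h9 := h.eich_mem_om (c := 0) (hX _ (h1 v₀)) h7 (hX _ (h1 v₁)).symm
  let D' : End F V := D + (B (D v₁)).smulRight (D v₀) - (B (D v₀)).smulRight (D v₁)
  have hD : ∀ v, D' v = D v + B (D v₁) v • D v₀ - B (D v₀) v • D v₁ := fun v => rfl
  refine (mul_mem_cancel_right h9).1 (ih _ ?_ D' rfl (fun v => ?_) (fun v => ?_) _ fun v => ?_)
  · rw [← hn]
    refine Submodule.finrank_lt_finrank_of_lt (lt_of_le_of_ne ?_ fun h10 => ?_)
    · rintro _ ⟨v, rfl⟩
      exact ⟨v + B (D v₁) v • v₀ - B (D v₀) v • v₁, by simp [hD]⟩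
    obtain ⟨v, hv⟩ := h10.ge ⟨v₀, rfl⟩
    have := congrArg (B · v₁) hv
    simp only [hD, map_sub, map_add, map_smul, LinearMap.sub_apply, LinearMap.add_apply,
      LinearMap.smul_apply, h2, h6, h4 v v₁] at this
    simp at this
  · exact sub_mem (add_mem (h1 _) (X.smul_mem _ (h1 _))) (X.smul_mem _ (h1 _))
  · simp [hD, h2, mul_comm]
  · simp [mul_app, hk, h8, hD, h5 _ (h1 _)]; abel

end ts

variable {U W : Type*} [AddCommGroup U] [Module F U] [AddCommGroup W] [Module F W]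

/-- pure tensors -/
def pt (U : Type*) [AddCommGroup U] [Module F U] (f : W →ₗ[F] W →ₗ[F] F) :
    U →ₗ[F] W →ₗ[F] (W →ₗ[F] U) :=
  LinearMap.mk₂ F (fun a w => (f.flip w).smulRight a) (fun _ _ _ => by ext; simp)
    (fun _ _ _ => by ext; simp [smul_smul, mul_comm]) (fun _ _ _ => by ext; simp [add_smul])
    fun _ _ _ => by ext; simp [smul_smul]

@[simp] theorem pt_apply (f : W →ₗ[F] W →ₗ[F] F) (a : U) (w y : W) : pt U f a w y = f y w • a := rfl

/-- the action of the left factor -/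
def lf (W : Type*) [AddCommGroup W] [Module F W] :
    (U ≃ₗ[F] U) →* ((W →ₗ[F] U) ≃ₗ[F] (W →ₗ[F] U)) where
  toFun s := (LinearEquiv.refl F W).arrowCongr s
  map_one' := rfl
  map_mul' _ _ := rfl

@[simp] theorem lf_apply (s : U ≃ₗ[F] U) (v : W →ₗ[F] U) (y : W) : lf W s v y = s (v y) := rfl

/-- the action of the right factor -/
def rt (U : Type*) [AddCommGroup U] [Module F U] :
    (W ≃ₗ[F] W) →* ((W →ₗ[F] U) ≃ₗ[F] (W →ₗ[F] U)) where
  toFun t := t.arrowCongr (LinearEquiv.refl F U)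
  map_one' := rfl
  map_mul' _ _ := rfl

@[simp] theorem rt_apply (t : W ≃ₗ[F] W) (v : W →ₗ[F] U) (y : W) : rt U t v y = v (t⁻¹ y) := rfl

variable {g : U →ₗ[F] U →ₗ[F] F} {f : W →ₗ[F] W →ₗ[F] F}

theorem lf_pt (s : U ≃ₗ[F] U) (a : U) (w : W) : lf W s (pt U f a w) = pt U f (s a) w := by
  ext; simp

theorem rt_pt {t : W ≃ₗ[F] W} (ht : ∀ x y, f (t x) (t y) = f x y) (a : U) (w : W) :
    rt U t (pt U f a w) = pt U f a (t w) := by
  ext y; rw [rt_apply, pt_apply, pt_apply, ← ht, app_inv]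

/-- the tensor product of two symplectic spaces -/
structure TF (g : U →ₗ[F] U →ₗ[F] F) (f : W →ₗ[F] W →ₗ[F] F)
    (B : (W →ₗ[F] U) →ₗ[F] (W →ₗ[F] U) →ₗ[F] F) (Q : (W →ₗ[F] U) → F) : Prop where
  hU : Cl (σ := RingHom.id F) (-1) 0 0 g fun _ => 0
  hW : Cl (σ := RingHom.id F) (-1) 0 0 f fun _ => 0
  hV : Cl (σ := RingHom.id F) 1 2 (AddMonoidHom.id F) B Q
  Bp : ∀ a w v, B (pt U f a w) v = g a (v w)
  Qp : ∀ a w, Q (pt U f a w) = 0

variable {B : (W →ₗ[F] U) →ₗ[F] (W →ₗ[F] U) →ₗ[F] F} {Q : (W →ₗ[F] U) → F}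
  [FiniteDimensional F U] [FiniteDimensional F W]

namespace TF
variable (h : TF g f B Q)
include h

omit [FiniteDimensional F U] in
theorem exists_flip (β : Dual F W) : ∃ w, f.flip w = β := by
  obtain ⟨w, hw⟩ := h.hW.exists_B (-β)
  exact ⟨w, LinearMap.ext fun y => by simp [h.hW.symm w y, hw]⟩

theorem ind {S : Submodule F (W →ₗ[F] U)} (hS : ∀ a w, pt U f a w ∈ S) (v : W →ₗ[F] U) : v ∈ S := by
  have := ext_sr (f := S.mkQ) (g := 0) fun β z => by
    obtain ⟨w, rfl⟩ := h.exists_flip β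
    exact (Submodule.Quotient.mk_eq_zero S).2 (hS z w)
  exact (Submodule.Quotient.mk_eq_zero S).1 (LinearMap.congr_fun this v)

omit [FiniteDimensional F U] [FiniteDimensional F W] in
theorem tv_rt (y : W) (c : F) (v : W →ₗ[F] U) :
    rt U (h.hW.eich y 0 (-c)) v = v + c • pt U f (v y) y := by
  ext x
  rw [rt_apply, h.hW.eich_inv rfl (map_zero _), h.hW.eich_apply rfl (by simp)]
  simp [h.hW.symm x y, smul_smul]

omit [FiniteDimensional F U] [FiniteDimensional F W] in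
theorem tv_lf (a : U) (c : F) (x : U) : h.hU.eich a 0 (-c) x = x + (c * g a x) • a := by
  simp [h.hU.eich_apply rfl (map_zero _)]

theorem rt_mem {t : W ≃ₗ[F] W} (ht : ∀ x y, f (t x) (t y) = f x y) : rt U t ∈ h.hV.Om :=
  om_le_of_tv h.hW (M := h.hV.Om.comap (rt U)) (fun y c => by
    refine mem_om_ts h.hV (X := LinearMap.range ((pt U f).flip y)) ?_ _
      ((-c) • (pt U f).flip y ∘ₗ LinearMap.applyₗ y) rfl
      (fun v => Submodule.smul_mem _ _ ⟨_, rfl⟩) (fun v => ?_) _ fun v => ?_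
    · rintro _ ⟨a, rfl⟩; exact h.Qp a y
    · simp [h.Bp, alt_self h.hU]
    · simpa using h.tv_rt y (-c) v) ((mem_om_alt h.hW).2 ht)

theorem lf_mem {s : U ≃ₗ[F] U} (hs : ∀ x y, g (s x) (s y) = g x y) : lf W s ∈ h.hV.Om :=
  om_le_of_tv h.hU (M := h.hV.Om.comap (lf W)) (fun a c => by
    choose r hr using fun v : W →ₗ[F] U => h.exists_flip (g a ∘ₗ v)
    replace hr : ∀ v y, f y (r v) = g a (v y) := fun v => LinearMap.congr_fun (hr v)
    have h1 : ∀ v : W →ₗ[F] U, LinearMap.llcomp F W U U ((g a).smulRight a) v = pt U f a (r v) :=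
      fun v => by ext; simp [hr]
    refine mem_om_ts h.hV (X := LinearMap.range (pt U f a)) ?_ _
      ((-c) • LinearMap.llcomp F W U U ((g a).smulRight a)) rfl
      (fun v => Submodule.smul_mem _ _ ⟨_, (h1 v).symm⟩) (fun v => ?_) _ fun v => ?_
    · rintro _ ⟨w, rfl⟩; exact h.Qp a w
    · simp [h1, h.Bp, ← hr, alt_self h.hW]
    · ext y; simpa [smul_smul] using h.tv_lf a (-c) (v y)) ((mem_om_alt h.hU).2 hs)

end TF

end Cfsg.Agent.H19.TA
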