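import Cfsg.Agent.H19.TA1

/-! Tensor products of two symplectic spaces: one root element gives `Ω`. -/

set_option autoImplicit false
set_option maxHeartbeats 400000

namespace Cfsg.Agent.H19.TA

open Module H10 H11 H26.MX

variable {F : Type*} [Field F] {U W : Type*} [AddCommGroup U] [Module F U] [AddCommGroup W] [Module F W]
  {g : U →ₗ[F] U →ₗ[F] F} {f : W →ₗ[F] W →ₗ[F] F}
  {B : (W →ₗ[F] U) →ₗ[F] (W →ₗ[F] U) →ₗ[F] F} {Q : (W →ₗ[F] U) → F}
  {M : Subgroup ((W →ₗ[F] U) ≃ₗ[F] (W →ₗ[F] U))}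

theorem arm_map {V : Type*} [AddCommGroup V] [Module F V] {σ : F →+* F} {ε κ : F} {τ : F →+ F}
    {B : V →ₛₗ[σ] V →ₗ[F] F} {Q : V → F} (h : Cl ε κ τ B Q) {M : Subgroup (V ≃ₗ[F] V)}
    (hM : M ≤ Isom B Q) {k : V ≃ₗ[F] V} (hk : k ∈ M) {e y : V} (hy : y ∈ h.Arm M e) :
    k y ∈ h.Arm M (k e) := fun c => by simpa using h.map_mem_ar hM hk (hy c)

theorem exists_hyp [FiniteDimensional F W] {ε κ : F} {τ : F →+ F} {q : W → F}
    (h : Cl (σ := RingHom.id F) ε κ τ f q) (Z : Submodule F W) (hn : 2 * finrank F Z < finrank F W) :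
    ∃ c c', (∀ z ∈ Z, f z c = 0) ∧ (∀ z ∈ Z, f z c' = 0) ∧ f c c' = 1 := by
  have h1 := h.form.finrank_perp h.sep Z
  obtain ⟨c, h2, h3⟩ := exists_not_mem_of_lt (W := Z) (U := perp f Z) (by omega)
  obtain ⟨c', h4, h5⟩ := h.form.exists_perp_not h.sep h3
  exact ⟨c, c', h2, h4, h5⟩

theorem exists_hyp2 [FiniteDimensional F W] {ε κ : F} {τ : F →+ F} {q : W → F}
    (h : Cl (σ := RingHom.id F) ε κ τ f q) (hn : 5 ≤ finrank F W) (w y : W) :
    ∃ c c', f w c = 0 ∧ f y c = 0 ∧ f w c' = 0 ∧ f y c' = 0 ∧ f c c' = 1 := by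
  have := H10.finrank_span_pair_le (F := F) w y
  obtain ⟨c, c', h1, h2, h3⟩ := exists_hyp h (Submodule.span F {w, y}) (by omega)
  exact ⟨c, c', h1 _ (Submodule.subset_span (by simp)), h1 _ (Submodule.subset_span (by simp)),
    h2 _ (Submodule.subset_span (by simp)), h2 _ (Submodule.subset_span (by simp)), h3⟩

theorem exists_perp_one [FiniteDimensional F W] {ε κ : F} {τ : F →+ F} {q : W → F}
    (h : Cl (σ := RingHom.id F) ε κ τ f q) {w y : W} (hy : y ∉ F ∙ w) : ∃ z, f w z = 0 ∧ f y z = 1 := by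
  obtain ⟨z, h1, h2⟩ := h.form.exists_perp_not h.sep hy
  exact ⟨z, h1 w (Submodule.mem_span_singleton_self w), h2⟩

/-- an overgroup of the product of the two symplectic groups -/
structure TM (g : U →ₗ[F] U →ₗ[F] F) (f : W →ₗ[F] W →ₗ[F] F)
    (B : (W →ₗ[F] U) →ₗ[F] (W →ₗ[F] U) →ₗ[F] F) (Q : (W →ₗ[F] U) → F)
    (M : Subgroup ((W →ₗ[F] U) ≃ₗ[F] (W →ₗ[F] U))) : Prop extends TF g f B Q where
  le : M ≤ Isom B Q
  lm : ∀ s : U ≃ₗ[F] U, (∀ x y, g (s x) (s y) = g x y) → lf W s ∈ M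
  rm : ∀ t : W ≃ₗ[F] W, (∀ x y, f (t x) (t y) = f x y) → rt U t ∈ M

namespace TM
variable (h : TM g f B Q M)
include h

theorem exists_T (y : W) (c : F) : ∃ k ∈ M, ∀ v, k v = v + c • pt U f (v y) y :=
  ⟨_, h.rm _ (h.hW.eich_mem_isom rfl (map_zero _) rfl).1, h.tv_rt y c⟩

theorem exists_S (a : U) (c : F) : ∃ s : U ≃ₗ[F] U, lf W s ∈ M ∧ (∀ x, s x = x + (c * g a x) • a) ∧
    ∀ x, s⁻¹ x = x - (c * g a x) • a :=
  ⟨_, h.lm _ (h.hU.eich_mem_isom rfl (map_zero _) rfl).1, h.tv_lf a c,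
    fun x => inv_eq_of (by simp [h.tv_lf, alt_self h.hU])⟩

theorem fs (x y : W) : f x y = -f y x := by simp [h.hW.symm y x]

theorem gs (x y : U) : g x y = -g y x := by simp [h.hU.symm y x]

theorem arm_eich {a b : U} {w y : W} (hy : pt U f b y ∈ h.hV.Arm M (pt U f a w)) :
    h.hV.eich (pt U f a w) (pt U f b y) 0 ∈ M := by
  obtain ⟨-, c, h1, h2⟩ := (h.hV.mem_ar (h.Qp a w)).1 (hy 1)
  rw [one_smul] at h1 h2
  rwa [show c = 0 from h1.trans (h.Qp b y)] at h2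

variable [FiniteDimensional F U] [FiniteDimensional F W]

theorem arm1 {a b : U} {w y : W} (hb : b ≠ 0) (hy : pt U f b y ∈ h.hV.Arm M (pt U f a w)) :
    pt U f a y ∈ h.hV.Arm M (pt U f a w) := by
  have h1 : ∀ x, g x a = 0 → g x b ≠ 0 → pt U f x y ∈ h.hV.Arm M (pt U f a w) := fun x h1 h2 => by
    obtain ⟨s, h3, h4, -⟩ := h.exists_S x 1
    have := arm_map h.hV h.le h3 hy
    rw [lf_pt, lf_pt, h4, h4, h1, mul_zero, zero_smul, add_zero] at this
    rw [← Submodule.smul_mem_iff _ h2]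
    simpa using sub_mem this hy
  by_cases h2 : b ∈ F ∙ a
  · obtain ⟨c, rfl⟩ := Submodule.mem_span_singleton.1 h2
    rw [← Submodule.smul_mem_iff _ (left_ne_zero_of_smul hb)]
    simpa using hy
  by_cases h3 : g a b = 0
  swap
  · exact h1 a (alt_self h.hU a) h3
  obtain ⟨x, h4, h5⟩ := exists_perp_one h.hU h2
  have h6 := h.hU.refl h4
  have h7 := h.hU.flip_one h5
  simpa using sub_mem (h1 (x + a) (by simp [h6, alt_self h.hU]) (by simp [h7, h3]))
    (h1 x h6 (by simp [h7]))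

theorem arm2 {a : U} {w y : W} (hw : y ∉ F ∙ w) (hy : pt U f a y ∈ h.hV.Arm M (pt U f a w)) {z : W}
    (hz : f z w = 0) : pt U f a z ∈ h.hV.Arm M (pt U f a w) := by
  have h1 : ∀ x, f x w = 0 → f x y ≠ 0 → pt U f a x ∈ h.hV.Arm M (pt U f a w) := fun x h1 h2 => by
    obtain ⟨k, h3, h4⟩ := h.exists_T x 1
    have := arm_map h.hV h.le h3 hy
    rw [h4, h4, pt_apply, pt_apply, h1, zero_smul, map_zero, LinearMap.zero_apply, smul_zero,
      add_zero] at this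
    rw [← Submodule.smul_mem_iff _ h2]
    simpa using sub_mem this hy
  by_cases h3 : f z y = 0
  swap
  · exact h1 z hz h3
  obtain ⟨x, h4, h5⟩ := exists_perp_one h.hW hw
  have h6 := h.hW.refl h4
  have h7 := h.hW.flip_one h5
  simpa using sub_mem (h1 (x + z) (by simp [h6, hz]) (by simp [h7, h3])) (h1 x h6 (by simp [h7]))

theorem arm3 {a : U} {w : W} (ha : a ≠ 0) (hw : w ≠ 0)
    (hy : ∀ z, f z w = 0 → pt U f a z ∈ h.hV.Arm M (pt U f a w)) {b : U} {y z : W} (hb : b ≠ 0)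
    (hy0 : y ≠ 0) (hz : f z y = 0) : pt U f b z ∈ h.hV.Arm M (pt U f b y) := by
  obtain ⟨s, h1, rfl⟩ := h.hU.form.witt_one h.hU.sep ha hb rfl
  obtain ⟨t, h2, rfl⟩ := h.hW.form.witt_one h.hW.sep hw hy0 rfl
  simpa [lf_pt, rt_pt h2.1] using arm_map h.hV h.le (h.lm s h1.1) (arm_map h.hV h.le (h.rm t h2.1)
    (hy (t⁻¹ z) (by rw [← h2.1, app_inv, hz])))

theorem om_le_of_arm [Finite F] (hn : 5 ≤ finrank F W) {a b : U} {w y : W} (ha : a ≠ 0) (hb : b ≠ 0)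
    (hw : w ≠ 0) (hw' : y ∉ F ∙ w) (hy : pt U f b y ∈ h.hV.Arm M (pt U f a w)) : h.hV.Om ≤ M := by
  have h1 := fun {b y z} => h.arm3 ha hw (fun z => h.arm2 hw' (h.arm1 hb hy)) (b := b) (y := y) (z := z)
  have h2 : ∀ {b y z}, f z y = 0 → h.hV.eich (pt U f b y) (pt U f b z) 0 ∈ M := fun {b y z} hz => by
    by_cases h2 : b = 0
    · simp [h2, h.hV.eich_zero, one_mem]
    by_cases h3 : y = 0
    · simp [h3, h.hV.eich_zero_left, one_mem]
    exact h.arm_eich (h1 h2 h3 hz)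
  have h3 : ∀ {a w}, a ≠ 0 → w ≠ 0 → ∀ b {y}, f w y = 0 → pt U f b y ∈ h.hV.Arm M (pt U f a w) :=
    fun {a w} ha hw b {y} hy => by
    obtain ⟨c, c', h3, h4, h5, h6, h7⟩ := exists_hyp2 h.hW hn w y
    have h8 : ∀ b, g b a ≠ 0 → pt U f b y ∈ h.hV.Arm M (pt U f a w) := fun b hb => by
      have h9 := h1 ha hw (h.hW.refl h5)
      have := h.hV.map_mem_arm h.le (h2 (b := b) (h.hW.refl h4)) (h.hV.eich_fix 0
        (by simp [h.Bp, h.hW.refl hy]) (by simp [h.Bp, h.hW.refl h3])) h9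
      rw [h.hV.eich_of_perp (h.Qp _ _) (by simp [h.Bp, h4]) _ (by simp [h.Bp, h6])] at this
      rw [← Submodule.smul_mem_iff _ hb]
      simpa [h.Bp, h7] using sub_mem this h9
    by_cases h9 : g b a = 0
    swap
    · exact h8 b h9
    obtain ⟨x, hx⟩ := h.hU.form.exists_right_eq_one h.hU.sep ha
    have h10 := h.hU.flip_one hx
    simpa using sub_mem (h8 (x + b) (by simp [h10, h9])) (h8 x (by simp [h10]))
  have h4 : ∀ {a w}, a ≠ 0 → w ≠ 0 → ∀ {b}, g b a = 0 → ∀ y, pt U f b y ∈ h.hV.Arm M (pt U f a w) :=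
    fun {a w} ha hw {b} hb y => by
    by_cases h4 : b = 0
    · simp [h4]
    by_cases h5 : y = 0
    · simp [h5]
    obtain ⟨c, c', h6, h7, h8, h9, h10⟩ := exists_hyp2 h.hW hn w y
    obtain ⟨x, hx⟩ := h.hU.form.exists_right_eq_one h.hU.sep ha
    have h11 := h3 ha hw x h8
    have := h.hV.map_mem_arm h.le (h.arm_eich (h3 h4 h5 a h7)) (h.hV.eich_fix 0
      (by simp [h.Bp, hb]) (by simp [h.Bp, alt_self h.hU])) h11
    rw [h.hV.eich_of_perp (h.Qp _ _) (by simp [h.Bp, h7]) _ (by simp [h.Bp, h9])] at this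
    simpa [h.Bp, h10, hx] using sub_mem this h11
  have h5 : ∀ {a w}, a ≠ 0 → w ≠ 0 → h.hV.Full M (pt U f a w) := fun {a w} ha hw => by
    obtain ⟨x, hx⟩ := h.hW.form.exists_right_eq_one h.hW.sep hw
    refine h.hV.full_of_ar (h.Qp a w) (fun t ht => h.hV.ar_of_arm ?_) fun c hc => by
      rw [show c = 0 from hc, h.hV.eich_zero]; exact one_mem _
    have := h.ind (S := (h.hV.Arm M (pt U f a w)).comap
      (1 - (pt U f).flip x ∘ₗ LinearMap.applyₗ w)) (fun b y => by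
        simpa using h3 ha hw b (y := y - f w y • x) (by simp [hx])) t
    exact (sub_add_cancel t (pt U f (t w) x)).subst (motive := (· ∈ _))
      (add_mem this (h4 ha hw (h.hU.refl (by simpa [h.Bp] using ht)) x))
  obtain ⟨x, hx⟩ := h.hW.form.exists_right_eq_one h.hW.sep hw
  obtain ⟨c, hc⟩ := h.hU.form.exists_right_eq_one h.hU.sep ha
  exact h.hV.om_le_of_full h.le (h5 ha hw) (h5 (a := c) (w := x) (by rintro rfl; simp at hc)
    (by rintro rfl; simp at hx)) (by simp [h.Bp, hx, hc])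

end TM

end Cfsg.Agent.H19.TA
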