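import Cfsg.Agent.H19.TA2

/-! Tensor products of two symplectic spaces: the unipotent radical of the stabiliser of `U ⊗ w`. -/

set_option autoImplicit false
set_option maxHeartbeats 400000

namespace Cfsg.Agent.H19.TA

open Module H10 H11 H26.MX

variable {F : Type*} [Field F] {U W : Type*} [AddCommGroup U] [Module F U] [AddCommGroup W] [Module F W]
  {g : U →ₗ[F] U →ₗ[F] F} {f : W →ₗ[F] W →ₗ[F] F}
  {B : (W →ₗ[F] U) →ₗ[F] (W →ₗ[F] U) →ₗ[F] F} {Q : (W →ₗ[F] U) → F}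
  {M : Subgroup ((W →ₗ[F] U) ≃ₗ[F] (W →ₗ[F] U))}

namespace TM
variable (h : TM g f B Q M)
include h

/-- the action on `(U ⊗ w)^⊥` of the elements of the unipotent radical -/
def Qe (w : W) : Submodule F ((W →ₗ[F] U) →ₗ[F] U) where
  carrier := {ψ | (∀ a, ψ (pt U f a w) = 0) ∧
    ∀ c : F, ∃ e ∈ M, ∀ v : W →ₗ[F] U, v w = 0 → e v = v + c • pt U f (ψ v) w}
  zero_mem' := ⟨fun _ => rfl, fun _ => ⟨1, one_mem _, fun v _ => by simp⟩⟩
  add_mem' := by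
    rintro ψ χ ⟨h1, h2⟩ ⟨h3, h4⟩
    refine ⟨fun a => by simp [h1, h3], fun c => ?_⟩
    obtain ⟨e, h5, h6⟩ := h2 c
    obtain ⟨e', h7, h8⟩ := h4 c
    exact ⟨e * e', mul_mem h5 h7, fun v hv => by
      rw [mul_app, h8 v hv, h6 _ (by simp [hv, alt_self h.hW])]; simp [h1]; abel⟩
  smul_mem' := by
    rintro d ψ ⟨h1, h2⟩
    exact ⟨fun a => by simp [h1], fun c => by simpa [mul_smul] using h2 (c * d)⟩

theorem perp_map {k : (W →ₗ[F] U) ≃ₗ[F] (W →ₗ[F] U)} (hk : k ∈ Isom B Q) {s : U ≃ₗ[F] U} {w w' : W}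
    (h1 : ∀ a, k (pt U f a w) = pt U f (s a) w') {v : W →ₗ[F] U} (hv : v w = 0) : k v w' = 0 :=
  h.hU.form.separatingRight h.hU.sep fun a => by
    rw [← app_inv s a, ← h.Bp, ← h1, hk.1, h.Bp, hv, map_zero]

theorem qe_conj {k : (W →ₗ[F] U) ≃ₗ[F] (W →ₗ[F] U)} (hk : k ∈ M) (s : U ≃ₗ[F] U) {w w' : W}
    (h1 : ∀ a, k (pt U f a w) = pt U f (s a) w') {ψ ψ' : (W →ₗ[F] U) →ₗ[F] U} (hψ : ψ ∈ h.Qe w')
    (h2 : ∀ v, s (ψ' v) = ψ (k v)) : ψ' ∈ h.Qe w := by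
  refine ⟨fun a => s.injective (by rw [h2, h1, hψ.1, map_zero]), fun c => ?_⟩
  obtain ⟨e, h3, h4⟩ := hψ.2 c
  exact ⟨k⁻¹ * e * k, mul_mem (mul_mem (inv_mem hk) h3) hk, fun v hv => inv_eq_of (y := e (k v)) (by
    rw [h4 _ (h.perp_map (h.le hk) h1 hv), map_add, map_smul, h1, h2])⟩

theorem ev_mem {w y : W} (hy : f y w = 0) : LinearMap.applyₗ y ∈ h.Qe w := by
  refine ⟨fun a => by simp [hy], fun c => ?_⟩
  obtain ⟨k, h1, h2⟩ := h.exists_T (w + c • y) 1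
  obtain ⟨k', h3, h4⟩ := h.exists_T (c • y) (-1)
  exact ⟨k * k', mul_mem h1 h3, fun v hv => by
    simp [mul_app, h2, h4, hv, h.hW.refl hy, alt_self h.hW]; abel⟩

theorem qe_comp {w y : W} (hy : f y w = 0) {ψ : (W →ₗ[F] U) →ₗ[F] U} (hψ : ψ ∈ h.Qe w) :
    (ψ ∘ₗ (pt U f).flip y) ∘ₗ LinearMap.applyₗ y ∈ h.Qe w := by
  obtain ⟨k, h1, h2⟩ := h.exists_T y 1
  convert sub_mem (h.qe_conj h1 1 (fun a => by simp [h2, hy]) hψ (ψ' := ψ ∘ₗ k.toLinearMap) fun _ => rfl) hψ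
    using 1
  ext v; simp [h2]

/-- the coefficient algebra -/
def EE : Submodule F (End F U) where
  carrier := {m | ∀ w y, f y w = 0 → m ∘ₗ LinearMap.applyₗ y ∈ h.Qe w}
  zero_mem' w y _ := by simp
  add_mem' ha hb w y hy := by rw [LinearMap.add_comp]; exact add_mem (ha w y hy) (hb w y hy)
  smul_mem' c m ha w y hy := by rw [LinearMap.smul_comp]; exact Submodule.smul_mem _ c (ha w y hy)

theorem ee_conj {s : U ≃ₗ[F] U} (hs : lf W s ∈ M) {m m' : End F U} (hm : m ∈ h.EE)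
    (h1 : ∀ x, s (m' x) = m (s x)) : m' ∈ h.EE := fun w y hy =>
  h.qe_conj hs s (fun a => lf_pt s a w) (hm w y hy) fun v => h1 (v y)

theorem comm_T {z k : (W →ₗ[F] U) ≃ₗ[F] (W →ₗ[F] U)} (hz : z ∈ Isom B Q) {w y : W}
    (h1 : ∀ v : W →ₗ[F] U, v w = 0 → z v = v) (hy : f w y = 0)
    (hk : ∀ v, k v = v + (1 : F) • pt U f (v y) y) : k * z = z * k := LinearEquiv.ext fun v => by
  have h2 : ∀ a, z (pt U f a y) = pt U f a y := fun a => h1 _ (by simp [hy])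
  have h3 : z v y = v y := sub_eq_zero.1 (h.hU.form.separatingRight h.hU.sep fun a => by
    rw [map_sub, ← h.Bp, ← h2, hz.1, h.Bp, sub_self])
  simp [mul_app, hk, h2, h3]

variable [FiniteDimensional F U] [FiniteDimensional F W]

omit [FiniteDimensional F U] in
theorem mem_ee {m : End F U} {w y : W} (hw : w ≠ 0) (hy : y ∉ F ∙ w)
    (hm : m ∘ₗ LinearMap.applyₗ y ∈ h.Qe w) : m ∈ h.EE := fun w' y' hy' => by
  have h1 : ∀ z, f z w = 0 → f y z ≠ 0 → m ∘ₗ LinearMap.applyₗ z ∈ h.Qe w := fun z h1 h2 => by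
    rw [← Submodule.smul_mem_iff _ h2]
    convert h.qe_comp h1 hm using 1
    ext; simp
  have h2 : ∀ z, f z w = 0 → m ∘ₗ LinearMap.applyₗ z ∈ h.Qe w := fun z hz => by
    by_cases h2 : f y z = 0
    swap
    · exact h1 z hz h2
    obtain ⟨x, h3, h4⟩ := exists_perp_one h.hW hy
    convert sub_mem (h1 (x + z) (by simp [hz, h.hW.refl h3]) (by simp [h2, h4]))
      (h1 x (h.hW.refl h3) (by simp [h4])) using 1
    ext; simp
  by_cases h3 : w' = 0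
  · exact ⟨fun a => by simp [h3], fun c => ⟨1, one_mem _, fun v _ => by simp [h3]⟩⟩
  obtain ⟨t, h4, rfl⟩ := h.hW.form.witt_one h.hW.sep h3 hw rfl
  exact h.qe_conj (h.rm t h4.1) 1 (fun a => rt_pt h4.1 a w') (h2 (t y') ((h4.1 _ _).trans hy'))
    fun v => by simp

omit [FiniteDimensional F U] in
theorem ee_mul (hn : 5 ≤ finrank F W) {m m' : End F U} (hm : m ∈ h.EE) (hm' : m' ∈ h.EE) :
    m * m' ∈ h.EE := by
  obtain ⟨y, w', -, -, -, -, h1⟩ := exists_hyp2 h.hW hn 0 0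
  obtain ⟨x, z, h2, h3, h4, h5, h6⟩ := exists_hyp2 h.hW hn y w'
  obtain ⟨w, h7, hw⟩ := (Submodule.ne_bot_iff _).1 (LinearMap.ker_ne_bot_of_finrank_lt
    (f := ((f y).prod (f w')).prod ((f x).prod (f z))) (by simp; omega))
  simp only [LinearMap.mem_ker, LinearMap.prod_apply, Function.prod, Prod.mk_eq_zero] at h7
  obtain ⟨⟨h7, h8⟩, h9, h10⟩ := h7
  obtain ⟨e, h11, h12⟩ := (hm' w' x (h.hW.refl h3)).2 1
  refine h.mem_ee hw (y := z) (fun h13 => ?_) ?_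
  · obtain ⟨c, rfl⟩ := Submodule.mem_span_singleton.1 h13
    simp [h9] at h6
  convert h.qe_comp h10 (h.qe_conj h11 1 (fun a => by simp [h12 (pt U f a w) (by simp [h8]), h9])
    (hm w y h7) (ψ' := m ∘ₗ LinearMap.applyₗ y ∘ₗ e.toLinearMap) fun _ => rfl) using 2
  ext a
  simp [h12 (pt U f a z) (by simp [h5]), h4, h6, h1]

theorem om_le_of_rank_one [Finite F] (hn : 5 ≤ finrank F W) {a b : U} (ha : a ≠ 0) (hb : b ≠ 0)
    (hm : (g b).smulRight a ∈ h.EE) : h.hV.Om ≤ M := by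
  have : Nontrivial W := Module.nontrivial_of_finrank_pos (R := F) (by omega)
  obtain ⟨w, hw⟩ := exists_ne (0 : W)
  obtain ⟨y, x, h1, -, h2, -, h3⟩ := exists_hyp2 h.hW hn w w
  refine h.om_le_of_arm hn ha hb hw (y := x) (fun h4 => ?_) fun c =>
    (h.hV.mem_ar (h.Qp a w)).2 ⟨by simp [h.Bp, h2], 0, by simp [h.hV.Q_smul, h.Qp], ?_⟩
  · obtain ⟨c, rfl⟩ := Submodule.mem_span_singleton.1 h4
    simp [h.hW.refl h1] at h3
  obtain ⟨e, h4, h5⟩ := (hm w y (h.hW.refl h1)).2 (-c)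
  obtain ⟨k, h6, h7⟩ := h.exists_T x 1
  have h8 : B (pt U f a w) ((-c) • pt U f b y) = 0 := by simp [h.Bp, h1]
  have h9 := h.hV.eich_mem_isom (c := 0) (h.Qp a w) h8 (by rw [h.hV.Q_smul, h.Qp]; simp)
  have h10 := h.comm_T (mul_mem (inv_mem h9) (h.le h4)) (fun v hv => inv_eq_of (y := e v) (by
    rw [h5 v hv, h.hV.eich_of_perp (h.Qp a w) h8 _ (by simp [h.Bp, hv])]
    simp [h.Bp, smul_smul])) h2 h7
  have h11 : k * e * k⁻¹ * e⁻¹ = k * h.hV.eich (pt U f a w) ((-c) • pt U f b y) 0 * k⁻¹ *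
      (h.hV.eich (pt U f a w) ((-c) • pt U f b y) 0)⁻¹ := by
    generalize h.hV.eich (pt U f a w) ((-c) • pt U f b y) 0 = E at h10
    rw [show e = E * (E⁻¹ * e) by group]
    generalize E⁻¹ * e = z at h10
    rw [← mul_assoc k, mul_assoc _ z, show z * k⁻¹ = k⁻¹ * z by
      rw [mul_inv_eq_iff_eq_mul, mul_assoc, ← h10, inv_mul_cancel_left]]
    group
  have h12 := mul_mem (mul_mem (mul_mem h6 h4) (inv_mem h6)) (inv_mem h4)
  rw [h11, h.hV.conj_eich (h.le h6), h.hV.eich_inv (h.Qp a w) h8, show k (pt U f a w) = pt U f a w by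
    simp [h7, h.hW.refl h2], h.hV.eich_mul (h.Qp a w) (by simp [h7, h.Bp, h1, h2])
    (by simp [h.Bp, h1])] at h12
  simpa [h7, h.Bp, alt_self h.hU, h.hW.flip_one h3] using h12

theorem om_le_of_ee [Finite F] (hn : 5 ≤ finrank F W) (hq : 3 ≤ finrank F U ∨ ∃ c : F, c ≠ 0 ∧ c ≠ 1)
    {m : End F U} (hm : m ∈ h.EE) (h0 : ∀ c : F, m ≠ c • LinearMap.id) : h.hV.Om ≤ M := by
  obtain ⟨a, h1⟩ : ∃ u, LinearIndependent F ![u, m u] := by
    by_contra! h3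
    obtain ⟨c, hc⟩ := m.exists_eq_smul_id_of_forall_notLinearIndependent h3
    exact h0 c hc
  have ha : a ≠ 0 := h1.ne_zero 0
  have h2 : m a ∉ F ∙ a := fun h2 => by
    obtain ⟨c, hc⟩ := Submodule.mem_span_singleton.1 h2
    exact (LinearIndependent.pair_iff' ha).1 h1 c hc
  have h3 : ∀ (b : U) (c : F), ∀ m ∈ h.EE, c • ((g b ∘ₗ m).smulRight b - (g b).smulRight (m b)) -
      (c * c * g b (m b)) • (g b).smulRight b ∈ h.EE := fun b c m hm => by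
    obtain ⟨s, h3, h4, h5⟩ := h.exists_S b (-c)
    convert sub_mem (h.ee_conj h3 hm (m' := s⁻¹.toLinearMap ∘ₗ m ∘ₗ s.toLinearMap) fun x => by simp) hm
      using 1
    ext x
    simp only [LinearMap.comp_apply, LinearEquiv.coe_coe, LinearMap.sub_apply, h4, h5]
    simp; module
  by_cases h4 : 3 ≤ finrank F U
  swap
  · obtain ⟨c, hc0, hc1⟩ := hq.resolve_left h4
    have h5 : g a (m a) ≠ 0 := fun h5 => by
      have h6 := h.hU.form.finrank_perp h.hU.sep (F ∙ a)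
      rw [finrank_span_singleton ha] at h6
      refine h2 ((Submodule.eq_of_le_of_finrank_le (S₂ := perp g (F ∙ a)) ?_ (by
        rw [finrank_span_singleton ha]; omega)).ge ?_)
      · rw [Submodule.span_singleton_le_iff_mem, mem_perp_span]; simp [alt_self h.hU]
      · rw [mem_perp_span]; simpa using h5
    refine h.om_le_of_rank_one hn ha ha ?_
    rw [← Submodule.smul_mem_iff _ (mul_ne_zero (mul_ne_zero hc0 (sub_ne_zero.2 hc1)) h5)]
    convert sub_mem (Submodule.smul_mem _ c (h3 a 1 m hm)) (h3 a c m hm) using 1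
    module
  have h5 : ∀ b, g a b = 0 →
      g b (m a) • (g a).smulRight b + g a (m b) • (g b).smulRight a ∈ h.EE := fun b hb => by
    convert neg_mem (h3 b 1 _ (h3 a 1 m hm)) using 1
    ext x; simp [hb, h.hU.refl hb]; module
  have h6 := h.hU.form.finrank_perp h.hU.sep (F ∙ a)
  obtain ⟨u, h7, h8⟩ := exists_not_mem_of_lt (W := F ∙ a) (U := perp g (F ∙ a)) (by
    rw [finrank_span_singleton ha] at *; omega)
  obtain ⟨x, h9, h10⟩ := exists_perp_one h.hU h8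
  obtain ⟨z, h11, h12⟩ := exists_perp_one h.hU h2
  have h13 : ∃ z ∈ LinearMap.ker (g a), g.flip (m a) z ≠ 0 := ⟨z, h11, by simp [h.hU.flip_one h12]⟩
  obtain ⟨b, h14, h15, h16⟩ := exists_mem_ne_ne _ (g.flip x) h13
    ⟨u, h7 a (Submodule.mem_span_singleton_self a), by simp [h10]⟩
  by_cases h17 : g a (m b) = 0
  · refine h.om_le_of_rank_one hn (a := b) (by rintro rfl; simp at h15) ha ?_
    rw [← Submodule.smul_mem_iff _ h15]
    simpa [h17] using h5 b h14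
  obtain ⟨b', h18, h19, h20⟩ := exists_mem_ne_ne _ (g b) h13 ⟨x, h9, h16⟩
  refine h.om_le_of_rank_one hn ha ha ?_
  rw [← Submodule.smul_mem_iff _ (mul_ne_zero (mul_ne_zero h19 h17) h20)]
  convert h.ee_mul hn (h5 b h14) (h5 b' h18) using 1
  ext y
  simp [show g a b' = 0 from h18, h.hU.refl h14, alt_self h.hU]; module

theorem om_le_of_qe [Finite F] (hn : 5 ≤ finrank F W) (hq : 3 ≤ finrank F U ∨ ∃ c : F, c ≠ 0 ∧ c ≠ 1)
    (hM : ¬ h.hV.Om ≤ M) {w y : W} (hw : w ≠ 0) (hy : f y w = 0) {ψ : (W →ₗ[F] U) →ₗ[F] U}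
    (hψ : ψ ∈ h.Qe w) : ∃ c : F, ∀ a, ψ (pt U f a y) = c • a := by
  by_cases h1 : y ∈ F ∙ w
  · obtain ⟨c, rfl⟩ := Submodule.mem_span_singleton.1 h1
    exact ⟨0, fun a => by simp [hψ.1]⟩
  by_contra! h2
  refine hM (h.om_le_of_ee hn hq (h.mem_ee hw h1 (h.qe_comp hy hψ)) fun c hc => ?_)
  obtain ⟨a, ha⟩ := h2 c
  exact ha (LinearMap.congr_fun hc a)

end TM

end Cfsg.Agent.H19.TA
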