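import Cfsg.Agent.H19.TA3

/-! Tensor products of two symplectic spaces: the stabiliser theorem and maximality. -/

set_option autoImplicit false
set_option maxHeartbeats 400000

namespace Cfsg.Agent.H19.TA

open Module H10 H11 H26.MX

variable {F : Type*} [Field F] {U W : Type*} [AddCommGroup U] [Module F U] [AddCommGroup W] [Module F W]
  {g : U →ₗ[F] U →ₗ[F] F} {f : W →ₗ[F] W →ₗ[F] F}
  {B : (W →ₗ[F] U) →ₗ[F] (W →ₗ[F] U) →ₗ[F] F} {Q : (W →ₗ[F] U) → F}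
  {M : Subgroup ((W →ₗ[F] U) ≃ₗ[F] (W →ₗ[F] U))} {k : (W →ₗ[F] U) ≃ₗ[F] (W →ₗ[F] U)}

theorem eq_pt_of {v : W →ₗ[F] U} {w x : W} (hx : f x w = 1) (hv : ∀ z, f z w = 0 → v z = 0) :
    v = pt U f (v x) w := LinearMap.ext fun z => by
  simpa [sub_eq_zero] using hv (z - f z w • x) (by simp [hx])

theorem tn_inv (h : Tn k⁻¹) : Tn k := by
  obtain ⟨s, φ, h⟩ := h
  exact ⟨s⁻¹, φ⁻¹, fun β z => inv_eq_of (g := k⁻¹) (by rw [h, app_inv, app_inv])⟩

/-- `k` maps `U ⊗ w` into some `U ⊗ w'` -/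
def St (f : W →ₗ[F] W →ₗ[F] F) (k : (W →ₗ[F] U) ≃ₗ[F] (W →ₗ[F] U)) (w : W) : Prop :=
  ∃ w', ∀ a, ∃ a', k (pt U f a w) = pt U f a' w'

variable [FiniteDimensional F U] [FiniteDimensional F W] [Nontrivial U]

theorem wt_of_tn (hn : finrank F U < finrank F W) (hk : Tn k) {Y : Submodule F (W →ₗ[F] U)}
    (hY : finrank F Y ≤ finrank F U) (h1 : ∀ v, k v - v ∈ Y) (h2 : k ≠ 1) : ∃ γ, Y = Wt U γ := by
  obtain ⟨s, φ, hk⟩ := hk
  obtain ⟨c, hc⟩ := s.toLinearMap.exists_eq_smul_id_of_forall_notLinearIndependent fun a ha => by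
    obtain ⟨χ, h3, h4⟩ := exists_dual_pair (F := F) (u := a) (x := s a) fun c hc =>
      (LinearIndependent.pair_iff' (ha.ne_zero 0)).1 ha c hc.symm
    let L : Dual F W →ₗ[F] (W →ₗ[F] U) := (k.toLinearMap - 1) ∘ₗ LinearMap.smulRightₗ.flip a
    have h5 : Function.Injective L := (injective_iff_map_eq_zero _).2 fun β hβ =>
      φ.injective (LinearMap.ext fun x => by
        simpa [L, hk, h3, h4] using congrArg χ (LinearMap.congr_fun hβ x))
    have h6 := Submodule.finrank_mono (show LinearMap.range L ≤ Y by rintro _ ⟨β, rfl⟩; exact h1 _)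
    rw [LinearMap.finrank_range_of_inj h5, Subspace.dual_finrank_eq] at h6
    omega
  replace hc : ∀ a, s a = c • a := LinearMap.congr_fun hc
  have h3 : ∀ (β : Dual F W) a, k (β.smulRight a) - β.smulRight a = (c • φ β - β).smulRight a :=
    fun β a => by ext; simp [hk, hc, sub_smul, smul_smul, mul_comm]
  obtain ⟨β, hβ⟩ : ∃ β, c • φ β - β ≠ 0 := by
    by_contra! h4
    exact h2 (LinearEquiv.toLinearMap_injective (ext_sr fun β a => sub_eq_zero.1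
      ((h3 β a).trans (by rw [h4]; ext; simp))))
  exact ⟨_, (Submodule.eq_of_le_of_finrank_le (by rintro _ ⟨a, rfl⟩; exact (h3 β a).subst (motive := (· ∈ Y)) (h1 _))
    (by rwa [finrank_Wt hβ])).symm⟩

namespace TM
variable (h : TM g f B Q M) [Finite F] (hn : 5 ≤ finrank F W)
  (hq : 3 ≤ finrank F U ∨ ∃ c : F, c ≠ 0 ∧ c ≠ 1) (hM : ¬ h.hV.Om ≤ M)
include h hn hq hM

theorem st2 (hk : k ∈ M) {s : U ≃ₗ[F] U} {w y : W} (hw : w ≠ 0)
    (hs : ∀ a, k (pt U f a w) = pt U f (s a) w) (hy : f y w = 0) :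
    ∃ y', ∀ a, k (pt U f a y) = pt U f (s a) y' := by
  have h1 : ∀ k ∈ M, ∀ s : U ≃ₗ[F] U, (∀ a, k (pt U f a w) = pt U f (s a) w) → ∀ y z, f y w = 0 →
      f z w = 0 → ∃ c : F, ∀ a, k (pt U f a y) z = c • s a := fun k hk s hs y z hy hz => by
    obtain ⟨c, hc⟩ := h.om_le_of_qe hn hq hM hw hy (h.qe_conj hk s hs (h.ev_mem hz)
      (ψ' := s⁻¹.toLinearMap ∘ₗ LinearMap.applyₗ z ∘ₗ k.toLinearMap) fun v => by simp)
    exact ⟨c, fun a => by rw [← map_smul, ← hc]; simp⟩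
  by_cases h2 : y ∈ F ∙ w
  · obtain ⟨c, rfl⟩ := Submodule.mem_span_singleton.1 h2
    exact ⟨c • w, fun a => by simp [hs]⟩
  obtain ⟨a₀, ha₀⟩ := exists_ne (0 : U)
  obtain ⟨χ, hχ⟩ := exists_dual_one (F := F) (app_ne_zero s ha₀)
  obtain ⟨y₁, h3⟩ := h.exists_flip (χ ∘ₗ k (pt U f a₀ y))
  replace h3 : ∀ z, f z y₁ = χ (k (pt U f a₀ y) z) := LinearMap.congr_fun h3
  have h4 : f w y₁ = 0 := by rw [h3, h.perp_map (h.le hk) hs (by simp [h.hW.refl hy]), map_zero]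
  obtain ⟨x, hx⟩ := h.hW.form.exists_right_eq_one h.hW.sep hw
  let κ : End F U := LinearMap.applyₗ (-x) ∘ₗ
    (k.toLinearMap ∘ₗ (pt U f).flip y - (pt U f).flip y₁ ∘ₗ s.toLinearMap)
  have h5 : ∀ a, k (pt U f a y) = pt U f (s a) y₁ + pt U f (κ a) w := fun a =>
    sub_eq_iff_eq_add'.1 (eq_pt_of (x := -x) (by simp [h.hW.flip_one hx]) fun z hz => by
      obtain ⟨c, hc⟩ := h1 k hk s hs y z hy hz
      simp [h3, hc, hχ])
  have h6 : y₁ ∉ F ∙ w := fun h6 => by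
    obtain ⟨c, rfl⟩ := Submodule.mem_span_singleton.1 h6
    obtain ⟨z, h6, h7⟩ := exists_perp_one h.hW h2
    have := LinearMap.congr_fun (k.injective (a₁ := pt U f a₀ y) (a₂ := pt U f (s⁻¹ (c • s a₀ + κ a₀)) w)
      (by rw [h5, hs, app_inv]; simp)) z
    simp [h.hW.refl h6, h.hW.flip_one h7, ha₀] at this
  obtain ⟨z, h7, h8⟩ := exists_perp_one h.hW h6
  have h9 : ∀ a (v : W →ₗ[F] U), v w = 0 → g a (k⁻¹ v y) = g (s a) (v y₁) := fun a v hv => by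
    rw [← h.Bp, ← (h.le hk).1, app_inv, h5]; simp [h.Bp, hv]
  obtain ⟨l, hl⟩ := h1 k⁻¹ (inv_mem hk) s⁻¹ (fun a => inv_eq_of (by rw [hs, app_inv])) z y (h.hW.refl h7) hy
  have h10 : ∀ a b, g (s a) b = l * g a (s⁻¹ b) := fun a b => by
    have := h9 a (pt U f b z) (by simp [h7])
    rw [hl] at this
    simpa [h8] using this.symm
  have h11 : l ≠ 0 := by
    obtain ⟨b, hb⟩ := h.hU.exists_ne (app_ne_zero s ha₀)
    rintro rfl
    simp [h10] at hb
  have h12 : ∀ v : W →ₗ[F] U, v w = 0 → k⁻¹ v y = l • s⁻¹ (v y₁) := fun v hv =>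
    sub_eq_zero.1 (h.hU.form.separatingRight h.hU.sep fun a => by
      rw [map_sub, h9 a v hv, h10]; simp)
  obtain ⟨μ, hμ⟩ := h.om_le_of_qe hn hq hM hw (h.hW.refl h7)
    (ψ := l • κ ∘ₗ s⁻¹.toLinearMap ∘ₗ LinearMap.applyₗ y₁) ⟨fun a => by simp [h.hW.refl h4], fun c => by
      obtain ⟨t, h13, h14⟩ := h.exists_T y c
      obtain ⟨t', h15, h16⟩ := h.exists_T y₁ (-(c * l))
      refine ⟨t' * (k * t * k⁻¹), mul_mem h15 (mul_mem (mul_mem hk h13) (inv_mem hk)), fun v hv => ?_⟩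
      rw [mul_app, mul_app, mul_app, h14, map_add k, app_inv, map_smul k, h5, h12 v hv, h16]
      simp [h.hW.refl h4, alt_self h.hW]
      module⟩
  refine ⟨y₁ + (μ / l) • w, fun a => ?_⟩
  have h13 : κ a = (μ / l) • s a := by
    rw [div_eq_inv_mul, mul_smul, eq_inv_smul_iff₀ h11, ← hμ]; simp [h8]
  simp [h5, h13]

theorem st3 (hk : k ∈ M) {w y : W} (hw : w ≠ 0) (hs : St f k w) (hy : f y w = 0) : St f k y := by
  obtain ⟨w', hs⟩ := hs
  obtain ⟨x, hx⟩ := h.hW.form.exists_right_eq_one h.hW.sep hw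
  replace hx := h.hW.flip_one hx
  have h1 : ∀ a, pt U f a w = 0 → a = 0 := fun a ha => by simpa [hx] using LinearMap.congr_fun ha x
  obtain ⟨a₀, ha₀⟩ := exists_ne (0 : U)
  obtain ⟨t, h2, h3⟩ := h.hW.form.witt_one h.hW.sep (v := w') (by
    rintro rfl
    obtain ⟨a, ha⟩ := hs a₀
    exact ha₀ (h1 _ (by simpa using ha))) hw rfl
  let s : End F U := LinearMap.applyₗ (-x) ∘ₗ (rt U t * k).toLinearMap ∘ₗ (pt U f).flip w
  have h4 : ∀ a, (rt U t * k) (pt U f a w) = pt U f (s a) w := fun a => by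
    obtain ⟨a', ha⟩ := hs a
    simp [s, mul_app, ha, rt_pt h2.1, h3, hx]
  obtain ⟨y', h5⟩ := h.st2 hn hq hM (mul_mem (h.rm t h2.1) hk) hw
    (s := LinearEquiv.ofInjectiveEndo s ((injective_iff_map_eq_zero _).2 fun a ha =>
      h1 a ((rt U t * k).injective (by rw [h4, ha]; simp)))) h4 hy
  exact ⟨t⁻¹ y', fun a => ⟨s a, (rt U t).injective (by rw [rt_pt h2.1, app_inv]; exact h5 a)⟩⟩

theorem tn_of_st (hk : k ∈ M) {w : W} (hw : w ≠ 0) (hs : St f k w) : Tn k :=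
  tn_of_Wt (by omega) fun β _ => by
    obtain ⟨y, rfl⟩ := h.exists_flip β
    obtain ⟨z, h1, hz⟩ := (Submodule.ne_bot_iff _).1 (LinearMap.ker_ne_bot_of_finrank_lt
      (f := (f.flip w).prod (f y)) (by simp; omega))
    simp only [LinearMap.mem_ker, LinearMap.prod_apply, Function.prod, Prod.mk_eq_zero] at h1
    obtain ⟨y', h2⟩ := h.st3 hn hq hM hk hz (h.st3 hn hq hM hk hw hs h1.1) h1.2
    exact ⟨f.flip y', fun a => (h2 a).imp fun _ h => h.symm⟩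

theorem tn_of_mem (hmn : finrank F U + 2 ≤ finrank F W) (hk : k ∈ M) : Tn k := by
  by_contra hk'
  let X : W → Submodule F (W →ₗ[F] U) := fun w => LinearMap.range ((pt U f).flip w)
  have : Nontrivial W := Module.nontrivial_of_finrank_pos (R := F) (by omega)
  obtain ⟨w₀, hw₀⟩ := exists_ne (0 : W)
  have key : ∀ d : ℕ, ∃ k ∈ M, ¬ Tn k ∧ ∃ w w', w ≠ 0 ∧ w' ≠ 0 ∧
      d ≤ finrank F ↥(X w ⊓ (X w').map k.toLinearMap) := fun d => by
    induction d with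
    | zero => exact ⟨k, hk, hk', w₀, w₀, hw₀, hw₀, Nat.zero_le _⟩
    | succ d ih =>
    obtain ⟨k, hk, hk', w, w', hw, hw', hd⟩ := ih
    obtain ⟨x, hx, hx'⟩ := SetLike.not_le_iff_exists.1 fun h1 : (X w').map k.toLinearMap ≤ X w =>
      hk' (h.tn_of_st hn hq hM hk hw' ⟨w, fun a => (h1 ⟨_, ⟨a, rfl⟩, rfl⟩).imp fun _ h => h.symm⟩)
    obtain ⟨y, h1, hy⟩ := (Submodule.ne_bot_iff _).1 (LinearMap.ker_ne_bot_of_finrank_lt
      (f := (f.flip w).prod x) (by simp; omega))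
    simp only [LinearMap.mem_ker, LinearMap.prod_apply, Function.prod, Prod.mk_eq_zero,
      LinearMap.flip_apply] at h1
    obtain ⟨t, h2, h3⟩ := h.exists_T y 1
    have h4 := mul_mem (mul_mem (inv_mem hk) h2) hk
    refine ⟨_, h4, fun h5 => hk' (tn_inv (h.tn_of_st hn hq hM (inv_mem hk) hy ?_)), w', w', hw', hw', ?_⟩
    · obtain ⟨γ, h6⟩ := wt_of_tn (by omega) h5 (Y := (X y).map k⁻¹.toLinearMap)
        ((finrank_map _ _).trans_le (LinearMap.finrank_range_le _))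
        (fun v => ⟨_, ⟨k v y, rfl⟩, by simp [mul_app, h3]⟩) fun h6 => by
          obtain ⟨a, ha⟩ := exists_ne (0 : U)
          obtain ⟨z, hz⟩ := h.hW.form.exists_right_eq_one h.hW.sep hy
          have h7 := DFunLike.congr_fun h6 (k⁻¹ (pt U f a z))
          simp only [mul_app, app_inv, h3, one_app, EmbeddingLike.apply_eq_iff_eq] at h7
          simpa [hz, h.hW.flip_one hz, ha] using LinearMap.congr_fun h7 z
      obtain ⟨w₁, rfl⟩ := h.exists_flip γ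
      exact ⟨w₁, fun a => (h6.le ⟨_, ⟨a, rfl⟩, rfl⟩).imp fun _ h => h.symm⟩
    rw [← finrank_map _ k⁻¹] at hd
    refine hd.trans_lt (Submodule.finrank_lt_finrank_of_lt (lt_of_le_of_ne ?_ fun h6 => hx' ?_))
    · rintro _ ⟨_, ⟨⟨a, rfl⟩, h6⟩, rfl⟩
      exact ⟨mem_map_iff.1 h6, _, mem_map_iff.1 h6, by simp [mul_app, h3, h1.1]⟩
    · simpa using (mem_map_iff.1 (h6.ge ⟨mem_map_iff.1 hx, _, mem_map_iff.1 hx, by
        simp [mul_app, h3, h1.2]⟩)).1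
  obtain ⟨k, -, -, w, w', -, -, hd⟩ := key (finrank F (W →ₗ[F] U) + 1)
  have := Submodule.finrank_le (X w ⊓ (X w').map k.toLinearMap)
  omega

end TM

end Cfsg.Agent.H19.TA
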