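import Cfsg.Agent.H19.TA4
import Cfsg.Agent.H10.SL2Gen

/-! Two opposite quadratic elements generate a central involution; small lemmas on quadratic spaces. -/

set_option autoImplicit false
set_option maxHeartbeats 400000

namespace Cfsg.Agent.H19.TA

open Module H10 H11 H26.MX Polynomial
open scoped MatrixGroups

theorem neg_one_mem_gen {K : Type*} [Field K] [Finite K] (h2 : (2 : K) ≠ 0) {l : K} (hl : l ≠ 0) :
    (-1 : SL(2, K)) ∈ Subgroup.closure (genSet l) := by
  obtain ⟨p, hp⟩ := CharP.exists K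
  have := Fact.mk (CharP.char_is_prime K p)
  have hp2 : p ≠ 2 := by rintro rfl; exact h2 (by exact_mod_cast CharP.cast_eq_zero K 2)
  set H := Subgroup.closure (genSet l)
  by_cases h1 : 1 < Nat.card (Sylow p H)
  · obtain ⟨L, g, h3⟩ := exists_SL2_le hp2 h1
    obtain ⟨x, hx, h4⟩ := h3 ⟨-1, rfl⟩
    rwa [show x = -1 from (conjSL g).injective (h4.trans (Subtype.ext (by
      change _ = g.val * (-1) * g⁻¹.val
      ext i j; fin_cases i <;> fin_cases j <;> simp)))] at hx
  have : Subsingleton (Sylow p H) := Finite.card_le_one_iff_subsingleton.1 (by omega)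
  obtain ⟨P⟩ : Nonempty (Sylow p H) := inferInstance
  have h3 : ∀ x : H, x.1 ^ p = 1 → x ∈ P := fun x hx => by
    obtain ⟨P', h3⟩ := IsPGroup.exists_le_sylow (p := p) (P := Subgroup.zpowers x) fun ⟨_, n, rfl⟩ =>
      ⟨1, Subtype.ext (show (x ^ n) ^ p ^ 1 = 1 by
        rw [pow_one, ← zpow_natCast, ← zpow_mul, mul_comm, zpow_mul, zpow_natCast,
          show x ^ p = 1 from Subtype.ext hx, one_zpow])⟩
    exact Subsingleton.elim P' P ▸ h3 (Subgroup.mem_zpowers x)
  obtain ⟨k, hk⟩ := P.isPGroup' ⟨_, mul_mem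
    (h3 ⟨_, Subgroup.subset_closure (low_mem_genSet l)⟩ (transvection_pow_char (by decide) _))
    (h3 ⟨_, Subgroup.subset_closure (upp_mem_genSet l)⟩ (transvection_pow_char (by decide) _))⟩
  have h4 := congrArg (fun x : P => (x.1.1 : Matrix (Fin 2) (Fin 2) K)) hk
  simp only [SubgroupClass.coe_pow, Subgroup.coe_mul, Matrix.SpecialLinearGroup.coe_pow,
    OneMemClass.coe_one, Matrix.SpecialLinearGroup.coe_one] at h4
  have h5 := sub_eq_zero.2 (h4.trans (one_pow (p ^ k)).symm)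
  rw [← sub_pow_char_pow_of_commute p k (Commute.one_right _)] at h5
  replace h5 := (Matrix.isNilpotent_trace_of_isNilpotent ⟨_, h5⟩).eq_zero
  rw [Matrix.SpecialLinearGroup.coe_mul] at h5
  simp [Matrix.SpecialLinearGroup.transvection_coe, Matrix.trace_fin_two, Matrix.mul_apply] at h5
  exact absurd (by linear_combination h5) hl

variable {F : Type*} [Field F] {V : Type*} [AddCommGroup V] [Module F V] [FiniteDimensional F V]

theorem exists_neg [Finite F] (h2 : (2 : F) ≠ 0) {N N' : End F V} {T T' : V ≃ₗ[F] V}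
    (hT : ∀ v, T v = v + N v) (hT' : ∀ v, T' v = v + N' v) (hN' : ∀ v, N' (N' v) = 0)
    {A : Submodule F V} (hA : A ≠ ⊥) (h1 : ∀ a ∈ A, N a = 0) (h3 : ∀ a ∈ A, (N * N') a ∈ A)
    (h4 : ∀ a ∈ A, N (N' a) = 0 → a = 0) :
    ∃ z ∈ Subgroup.closure {T, T'}, ∃ a ∈ A, a ≠ 0 ∧ z a = -a ∧ z (N' a) = -N' a := by
  have := Submodule.nontrivial_iff_ne_bot.2 hA
  let θ : End F A := (N * N').restrict h3
  have hi : IsIntegral F θ := Algebra.IsIntegral.isIntegral θ
  obtain ⟨P, hm, hP, G, hG⟩ := exists_monic_irreducible_factor (minpoly F θ) (minpoly.not_isUnit F θ)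
  have hG0 : G ≠ 0 := by rintro rfl; exact minpoly.ne_zero hi (by simpa using hG)
  obtain ⟨u, hu⟩ : ∃ u, aeval θ G u ≠ 0 := by
    by_contra! h5
    have h6 := natDegree_le_of_dvd (minpoly.dvd F θ (p := G) (LinearMap.ext h5)) hG0
    rw [hG, natDegree_mul hm.ne_zero hG0] at h6
    have := hP.natDegree_pos
    omega
  have h5 : aeval θ P (aeval θ G u) = 0 := by rw [← End.mul_apply, ← map_mul, ← hG, minpoly.aeval]; rfl
  generalize aeval θ G u = v at hu h5
  have := Fact.mk hP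
  have : Module.Finite F (AdjoinRoot P) := (AdjoinRoot.powerBasis' hm).finite
  have : Finite (AdjoinRoot P) := Module.finite_of_finite F
  let j : AdjoinRoot P →ₗ[F] A := LinearMap.applyₗ v ∘ₗ (aeval θ).toLinearMap ∘ₗ AdjoinRoot.modByMonicHom hm
  have h6 : ∀ φ, j (AdjoinRoot.mk P φ) = aeval θ φ v := fun φ => by
    conv_rhs => rw [← modByMonic_add_div φ P, mul_comm P]
    simp [j, h5]
  have h7 : ∀ x, j (AdjoinRoot.root P * x) = θ (j x) := fun x => by
    obtain ⟨φ, rfl⟩ := AdjoinRoot.mk_surjective x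
    rw [← AdjoinRoot.mk_X, ← map_mul, h6, h6]; simp
  have h8 : j 1 = v := by simpa using h6 1
  let Φ : (Fin 2 → AdjoinRoot P) → V := fun x => j (x 0) + N' (j (x 1))
  let S : Subgroup SL(2, AdjoinRoot P) :=
    { carrier := {g | ∃ z ∈ Subgroup.closure {T, T'}, ∀ x, z (Φ x) = Φ (g.1.mulVec x)}
      one_mem' := ⟨1, one_mem _, by simp⟩
      mul_mem' := by
        rintro a b ⟨z, hz, h9⟩ ⟨z', hz', h10⟩
        exact ⟨z * z', mul_mem hz hz', fun x => by
          rw [mul_app, h10, h9, Matrix.mulVec_mulVec]; rfl⟩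
      inv_mem' := by
        rintro a ⟨z, hz, h9⟩
        exact ⟨z⁻¹, inv_mem hz, fun x => inv_eq_of (by
          rw [h9, Matrix.mulVec_mulVec, ← Matrix.SpecialLinearGroup.coe_mul, mul_inv_cancel]; simp)⟩ }
  obtain ⟨z, hz, h9⟩ := (Subgroup.closure_le S).2 (by
    rintro g (hg | hg)
    · exact ⟨T', Subgroup.subset_closure (by simp), fun x => by
        simp [Φ, hg, hT', hN', Matrix.mulVec, dotProduct]; abel⟩
    · exact ⟨T, Subgroup.subset_closure (by simp), fun x => by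
        simp [Φ, hg, hT, h1, h7, θ, Matrix.mulVec, dotProduct]; abel⟩)
    (neg_one_mem_gen (K := AdjoinRoot P) (l := AdjoinRoot.root P)
      (by rw [← map_ofNat (algebraMap F _)]; simpa using h2) fun h => hu (Subtype.ext (h4 v v.2 (by
        have := h7 1
        rw [h, zero_mul, map_zero, h8] at this
        exact congrArg Subtype.val this.symm))))
  exact ⟨z, hz, v, v.2, by simpa using hu, by simpa [Φ, h8, Matrix.neg_mulVec] using h9 ![1, 0],
    by simpa [Φ, h8, Matrix.neg_mulVec] using h9 ![0, 1]⟩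

section quad
variable {f : V →ₗ[F] V →ₗ[F] F} {q : V → F} (h : Cl (σ := RingHom.id F) 1 2 (AddMonoidHom.id F) f q)
include h

omit [FiniteDimensional F V] in
theorem qs (x y : V) : f x y = f y x := by simp [h.symm y x]

omit [FiniteDimensional F V] in
theorem qd (x : V) : f x x = 2 * q x := h.form.diag x

theorem exists_nons {Z : Submodule F V} {c : V} (hc : c ∈ perp f Z) (hc' : c ∉ Z) :
    ∃ z ∈ perp f Z, q z ≠ 0 := by
  obtain ⟨c', h1, h2⟩ := h.form.exists_perp_not h.sep hc'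
  by_contra! h3
  have := h.Q_add c c'
  rw [h3 c hc, h3 c' h1, h3 _ (add_mem hc h1), h2] at this
  simp at this

theorem exists_nons2 (hn : 5 ≤ finrank F V) (w y : V) : ∃ z, f w z = 0 ∧ f y z = 0 ∧ q z ≠ 0 := by
  have h1 := H10.finrank_span_pair_le (F := F) w y
  have h2 := h.form.finrank_perp h.sep (Submodule.span F {w, y})
  obtain ⟨c, h3, h4⟩ := exists_not_mem_of_lt (W := Submodule.span F {w, y})
    (U := perp f (Submodule.span F {w, y})) (by omega)
  obtain ⟨z, h5, h6⟩ := exists_nons h h3 h4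
  rw [mem_perp_span] at h5
  exact ⟨z, h5 w (by simp), h5 y (by simp), h6⟩

theorem exists_sing2 [Finite F] (hn : 5 ≤ finrank F V) (w y : V) :
    ∃ z, z ≠ 0 ∧ f w z = 0 ∧ f y z = 0 ∧ q z = 0 := by
  have h1 := H10.finrank_span_pair_le (F := F) w y
  have h2 := h.form.finrank_perp h.sep (Submodule.span F {w, y})
  obtain ⟨z, h3, h4, h5⟩ := h.exists_sing3 (W := perp f (Submodule.span F {w, y})) (by omega)
  rw [mem_perp_span] at h3
  exact ⟨z, h4, h3 w (by simp), h3 y (by simp), h5⟩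

theorem exists_om_apply [Finite F] (hn : 5 ≤ finrank F V) {w w' : V} (h0 : w ≠ 0) (h0' : w' ≠ 0)
    (hw : q w = 0) (hw' : q w' = 0) : ∃ t ∈ h.Om, ∃ c : F, c ≠ 0 ∧ t w' = c • w := by
  have h1 : ∀ w w' u, q w = 0 → q w' = 0 → q u = 0 → f u w ≠ 0 → f u w' ≠ 0 →
      ∃ t ∈ h.Om, ∃ c : F, c ≠ 0 ∧ t w' = c • w := fun w w' u hw hw' hu h1 h2 => by
    obtain ⟨x, c, h3, h4, h5⟩ := h.exists_eich_apply (v := w') (v' := (f u w' / f u w) • w) hu
      (by rw [hw', h.sing_smul hw]) (by simp [h1]) h2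
    exact ⟨_, h.eich_mem_om hu h3 h4, _, div_ne_zero h2 h1, h5⟩
  have h2 : ∀ w w', w ≠ 0 → w' ≠ 0 → q w = 0 → q w' = 0 → f w w' = 0 →
      ∃ t ∈ h.Om, ∃ c : F, c ≠ 0 ∧ t w' = c • w := fun w w' h0 h0' hw hw' h2 => by
    obtain ⟨u, h3, h4⟩ := h.form.exists_partner h.sep hw h0
    obtain ⟨u', h5, h6⟩ := h.form.exists_partner h.sep hw' h0'
    by_cases h7 : f w' u = 0
    swap
    · exact h1 w w' u hw hw' h3 (by simp [qs h u, h4]) (by rwa [qs h u])
    by_cases h8 : f w u' = 0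
    swap
    · exact h1 w w' u' hw hw' h5 (by rwa [qs h u']) (by simp [qs h u', h6])
    refine h1 w w' (u + u' + (-f u u') • w) hw hw' ?_ ?_ ?_
    · simp [-neg_smul, h.Q_add, h.Q_smul, h3, h5, hw, qs h u w, qs h u' w, h4, h8]
    · simp [qs h u w, qs h u' w, h4, h8, h.diag0 hw]
    · simp [qs h u w', qs h u' w', h6, h7, h2]
  obtain ⟨z, h3, h4, h5, h6⟩ := exists_sing2 h hn w w'
  obtain ⟨t, h7, c, hc, h8⟩ := h2 w z h0 h3 hw h6 h4
  obtain ⟨t', h9, c', hc', h10⟩ := h2 z w' h3 h0' h6 hw' (h.refl h5)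
  exact ⟨t * t', mul_mem h7 h9, c' * c, mul_ne_zero hc' hc, by simp [mul_app, h8, h10, mul_smul]⟩

theorem perp_le_of_irr [Finite F] (hn : 5 ≤ finrank F V) {w : V} (h0 : w ≠ 0) (hw : q w = 0)
    {S : Submodule F V} (hS : ∀ t ∈ h.Om, t w = w → ∀ s ∈ S, t s ∈ S) {s : V} (hs : s ∈ S)
    (h1 : f w s = 0) (h2 : s ∉ F ∙ w) {y : V} (hy : f w y = 0) : y ∈ S := by
  obtain ⟨x, hx, h3⟩ := h.form.exists_partner h.sep hw h0
  have h4 := H10.finrank_span_pair_le (F := F) w x
  have h5 := h.form.finrank_perp h.sep (Submodule.span F {w, x})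
  have h6 : ∀ y, f w y = 0 → y - f x y • w ∈ perp f (Submodule.span F {w, x}) := fun y hy => by
    simp [mem_perp_span, hy, h.diag0 hw, qs h x w, h3]
  have h7 : ∀ y, f w y = 0 → (∀ u ∈ perp f (Submodule.span F {w, x}), f u y = 0) → y ∈ F ∙ w :=
    fun y hy h7 => by
    obtain ⟨a, b, rfl⟩ := Submodule.mem_span_pair.1 (h.form.mem_of_perp h.sep
      (W := Submodule.span F {w, x}) (x := y) fun u hu => h.refl (h7 u hu))
    simp [h.diag0 hw, h3] at hy
    simp [hy, Submodule.smul_mem, Submodule.mem_span_singleton_self]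
  have h8 : perp f (Submodule.span F {w, x}) ≤ S := h.irr (fun u hu h8 => by
      obtain ⟨c, rfl⟩ := Submodule.mem_span_singleton.1 (h7 u (hu w (Submodule.subset_span (by simp)))
        fun z hz => h.refl (h8 z hz))
      have := hu x (Submodule.subset_span (by simp))
      simp [qs h x w, h3] at this
      simp [this]) (Or.inl (by omega))
    (fun u hu z hz c h8 h9 h10 => hS _ (h.eich_mem_om h8 h9 h10) (h.eich_fix c
      (h.refl (hu w (Submodule.subset_span (by simp)))) (h.refl (hz w (Submodule.subset_span (by simp))))))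
    hs (by by_contra! h8; exact h2 (h7 s h1 h8))
  obtain ⟨c, c', h9, h10, h11, h12, h13⟩ := exists_hyp2 h hn w x
  have h14 := h8 (mem_perp_span.2 (by simp [h11, h12]) : c' ∈ _)
  have h15 := sub_mem (hS _ (h.eich_mem_om hw h9 rfl) (h.eich_fix _ (h.diag0 hw) (h.refl h9)) c' h14) h14
  rw [h.eich_of_perp hw h9 _ h11, h13, one_smul, add_sub_cancel_left] at h15
  simpa using add_mem (h8 (h6 y hy)) (S.smul_mem (f x y) h15)

end quad

end Cfsg.Agent.H19.TA
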