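import Cfsg.Agent.H19.TB1

/-! Tensor products with an orthogonal factor: the unipotent radical of the stabiliser of `U ⊗ w`. -/

set_option autoImplicit false
set_option maxHeartbeats 400000

namespace Cfsg.Agent.H19.TA

open Module H10 H11 H26.MX

variable {F : Type*} [Field F] {U W : Type*} [AddCommGroup U] [Module F U] [AddCommGroup W] [Module F W]
  {g : U →ₗ[F] U →ₗ[F] F} {f : W →ₗ[F] W →ₗ[F] F} {p : U → F} {q : W → F}
  {B : (W →ₗ[F] U) →ₗ[F] (W →ₗ[F] U) →ₗ[F] F} {Q : (W →ₗ[F] U) → F}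
  {M : Subgroup ((W →ₗ[F] U) ≃ₗ[F] (W →ₗ[F] U))} {ε κ : F} {τ : F →+ F}

theorem eq_top_of_sing [FiniteDimensional F U] (h : Cl (σ := RingHom.id F) ε κ τ g p) {a : U} (ha : a ≠ 0)
    (hp : p a = 0) {S : Submodule F U} (h1 : a ∈ S) (h2 : ∀ b, p b = 0 → g a b ≠ 0 → b ∈ S) (x : U) :
    x ∈ S := by
  obtain ⟨b, h3, h4⟩ := h.form.exists_partner h.sep hp ha
  have h5 := h2 b h3 (by simp [h4])
  have h6 : g a (x - g a x • b) = 0 := by simp [h4]
  obtain ⟨c, hc⟩ := h.exists_tau (x - g a x • b)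
  have h7 := h2 _ (((h.eich_mem_isom hp h6 hc).2 b).trans h3) (by
    rw [h.eich_apply hp h6, map_sub, map_sub, map_add, map_smul, map_smul, map_smul, h6]
    simp [h4, h.diag0 hp])
  rw [h.eich_apply hp h6, Submodule.sub_mem_iff_left _ (S.smul_mem _ h1), Submodule.sub_mem_iff_right _
    (add_mem h5 (S.smul_mem _ h1)), Submodule.smul_mem_iff _ (by simp [h4, h.eps_ne])] at h7
  simpa using add_mem h7 (S.smul_mem (g a x) h5)

theorem mem_of_sing_perp [FiniteDimensional F W] [Finite F]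
    (h : Cl (σ := RingHom.id F) 1 2 (AddMonoidHom.id F) f q) (hn : 5 ≤ finrank F W) {w : W} (h0 : w ≠ 0)
    (hw : q w = 0) {S : Submodule F W} (hS : ∀ y, q y = 0 → f w y = 0 → y ∈ S) {y : W} (hy : f w y = 0) :
    y ∈ S := by
  have h1 := h.form.finrank_perp h.sep (F ∙ w)
  obtain ⟨s, h2, h3, h4⟩ := h.exists_sing_notMem (W := perp f (F ∙ w)) (Z := F ∙ w) (by
    rw [finrank_span_singleton h0] at *; omega)
  replace h2 := h2 w (Submodule.mem_span_singleton_self w)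
  refine (Submodule.span_le.2 fun y hy => hS y hy.1 hy.2 : Submodule.span F {y | q y = 0 ∧ f w y = 0} ≤ S)
    (perp_le_of_irr h hn h0 hw (fun t ht h5 s hs => ?_) (Submodule.subset_span (And.intro h4 h2)) h2 h3 hy)
  refine (Submodule.span_le (p := Submodule.comap t.toLinearMap (Submodule.span F
    {y | q y = 0 ∧ f w y = 0}))).2 (fun y hy => Submodule.subset_span
    (And.intro (((h.om_le_isom ht).2 y).trans hy.1) ?_)) hs
  conv_lhs => rw [← h5]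
  exact ((h.om_le_isom ht).1 _ _).trans hy.2

theorem ex_flip [FiniteDimensional F W] (h : Cl (σ := RingHom.id F) ε κ τ f q) (β : Dual F W) :
    ∃ w, f.flip w = β := by
  obtain ⟨w, hw⟩ := h.exists_B (ε • β)
  exact ⟨w, LinearMap.ext fun y => by simp [h.symm w y, hw, ← mul_assoc, h.eps_mul]⟩

theorem pt_ind [FiniteDimensional F U] [FiniteDimensional F W] (h : Cl (σ := RingHom.id F) ε κ τ f q)
    {S : Submodule F (W →ₗ[F] U)} (hS : ∀ a w, pt U f a w ∈ S) (v : W →ₗ[F] U) : v ∈ S := by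
  have := ext_sr (f := S.mkQ) (g := 0) fun β z => by
    obtain ⟨w, rfl⟩ := ex_flip h β
    exact (Submodule.Quotient.mk_eq_zero S).2 (hS z w)
  exact (Submodule.Quotient.mk_eq_zero S).1 (LinearMap.congr_fun this v)

theorem rt_eich (h : Cl (σ := RingHom.id F) 1 2 (AddMonoidHom.id F) f q) {u w : W} (hu : q u = 0)
    (huw : f u w = 0) (v : W →ₗ[F] U) : rt U (h.eich u w (q w)) v =
      v + pt U f (v w) u - pt U f (v u) w - q w • pt U f (v u) u := by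
  ext x
  rw [rt_apply, h.eich_inv hu huw, h.eich_apply hu (by simp [huw])]
  simp [qs h x, qd h w]; module

/-- the action on `(U ⊗ w)^⊥` of the elements of the unipotent radical -/
def Q1 (M : Subgroup ((W →ₗ[F] U) ≃ₗ[F] (W →ₗ[F] U))) {w : W} (hw : f w w = 0) :
    AddSubgroup ((W →ₗ[F] U) →ₗ[F] U) where
  carrier := {ψ | (∀ a, ψ (pt U f a w) = 0) ∧
    ∃ e ∈ M, ∀ v : W →ₗ[F] U, v w = 0 → e v = v + pt U f (ψ v) w}
  zero_mem' := ⟨fun _ => rfl, 1, one_mem _, fun v _ => by simp⟩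
  add_mem' := by
    rintro ψ χ ⟨h1, e, h5, h6⟩ ⟨h3, e', h7, h8⟩
    exact ⟨fun a => by simp [h1, h3], e * e', mul_mem h5 h7, fun v hv => by
      rw [mul_app, h8 v hv, h6 _ (by simp [hv, hw])]; simp [h1]; abel⟩
  neg_mem' := by
    rintro ψ ⟨h1, e, h5, h6⟩
    exact ⟨fun a => by simp [h1], e⁻¹, inv_mem h5, fun v hv => inv_eq_of (by
      rw [h6 _ (by simp [hv, hw])]; simp [h1])⟩

/-- the largest subspace in `Q1` -/
def Q2 (M : Subgroup ((W →ₗ[F] U) ≃ₗ[F] (W →ₗ[F] U))) {w : W} (hw : f w w = 0) :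
    Submodule F ((W →ₗ[F] U) →ₗ[F] U) where
  carrier := {ψ | ∀ c : F, c • ψ ∈ Q1 M hw}
  zero_mem' c := by simp
  add_mem' h1 h2 c := by rw [smul_add]; exact add_mem (h1 c) (h2 c)
  smul_mem' d ψ h1 c := by rw [smul_smul]; exact h1 _

theorem q2_pt {w : W} {hw : f w w = 0} {ψ : (W →ₗ[F] U) →ₗ[F] U} (h : ψ ∈ Q2 M hw) (a : U) :
    ψ (pt U f a w) = 0 := by simpa using (h 1).1 a

/-- the coefficient algebra -/
def E2 (f : W →ₗ[F] W →ₗ[F] F) (M : Subgroup ((W →ₗ[F] U) ≃ₗ[F] (W →ₗ[F] U))) :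
    Submodule F (End F U) where
  carrier := {m | ∀ w (hw : f w w = 0) y, f y w = 0 → m ∘ₗ LinearMap.applyₗ y ∈ Q2 M hw}
  zero_mem' w hw y _ := by simp
  add_mem' ha hb w hw y hy := by rw [LinearMap.add_comp]; exact add_mem (ha w hw y hy) (hb w hw y hy)
  smul_mem' c m ha w hw y hy := by rw [LinearMap.smul_comp]; exact Submodule.smul_mem _ c (ha w hw y hy)

/-- a group of isometries of a tensor product -/
structure TG (g : U →ₗ[F] U →ₗ[F] F) (f : W →ₗ[F] W →ₗ[F] F)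
    (B : (W →ₗ[F] U) →ₗ[F] (W →ₗ[F] U) →ₗ[F] F) (M : Subgroup ((W →ₗ[F] U) ≃ₗ[F] (W →ₗ[F] U))) : Prop where
  gs : ∀ a, (∀ x, g x a = 0) → a = 0
  Bp : ∀ a w v, B (pt U f a w) v = g a (v w)
  iso : ∀ k ∈ M, ∀ x y, B (k x) (k y) = B x y

namespace TG
variable (h : TG g f B M)
include h

theorem perp_map {k : (W →ₗ[F] U) ≃ₗ[F] (W →ₗ[F] U)} (hk : k ∈ M) {s : U ≃ₗ[F] U} {w w' : W}
    (h1 : ∀ a, k (pt U f a w) = pt U f (s a) w') {v : W →ₗ[F] U} (hv : v w = 0) : k v w' = 0 :=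
  h.gs _ fun a => by rw [← app_inv s a, ← h.Bp, ← h1, h.iso k hk, h.Bp, hv, map_zero]

theorem q2_conj {k : (W →ₗ[F] U) ≃ₗ[F] (W →ₗ[F] U)} (hk : k ∈ M) (s : U ≃ₗ[F] U) {w w' : W}
    (hw : f w w = 0) {hw' : f w' w' = 0}
    (h1 : ∀ a, k (pt U f a w) = pt U f (s a) w') {ψ ψ' : (W →ₗ[F] U) →ₗ[F] U} (hψ : ψ ∈ Q2 M hw')
    (h2 : ∀ v, s (ψ' v) = ψ (k v)) : ψ' ∈ Q2 M hw := fun c => by
  obtain ⟨-, e, h3, h4⟩ := hψ c
  refine ⟨fun a => s.injective (by simp [h2, h1, q2_pt hψ]), k⁻¹ * e * k,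
    mul_mem (mul_mem (inv_mem hk) h3) hk, fun v hv => inv_eq_of (y := e (k v)) ?_⟩
  rw [h4 _ (h.perp_map hk h1 hv), map_add, h1]; simp [h2]

theorem e2_conj {s : U ≃ₗ[F] U} (hs : lf W s ∈ M) {m m' : End F U} (hm : m ∈ E2 f M)
    (h1 : ∀ x, s (m' x) = m (s x)) : m' ∈ E2 f M := fun w hw y hy =>
  h.q2_conj hs s hw (fun a => lf_pt s a w) (hm w hw y hy) fun v => h1 (v y)

theorem comm_rt {z : (W →ₗ[F] U) ≃ₗ[F] (W →ₗ[F] U)} (hz : ∀ x y, B (z x) (z y) = B x y) {w x : W}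
    (hx : f x w = 1) (hr : ∀ y, f y w = 0 → f w y = 0) (h1 : ∀ v : W →ₗ[F] U, v w = 0 → z v = v)
    {t : W ≃ₗ[F] W} (ht : ∀ x y, f (t x) (t y) = f x y) (h2 : t w = w) :
    rt U t * z = z * rt U t := LinearEquiv.ext fun v => by
  have h3 := eq_pt_of (v := z v - v) hx fun y hy => h.gs _ fun a => by
    rw [← h.Bp, map_sub, ← h1 (pt U f a y) (by simp [hr y hy]), hz, h1 _ (by simp [hr y hy]), sub_self]
  have h4 := h1 (rt U t v - v) (by simp [inv_eq_of h2])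
  have h5 : rt U t (z v - v) = z v - v := by rw [h3, rt_pt ht, h2]
  rw [map_sub] at h4 h5
  rw [mul_app, mul_app, sub_eq_iff_eq_add.1 h4, sub_eq_iff_eq_add.1 h5]; abel

end TG

theorem comm_eq {G : Type*} [Group G] {k e E : G} (h : k * (E⁻¹ * e) = E⁻¹ * e * k) :
    k * e * k⁻¹ * e⁻¹ = k * E * k⁻¹ * E⁻¹ := by
  rw [show e = E * (E⁻¹ * e) by group]
  generalize E⁻¹ * e = z at h
  rw [← mul_assoc k, mul_assoc _ z, show z * k⁻¹ = k⁻¹ * z by
    rw [mul_inv_eq_iff_eq_mul, mul_assoc, ← h, inv_mul_cancel_left]]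
  group

theorem comm_ar {V : Type*} [AddCommGroup V] [Module F V] {B : V →ₗ[F] V →ₗ[F] F} {Q : V → F}
    (h : Cl (σ := RingHom.id F) ε κ τ B Q) {M : Subgroup (V ≃ₗ[F] V)} {k : V ≃ₗ[F] V} (hk : k ∈ Isom B Q)
    {e y : V} {d : F} (he : Q e = 0) (h1 : k e = e) (hy : B e y = 0)
    (hm : k * h.eich e y d * k⁻¹ * (h.eich e y d)⁻¹ ∈ M) : k y - y ∈ h.Ar M e := by
  have h2 : B e (k y) = 0 := by rw [← h1, hk.1, hy]
  rw [h.conj_eich hk, h.eich_inv he hy, h1, h.eich_mul he h2 (by simp [hy]), ← sub_eq_add_neg] at hm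
  refine (h.mem_ar he).2 ⟨by simp [h2, hy], _, ?_, hm⟩
  rw [h.form.sub, hk.2, add_sub_cancel, map_add, h.tau_eps, h.tau_eps, h.tau_diag]
  simp [sub_eq_add_neg]

/-- an overgroup of the product of two classical groups, the second one orthogonal -/
structure TO (ε κ : F) (τ : F →+ F) (g : U →ₗ[F] U →ₗ[F] F) (p : U → F) (f : W →ₗ[F] W →ₗ[F] F)
    (q : W → F) (B : (W →ₗ[F] U) →ₗ[F] (W →ₗ[F] U) →ₗ[F] F) (Q : (W →ₗ[F] U) → F)
    (M : Subgroup ((W →ₗ[F] U) ≃ₗ[F] (W →ₗ[F] U))) : Prop where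
  hU : Cl (σ := RingHom.id F) ε κ τ g p
  hW : Cl (σ := RingHom.id F) 1 2 (AddMonoidHom.id F) f q
  hV : Cl (σ := RingHom.id F) ε κ τ B Q
  two : (2 : F) ≠ 0
  Bp : ∀ a w v, B (pt U f a w) v = g a (v w)
  Qp : ∀ a w, q w = 0 → Q (pt U f a w) = 0
  le : M ≤ Isom B Q
  lm : ∀ s ∈ hU.Om, lf W s ∈ M
  rm : ∀ t ∈ hW.Om, rt U t ∈ M

namespace TO
variable (h : TO ε κ τ g p f q B Q M)
include h

theorem tg : TG g f B M := ⟨fun _ => h.hU.form.separatingRight h.hU.sep, h.Bp, fun _ hk => (h.le hk).1⟩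

theorem q0 {w : W} (hw : f w w = 0) : q w = 0 := by simpa [h.two] using (qd h.hW w).symm.trans hw

theorem one_mem_e2 : (1 : End F U) ∈ E2 f M := fun w hw y hy c => by
  have h1 : f w (c • y) = 0 := by simp [h.hW.refl hy]
  exact ⟨fun a => by simp [hy], _, h.rm _ (h.hW.eich_mem_om (h.q0 hw) h1 rfl), fun v hv => by
    simp [rt_eich h.hW (h.q0 hw) h1, hv]⟩

variable [FiniteDimensional F W] [Finite F] (hn : 5 ≤ finrank F W)
include hn

omit [Finite F] in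
theorem q2_comp {w y : W} {hw : f w w = 0} (hy : f y w = 0) (hq : q y = 0) {ψ : (W →ₗ[F] U) →ₗ[F] U}
    (hψ : ψ ∈ Q2 M hw) : (ψ ∘ₗ (pt U f).flip y) ∘ₗ LinearMap.applyₗ y ∈ Q2 M hw := by
  obtain ⟨z, h1, h2, h3⟩ := exists_nons2 h.hW hn w y
  have h4 := rt_eich (U := U) h.hW hq h2
  have h5 : ∀ ψ ∈ Q2 M hw, ψ ∘ₗ (rt U (h.hW.eich y z (q z))).toLinearMap - ψ ∈ Q2 M hw := fun ψ hψ =>
    sub_mem (h.tg.q2_conj (h.rm _ (h.hW.eich_mem_om hq h2 rfl)) 1 hw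
      (fun a => by simp [h4, hy, h.hW.refl h1]) hψ fun _ => rfl) hψ
  rw [← Submodule.smul_mem_iff _ (neg_ne_zero.2 (mul_ne_zero h.two h3))]
  convert h5 _ (h5 _ hψ) using 1
  ext v
  simp [h4, h2, h.hW.refl h2, h.hW.diag0 hq, qd h.hW z]; module

theorem mem_e2 {m : End F U} {w y : W} {hw : f w w = 0} (h0 : w ≠ 0) (hy : y ∉ F ∙ w) (hy' : f y w = 0)
    (hm : m ∘ₗ LinearMap.applyₗ y ∈ Q2 M hw) : m ∈ E2 f M := fun w' hw' y' hy' => by
  have h2 : ∀ z, f w z = 0 → m ∘ₗ LinearMap.applyₗ z ∈ Q2 M hw := fun z hz =>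
    perp_le_of_irr h.hW hn h0 (h.q0 hw) (S := (Q2 M hw).comap (LinearMap.llcomp F _ _ _ m ∘ₗ
      LinearMap.applyₗ)) (fun t ht h1 s hs => h.tg.q2_conj (h.rm _ (inv_mem ht)) 1 hw
        (fun a => by rw [rt_pt (h.hW.om_le_isom (inv_mem ht)).1, inv_eq_of h1]; rfl) hs fun v => rfl)
      hm (h.hW.refl ‹_›) hy hz
  by_cases h3 : w' = 0
  · exact fun c => ⟨fun a => by simp [h3], 1, one_mem _, fun v _ => by simp [h3]⟩
  obtain ⟨t, h4, c, hc, h5⟩ := exists_om_apply h.hW hn h0 h3 (h.q0 hw) (h.q0 hw')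
  have h6 := (h.hW.om_le_isom h4).1
  refine h.tg.q2_conj (h.rm t h4) (LinearEquiv.smulOfNeZero F U c hc) hw' (fun a => by
    simp [rt_pt h6, h5]) (Submodule.smul_mem _ c (h2 (t y') ?_)) fun v => by simp
  have := h6 w' y'
  rw [h5, h.hW.refl hy'] at this
  simpa [hc] using this

theorem q2_e2 {w y : W} {hw : f w w = 0} (h0 : w ≠ 0) {ψ : (W →ₗ[F] U) →ₗ[F] U} (hψ : ψ ∈ Q2 M hw)
    (hy : f w y = 0) : ψ ∘ₗ (pt U f).flip y ∈ E2 f M :=
  mem_of_sing_perp h.hW hn h0 (h.q0 hw) (S := (E2 f M).comap ((pt U f).flip.compr₂ ψ)) (fun y h1 h2 => by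
    by_cases h3 : y ∈ F ∙ w
    · obtain ⟨c, rfl⟩ := Submodule.mem_span_singleton.1 h3
      exact (show (pt U f).flip.compr₂ ψ (c • w) = 0 by ext a; simp [q2_pt hψ]).symm.subst
        (motive := (· ∈ E2 f M)) (zero_mem _)
    exact h.mem_e2 hn h0 h3 (h.hW.refl h2) (h.q2_comp hn (h.hW.refl h2) h1 hψ)) hy

theorem exists_line : ∃ w w', w ≠ 0 ∧ q w = 0 ∧ q w' = 0 ∧ f w w' = 0 ∧ w' ∉ F ∙ w := by
  obtain ⟨w, -, h0, hw⟩ := h.hW.exists_sing3 (W := ⊤) (by simp; omega)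
  have h1 := h.hW.form.finrank_perp h.hW.sep (F ∙ w)
  obtain ⟨s, h2, h3, h4⟩ := h.hW.exists_sing_notMem (W := perp f (F ∙ w)) (Z := F ∙ w) (by
    rw [finrank_span_singleton h0] at *; omega)
  exact ⟨w, s, h0, hw, h4, h2 w (Submodule.mem_span_singleton_self w), h3⟩

theorem e2_mul {m m' : End F U} (hm : m ∈ E2 f M) (hm' : m' ∈ E2 f M) : m * m' ∈ E2 f M := by
  obtain ⟨w, w', h0, hw, hw', h1, h2⟩ := h.exists_line hn
  obtain ⟨y, h3, h4⟩ := exists_perp_one h.hW h2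
  obtain ⟨z, h5, h6, h7⟩ := exists_nons2 h.hW hn w w'
  obtain ⟨-, e, h11, h12⟩ := hm' w' (h.hW.diag0 hw') z (h.hW.refl h6) 1
  have := h.q2_e2 hn h0 (h.tg.q2_conj h11 1 (h.hW.diag0 hw) (fun a => by
    simp [h12 (pt U f a w) (by simp [h.hW.refl h1]), h.hW.refl h5])
    (hm w (h.hW.diag0 hw) y (h.hW.refl h3)) (ψ' := m ∘ₗ LinearMap.applyₗ y ∘ₗ e.toLinearMap) fun _ => rfl) h5
  rw [← Submodule.smul_mem_iff _ (mul_ne_zero h.two h7)]
  convert sub_mem this (Submodule.smul_mem _ (f y z) hm) using 1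
  ext a
  simp [h12 (pt U f a z) (by simp [h6]), qs h.hW y w', h4, qd h.hW z]

theorem om_le_of_all [FiniteDimensional F U] {a : U} (ha : a ≠ 0)
    (hm : ∀ a b, (g b).smulRight a ∈ E2 f M) : h.hV.Om ≤ M := by
  have h3 : ∀ {w}, w ≠ 0 → q w = 0 → ∀ a b {y}, f w y = 0 → pt U f b y ∈ h.hV.Arm M (pt U f a w) :=
    fun {w} h0 hw a b {y} hy => by
    obtain ⟨w', h1, h2, h3⟩ := h.hW.exists_sing_notMem (W := perp f (F ∙ w)) (Z := F ∙ w) (by
      have := h.hW.form.finrank_perp h.hW.sep (F ∙ w)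
      rw [finrank_span_singleton h0] at *; omega)
    replace h1 := h1 w (Submodule.mem_span_singleton_self w)
    obtain ⟨y₀, h4, h5⟩ := exists_perp_one h.hW h2
    obtain ⟨z, h6, h7, h8⟩ := exists_nons2 h.hW hn w w'
    obtain ⟨x, hx⟩ := h.hW.form.exists_right_eq_one h.hW.sep h0
    have h9 := h.hW.eich_mem_om h3 h7 rfl
    have h10 := (h.hW.om_le_isom h9).1
    have h11 := h.hW.eich_fix (q z) (h.hW.refl h1) (h.hW.refl h6)
    refine perp_le_of_irr h.hW hn h0 hw (S := (h.hV.Arm M (pt U f a w)).comap (pt U f b))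
      (fun t ht h12 s hs => ?_) (s := h.hW.eich w' z (q z) y₀ - y₀) (fun c => ?_) ?_ (fun h12 => ?_) hy
    · simpa [rt_pt (h.hW.om_le_isom ht).1, h12] using arm_map h.hV h.le (h.rm t ht) hs
    · obtain ⟨-, e, h12, h13⟩ := hm a b w (h.hW.diag0 hw) y₀ (h.hW.refl h4) c
      obtain ⟨d, hd⟩ := h.hV.exists_tau (c • pt U f b y₀)
      have h14 : B (pt U f a w) (c • pt U f b y₀) = 0 := by simp [h.Bp, h4]
      have h15 := h.hV.eich_mem_isom (h.Qp a w hw) h14 hd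
      have h16 := mul_mem (mul_mem (mul_mem (h.rm _ h9) h12) (inv_mem (h.rm _ h9))) (inv_mem h12)
      rw [comm_eq (h.tg.comm_rt (mul_mem (inv_mem h15) (h.le h12)).1 (h.hW.flip_one hx) (fun _ => h.hW.refl)
        (fun v hv => inv_eq_of (y := e v) (by
          rw [h13 v hv, h.hV.eich_of_perp (h.Qp a w hw) h14 _ (by simp [h.Bp, hv])]
          simp [h.Bp, smul_smul])) h10 h11)] at h16
      simpa [rt_pt h10, smul_sub] using comm_ar h.hV (h.le (h.rm _ h9)) (h.Qp a w hw)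
        (by rw [rt_pt h10, h11]) h14 h16
    · rw [map_sub, h4, sub_zero, ← h11, h10, h4]
    · obtain ⟨c, hc⟩ := Submodule.mem_span_singleton.1 h12
      have := congrArg (f z) hc
      simp [h.hW.eich_apply h3 h7, h5, h.hW.refl h6, h.hW.refl h7, qd h.hW z, h.two, h8] at this
  have h4 : ∀ {w x}, q w = 0 → q x = 0 → f w x = 1 → ∀ {a b}, g b a = 0 → ∀ a', g a a' = 1 →
      pt U f b x ∈ h.hV.Arm M (pt U f a w) := fun {w x} hw hx h1 {a b} hb a' ha => by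
    obtain ⟨c, c', h6, h7, h8, h9, h10⟩ := exists_hyp2 h.hW hn w x
    have h11 := h3 (by rintro rfl; simp at h1) hw a a' h8
    obtain ⟨h12, d, -, h13⟩ := (h.hV.mem_ar (h.Qp b x hx)).1
      (h.hV.ar_of_arm (h3 (by rintro rfl; simp at h1) hx b a h7))
    have := h.hV.map_mem_arm h.le h13 (h.hV.eich_fix d (by simp [h.Bp, hb]) (by
      simp [h.Bp, h.hW.refl h6])) h11
    rw [h.hV.eich_of_perp (h.Qp b x hx) h12 _ (by simp [h.Bp, h9])] at this
    simpa [h.Bp, h10, ha] using sub_mem this h11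
  have h5 : ∀ {w x}, q w = 0 → q x = 0 → f w x = 1 → ∀ {a a'}, g a a' = 1 →
      h.hV.Full M (pt U f a w) := fun {w x} hw hx h1 {a a'} ha => by
    have h5 : ∀ t, B (pt U f a w) t = 0 → t ∈ h.hV.Ar M (pt U f a w) := fun t ht => by
      have := pt_ind h.hW (S := (h.hV.Arm M (pt U f a w)).comap
        (1 - (pt U f).flip x ∘ₗ LinearMap.applyₗ w)) (fun b y => by
          simpa using h3 (by rintro rfl; simp at h1) hw a b (y := y - f w y • x) (by simp [h1])) t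
      exact h.hV.ar_of_arm ((sub_add_cancel t (pt U f (t w) x)).subst (motive := (· ∈ _)) (add_mem this
        (h4 hw hx h1 (h.hU.refl (by simpa [h.Bp] using ht)) a' ha)))
    have : Nontrivial U := ⟨a, 0, by rintro rfl; simp at ha⟩
    have h6 := finrank_pos (R := F) (M := U)
    exact h.hV.full_of_ar (h.Qp a w hw) h5 fun c => h.hV.center_of_ar (by
      rw [finrank_linearMap]; nlinarith) (fun _ => h.two) (h.Qp a w hw) h5
  obtain ⟨w, -, h0, hw⟩ := h.hW.exists_sing3 (W := ⊤) (by simp; omega)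
  obtain ⟨x, hx, h6⟩ := h.hW.form.exists_partner h.hW.sep hw h0
  obtain ⟨c, hc⟩ := h.hU.form.exists_right_eq_one h.hU.sep ha
  obtain ⟨c', hc'⟩ := h.hU.form.exists_right_eq_one h.hU.sep (x := c) (by rintro rfl; simp at hc)
  exact h.hV.om_le_of_full h.le (h5 hw hx h6 hc) (h5 hx hw (h.hW.flip_one h6) hc') (by simp [h.Bp, h6, hc])

end TO

end Cfsg.Agent.H19.TA
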