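import Cfsg.Agent.H19.TB2

/-! Algebras normalised by a classical group. -/

set_option autoImplicit false
set_option maxHeartbeats 400000

namespace Cfsg.Agent.H19.TA

open Module H10 H11 H26.MX

variable {F : Type*} [Field F] {U : Type*} [AddCommGroup U] [Module F U]
  {g : U →ₗ[F] U →ₗ[F] F} {p : U → F} {ε κ : F} {τ : F →+ F} {E : Submodule F (End F U)}

theorem exists_common {ι : Type*} (D : ι → End F U) (hc : ∀ i j, Commute (D i) (D j))
    (hn : ∀ i, IsNilpotent (D i)) {E S : Submodule F U} (hE : ∀ i, ∀ x ∈ E, D i x ∈ E)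
    (hS : ∀ i, ∀ x ∈ S, D i x ∈ S) {x : U} (hx : x ∈ E) (hx' : x ∉ S) (s : Finset ι) :
    ∃ y ∈ E, y ∉ S ∧ ∀ i ∈ s, D i y ∈ S := by
  classical
  induction s using Finset.induction_on with
  | empty => exact ⟨x, hx, hx', by simp⟩
  | insert i s _ ih =>
  obtain ⟨y, h1, h2, h3⟩ := ih
  have h4 : ∃ n, (D i ^ n) y ∈ S := (hn i).imp fun n hn => by simp [hn]
  have h5 : ∀ {S : Submodule F U}, (∀ x ∈ S, D i x ∈ S) → ∀ n, ∀ x ∈ S, (D i ^ n) x ∈ S :=
    fun hS n x hx => by
      induction n with
      | zero => exact hx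
      | succ n ih => rw [pow_succ']; exact hS _ ih
  obtain ⟨n, h6⟩ := Nat.exists_eq_add_one_of_ne_zero (n := Nat.find h4) fun h => h2 (by
    simpa [h] using Nat.find_spec h4)
  refine ⟨_, h5 (hE i) n y h1, Nat.find_min h4 (by omega), fun j hj => ?_⟩
  rcases Finset.mem_insert.1 hj with rfl | hj
  · simpa [h6, pow_succ'] using Nat.find_spec h4
  · rw [← End.mul_apply, ((hc j i).pow_right n).eq]; exact h5 (hS i) n _ (h3 j hj)

/-- an algebra normalised by the Eichler group -/
structure Alg (h : Cl (σ := RingHom.id F) ε κ τ g p) (E : Submodule F (End F U)) : Prop where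
  one : (1 : End F U) ∈ E
  mul : ∀ m ∈ E, ∀ m' ∈ E, m * m' ∈ E
  conj : ∀ s ∈ h.Om, ∀ m ∈ E, ∀ m' : End F U, (∀ x, s (m' x) = m (s x)) → m' ∈ E

variable [FiniteDimensional F U]

theorem Alg.all {h : Cl (σ := RingHom.id F) ε κ τ g p} (hE : Alg h E) {a : U} (hp : p a = 0)
    (hm : (g a).smulRight a ∈ E) {t : U ≃ₗ[F] U} (ht : t ∈ h.Om) (h0 : g a (t a) ≠ 0) (x y : U) :
    (g y).smulRight x ∈ E := by
  have h1 : ∀ t ∈ h.Om, ∀ b, (g b).smulRight b ∈ E → (g (t b)).smulRight (t b) ∈ E := fun t ht b hb =>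
    hE.conj _ (inv_mem ht) _ hb _ fun x => by simp [← (h.om_le_isom ht).1 b]
  have h2 : ∀ a a', p a = 0 → p a' = 0 → g a a' ≠ 0 → (g a').smulRight a' ∈ E → ∀ b, p b = 0 → g a b ≠ 0 →
      (g b).smulRight b ∈ E := fun a a' h2 h3 h4 h5 b h6 h7 => by
    obtain ⟨w, c, h8, h9, h10⟩ := h.exists_eich_apply (v := (g a b / g a a') • a') (v' := b) h2
      (by rw [h6, h.sing_smul h3]) (by simp [h4]) (by simp [h4, h7])
    refine h10 ▸ h1 _ (h.eich_mem_om h2 h8 h9) _ ?_
    convert E.smul_mem (g a b / g a a' * (g a b / g a a')) h5 using 1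
    ext; simp [smul_smul]; ring_nf
  have h3 : ∀ a a', p a = 0 → p a' = 0 → g a a' ≠ 0 → (g a).smulRight a ∈ E → (g a').smulRight a' ∈ E →
      (g y).smulRight a ∈ E := fun a a' h3 h4 h5 h6 h7 =>
    eq_top_of_sing h (by rintro rfl; simp at h5) h3 (S := E.comap (LinearMap.smulRightₗ.flip a ∘ₗ g)) h6
      (fun b h8 h9 => by
        refine (E.smul_mem_iff h9).1 ?_
        convert hE.mul _ h6 _ (h2 a a' h3 h4 h5 h7 b h8 h9) using 1
        ext; simp [smul_smul, mul_comm]) y
  have h4 := ((h.om_le_isom ht).2 a).trans hp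
  exact eq_top_of_sing h (by rintro rfl; simp at h0) hp (S := E.comap (LinearMap.smulRightₗ (g y)))
    (h3 a _ hp h4 h0 hm (h1 t ht a hm)) (fun b h5 h6 =>
      h3 b a h5 hp (h.refl_ne h6) (h2 a _ hp h4 h0 (h1 t ht a hm) b h5 h6) hm) x

theorem Alg.all_alt {h : Cl (σ := RingHom.id F) (-1) 0 0 g fun _ => 0} (hE : Alg h E) (h2 : (2 : F) ≠ 0)
    (hn : finrank F U = 2) {m : End F U} (hm : m ∈ E) (h0 : ∀ c : F, m ≠ c • LinearMap.id) (x y : U) :
    (g y).smulRight x ∈ E := by
  obtain ⟨a, h1⟩ : ∃ u, LinearIndependent F ![u, m u] := by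
    by_contra! h3
    obtain ⟨c, hc⟩ := m.exists_eq_smul_id_of_forall_notLinearIndependent h3
    exact h0 c hc
  have ha : a ≠ 0 := h1.ne_zero 0
  have h3 : ∀ c : F, c • ((g a ∘ₗ m).smulRight a - (g a).smulRight (m a)) -
      (c * c * g a (m a)) • (g a).smulRight a ∈ E := fun c => by
    have h4 := h.eich_apply (u := a) (w := 0) rfl (map_zero _) c
    convert sub_mem (hE.conj _ (h.eich_mem_om (u := a) (w := 0) (c := c) rfl (map_zero _) rfl) m hm
      ((h.eich a 0 (-c)).toLinearMap ∘ₗ m ∘ₗ (h.eich a 0 c).toLinearMap) fun x => by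
        simp [h.eich_apply (u := a) (w := 0) rfl (map_zero _), alt_self h]) hm using 1
    ext x
    simp [h.eich_apply (u := a) (w := 0) rfl (map_zero _)]; module
  have h5 : g a (m a) ≠ 0 := fun h5 => by
    have h6 := h.form.finrank_perp h.sep (F ∙ a)
    rw [finrank_span_singleton ha] at h6
    obtain ⟨c, hc⟩ := Submodule.mem_span_singleton.1 ((Submodule.eq_of_le_of_finrank_le (S₁ := F ∙ a)
      (S₂ := perp g (F ∙ a)) (by rw [Submodule.span_singleton_le_iff_mem, mem_perp_span]; simp [alt_self h])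
      (by rw [finrank_span_singleton ha]; omega)).ge (mem_perp_span.2 (by simpa using h5) : m a ∈ _))
    exact (LinearIndependent.pair_iff' ha).1 h1 c hc
  obtain ⟨b, hb⟩ := h.form.exists_right_eq_one h.sep ha
  refine hE.all (a := a) rfl ?_ (h.eich_mem_om (u := b) (w := 0) (c := 1) rfl (map_zero _) rfl) (by
    simp [h.eich_apply (u := b) (w := 0) rfl (map_zero _), alt_self h, hb, h.flip_one hb]) x y
  rw [← Submodule.smul_mem_iff _ (neg_ne_zero.2 (mul_ne_zero h2 h5))]
  convert add_mem (h3 1) (h3 (-1)) using 1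
  module

section quad
variable {h : Cl (σ := RingHom.id F) 1 2 (AddMonoidHom.id F) g p}

theorem exists_nons3 (h : Cl (σ := RingHom.id F) 1 2 (AddMonoidHom.id F) g p) (hn : 3 ≤ finrank F U) {a b : U} (ha : p a = 0) (hb : p b = 0) (h1 : g a b = 1) :
    ∃ z, g a z = 0 ∧ g b z = 0 ∧ p z ≠ 0 := by
  have h2 := H10.finrank_span_pair_le (F := F) a b
  have h3 := h.form.finrank_perp h.sep (Submodule.span F {a, b})
  obtain ⟨c, h4, h5⟩ := exists_ne_zero_of_finrank (W := perp g (Submodule.span F {a, b})) (by omega)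
  obtain ⟨z, h6, h7⟩ := exists_nons h h4 fun h6 => by
    obtain ⟨s, t, rfl⟩ := Submodule.mem_span_pair.1 h6
    simp [mem_perp_span, h.diag0, ha, hb, h1, qs h b a] at h4
    simp [h4] at h5
  rw [mem_perp_span] at h6
  exact ⟨z, h6 a (by simp), h6 b (by simp), h7⟩

omit [FiniteDimensional F U] in
theorem mem_of_nons (h : Cl (σ := RingHom.id F) 1 2 (AddMonoidHom.id F) g p) (h2 : (2 : F) ≠ 0) {T S : Submodule F U} {z : U} (hz : z ∈ T) (hz' : p z ≠ 0)
    (hS : ∀ x ∈ T, p x ≠ 0 → x ∈ S) : T ≤ S := fun x hx => by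
  by_contra h1
  have h3 : ∀ y ∈ T, y ∉ S → p y = 0 := fun y h3 h4 => by_contra fun h5 => h4 (hS y h3 h5)
  have h4 := h3 _ (add_mem hz hx) (by rwa [Submodule.add_mem_iff_right _ (hS z hz hz')])
  have h5 := h3 _ (sub_mem hz hx) (by rwa [Submodule.sub_mem_iff_right _ (hS z hz hz')])
  rw [h.Q_add, h3 x hx h1] at h4
  rw [h.form.sub, h3 x hx h1] at h5
  exact mul_ne_zero h2 hz' (by linear_combination h4 + h5)

theorem Alg.all_quad [Finite F] (hE : Alg h E) (h2 : (2 : F) ≠ 0) (hn : 3 ≤ finrank F U)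
    (hq : 4 ≤ finrank F U ∨ ∃ t : F, t ≠ 0 ∧ t * t ≠ 1)
    (hl : 5 ≤ finrank F U ∨ ∀ a r, p a = 0 → p r = 0 → g a r = 0 → a ≠ 0 → r ∈ F ∙ a)
    {m : End F U} (hm : m ∈ E) (h0 : ∀ c : F, m ≠ c • LinearMap.id) (x y : U) :
    (g y).smulRight x ∈ E := by
  have : Finite U := Module.finite_of_finite F
  obtain ⟨a, -, ha, hp⟩ := h.exists_sing3 (W := ⊤) (by simpa)
  obtain ⟨b, hb, hab⟩ := h.form.exists_partner h.sep hp ha
  obtain ⟨z₀, h1, h3, h4⟩ := exists_nons3 h hn hp hb hab
  have haa := h.diag0 hp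
  have hba := h.flip_one hab
  suffices h5 : (g a).smulRight a ∈ E from hE.all hp h5 (h.eich_mem_om hb h3 rfl) (by
    simp [h.eich_apply hb h3, h1, h.refl h1, haa, hab, hba, h4]) x y
  have := Fintype.ofFinite (LinearMap.ker (g a))
  let e : LinearMap.ker (g a) → End F U := fun z => (h.eich a z (p z)).toLinearMap
  have he : ∀ z x, e z x = x + g z x • a - g a x • z.1 - (p z * g a x) • a := fun z x =>
    (h.eich_apply hp z.2 (p z) x).trans (by rw [one_mul])
  have h5 : ∀ z z', e z * e z' = e (z + z') := fun z z' => by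
    have := congrArg LinearEquiv.toLinearMap (h.eich_mul hp z.2 z'.2 (p z) (p z'))
    simpa [e, h.Q_add] using this
  have h6 : e 0 = 1 := by ext; simp [he, h.Q_zero]
  have h7 : ∀ z, IsNilpotent (e z - 1) := fun z => ⟨3, by
    ext x; simp [pow_succ, he, haa, show g a z = 0 from z.2, h.refl z.2]⟩
  obtain ⟨m, hm, h0, h8⟩ := exists_common (fun z => LinearMap.mulLeft F (e (-z)) *
      LinearMap.mulRight F (e z) - 1) (fun z z' => LinearMap.ext fun m => by
      simp only [End.mul_apply, LinearMap.sub_apply, LinearMap.mulLeft_apply, LinearMap.mulRight_apply,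
        End.one_apply, mul_sub, sub_mul, mul_assoc, h5]
      simp only [← mul_assoc, h5, add_comm z', add_comm (-z')]; abel)
    (fun z => by
      have h8 := LinearMap.commute_mulLeft_right (R := F) (e (-z) - 1) (e z)
      have h9 := LinearMap.commute_mulLeft_right (R := F) (e (-z) - 1) (e z - 1)
      rw [show LinearMap.mulLeft F (e (-z)) * LinearMap.mulRight F (e z) - 1 = LinearMap.mulLeft F (e (-z) - 1) *
        LinearMap.mulRight F (e z) + LinearMap.mulRight F (e z - 1) from
        LinearMap.ext fun m => by simp [mul_sub, sub_mul]]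
      exact Commute.isNilpotent_add (h9.mul_left (LinearMap.ext fun m => by simp [mul_sub, sub_mul]))
        (h8.isNilpotent_mul_right ((LinearMap.isNilpotent_mulLeft_iff F _).2 (h7 _)))
        ((LinearMap.isNilpotent_mulRight_iff F _).2 (h7 z)))
    (E := E) (S := F ∙ 1) (fun z m hm => sub_mem (hE.conj _ (h.eich_mem_om hp z.2 rfl) m hm _ fun x => by
      change (e z * (e (-z) * (m * e z))) x = _
      rw [← mul_assoc, h5, add_neg_cancel, h6, one_mul]; rfl) hm)
    (fun z m hm => by
      obtain ⟨c, rfl⟩ := Submodule.mem_span_singleton.1 hm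
      simp [h5, h6]) hm (fun h8 => by
      obtain ⟨c, hc⟩ := Submodule.mem_span_singleton.1 h8
      exact h0 c hc.symm) Finset.univ
  replace h8 : ∀ z, ∃ c : F, ∀ x, m (e z x) = e z (m x) + c • e z x := fun z => by
    obtain ⟨c, hc⟩ := Submodule.mem_span_singleton.1 (h8 z (Finset.mem_univ z))
    refine ⟨c, fun x => ?_⟩
    have := congrArg (fun n => (e z * n) x) hc
    simp only [End.mul_apply, LinearMap.sub_apply, LinearMap.mulLeft_apply, LinearMap.mulRight_apply,
      End.one_apply, mul_sub, ← mul_assoc, h5, add_neg_cancel, h6, one_mul, LinearMap.smul_apply,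
      map_smul] at this
    rw [this]; abel
  have h9 : g a (m a) = 0 := by
    obtain ⟨c, hc⟩ := h8 ⟨z₀, h1⟩
    have := congrArg (g z₀) (hc a)
    simp only [he, haa, h.refl h1, qd h z₀, map_add, map_sub, map_smul, smul_eq_mul] at this
    exact (mul_eq_zero.1 (by linear_combination this : 2 * p z₀ * g a (m a) = 0)).resolve_left
      (mul_ne_zero h2 h4)
  replace h8 : ∀ z x, m (e z x) = e z (m x) - g z (m a) • e z x := fun z x => by
    obtain ⟨c, hc⟩ := h8 z
    have := congrArg (g b) (hc a)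
    simp [he, haa, h.refl z.2, h9, hba] at this
    rw [hc, show c = -g z (m a) by linear_combination -this]; module
  obtain ⟨l, hl'⟩ : ∃ l : F, l • a = m a := by
    rw [← Submodule.mem_span_singleton]
    by_contra h10
    rcases hq with hq | ⟨t, ht, ht'⟩
    · have h11 := H10.finrank_le_inf_ker ⊤ (g a)
      have h12 := H10.finrank_span_pair_le (F := F) a (m a)
      have h13 := Submodule.finrank_mono (mem_of_nons h h2 (T := LinearMap.ker (g a))
        (S := Submodule.span F {a, m a}) h1 h4 fun z hz hz' => by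
          have h13 := h8 ⟨z, hz⟩ z
          simp only [he, show g a z = 0 from hz, map_sub, map_add, map_smul] at h13
          replace h13 : (g a (m z) + g z (m a)) • z =
            (g z (m z) - p z * g a (m z) - g z (m a) * g z z) • a - g z z • m a := by
            linear_combination (norm := module) h13
          have h14 : g a (m z) + g z (m a) ≠ 0 := fun h14 => h10 (by
            rw [h14, zero_smul, eq_comm, sub_eq_zero] at h13
            rw [← Submodule.smul_mem_iff _ (show g z z ≠ 0 by simp [qd h z, h2, hz']), ← h13]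
            exact Submodule.smul_mem _ _ (Submodule.mem_span_singleton_self a))
          rw [← Submodule.smul_mem_iff _ h14, h13]
          exact sub_mem (Submodule.smul_mem _ _ (Submodule.subset_span (by simp)))
            (Submodule.smul_mem _ _ (Submodule.subset_span (by simp))))
      rw [top_inf_eq, finrank_top] at h11
      omega
    refine h10 (h.form.mem_of_perp h.sep fun z hz => h.refl (mem_of_nons h h2 (T := LinearMap.ker (g a))
      (S := LinearMap.ker (g.flip (m a))) h1 h4 (fun z hz hz' => ?_)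
      (hz a (Submodule.mem_span_singleton_self a))))
    have h11 := fun t : F => congrArg (g b) (h8 (t • ⟨z, hz⟩) b)
    simp only [he, Submodule.coe_smul, h.Q_smul, map_sub, map_add, map_smul, LinearMap.smul_apply,
      smul_eq_mul, hab, hba, RingHom.id_apply] at h11
    refine (mul_eq_zero.1 (?_ : (2 * p z * t * (t * t - 1)) * g z (m a) = 0)).resolve_left (by
      simp [h2, hz', ht, sub_ne_zero.2 ht'])
    linear_combination h11 (-t) - h11 t + t * (h11 1 - h11 (-1))
  have h10 : ∀ r (ρ : F), g a r = 0 → p r ≠ 0 → (g a).smulRight r - (g r).smulRight a +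
      ρ • (g a).smulRight a ∈ E → (g a).smulRight a ∈ E := fun r ρ h10 h11 h12 => by
    rw [← Submodule.smul_mem_iff _ (neg_ne_zero.2 (mul_ne_zero h2 h11))]
    convert hE.mul _ h12 _ h12 using 1
    ext x; simp [h10, h.refl h10, haa, qd h r]; module
  have h11 := sub_mem hm (E.smul_mem l hE.one)
  replace h8 : ∀ z x, (m - l • 1) (e z x) = e z ((m - l • 1) x) := fun z x => by
    simp [h8, ← hl', h.refl z.2]
  have h12 : (m - l • 1) a = 0 := by simp [hl']
  have h13 : m - l • 1 ≠ 0 := fun h => h0 (sub_eq_zero.1 h ▸ Submodule.smul_mem _ l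
    (Submodule.mem_span_singleton_self _))
  generalize m - l • 1 = m at h8 h11 h12 h13
  have h14 : ∀ z, g a z = 0 → m z = (g a (m b) * p z - g z (m b)) • a + g a (m b) • z := fun z hz => by
    have := h8 ⟨z, hz⟩ b
    simp only [he, map_sub, map_add, map_smul, h12, hab] at this
    linear_combination (norm := module) -this
  have h15 : g a (m b) = 0 := by
    have := congrArg₂ (fun x y => g b (x + y)) (h14 z₀ h1) (h14 (-z₀) (by simp [h1]))
    simp [h.form.neg, hba, h3] at this
    exact (mul_eq_zero.1 (by linear_combination -this : 2 * p z₀ * g a (m b) = 0)).resolve_left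
      (mul_ne_zero h2 h4)
  have h16 : m = (g a).smulRight (m b) - (g (m b)).smulRight a + g b (m b) • (g a).smulRight a :=
    LinearMap.ext fun x => by
      have := h14 (x - g a x • b) (by simp [hab])
      simp only [h15, map_sub, map_smul, LinearMap.sub_apply, LinearMap.smul_apply] at this
      simp [qs h (m b) x]
      linear_combination (norm := module) this
  generalize m b = r at h15 h16
  subst h16
  by_cases h17 : p r = 0
  swap
  · exact h10 r _ h15 h17 h11
  by_cases h18 : r ∈ F ∙ a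
  · obtain ⟨c, rfl⟩ := Submodule.mem_span_singleton.1 h18
    rw [← Submodule.smul_mem_iff _ (show c ≠ 0 by rintro rfl; simp at h13)]
    convert h11 using 1
    ext; simp [hba, smul_smul, mul_comm]
  obtain ⟨u, h19, h20, h21⟩ := h.form.exists_partner_perp h.sep h17 h18 fun z hz => by
    obtain ⟨c, rfl⟩ := Submodule.mem_span_singleton.1 hz; simp [h15]
  replace h21 := h21 a (Submodule.mem_span_singleton_self a)
  obtain ⟨w, h22, h23, h24⟩ := exists_nons2 h (hl.resolve_right fun h => h18 (h a r hp h17 h15 ha)) a u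
  have h25 := h.eich_mem_om h19 h23 rfl
  have h26 := h.eich_fix (p w) (h.refl h21) (h.refl h22)
  have h27 := h.eich_apply h19 h23 (p w) r
  generalize h.eich u w (p w) = t at h25 h26 h27
  have h28 := (h.om_le_isom h25).1
  refine h10 (t r - r) 0 (by rw [map_sub, h15, sub_zero, ← h26, h28, h15]) ?_ ?_
  · rw [h27, h.flip_one h20, show r + g w r • u - (1 * 1 : F) • w - (p w * 1) • u - r =
      (g w r - p w) • u - w by module, h.form.sub, h.sing_smul h19]
    simpa [h23] using h24
  convert sub_mem (hE.conj _ (inv_mem h25) _ h11 ((g a).smulRight (t r) - (g (t r)).smulRight a +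
    g b r • (g a).smulRight a) fun x => by
      have h29 : ∀ y, g y (t.symm x) = g (t y) x := fun y => by rw [← h28, t.apply_symm_apply]
      simp [show t.symm a = a from inv_eq_of h26, h29, h26]) h11 using 1
  ext; simp; module

end quad

end Cfsg.Agent.H19.TA
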