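import Cfsg.Agent.H19.TB3

/-! Tensor products with an orthogonal factor: the stabiliser theorem. -/

set_option autoImplicit false
set_option maxHeartbeats 400000

namespace Cfsg.Agent.H19.TA

open Module H10 H11 H26.MX

variable {F : Type*} [Field F] {U W : Type*} [AddCommGroup U] [Module F U] [AddCommGroup W] [Module F W]
  {g : U →ₗ[F] U →ₗ[F] F} {f : W →ₗ[F] W →ₗ[F] F} {p : U → F} {q : W → F}
  {B : (W →ₗ[F] U) →ₗ[F] (W →ₗ[F] U) →ₗ[F] F} {Q : (W →ₗ[F] U) → F}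
  {M : Subgroup ((W →ₗ[F] U) ≃ₗ[F] (W →ₗ[F] U))} {ε κ : F} {τ : F →+ F}
  {k : (W →ₗ[F] U) ≃ₗ[F] (W →ₗ[F] U)}

/-- the only proper normalised algebra consists of scalars -/
def Co (h : Cl (σ := RingHom.id F) ε κ τ g p) : Prop :=
  ∀ E, Alg h E → ∀ m ∈ E, (∀ c : F, m ≠ c • LinearMap.id) → ∀ x y, (g y).smulRight x ∈ E

variable [FiniteDimensional F U] [FiniteDimensional F W]

theorem tn_form (hk : Tn k) : ∃ (s : U ≃ₗ[F] U) (ψ : W ≃ₗ[F] W), ∀ v x, k v x = s (v (ψ x)) := by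
  obtain ⟨s, φ, h⟩ := hk
  refine ⟨s, (evalEquiv F W).trans (φ.dualMap.trans (evalEquiv F W).symm), fun v x => ?_⟩
  exact LinearMap.congr_fun (ext_sr (f := LinearMap.applyₗ x ∘ₗ k.toLinearMap)
    (g := s.toLinearMap ∘ₗ LinearMap.applyₗ _) fun β z => by simp [h]) v

theorem rank_le [Finite F] [Nontrivial W] {s : U ≃ₗ[F] U} {ψ : W ≃ₗ[F] W} (hk : ∀ v x, k v x = s (v (ψ x)))
    (hp : k ^ ringChar F = 1) {Y : Submodule F (W →ₗ[F] U)} (h1 : ∀ v, k v - v ∈ Y) :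
    ∃ c : F, IsNilpotent (s.toLinearMap - c • 1) ∧
      finrank F W * finrank F (LinearMap.range (s.toLinearMap - c • 1)) ≤ finrank F Y := by
  have := Fact.mk (CharP.char_is_prime F (ringChar F))
  have h2 : ∀ n v x, (k ^ n) v x = (s.toLinearMap ^ n) (v ((ψ ^ n) x)) := fun n => by
    induction n with
    | zero => simp
    | succ n ih => intro v x; rw [pow_succ', mul_app, hk, ih, pow_succ', pow_succ]; rfl
  obtain ⟨x, hx⟩ := exists_ne (0 : W)
  obtain ⟨β, hβ⟩ := exists_dual_one (F := F) (app_ne_zero (ψ ^ ringChar F) hx)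
  obtain ⟨c, hc⟩ := surjective_frobenius F (ringChar F) (β x)
  have h3 : IsNilpotent (s.toLinearMap - c • 1) := by
    rcases subsingleton_or_nontrivial U with h | h
    · exact ⟨0, Subsingleton.elim _ _⟩
    have := charP_of_injective_algebraMap (algebraMap F (End F U)).injective (ringChar F)
    refine ⟨ringChar F, ?_⟩
    rw [sub_pow_char_of_commute _ (Commute.smul_right (Commute.one_right _) c), smul_pow, one_pow,
      ← frobenius_def, hc]
    ext a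
    simpa [hp, hβ, sub_eq_zero] using (h2 (ringChar F) (β.smulRight a) x).symm
  refine ⟨c, h3, ?_⟩
  obtain ⟨P, hP⟩ := (LinearMap.ker (s.toLinearMap - c • 1)).exists_isCompl
  let L : (W →ₗ[F] P) →ₗ[F] (W →ₗ[F] U) := (k.toLinearMap - 1) ∘ₗ LinearMap.llcomp F W P U P.subtype
  have h4 : Function.Injective L := (injective_iff_map_eq_zero _).2 fun v hv => by
    have h4 : ∀ y, (s.toLinearMap - c • 1) (v y) = v (ψ⁻¹ y - c • y) := fun y => by
      simpa [L, hk, sub_eq_zero] using LinearMap.congr_fun hv (ψ⁻¹ y)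
    obtain ⟨n, hn⟩ := h3
    have h5 : ∀ (n : ℕ) y, ((s.toLinearMap - c • 1 : End F U) ^ n) (v y) = 0 → (v y).1 = 0 := fun n => by
      induction n with
      | zero => simp
      | succ n ih =>
        intro y hy
        rw [pow_succ, End.mul_apply, h4] at hy
        exact Submodule.disjoint_def.1 hP.disjoint _ ((h4 y).trans (ih _ hy)) (v y).2
    ext y; exact h5 n y (by simp [hn])
  have h5 := Submodule.finrank_mono (show LinearMap.range L ≤ Y by rintro _ ⟨v, rfl⟩; exact h1 _)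
  have h6 := Submodule.finrank_add_eq_of_isCompl hP
  have h7 := LinearMap.finrank_range_add_finrank_ker (s.toLinearMap - c • 1)
  rw [LinearMap.finrank_range_of_inj h4, finrank_linearMap] at h5
  rwa [show finrank F (LinearMap.range (s.toLinearMap - c • 1)) = finrank F P by omega]

theorem no_tv (h : Cl (σ := RingHom.id F) 1 2 (AddMonoidHom.id F) g p) (h2 : (2 : F) ≠ 0)
    (hn : 3 ≤ finrank F U) {s : U ≃ₗ[F] U} {c l : F} (hs : ∀ a b, g (s a) (s b) = l * g a b)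
    (h1 : IsNilpotent (s.toLinearMap - c • 1))
    (h3 : finrank F (LinearMap.range (s.toLinearMap - c • 1)) ≤ 1) (x : U) : s x = c • x := by
  by_contra h0
  replace h0 := sub_ne_zero.2 h0
  obtain ⟨θ, hθ⟩ := exists_dual_one (F := F) h0
  let χ := θ ∘ₗ (s.toLinearMap - c • 1)
  have h4 : ∀ y, s y = c • y + χ y • (s x - c • x) := fun y => by
    obtain ⟨d, hd⟩ := Submodule.mem_span_singleton.1 ((Submodule.eq_of_le_of_finrank_le
      ((Submodule.span_singleton_le_iff_mem _ _).2 (LinearMap.mem_range_self _ x)) (by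
        rwa [finrank_span_singleton (by simpa using h0)])).ge (LinearMap.mem_range_self _ y) :
          (s.toLinearMap - c • 1) y ∈ F ∙ (s.toLinearMap - c • 1) x)
    rw [show χ y = d by simpa [χ, hθ] using (congrArg θ hd).symm, ← sub_eq_iff_eq_add']
    exact hd.symm
  have h5 : χ x = 1 := hθ
  generalize s x - c • x = a at h0 h4 hθ
  have h6 : χ a = 0 := by
    obtain ⟨n, hn⟩ := h1
    have : ∀ n : ℕ, ((s.toLinearMap - c • 1 : End F U) ^ n) a = χ a ^ n • a := fun n => by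
      induction n with
      | zero => simp
      | succ n ih => rw [pow_succ', End.mul_apply, ih, map_smul]; simp [h4 a, smul_smul, pow_succ]
    exact eq_zero_of_pow_eq_zero (by simpa [hn, h0] using (this n).symm)
  have h7 : c ≠ 0 := by rintro rfl; simpa [h6, h0] using h4 a
  have h8 := H10.finrank_le_inf_ker ⊤ χ
  have h9 := h.form.finrank_perp h.sep (LinearMap.ker χ)
  rw [top_inf_eq, finrank_top] at h8
  obtain ⟨u, h10, h11⟩ := exists_not_mem_of_lt (U := LinearMap.ker χ) (W := perp g (LinearMap.ker χ)) (by omega)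
  obtain ⟨v, h12, h13⟩ : ∃ v ∈ LinearMap.ker χ, g v u ≠ 0 := by by_contra! h; exact h11 h
  obtain rfl : l = c * c := mul_right_cancel₀ h13 (by
    simpa [h4 u, h4 v, show χ u = 0 from h10, show χ v = 0 from h12, mul_assoc] using (hs v u).symm)
  have h14 : ∀ y, χ y = 0 → g a y = 0 := fun y hy => by
    simpa [h4 x, h4 y, hy, h5, mul_add, mul_assoc, h7] using hs x y
  have h15 : g a x = 0 := by
    have := hs x x
    simp only [h4 x, h5, map_add, map_smul, LinearMap.add_apply, LinearMap.smul_apply, smul_eq_mul,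
      h14 a h6, qs h x a] at this
    exact (mul_eq_zero.1 (by linear_combination this : 2 * c * g a x = 0)).resolve_left (mul_ne_zero h2 h7)
  exact h0 (h.sep a fun y => by simpa [h15] using h14 (y - χ y • x) (by simp [h5]))

theorem eich_pow (h : Cl (σ := RingHom.id F) 1 2 (AddMonoidHom.id F) f q) {u w : W} (hu : q u = 0)
    (huw : f u w = 0) : h.eich u w (q w) ^ ringChar F = 1 := by
  have h1 : ∀ n : ℕ, h.eich u w (q w) ^ n = h.eich u ((n : F) • w) (q ((n : F) • w)) := fun n => by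
    induction n with
    | zero => simp [h.Q_zero, h.eich_zero]
    | succ n ih => rw [pow_succ, ih, h.eich_mul hu (by simp [huw]) huw]; simp [add_smul, h.Q_add]
  simp [h1, h.Q_zero, h.eich_zero]

namespace TO
variable (h : TO ε κ τ g p f q B Q M) [Finite F] (hn : 5 ≤ finrank F W) (hc : Co h.hU)
  (hM : ¬ h.hV.Om ≤ M) [Nontrivial U]
include h hn hc hM

theorem q2_scal {w y : W} {hw : f w w = 0} (h0 : w ≠ 0) {ψ : (W →ₗ[F] U) →ₗ[F] U} (hψ : ψ ∈ Q2 M hw)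
    (hy : f w y = 0) : ∃ c : F, ∀ a, ψ (pt U f a y) = c • a := by
  by_contra! h2
  obtain ⟨a, ha⟩ := exists_ne (0 : U)
  refine hM (h.om_le_of_all hn ha (hc _ ⟨h.one_mem_e2, fun _ h1 _ => h.e2_mul hn h1, fun s hs _ h1 _ =>
    h.tg.e2_conj (h.lm s hs) h1⟩ _ (h.q2_e2 hn h0 hψ hy) fun c hc => ?_))
  obtain ⟨a, ha⟩ := h2 c
  exact ha (LinearMap.congr_fun hc a)

theorem st2 (hk : k ∈ M) {s : U ≃ₗ[F] U} {w y : W} (h0 : w ≠ 0) (hw : q w = 0)
    (hs : ∀ a, k (pt U f a w) = pt U f (s a) w) (hy : f w y = 0) (hq : q y = 0) :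
    ∃ y', ∀ a, k (pt U f a y) = pt U f (s a) y' := by
  have hww := h.hW.diag0 hw
  obtain ⟨a₀, ha₀⟩ := exists_ne (0 : U)
  obtain ⟨b₀, hb₀⟩ := h.hU.form.exists_right_eq_one h.hU.sep ha₀
  have h1 : ∀ y, f w y = 0 → ∃ (y₁ : W) (κ : End F U), f w y₁ = 0 ∧
      ∀ a, k (pt U f a y) = pt U f (s a) y₁ + pt U f (κ a) w := fun y hy => by
    obtain ⟨χ, hχ⟩ := exists_dual_one (F := F) (app_ne_zero s ha₀)
    obtain ⟨y₁, h3⟩ := ex_flip h.hW (χ ∘ₗ k (pt U f a₀ y))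
    replace h3 : ∀ z, f z y₁ = χ (k (pt U f a₀ y) z) := LinearMap.congr_fun h3
    obtain ⟨x, hx⟩ := h.hW.form.exists_right_eq_one h.hW.sep h0
    refine ⟨y₁, LinearMap.applyₗ x ∘ₗ (k.toLinearMap ∘ₗ (pt U f).flip y - (pt U f).flip y₁ ∘ₗ s.toLinearMap),
      by rw [h3, h.tg.perp_map hk hs (by simp [hy]), map_zero], fun a =>
      sub_eq_iff_eq_add'.1 (eq_pt_of (h.hW.flip_one hx) fun z hz => ?_)⟩
    obtain ⟨c, hc⟩ := h.q2_scal hn hc hM h0 (h.tg.q2_conj hk s hww hs (h.one_mem_e2 w hww z hz)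
      (ψ' := s⁻¹.toLinearMap ∘ₗ LinearMap.applyₗ z ∘ₗ k.toLinearMap) fun v => by simp) hy
    replace hc : ∀ a, k (pt U f a y) z = c • s a := fun a => by rw [← map_smul, ← hc]; simp
    simp [h3, hc, hχ]
  obtain ⟨z, h2, h3, h4⟩ := exists_nons2 h.hW hn w y
  obtain ⟨y₁, m, h5, h6⟩ := h1 y hy
  obtain ⟨z₁, m', h7, h8⟩ := h1 z h2
  have h9 : ∀ {y y₁ z z₁ : W} {m m' : End F U}, f w y₁ = 0 → f w z₁ = 0 →
      (∀ a, k (pt U f a y) = pt U f (s a) y₁ + pt U f (m a) w) →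
      (∀ a, k (pt U f a z) = pt U f (s a) z₁ + pt U f (m' a) w) →
      ∀ a b, f y₁ z₁ * g (s a) (s b) = f y z * g a b := fun {y y₁ z z₁ m m'} h1 h2 h3 h4 a b => by
    simpa [h3, h4, h.Bp, h2, hww, h.hW.refl h1] using (h.le hk).1 (pt U f a y) (pt U f b z)
  have h10 : f z z ≠ 0 := by simp [qd h.hW, h.two, h4]
  have h11 : f z₁ z₁ ≠ 0 := fun h11 => by simpa [h11, hb₀, h10.symm] using h9 h7 h7 h8 h8 a₀ b₀
  obtain ⟨l, hl⟩ : ∃ l, l * f z₁ z₁ = f z z := ⟨_, div_mul_cancel₀ _ h11⟩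
  have h12 : ∀ a b, g (s a) (s b) = l * g a b := fun a b => mul_left_cancel₀ h11 (by
    rw [h9 h7 h7 h8 h8, ← hl]; ring)
  have hl0 : l ≠ 0 := by rintro rfl; simp [h10.symm] at hl
  have h13 : q y₁ = 0 := h.q0 (by simpa [h12, hb₀, hl0, h.hW.diag0 hq] using h9 h5 h5 h6 h6 a₀ b₀)
  have h14 : f y₁ z₁ = 0 := by simpa [h12, hb₀, hl0, h3] using h9 h5 h7 h6 h8 a₀ b₀
  have h15 : ∀ {y y₁ : W} {m : End F U}, (∀ a, k (pt U f a y) = pt U f (s a) y₁ + pt U f (m a) w) →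
      ∀ v : W →ₗ[F] U, v w = 0 → k⁻¹ v y = l • s⁻¹ (v y₁) := fun {y y₁ m} h1 v hv =>
    sub_eq_zero.1 (h.tg.gs _ fun a => by
      rw [map_sub, ← h.Bp, ← (h.le hk).1, app_inv, h1, map_smul, smul_eq_mul, ← h12]; simp [h.Bp, hv])
  have h16 : ∀ c : F, c • (l • m ∘ₗ s⁻¹.toLinearMap ∘ₗ LinearMap.applyₗ z₁ -
      l • m' ∘ₗ s⁻¹.toLinearMap ∘ₗ LinearMap.applyₗ y₁) -
      (c * c * q z * l) • m ∘ₗ s⁻¹.toLinearMap ∘ₗ LinearMap.applyₗ y₁ ∈ Q1 M hww := fun c => by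
    have h16 : f y (c • z) = 0 := by simp [h3]
    have h17 : f y₁ ((c * l) • z₁) = 0 := by simp [h14]
    have h18 := h.rm _ (h.hW.eich_mem_om hq h16 rfl)
    refine ⟨fun a => by simp [h.hW.refl h5, h.hW.refl h7], _, mul_mem (inv_mem (h.rm _
      (h.hW.eich_mem_om h13 h17 rfl))) (mul_mem (mul_mem hk h18) (inv_mem hk)),
      fun v hv => inv_eq_of (y := k (rt U _ (k⁻¹ v))) ?_⟩
    have h19 : l * q z₁ = q z := mul_left_cancel₀ h.two (by rw [← qd h.hW, ← hl, qd h.hW]; ring)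
    rw [rt_eich h.hW hq h16, rt_eich h.hW h13 h17]
    simp only [map_add, map_sub, map_smul, app_inv, h15 h6 v hv, h15 h8 v hv, h6, h8, h.hW.Q_smul, ← h19,
      LinearMap.add_apply, LinearMap.sub_apply, LinearMap.smul_apply, pt_apply, h.hW.refl h5, h.hW.refl h7,
      LinearMap.comp_apply, LinearEquiv.coe_coe, LinearMap.applyₗ_apply_apply, RingHom.id_apply]
    module
  obtain ⟨μ, hμ⟩ := h.q2_scal hn hc hM h0 (hw := hww) (ψ := l • m ∘ₗ s⁻¹.toLinearMap ∘ₗ LinearMap.applyₗ z₁ -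
      l • m' ∘ₗ s⁻¹.toLinearMap ∘ₗ LinearMap.applyₗ y₁) (fun c => by
    convert sub_mem (h16 (c / 2)) (h16 (-(c / 2))) using 1
    match_scalars <;> field_simp [h.two] <;> ring) h7
  refine ⟨y₁ + (μ / f z z) • w, fun a => ?_⟩
  have h17 : m a = (μ / f z z) • s a := by
    rw [div_eq_inv_mul, mul_smul, eq_inv_smul_iff₀ h10, ← hμ]; simp [h14, ← hl, mul_smul]
  simp [h6, h17]

theorem st3 (hk : k ∈ M) {s : U ≃ₗ[F] U} {w w' y : W} (h0 : w ≠ 0) (hw : q w = 0)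
    (hs : ∀ a, k (pt U f a w) = pt U f (s a) w') (hy : f w y = 0) (hq : q y = 0) :
    ∃ y', ∀ a, k (pt U f a y) = pt U f (s a) y' := by
  obtain ⟨a₀, ha₀⟩ := exists_ne (0 : U)
  obtain ⟨b₀, hb₀⟩ := h.hU.form.exists_right_eq_one h.hU.sep ha₀
  obtain ⟨x, hx⟩ := h.hW.form.exists_right_eq_one h.hW.sep h0
  obtain ⟨t, h2, c, h3, h4⟩ := exists_om_apply h.hW hn h0 (w' := w') (by
    rintro rfl
    simpa [h.hW.flip_one hx, ha₀] using LinearMap.congr_fun (k.map_eq_zero_iff.1 ((hs a₀).trans (map_zero _))) x)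
    hw (h.q0 (by simpa [hs, h.Bp, hb₀, h.hW.diag0 hw] using
      (h.le hk).1 (pt U f (s⁻¹ a₀) w) (pt U f (s⁻¹ b₀) w)))
  have h5 := (h.hW.om_le_isom h2).1
  obtain ⟨y', h6⟩ := h.st2 hn hc hM (mul_mem (h.rm t h2) hk) h0 hw
    (s := s.trans (LinearEquiv.smulOfNeZero F U c h3)) (fun a => by simp [mul_app, hs, rt_pt h5, h4]) hy hq
  exact ⟨c • t⁻¹ y', fun a => (rt U t).injective (by simpa [rt_pt h5, mul_app] using h6 a)⟩

theorem tn_st (hk : k ∈ M) {w w' : W} (h0 : w ≠ 0) (hw : q w = 0)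
    (hs : ∀ a, ∃ a', k (pt U f a w) = pt U f a' w') : Tn k := by
  obtain ⟨x, hx⟩ := h.hW.form.exists_right_eq_one h.hW.sep h0
  have h1 : ∀ a, pt U f a w = 0 → a = 0 := fun a ha => by
    simpa [h.hW.flip_one hx] using LinearMap.congr_fun ha x
  obtain ⟨a₀, ha₀⟩ := exists_ne (0 : U)
  obtain ⟨x', hx'⟩ := h.hW.form.exists_right_eq_one h.hW.sep (x := w') (by
    rintro rfl
    obtain ⟨a, ha⟩ := hs a₀
    exact ha₀ (h1 _ (by simpa using ha)))
  let s : End F U := LinearMap.applyₗ x' ∘ₗ k.toLinearMap ∘ₗ (pt U f).flip w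
  have h4 : ∀ a, k (pt U f a w) = pt U f (s a) w' := fun a => by
    obtain ⟨a', ha⟩ := hs a
    simp [s, ha, h.hW.flip_one hx']
  obtain ⟨s, h4⟩ : ∃ s : U ≃ₗ[F] U, ∀ a, k (pt U f a w) = pt U f (s a) w' :=
    ⟨LinearEquiv.ofInjectiveEndo s ((injective_iff_map_eq_zero _).2 fun a ha =>
      h1 a (k.injective (by rw [h4, ha]; simp))), h4⟩
  let S : Submodule F W :=
    { carrier := {y | ∃ y', ∀ a, k (pt U f a y) = pt U f (s a) y'}
      zero_mem' := ⟨0, by simp⟩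
      add_mem' := fun ⟨y, hy⟩ ⟨z, hz⟩ => ⟨y + z, by simp [hy, hz]⟩
      smul_mem' := fun c _ ⟨y, hy⟩ => ⟨c • y, by simp [hy]⟩ }
  refine tn_of_Wt (by omega) fun β _ => ?_
  obtain ⟨y, rfl⟩ := ex_flip h.hW β
  obtain ⟨y', h5⟩ := eq_top_of_sing h.hW h0 hw (S := S) ⟨w', h4⟩ (fun b hb _ => by
    obtain ⟨z, h5, h6, h7, h8⟩ := exists_sing2 h.hW hn w b
    obtain ⟨z', h9⟩ := h.st3 hn hc hM hk h0 hw h4 h6 h8
    exact h.st3 hn hc hM hk h5 h8 h9 (h.hW.refl h7) hb) y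
  exact ⟨f.flip y', fun a => ⟨_, (h5 a).symm⟩⟩

end TO

end Cfsg.Agent.H19.TA
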