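import Cfsg.Agent.H19.TB4

/-! Tensor products with an orthogonal factor: maximality. -/

set_option autoImplicit false
set_option maxHeartbeats 400000

namespace Cfsg.Agent.H19.TA

open Module H10 H11 H26.MX

variable {F : Type*} [Field F] {U W : Type*} [AddCommGroup U] [Module F U] [AddCommGroup W] [Module F W]
  {g : U →ₗ[F] U →ₗ[F] F} {f : W →ₗ[F] W →ₗ[F] F} {p : U → F} {q : W → F}
  {B : (W →ₗ[F] U) →ₗ[F] (W →ₗ[F] U) →ₗ[F] F} {Q : (W →ₗ[F] U) → F}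
  {M : Subgroup ((W →ₗ[F] U) ≃ₗ[F] (W →ₗ[F] U))} {ε κ : F} {τ : F →+ F}
  {k : (W →ₗ[F] U) ≃ₗ[F] (W →ₗ[F] U)}

/-- unipotent similarities of small rank are scalars -/
def Rk (g : U →ₗ[F] U →ₗ[F] F) (n : ℕ) : Prop := ∀ (s : U ≃ₗ[F] U) (c l : F),
  (∀ a b, g (s a) (s b) = l * g a b) → IsNilpotent (s.toLinearMap - c • 1) →
  n * finrank F (LinearMap.range (s.toLinearMap - c • 1)) ≤ 2 * finrank F U → ∀ x, s x = c • x

/-- `U ⊗ ⟨u, w⟩` -/
def XX (U : Type*) [AddCommGroup U] [Module F U] (f : W →ₗ[F] W →ₗ[F] F) (u w : W) :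
    Submodule F (W →ₗ[F] U) := LinearMap.range (((pt U f).flip u).coprod ((pt U f).flip w))

theorem mem_XX {u w : W} {v : W →ₗ[F] U} : v ∈ XX U f u w ↔ ∃ a b, pt U f a u + pt U f b w = v :=
  ⟨fun ⟨x, h⟩ => ⟨x.1, x.2, h⟩, fun ⟨a, b, h⟩ => ⟨(a, b), h⟩⟩

variable [FiniteDimensional F U] [FiniteDimensional F W]

theorem pt_of_form (h : Cl (σ := RingHom.id F) ε κ τ f q) {s : U ≃ₗ[F] U} {ψ : W ≃ₗ[F] W}
    (hk : ∀ v x, k v x = s (v (ψ x))) (y : W) : ∃ y', ∀ a, k (pt U f a y) = pt U f (s a) y' :=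
  (ex_flip h (f.flip y ∘ₗ ψ.toLinearMap)).imp fun y' h a => LinearMap.ext fun x => by
    simp [hk, show f x y' = f (ψ x) y from LinearMap.congr_fun h x]

theorem exists_pt_comp (h : Cl (σ := RingHom.id F) ε κ τ f q) {ψ : End F W} (h0 : ψ ≠ 0) :
    ∃ y y', y' ≠ 0 ∧ ∀ a, pt U f a y ∘ₗ ψ = pt U f a y' := by
  obtain ⟨x, hx⟩ : ∃ x, ψ x ≠ 0 := by by_contra! h1; exact h0 (LinearMap.ext h1)
  obtain ⟨y, hy⟩ := h.exists_ne hx
  obtain ⟨y', h1⟩ := ex_flip h (f.flip y ∘ₗ ψ)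
  replace h1 : ∀ x, f x y' = f (ψ x) y := LinearMap.congr_fun h1
  exact ⟨y, y', by rintro rfl; simp [← h1] at hy, fun a => by ext; simp [h1]⟩

namespace TO
variable (h : TO ε κ τ g p f q B Q M) [Finite F] (hn : 5 ≤ finrank F W) (hc : Co h.hU)
  (hM : ¬ h.hV.Om ≤ M) [Nontrivial U] (hr : Rk g (finrank F W))
include h hn hr

theorem rk (hk : k ∈ M) {u w : W} (hu : q u = 0) (huw : f u w = 0)
    (ht : Tn (k⁻¹ * rt U (h.hW.eich u w (q w)) * k)) :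
    ∃ ψ : End F W, ∀ v, rt U (h.hW.eich u w (q w)) (k v) - k v = k (v ∘ₗ ψ) := by
  have : Nontrivial W := Module.nontrivial_of_finrank_pos (R := F) (by omega)
  obtain ⟨s, ψ, h1⟩ := tn_form ht
  obtain ⟨c, h2, h3⟩ := rank_le h1 (by
    rw [← inv_inv k, inv_inv k⁻¹, conj_pow, ← map_pow, eich_pow h.hW hu huw]; simp)
    (Y := (XX U f u w).map k⁻¹.toLinearMap) fun v => ⟨_, mem_XX.2 ⟨k v w - q w • k v u, -k v u, rfl⟩, by
      rw [mul_app, mul_app, rt_eich h.hW hu huw]; simp; abel⟩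
  obtain ⟨z, -, -, h4⟩ := exists_nons2 h.hW hn 0 0
  obtain ⟨z', h5⟩ := pt_of_form h.hW h1 z
  obtain ⟨a, ha⟩ := exists_ne (0 : U)
  obtain ⟨b, hb⟩ := h.hU.form.exists_right_eq_one h.hU.sep ha
  have h6 : ∀ a b, f z' z' * g (s a) (s b) = f z z * g a b := fun a b => by
    simpa [h5, h.Bp] using (h.le (mul_mem (mul_mem (inv_mem hk) (h.rm _ (h.hW.eich_mem_om hu huw rfl))) hk)).1
      (pt U f a z) (pt U f b z)
  have h7 : f z' z' ≠ 0 := fun h7 => by simpa [h7, hb, qd h.hW z, h.two, h4] using (h6 a b).symm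
  have h8 := hr s c (f z z / f z' z') (fun a b => by rw [div_mul_eq_mul_div, ← h6]; field_simp) h2
    (h3.trans ((Submodule.finrank_map_le _ _).trans ((LinearMap.finrank_range_le _).trans (by simp [two_mul]))))
  refine ⟨c • ψ.toLinearMap - 1, fun v => (inv_eq_of (g := k⁻¹) (LinearMap.ext fun x => ?_)).symm⟩
  simpa [mul_app, h8, sub_eq_iff_eq_add] using h1 v x

omit hn hr [Finite F] [FiniteDimensional F W] in
theorem sing_of (hk : k ∈ M) {w : W} (h1 : ∀ a b, B (k (pt U f a w)) (k (pt U f b w)) = 0) : q w = 0 := by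
  obtain ⟨a, ha⟩ := exists_ne (0 : U)
  obtain ⟨b, hb⟩ := h.hU.form.exists_right_eq_one h.hU.sep ha
  exact h.q0 (by simpa [(h.le hk).1, h.Bp, hb] using h1 a b)

include hc hM

theorem rk2 (hk : k ∈ M) {u w : W} (h0 : u ≠ 0) (hu : q u = 0) (huw : f u w = 0) (hw : q w ≠ 0)
    (ht : Tn (k⁻¹ * rt U (h.hW.eich u w (q w)) * k)) : Tn k := by
  obtain ⟨ψ, h1⟩ := h.rk hn hr hk hu huw ht
  have h2 : ∀ v, k (v ∘ₗ (ψ * ψ)) = pt U f (-(2 * q w) • k v u) u := fun v => by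
    rw [End.mul_eq_comp, ← LinearMap.comp_assoc, ← h1, ← h1]
    simp [rt_eich h.hW hu huw, h.hW.diag0 hu, huw, h.hW.refl huw, qd h.hW w]
  obtain ⟨y, y', h3, h4⟩ := exists_pt_comp (U := U) h.hW (ψ := ψ * ψ) fun h3 => by
    obtain ⟨a, ha⟩ := exists_ne (0 : U)
    obtain ⟨x, hx⟩ := h.hW.form.exists_right_eq_one h.hW.sep h0
    simpa [h3, hx, h.hW.flip_one hx, ha, hw, h.two] using LinearMap.congr_fun (h2 (k⁻¹ (pt U f a x))) x
  exact h.tn_st hn hc hM hk h3 (h.sing_of hk fun a b => by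
    rw [← h4, ← h4, h2, h2, h.Bp]; simp [h.hW.diag0 hu]) fun a => ⟨_, (congrArg k (h4 a)).symm.trans (h2 _)⟩

theorem ly (hk : k ∈ M) {u w y : W} (h0 : u ≠ 0) (hu : q u = 0) (huw : f u w = 0) (hw : q w = 0)
    (hy : y ≠ 0) (h1 : ∀ a, k (pt U f a y) ∈ XX U f u w) : Tn k := by
  obtain ⟨z, h2, h3, h4⟩ := exists_nons2 h.hW hn u w
  refine h.rk2 hn hc hM hr hk h0 hu h2 h4 (h.tn_st hn hc hM (mul_mem (mul_mem (inv_mem hk)
    (h.rm _ (h.hW.eich_mem_om hu h2 rfl))) hk) hy (h.sing_of hk fun a b => ?_) (w' := y)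
    fun a => ⟨a, inv_eq_of (y := rt U _ (k _)) ?_⟩)
  · obtain ⟨_, _, h5⟩ := mem_XX.1 (h1 a)
    obtain ⟨_, _, h6⟩ := mem_XX.1 (h1 b)
    simp [← h5, ← h6, h.Bp, h.hW.diag0, hu, hw, huw, h.hW.refl huw]
  · obtain ⟨_, _, h5⟩ := mem_XX.1 (h1 a)
    simp [← h5, rt_eich h.hW hu h2, h.hW.diag0 hu, huw, h.hW.refl h2, h.hW.refl h3]

theorem rk1 (hk : k ∈ M) {u w : W} (h0 : u ≠ 0) (hu : q u = 0) (huw : f u w = 0) (hw : q w = 0)
    (h0' : w ∉ F ∙ u) (ht : Tn (k⁻¹ * rt U (h.hW.eich u w (q w)) * k)) : Tn k := by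
  obtain ⟨ψ, h1⟩ := h.rk hn hr hk hu huw ht
  obtain ⟨y, y', h3, h4⟩ := exists_pt_comp (U := U) h.hW (ψ := ψ) fun h3 => by
    obtain ⟨a, ha⟩ := exists_ne (0 : U)
    obtain ⟨x, hx⟩ := h.hW.form.exists_right_eq_one h.hW.sep h0
    obtain ⟨z, h5, h6⟩ := exists_perp_one h.hW h0'
    have := h1 (k⁻¹ (pt U f a z))
    rw [rt_eich h.hW hu huw] at this
    simpa [h3, h5, h6, h.hW.flip_one hx, ha] using LinearMap.congr_fun this x
  exact h.ly hn hc hM hr hk h0 hu huw hw h3 fun a => mem_XX.2 ⟨k (pt U f a y) w, -k (pt U f a y) u, by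
    rw [← h4, ← h1, rt_eich h.hW hu huw, hw]; simp; abel⟩

theorem tn_mem (hk : k ∈ M) : Tn k := by
  obtain ⟨u, w, h0, hu, hw, huw, h0'⟩ := h.exists_line hn
  let X := XX U f u w
  by_contra hk'
  have : Finite (W →ₗ[F] U) := Module.finite_of_finite F
  have : Finite ((W →ₗ[F] U) ≃ₗ[F] (W →ₗ[F] U)) := DFunLike.finite _
  obtain ⟨k, ⟨hk, hk'⟩, hm⟩ := Set.exists_max_image {k | k ∈ M ∧ ¬ Tn k}
    (fun k => finrank F ↥(X ⊓ X.comap k.toLinearMap)) (Set.toFinite _) ⟨k, hk, hk'⟩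
  let X' := X.comap k.toLinearMap
  have g1 : ∀ j ∈ M, (∀ x ∈ X, x ∈ X' → j x ∈ X) → ∀ x ∈ X, x ∉ X' → j x ∈ X → Tn j :=
    fun j hj h1 x h2 h3 h4 => by_contra fun h5 => (hm j ⟨hj, h5⟩).not_gt
      (Submodule.finrank_lt_finrank_of_lt (lt_of_le_of_ne (fun y hy => ⟨hy.1, h1 y hy.1 hy.2⟩)
        fun h6 => h3 (h6.ge ⟨h2, h4⟩).2))
  have g2 : ∀ j ∈ M, (∀ x ∈ X, x ∈ X' → j x ∈ X') → ∀ x ∈ X', x ∉ X → j x ∈ X' →
      Tn (k⁻¹⁻¹ * j * k⁻¹) := fun j hj h1 x h2 h3 h4 => by_contra fun h5 => by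
    refine (hm _ ⟨mul_mem (mul_mem (inv_mem (inv_mem hk)) hj) (inv_mem hk), h5⟩).not_gt ?_
    rw [← finrank_map _ k]
    refine Submodule.finrank_lt_finrank_of_lt (lt_of_le_of_ne ?_ fun h6 => h3 ?_)
    · rintro _ ⟨y, hy, rfl⟩
      exact ⟨hy.2, by simpa [mul_app, X'] using h1 y hy.1 hy.2⟩
    · simpa using (mem_map_iff.1 (h6.ge (Submodule.mem_inf.2 ⟨h2, by simpa [mul_app, X'] using h4⟩ :
        k x ∈ _))).1
  have hT := h.rm _ (h.hW.eich_mem_om hu huw rfl)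
  let N : End F (W →ₗ[F] U) := (pt U f).flip u ∘ₗ LinearMap.applyₗ w - (pt U f).flip w ∘ₗ LinearMap.applyₗ u
  have h1 : ∀ v, rt U (h.hW.eich u w (q w)) v = v + N v := fun v => by
    rw [rt_eich h.hW hu huw]; simp [N, hw, add_sub_assoc]
  have h2 : ∀ v, N v ∈ X := fun v => mem_XX.2 ⟨v w, -v u, by simp [N, sub_eq_add_neg]⟩
  have h3 : ∀ x ∈ X, ∀ y, f y u = 0 → f y w = 0 → x y = 0 := fun x hx y h3 h4 => by
    obtain ⟨a, b, rfl⟩ := mem_XX.1 hx; simp [h3, h4]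
  have h4 : ∀ x ∈ X, N x = 0 := fun x hx => by
    simp [N, h3 x hx u (h.hW.diag0 hu) huw, h3 x hx w (h.hW.refl huw) (h.hW.diag0 hw)]
  have f1 : ∀ x ∈ X', N x ∈ X' → x ∈ X := fun x h5 h6 => by_contra fun h7 => hk' (tn_inv
    (h.rk1 hn hc hM hr (inv_mem hk) h0 hu huw hw h0' (g2 _ hT (fun y h8 h9 => by rwa [h1, h4 y h8, add_zero])
      x h5 h7 (by rw [h1]; exact add_mem h5 h6))))
  let N' : End F (W →ₗ[F] U) := k⁻¹.toLinearMap ∘ₗ N ∘ₗ k.toLinearMap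
  have h5 : ∀ v, (k⁻¹ * rt U (h.hW.eich u w (q w)) * k) v = v + N' v := fun v => by simp [N', mul_app, h1]
  have h6 : ∀ v, N' v ∈ X' := fun v => by simpa [N', X'] using h2 _
  have h7 : ∀ x ∈ X', N' x = 0 := fun x hx => by simp [N', h4 (k x) hx]
  have hT' := mul_mem (mul_mem (inv_mem hk) hT) hk
  have f2 : ∀ x ∈ X, N' x ∈ X → x ∈ X' := fun x h8 h9 => by_contra fun h10 => hk'
    (h.rk1 hn hc hM hr hk h0 hu huw hw h0' (g1 _ hT' (fun y h11 h12 => by rwa [h5, h7 y h12, add_zero])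
      x h8 h10 (by rw [h5]; exact add_mem h8 h9)))
  have h8 : ∀ a ∈ X'.map N, N' a ∈ X → a = 0 := by
    rintro _ ⟨x, hx, rfl⟩ h8
    exact h4 x (f1 x hx (f2 _ (h2 x) h8))
  have ei : ∀ b y, b ≠ 0 → pt U f b y ∈ X ⊔ X' → ∀ a, pt U f a y ∈ X := fun b y hb h9 a => by
    obtain ⟨x, h9, x', h10, h11⟩ := Submodule.mem_sup.1 h9
    by_cases h12 : x' ∈ X
    · obtain ⟨c, d, h13⟩ := mem_XX.1 (add_mem h9 h12)
      obtain ⟨χ, hχ⟩ := exists_dual_one (F := F) hb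
      rw [show y = χ c • u + χ d • w from h.hW.form.separatingRight h.hW.sep (y := _ - _) (fun z => by
        simpa [hχ, sub_eq_zero, mul_comm] using
          congrArg χ (LinearMap.congr_fun (h13.trans h11) z).symm) |> sub_eq_zero.1]
      exact mem_XX.2 ⟨χ c • a, χ d • a, by simp⟩
    replace h11 := eq_sub_of_add_eq' h11
    by_cases h13 : f u y = 0 ∧ f w y = 0
    · exact absurd (f1 x' h10 (by rw [h11, map_sub, h4 x h9]; simp [N, h13])) h12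
    obtain ⟨c, d, h14⟩ : ∃ c d : F, c * f u y + d * f w y = 1 := by
      rcases not_and_or.1 h13 with h | h
      exacts [⟨_, 0, by rw [inv_mul_cancel₀ h, zero_mul, add_zero]⟩,
        ⟨0, _, by rw [inv_mul_cancel₀ h, zero_mul, zero_add]⟩]
    obtain ⟨z, h15, h16, h17⟩ := exists_nons2 h.hW hn u w
    obtain ⟨z, h15, h16, h17, h18⟩ : ∃ z, f z u = 0 ∧ f z w = 0 ∧ q z ≠ 0 ∧ f z y = 0 :=
      ⟨z - f z y • (c • u + d • w), by simp [h.hW.refl h15, h.hW.diag0 hu, h.hW.refl huw],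
        by simp [h.hW.refl h16, h.hW.diag0 hw, huw], by
          simpa [h.hW.form.sub, h.hW.Q_smul, h.hW.Q_add, hu, hw, huw, h.hW.refl h15, h.hW.refl h16] using h17,
        by simp [← mul_add, h14]⟩
    obtain ⟨y₀, h19, h20, h21, h22, h23, h24⟩ : ∃ y₀, y₀ ≠ 0 ∧ q y₀ = 0 ∧ f y₀ u = 0 ∧ f y₀ w = 0 ∧
        f y₀ y = 0 ∧ f y₀ z = 0 := ⟨f w y • u - f u y • w, fun h19 => h0' (by
          have h20 : f u y ≠ 0 := fun h20 => h13 ⟨h20, by simpa [h20, h0] using h19⟩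
          rw [← Submodule.smul_mem_iff _ h20, ← sub_eq_zero.1 h19]
          exact Submodule.smul_mem _ _ (Submodule.mem_span_singleton_self u)),
        by simp [h.hW.form.sub, h.hW.Q_smul, hu, hw, huw], by simp [h.hW.diag0 hu, h.hW.refl huw],
        by simp [h.hW.diag0 hw, huw], by simp [mul_comm], by simp [h.hW.refl h15, h.hW.refl h16]⟩
    have h25 : ∀ x ∈ X, rt U (h.hW.eich y₀ z (q z)) x = x := fun x hx => by
      simp [rt_eich h.hW h20 h24, h3 x hx _ h21 h22, h3 x hx _ h15 h16]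
    exact absurd (tn_inv (h.rk2 hn hc hM hr (inv_mem hk) h19 h20 h24 h17 (g2 _
      (h.rm _ (h.hW.eich_mem_om h20 h24 rfl)) (fun y h26 h27 => by rwa [h25 y h26]) x' h10 h12 (by
        rwa [h11, map_sub, h25 x h9, rt_pt (h.hW.eich_mem_isom h20 h24 rfl).1, h.hW.eich_fix _ h23 h18,
          ← h11])))) hk'
  obtain ⟨z, h9, a, h10, h11, h12, h13⟩ := exists_neg h.two h1 h5 (fun v => h7 _ (h6 v)) (A := X'.map N)
    (fun h9 => by
      obtain ⟨b, hb⟩ : ∃ b, k⁻¹ (pt U f b u) ∉ X := by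
        by_contra! h10
        exact hk' (tn_inv (h.ly hn hc hM hr (inv_mem hk) h0 hu huw hw h0 h10))
      have h10 : k⁻¹ (pt U f b u) ∈ X' := by simpa [X'] using mem_XX.2 ⟨b, 0, by simp⟩
      exact hb (f1 _ h10 ((h9.le ⟨_, h10, rfl⟩ : N _ = 0) ▸ zero_mem _)))
    (by rintro _ ⟨x, -, rfl⟩; exact h4 _ (h2 x)) (fun a _ => ⟨_, h6 a, rfl⟩)
    fun a ha h9 => h8 a ha (f1 _ (h6 a) (h9 ▸ zero_mem _))
  let S : Subgroup ((W →ₗ[F] U) ≃ₗ[F] (W →ₗ[F] U)) :=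
    { carrier := {z | z ∈ M ∧ (∀ v, z v - v ∈ X ⊔ X') ∧ ∀ x ∈ X, x ∈ X' → z x = x}
      one_mem' := ⟨one_mem _, by simp, by simp⟩
      mul_mem' := fun {a b} ha hb => ⟨mul_mem ha.1 hb.1, fun v => by
        simpa using add_mem (ha.2.1 (b v)) (hb.2.1 v), fun x h1 h2 => by
          rw [mul_app, hb.2.2 x h1 h2, ha.2.2 x h1 h2]⟩
      inv_mem' := fun {a} ha => ⟨inv_mem ha.1, fun v => by simpa using neg_mem (ha.2.1 (a⁻¹ v)),
        fun x h1 h2 => inv_eq_of (ha.2.2 x h1 h2)⟩ }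
  replace h9 : z ∈ S := (Subgroup.closure_le S).2 (by
    rintro _ (rfl | rfl)
    · exact ⟨hT, fun v => by rw [h1, add_sub_cancel_left]; exact Submodule.mem_sup_left (h2 v),
        fun x hx _ => by rw [h1, h4 x hx, add_zero]⟩
    · exact ⟨hT', fun v => by rw [h5, add_sub_cancel_left]; exact Submodule.mem_sup_right (h6 v),
        fun x _ hx => by rw [h5, h7 x hx, add_zero]⟩) h9
  have h14 : a ∈ X := by obtain ⟨x, -, rfl⟩ := h10; exact h2 x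
  have h15 : Tn z := g1 z h9.1 (fun x h15 h16 => by rwa [h9.2.2 x h15 h16]) a h14
    (fun h15 => h11 (h8 a h10 (by rw [h7 a h15]; exact zero_mem _))) (h12 ▸ neg_mem h14)
  obtain ⟨a₀, ha₀⟩ := exists_ne (0 : U)
  have h16 : ∀ a y, (∀ a, pt U f a y ∈ X) → z⁻¹ (pt U f a y) ∈ X := fun a y hy => by
    obtain ⟨s, ψ, h16⟩ := tn_form (tn_inv (k := z⁻¹) (by rwa [inv_inv]))
    obtain ⟨y', h17⟩ := pt_of_form h.hW h16 y
    rw [h17]
    exact ei _ _ (app_ne_zero s ha₀) (by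
      simpa [h17] using add_mem ((inv_mem h9).2.1 (pt U f a₀ y)) (Submodule.mem_sup_left (hy a₀))) _
  obtain ⟨s, ψ, h17⟩ := tn_form h15
  obtain ⟨z₀, h18, h19, h20⟩ := exists_nons2 h.hW hn u w
  obtain ⟨z₁, h21⟩ := pt_of_form h.hW h17 z₀
  have h22 : ∀ b, f z₀ z₁ • s b = f z₀ z₀ • b := fun b => by
    have h22 : ∀ y, (∀ a, pt U f a y ∈ X) → z (pt U f b z₀) y = 0 := fun y hy => h.tg.gs _ fun a => by
      obtain ⟨c, d, h22⟩ := mem_XX.1 (h16 a y hy)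
      rw [← h.Bp, ← app_inv z (pt U f a y), (h.le h9.1).1, ← h22]; simp [h.Bp, h18, h19]
    obtain ⟨x, h23, x', h24, h25⟩ := Submodule.mem_sup.1 (h9.2.1 (pt U f b z₀))
    have h26 := f1 x' h24 (by
      rw [eq_sub_of_add_eq' h25, map_sub, h4 x h23]
      simp [N, h18, h19, h22 u fun a => mem_XX.2 ⟨a, 0, by simp⟩, h22 w fun a => mem_XX.2 ⟨0, a, by simp⟩])
    simpa [h25, h21, sub_eq_zero] using h3 _ (add_mem h23 h26) z₀ (h.hW.refl h18) (h.hW.refl h19)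
  have h23 : f z₀ z₁ ≠ 0 := fun h23 => by simpa [h23, qd h.hW z₀, h.two, h20, ha₀] using (h22 a₀).symm
  have h24 := pt_ind h.hW (S := X.comap (z.toLinearMap - 1)) (fun b y => by
    obtain ⟨y', h24⟩ := pt_of_form h.hW h17 y
    have h25 : ∀ b, z (pt U f b y) - pt U f b y = pt U f b ((f z₀ z₀ / f z₀ z₁) • y' - y) := fun b => by
      rw [h24, (eq_inv_smul_iff₀ h23).2 (h22 b)]; simp [smul_smul, div_eq_inv_mul]
    exact (h25 b).symm.subst (motive := (· ∈ X)) (ei _ _ ha₀ (h25 a₀ ▸ h9.2.1 _) b)) (N' a)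
  refine h11 (h8 a h10 ((X.smul_mem_iff (neg_ne_zero.2 h.two)).1 ?_))
  rw [show (-2 : F) • N' a = z (N' a) - N' a by rw [h13]; module]; exact h24

end TO

end Cfsg.Agent.H19.TA
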