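import Cfsg.Agent.H19.TB6

/-! Symplectic ⊗ orthogonal: the unipotent radical of the stabiliser of `U ⊗ w`. -/

set_option autoImplicit false
set_option maxHeartbeats 400000

namespace Cfsg.Agent.H19.TA

open Module H10 H11 H26.MX

variable {F : Type*} [Field F] {U W : Type*} [AddCommGroup U] [Module F U] [AddCommGroup W] [Module F W]
  {g : U →ₗ[F] U →ₗ[F] F} {f : W →ₗ[F] W →ₗ[F] F} {p : U → F}
  {B : (W →ₗ[F] U) →ₗ[F] (W →ₗ[F] U) →ₗ[F] F}
  {M : Subgroup ((W →ₗ[F] U) ≃ₗ[F] (W →ₗ[F] U))}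

theorem exists_normal [FiniteDimensional F U] [Finite F]
    (h : Cl (σ := RingHom.id F) 1 2 (AddMonoidHom.id F) g p) {E : Submodule F (End F U)} (h1E : 1 ∈ E)
    (hcj : ∀ s ∈ h.Om, ∀ m ∈ E, ∀ m' : End F U, (∀ x, s (m' x) = m (s x)) → m' ∈ E) (h2 : (2 : F) ≠ 0)
    (hn : 3 ≤ finrank F U) (hq : 4 ≤ finrank F U ∨ ∃ t : F, t ≠ 0 ∧ t * t ≠ 1)
    {m : End F U} (hm : m ∈ E) (h0 : ∀ c : F, m ≠ c • LinearMap.id) : ∃ (a r : U) (ρ : F), a ≠ 0 ∧
      p a = 0 ∧ g a r = 0 ∧ (g a).smulRight r - (g r).smulRight a + ρ • (g a).smulRight a ∈ E ∧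
      (g a).smulRight r - (g r).smulRight a + ρ • (g a).smulRight a ≠ 0 := by
  have : Finite U := Module.finite_of_finite F
  obtain ⟨a, -, ha, hp⟩ := h.exists_sing3 (W := ⊤) (by simpa)
  obtain ⟨b, hb, hab⟩ := h.form.exists_partner h.sep hp ha
  obtain ⟨z₀, h1, h3, h4⟩ := exists_nons3 h hn hp hb hab
  have haa := h.diag0 hp
  have hba := h.flip_one hab
  have := Fintype.ofFinite (LinearMap.ker (g a))
  let e : LinearMap.ker (g a) → End F U := fun z => (h.eich a z (p z)).toLinearMap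
  have he : ∀ z x, e z x = x + g z x • a - g a x • z.1 - (p z * g a x) • a := fun z x =>
    (h.eich_apply hp z.2 (p z) x).trans (by rw [one_mul])
  have h5 : ∀ z z', e z * e z' = e (z + z') := fun z z' => by
    have := congrArg LinearEquiv.toLinearMap (h.eich_mul hp z.2 z'.2 (p z) (p z'))
    simpa [e, h.Q_add] using this
  have h6 : e 0 = 1 := by ext; simp [he, h.Q_zero]
  have h7 : ∀ z, IsNilpotent (e z - 1) := fun z => ⟨3, by
    ext x; simp [pow_succ, he, haa, show g a z = 0 from z.2, h.refl z.2]⟩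
  obtain ⟨m, hm, h0, h8⟩ := exists_common (fun z => LinearMap.mulLeft F (e (-z)) *
      LinearMap.mulRight F (e z) - 1) (fun z z' => LinearMap.ext fun m => by
      simp only [End.mul_apply, LinearMap.sub_apply, LinearMap.mulLeft_apply, LinearMap.mulRight_apply,
        End.one_apply, mul_sub, sub_mul, mul_assoc, h5]
      simp only [← mul_assoc, h5, add_comm z', add_comm (-z')]; abel)
    (fun z => by
      have h8 := LinearMap.commute_mulLeft_right (R := F) (e (-z) - 1) (e z)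
      have h9 := LinearMap.commute_mulLeft_right (R := F) (e (-z) - 1) (e z - 1)
      rw [show LinearMap.mulLeft F (e (-z)) * LinearMap.mulRight F (e z) - 1 = LinearMap.mulLeft F (e (-z) - 1) *
        LinearMap.mulRight F (e z) + LinearMap.mulRight F (e z - 1) from
        LinearMap.ext fun m => by simp [mul_sub, sub_mul]]
      exact Commute.isNilpotent_add (h9.mul_left (LinearMap.ext fun m => by simp [mul_sub, sub_mul]))
        (h8.isNilpotent_mul_right ((LinearMap.isNilpotent_mulLeft_iff F _).2 (h7 _)))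
        ((LinearMap.isNilpotent_mulRight_iff F _).2 (h7 z)))
    (E := E) (S := F ∙ 1) (fun z m hm => sub_mem (hcj _ (h.eich_mem_om hp z.2 rfl) m hm _ fun x => by
      change (e z * (e (-z) * (m * e z))) x = _
      rw [← mul_assoc, h5, add_neg_cancel, h6, one_mul]; rfl) hm)
    (fun z m hm => by
      obtain ⟨c, rfl⟩ := Submodule.mem_span_singleton.1 hm
      simp [h5, h6]) hm (fun h8 => by
      obtain ⟨c, hc⟩ := Submodule.mem_span_singleton.1 h8
      exact h0 c hc.symm) Finset.univ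
  replace h8 : ∀ z, ∃ c : F, ∀ x, m (e z x) = e z (m x) + c • e z x := fun z => by
    obtain ⟨c, hc⟩ := Submodule.mem_span_singleton.1 (h8 z (Finset.mem_univ z))
    refine ⟨c, fun x => ?_⟩
    have := congrArg (fun n => (e z * n) x) hc
    simp only [End.mul_apply, LinearMap.sub_apply, LinearMap.mulLeft_apply, LinearMap.mulRight_apply,
      End.one_apply, mul_sub, ← mul_assoc, h5, add_neg_cancel, h6, one_mul, LinearMap.smul_apply,
      map_smul] at this
    rw [this]; abel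
  have h9 : g a (m a) = 0 := by
    obtain ⟨c, hc⟩ := h8 ⟨z₀, h1⟩
    have := congrArg (g z₀) (hc a)
    simp only [he, haa, h.refl h1, qd h z₀, map_add, map_sub, map_smul, smul_eq_mul] at this
    exact (mul_eq_zero.1 (by linear_combination this : 2 * p z₀ * g a (m a) = 0)).resolve_left
      (mul_ne_zero h2 h4)
  replace h8 : ∀ z x, m (e z x) = e z (m x) - g z (m a) • e z x := fun z x => by
    obtain ⟨c, hc⟩ := h8 z
    have := congrArg (g b) (hc a)
    simp [he, haa, h.refl z.2, h9, hba] at this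
    rw [hc, show c = -g z (m a) by linear_combination -this]; module
  obtain ⟨l, hl'⟩ : ∃ l : F, l • a = m a := by
    rw [← Submodule.mem_span_singleton]
    by_contra h10
    rcases hq with hq | ⟨t, ht, ht'⟩
    · have h11 := H10.finrank_le_inf_ker ⊤ (g a)
      have h12 := H10.finrank_span_pair_le (F := F) a (m a)
      have h13 := Submodule.finrank_mono (mem_of_nons h h2 (T := LinearMap.ker (g a))
        (S := Submodule.span F {a, m a}) h1 h4 fun z hz hz' => by
          have h13 := h8 ⟨z, hz⟩ z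
          simp only [he, show g a z = 0 from hz, map_sub, map_add, map_smul] at h13
          replace h13 : (g a (m z) + g z (m a)) • z =
            (g z (m z) - p z * g a (m z) - g z (m a) * g z z) • a - g z z • m a := by
            linear_combination (norm := module) h13
          have h14 : g a (m z) + g z (m a) ≠ 0 := fun h14 => h10 (by
            rw [h14, zero_smul, eq_comm, sub_eq_zero] at h13
            rw [← Submodule.smul_mem_iff _ (show g z z ≠ 0 by simp [qd h z, h2, hz']), ← h13]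
            exact Submodule.smul_mem _ _ (Submodule.mem_span_singleton_self a))
          rw [← Submodule.smul_mem_iff _ h14, h13]
          exact sub_mem (Submodule.smul_mem _ _ (Submodule.subset_span (by simp)))
            (Submodule.smul_mem _ _ (Submodule.subset_span (by simp))))
      rw [top_inf_eq, finrank_top] at h11
      omega
    refine h10 (h.form.mem_of_perp h.sep fun z hz => h.refl (mem_of_nons h h2 (T := LinearMap.ker (g a))
      (S := LinearMap.ker (g.flip (m a))) h1 h4 (fun z hz hz' => ?_)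
      (hz a (Submodule.mem_span_singleton_self a))))
    have h11 := fun t : F => congrArg (g b) (h8 (t • ⟨z, hz⟩) b)
    simp only [he, Submodule.coe_smul, h.Q_smul, map_sub, map_add, map_smul, LinearMap.smul_apply,
      smul_eq_mul, hab, hba, RingHom.id_apply] at h11
    refine (mul_eq_zero.1 (?_ : (2 * p z * t * (t * t - 1)) * g z (m a) = 0)).resolve_left (by
      simp [h2, hz', ht, sub_ne_zero.2 ht'])
    linear_combination h11 (-t) - h11 t + t * (h11 1 - h11 (-1))
  have h11 := sub_mem hm (E.smul_mem l h1E)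
  replace h8 : ∀ z x, (m - l • 1) (e z x) = e z ((m - l • 1) x) := fun z x => by
    simp [h8, ← hl', h.refl z.2]
  have h12 : (m - l • 1) a = 0 := by simp [hl']
  have h13 : m - l • 1 ≠ 0 := fun h => h0 (sub_eq_zero.1 h ▸ Submodule.smul_mem _ l
    (Submodule.mem_span_singleton_self _))
  generalize m - l • 1 = m at h8 h11 h12 h13
  have h14 : ∀ z, g a z = 0 → m z = (g a (m b) * p z - g z (m b)) • a + g a (m b) • z := fun z hz => by
    have := h8 ⟨z, hz⟩ b
    simp only [he, map_sub, map_add, map_smul, h12, hab] at this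
    linear_combination (norm := module) -this
  have h15 : g a (m b) = 0 := by
    have := congrArg₂ (fun x y => g b (x + y)) (h14 z₀ h1) (h14 (-z₀) (by simp [h1]))
    simp [h.form.neg, hba, h3] at this
    exact (mul_eq_zero.1 (by linear_combination -this : 2 * p z₀ * g a (m b) = 0)).resolve_left
      (mul_ne_zero h2 h4)
  have h16 : m = (g a).smulRight (m b) - (g (m b)).smulRight a + g b (m b) • (g a).smulRight a :=
    LinearMap.ext fun x => by
      have := h14 (x - g a x • b) (by simp [hab])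
      simp only [h15, map_sub, map_smul, LinearMap.sub_apply, LinearMap.smul_apply] at this
      simp [qs h (m b) x]
      linear_combination (norm := module) this
  exact ⟨a, m b, _, ha, hp, h15, h16 ▸ h11, h16 ▸ h13⟩

/-- the centre of the unipotent radical -/
def L2 (f : W →ₗ[F] W →ₗ[F] F) (M : Subgroup ((W →ₗ[F] U) ≃ₗ[F] (W →ₗ[F] U))) (L : End F U) : Prop :=
  ∀ (w : W) (c : F), ∃ e ∈ M, ∀ v, e v = v + c • pt U f (L (v w)) w

/-- an overgroup of the product of an orthogonal and a symplectic group -/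
structure TS (g : U →ₗ[F] U →ₗ[F] F) (p : U → F) (f : W →ₗ[F] W →ₗ[F] F)
    (B : (W →ₗ[F] U) →ₗ[F] (W →ₗ[F] U) →ₗ[F] F)
    (M : Subgroup ((W →ₗ[F] U) ≃ₗ[F] (W →ₗ[F] U))) : Prop where
  hU : Cl (σ := RingHom.id F) 1 2 (AddMonoidHom.id F) g p
  hW : Cl (σ := RingHom.id F) (-1) 0 0 f fun _ => 0
  hV : Cl (σ := RingHom.id F) (-1) 0 0 B fun _ => 0
  two : (2 : F) ≠ 0
  Bp : ∀ a w v, B (pt U f a w) v = g a (v w)
  le : M ≤ Isom B fun _ => 0
  lm : ∀ s ∈ Isom g p, lf W s ∈ M
  rm : ∀ t : W ≃ₗ[F] W, (∀ x y, f (t x) (t y) = f x y) → rt U t ∈ M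

namespace TS
variable (h : TS g p f B M)
include h

theorem tg : TG g f B M := ⟨fun _ => h.hU.form.separatingRight h.hU.sep, h.Bp, fun _ hk => (h.le hk).1⟩

theorem ff (w : W) : f w w = 0 := alt_self h.hW w

theorem fs (x y : W) : f x y = -f y x := by simp [h.hW.symm y x]

theorem exists_T (y : W) (c : F) : ∃ k ∈ M, ∀ v, k v = v + c • pt U f (v y) y :=
  ⟨_, h.rm _ (h.hW.eich_mem_isom (u := y) (c := -c) rfl (map_zero _) rfl).1, fun v => by
    ext x
    rw [rt_apply, h.hW.eich_inv rfl (map_zero _), h.hW.eich_apply rfl (by simp)]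
    simp [h.hW.symm x y, smul_smul]⟩

theorem one_mem_e2 : (1 : End F U) ∈ E2 f M := fun w hw y hy c => by
  obtain ⟨k, h1, h2⟩ := h.exists_T (w + c • y) 1
  obtain ⟨k', h3, h4⟩ := h.exists_T (c • y) (-1)
  exact ⟨fun a => by simp [hy], k * k', mul_mem h1 h3, fun v hv => by
    simp [mul_app, h2, h4, hv, h.hW.refl hy, h.ff]; abel⟩

theorem q2_comp {w y : W} {hw : f w w = 0} (hy : f y w = 0) {ψ : (W →ₗ[F] U) →ₗ[F] U} (hψ : ψ ∈ Q2 M hw) :
    (ψ ∘ₗ (pt U f).flip y) ∘ₗ LinearMap.applyₗ y ∈ Q2 M hw := by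
  obtain ⟨k, h1, h2⟩ := h.exists_T y 1
  convert sub_mem (h.tg.q2_conj h1 1 hw (fun a => by simp [h2, hy]) hψ (ψ' := ψ ∘ₗ k.toLinearMap)
    fun _ => rfl) hψ using 1
  ext v; simp [h2]

variable [FiniteDimensional F W]

theorem mem_e2 {m : End F U} {w y : W} {hw : f w w = 0} (h0 : w ≠ 0) (hy : y ∉ F ∙ w)
    (hm : m ∘ₗ LinearMap.applyₗ y ∈ Q2 M hw) : m ∈ E2 f M := fun w' hw' y' hy' => by
  have h1 : ∀ z, f z w = 0 → f y z ≠ 0 → m ∘ₗ LinearMap.applyₗ z ∈ Q2 M hw := fun z h1 h2 => by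
    rw [← Submodule.smul_mem_iff _ h2]
    convert h.q2_comp h1 hm using 1
    ext; simp
  have h2 : ∀ z, f z w = 0 → m ∘ₗ LinearMap.applyₗ z ∈ Q2 M hw := fun z hz => by
    by_cases h2 : f y z = 0
    swap
    · exact h1 z hz h2
    obtain ⟨x, h3, h4⟩ := exists_perp_one h.hW hy
    convert sub_mem (h1 (x + z) (by simp [hz, h.hW.refl h3]) (by simp [h2, h4]))
      (h1 x (h.hW.refl h3) (by simp [h4])) using 1
    ext; simp
  by_cases h3 : w' = 0
  · exact fun c => ⟨fun a => by simp [h3], 1, one_mem _, fun v _ => by simp [h3]⟩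
  obtain ⟨t, h4, rfl⟩ := h.hW.form.witt_one h.hW.sep h3 h0 rfl
  exact h.tg.q2_conj (h.rm t h4.1) 1 hw' (fun a => rt_pt h4.1 a w') (h2 (t y') ((h4.1 _ _).trans hy'))
    fun v => by simp

variable (hn : 4 ≤ finrank F W)
include hn

theorem l2_comm {m m' n n' : End F U} (hm : m ∈ E2 f M) (hm' : m' ∈ E2 f M)
    (h1 : ∀ a b, g (m a) b = g a (n b)) (h1' : ∀ a b, g (m' a) b = g a (n' b)) :
    L2 f M (m * n' + m' * n) := fun w c => by
  by_cases h0 : w = 0
  · exact ⟨1, one_mem _, fun v => by simp [h0]⟩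
  obtain ⟨x, hx⟩ := h.hW.form.exists_right_eq_one h.hW.sep h0
  obtain ⟨y, y', h2, h3, h4⟩ := exists_hyp h.hW (F ∙ w) (by rw [finrank_span_singleton h0]; omega)
  replace h2 := h2 w (Submodule.mem_span_singleton_self w)
  replace h3 := h3 w (Submodule.mem_span_singleton_self w)
  have h5 : ∀ {m n : End F U} {y : W} {e : (W →ₗ[F] U) ≃ₗ[F] (W →ₗ[F] U)}, e ∈ M → f w y = 0 →
      (∀ a b, g (m a) b = g a (n b)) → (∀ v : W →ₗ[F] U, v w = 0 → e v = v + pt U f (m (v y)) w) →
      ∀ v, ∃ b, e v = v + pt U f (n (v w)) y + pt U f b w := fun {m n y e} h5 h6 h7 h8 v => by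
    refine ⟨_, sub_eq_iff_eq_add'.1 (eq_pt_of (x := -x) (by simp [h.hW.flip_one hx]) fun z hz =>
      h.tg.gs _ fun a => ?_)⟩
    have h9 := (h.le h5).1 (pt U f a z - pt U f (f y z • m a) w) v
    rw [h8 _ (by simp [h.hW.refl hz, h.ff])] at h9
    simp [h.Bp, h.hW.refl h6, h7] at h9
    simp [h9, h.fs z y]; ring
  obtain ⟨-, e, h6, h7⟩ := hm w (h.ff w) y (h.hW.refl h2) c
  obtain ⟨-, e', h8, h9⟩ := hm' w (h.ff w) y' (h.hW.refl h3) 1
  have h10 := h5 (m := c • m) (n := c • n) h6 h2 (by simp [h1]) h7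
  have h11 := h5 h8 h3 h1' (by simpa using h9)
  refine ⟨_, mul_mem (mul_mem h6 h8) (inv_mem (mul_mem h8 h6)), fun v => ?_⟩
  obtain ⟨v, rfl⟩ := (e' * e).surjective v
  obtain ⟨b, h12⟩ := h10 v
  obtain ⟨b', h13⟩ := h11 v
  rw [mul_app, inv_app, mul_app, mul_app, h13, h12, add_assoc v, add_assoc v, map_add e, map_add e', h12, h13,
    h7 _ (by simp [h3, h.ff]), h9 _ (by simp [h2, h.ff])]
  simp [h2, h3, h4, h.hW.refl h2, h.hW.refl h3, h.ff, h.hW.flip_one h4]; module

variable [FiniteDimensional F U]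

theorem om_le_of_l2 {a : U} (ha : a ≠ 0) (hp : p a = 0) (hL : L2 f M ((g a).smulRight a)) :
    h.hV.Om ≤ M := by
  have h1 : ∀ b w c, p b = 0 → h.hV.eich (pt U f b w) 0 c ∈ M := fun b w c hb => by
    by_cases h0 : b = 0
    · simp [h0, h.hV.eich_zero_left, one_mem]
    obtain ⟨s, h1, rfl⟩ := h.hU.form.witt_one h.hU.sep ha h0 (hb.trans hp.symm)
    obtain ⟨e, h2, h3⟩ := hL w (-c)
    rw [← lf_pt, ← map_zero (lf W s), ← h.hV.conj_eich (h.le (h.lm s h1)), show h.hV.eich _ 0 c = e from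
      LinearEquiv.ext fun v => by simp [h3, h.hV.eich_apply rfl (map_zero _), h.Bp, smul_smul, sub_eq_add_neg]]
    exact mul_mem (mul_mem (h.lm s h1) h2) (inv_mem (h.lm s h1))
  have h2 : ∀ a w y, p a = 0 → pt U f a y ∈ h.hV.Arm M (pt U f a w) := fun a w y hp c => by
    have h2 : B (pt U f a w) (c • pt U f a y) = 0 := by simp [h.Bp, h.hU.diag0 hp]
    refine (h.hV.mem_ar rfl).2 ⟨h2, 0, rfl, ?_⟩
    convert mul_mem (h1 a (w + c • y) (-1) hp) (mul_mem (h1 a w 1 hp) (h1 a (c • y) 1 hp)) using 1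
    ext1 v
    simp only [mul_app, h.hV.eich_apply rfl (map_zero _), h.hV.eich_apply rfl h2]
    simp [h.Bp, h.hU.diag0 hp]; module
  have h3 : ∀ a w b z, a ≠ 0 → p a = 0 → f w z = 0 → pt U f b z ∈ h.hV.Arm M (pt U f a w) :=
    fun a w b z ha hp hz => eq_top_of_sing h.hU ha hp
      (S := (h.hV.Arm M (pt U f a w)).comap ((pt U f).flip z)) (h2 a w z hp) (fun b hb h3 => by
        by_cases h0 : z = 0
        · simp [h0]
        obtain ⟨y, hy⟩ := h.hW.form.exists_right_eq_one h.hW.sep h0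
        have h4 := h.hV.map_mem_arm h.le (h1 b z 1 hb) (h.hV.eich_fix 1 (by simp [h.Bp, h.hW.refl hz])
          (by simp)) (h2 a w y hp)
        rw [h.hV.eich_apply rfl (map_zero _)] at h4
        refine (Submodule.smul_mem_iff _ (h.hU.refl_ne h3)).1 ?_
        simpa [h.Bp, hy] using sub_mem (h2 a w y hp) h4) b
  have h4 : ∀ a w b c, a ≠ 0 → p a = 0 → g a b = 0 → pt U f b c ∈ h.hV.Arm M (pt U f a w) :=
    fun a w b c ha hp hb => by
    have h4 := h.hW.form.finrank_perp h.hW.sep (F ∙ c)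
    have h5 := H10.finrank_span_one_le (F := F) c
    have h6 := H10.finrank_span_one_le (F := F) w
    obtain ⟨x, h7, h8⟩ := exists_not_mem_of_lt (U := perp f (F ∙ c)) (W := F ∙ w) (by omega)
    replace h7 := h.hW.refl (h7 c (Submodule.mem_span_singleton_self c))
    obtain ⟨c', h9, h10⟩ := exists_perp_one h.hW h8
    obtain ⟨α, hα⟩ := h.hU.form.exists_right_eq_one h.hU.sep ha
    obtain ⟨h11, d, -, h12⟩ := (h.hV.mem_ar rfl).1 (h.hV.ar_of_arm (h3 a x b c ha hp h7))
    have h13 := h3 a w α c' ha hp h9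
    have h14 := h.hV.map_mem_arm h.le h12 (h.hV.eich_fix d (by simp [h.Bp, h.hU.diag0 hp])
      (by simp [h.Bp, h.hU.refl hb])) h13
    rw [h.hV.eich_apply rfl h11, Submodule.sub_mem_iff_left _ (Submodule.smul_mem _ _ (h2 a w x hp)),
      Submodule.sub_mem_iff_right _ (add_mem h13 (Submodule.smul_mem _ _ (h2 a w x hp)))] at h14
    simpa [h.Bp, h10, hα] using h14
  have h5 : ∀ a w, a ≠ 0 → p a = 0 → w ≠ 0 → h.hV.Full M (pt U f a w) := fun a w ha hp hw => by
    obtain ⟨x, hx⟩ := h.hW.form.exists_right_eq_one h.hW.sep hw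
    refine h.hV.full_of_ar rfl (fun t ht => h.hV.ar_of_arm ?_) fun c _ => h1 a w c hp
    have := pt_ind h.hW (S := (h.hV.Arm M (pt U f a w)).comap
      (1 - (pt U f).flip x ∘ₗ LinearMap.applyₗ w)) (fun b y => by
        simpa using h3 a w b (y - f w y • x) ha hp (by simp [hx])) t
    exact (sub_add_cancel t (pt U f (t w) x)).subst (motive := (· ∈ _))
      (add_mem this (h4 a w _ x ha hp (by simpa [h.Bp] using ht)))
  have : Nontrivial W := Module.nontrivial_of_finrank_pos (R := F) (by omega)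
  obtain ⟨w, hw⟩ := exists_ne (0 : W)
  obtain ⟨x, hx⟩ := h.hW.form.exists_right_eq_one h.hW.sep hw
  obtain ⟨b, hb, h6⟩ := h.hU.form.exists_partner h.hU.sep hp ha
  exact h.hV.om_le_of_full h.le (h5 a w ha hp hw) (h5 b x (by rintro rfl; simp at h6) hb
    (by rintro rfl; simp at hx)) (by simp [h.Bp, hx, h6])

theorem q2_scal [Finite F] (hm : 3 ≤ finrank F U) (hq : 4 ≤ finrank F U ∨ ∃ t : F, t ≠ 0 ∧ t * t ≠ 1)
    (hM : ¬ h.hV.Om ≤ M) {w y : W} {hw : f w w = 0} (h0 : w ≠ 0) (hy : f y w = 0)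
    {ψ : (W →ₗ[F] U) →ₗ[F] U} (hψ : ψ ∈ Q2 M hw) : ∃ c : F, ∀ a, ψ (pt U f a y) = c • a := by
  by_cases h1 : y ∈ F ∙ w
  · obtain ⟨c, rfl⟩ := Submodule.mem_span_singleton.1 h1
    exact ⟨0, fun a => by simp [q2_pt hψ]⟩
  by_contra! h2
  obtain ⟨a, r, ρ, ha, hp, h3, h4, h5⟩ := exists_normal h.hU h.one_mem_e2 (fun s hs _ h1 _ =>
    h.tg.e2_conj (h.lm s (h.hU.om_le_isom hs)) h1) h.two hm hq (h.mem_e2 h0 h1 (h.q2_comp hy hψ))
    fun c hc => (h2 c).elim fun a ha => ha (LinearMap.congr_fun hc a)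
  refine hM (h.om_le_of_l2 hn ha hp ?_)
  have haa := h.hU.diag0 hp
  have h6 : ∀ (d : F) L, d ≠ 0 → L2 f M L → L = d • (g a).smulRight a → L2 f M ((g a).smulRight a) := by
    rintro d _ hd h6 rfl w c
    simpa [smul_smul, ← mul_assoc, hd] using h6 w (c * d⁻¹)
  have h7 : ∀ r (ρ : F), g a r = 0 → p r ≠ 0 → (g a).smulRight r - (g r).smulRight a +
      ρ • (g a).smulRight a ∈ E2 f M → L2 f M ((g a).smulRight a) := fun r ρ h7 h8 h9 => by
    have h10 : ∀ x y, g (((g a).smulRight r - (g r).smulRight a + ρ • (g a).smulRight a) x) y =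
        g x (((g r).smulRight a - (g a).smulRight r + ρ • (g a).smulRight a) y) := fun x y => by
      simp [qs h.hU x]; ring
    refine h6 (2 * (2 * p r)) _ (by simp [h.two, h8]) (h.l2_comm hn h9 h9 h10 h10) ?_
    ext x; simp [h7, h.hU.refl h7, haa, qd h.hU r]; module
  by_cases h8 : p r = 0
  swap
  · exact h7 r ρ h3 h8 h4
  by_cases h9 : r ∈ F ∙ a
  · obtain ⟨c, rfl⟩ := Submodule.mem_span_singleton.1 h9
    have h10 : (g a).smulRight (c • a) - (g (c • a)).smulRight a + ρ • (g a).smulRight a =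
      ρ • (g a).smulRight a := by ext; simp [smul_smul, mul_comm]
    rw [h10] at h4 h5
    exact h6 (2 * ρ) _ (mul_ne_zero h.two (left_ne_zero_of_smul h5)) (h.l2_comm hn h4 h.one_mem_e2
      (n := ρ • (g a).smulRight a) (n' := 1) (fun x y => by simp [qs h.hU x, mul_comm]) fun _ _ => rfl)
      (by simp [mul_smul, two_smul])
  obtain ⟨u, h10, h11, h12⟩ := h.hU.form.exists_partner_perp h.hU.sep h8 h9 fun z hz => by
    obtain ⟨c, rfl⟩ := Submodule.mem_span_singleton.1 hz; simp [h3]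
  replace h12 := h12 a (Submodule.mem_span_singleton_self a)
  have h13 : p (r + u) = 1 := by simp [h.hU.Q_add, h8, h10, h11]
  have h14 := IsQuad.reflO_apply h.hU.form (r + u)
  generalize IsQuad.reflO h.hU.form (r + u) = s at h14
  refine h7 (-(r + u)) 0 (by simp [h3, h12]) (by simp [h.hU.form.neg, h13, -neg_add_rev]) ?_
  convert sub_mem (h.tg.e2_conj (h.lm s s.2) h4 (m' := (g a).smulRight (-u) - (g (-u)).smulRight a +
    ρ • (g a).smulRight a) fun x => ?_) h4 using 1
  · ext; simp; module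
  simp [h14, h13, h3, h12, h.hU.refl h3, h.hU.refl h12, h11, h.hU.diag0, h8, h10, haa]
  module

end TS

end Cfsg.Agent.H19.TA
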