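import Cfsg.Agent.H19.TC1

/-! Symplectic ⊗ orthogonal: the stabiliser theorem and maximality. -/

set_option autoImplicit false
set_option maxHeartbeats 400000

namespace Cfsg.Agent.H19.TA

open Module H10 H11 H26.MX

variable {F : Type*} [Field F] {U W : Type*} [AddCommGroup U] [Module F U] [AddCommGroup W] [Module F W]
  {g : U →ₗ[F] U →ₗ[F] F} {f : W →ₗ[F] W →ₗ[F] F} {p : U → F}
  {B : (W →ₗ[F] U) →ₗ[F] (W →ₗ[F] U) →ₗ[F] F}
  {M : Subgroup ((W →ₗ[F] U) ≃ₗ[F] (W →ₗ[F] U))} {k : (W →ₗ[F] U) ≃ₗ[F] (W →ₗ[F] U)}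

theorem scalar_or (h2 : (2 : F) ≠ 0) {s : U ≃ₗ[F] U} {ψ : W ≃ₗ[F] W} (hk : ∀ v x, k v x = s (v (ψ x)))
    (h1 : ∀ v, k (k v - v) = k v - v) : (∃ c : F, ∀ a, s a = c • a) ∨ ∃ c : F, ∀ x, ψ x = c • x := by
  refine or_iff_not_imp_left.2 fun h3 => ?_
  obtain ⟨a, ha⟩ : ∃ a, LinearIndependent F ![a, s a] := by
    by_contra! h4
    obtain ⟨c, hc⟩ := s.toLinearMap.exists_eq_smul_id_of_forall_notLinearIndependent h4
    exact h3 ⟨c, LinearMap.congr_fun hc⟩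
  obtain ⟨χ, h4, h5⟩ := exists_dual_pair (F := F) (u := a) (x := s a) fun c hc =>
    (LinearIndependent.pair_iff' (ha.ne_zero 0)).1 ha c hc.symm
  obtain ⟨χ', h6, h7⟩ := exists_dual_pair (F := F) (u := s a) (x := a) fun c hc =>
    (LinearIndependent.pair_iff' (ha.ne_zero 1)).1 (LinearIndependent.pair_symm_iff.1 ha) c hc.symm
  by_cases h0 : χ' (s (s a)) = 0
  · refine ⟨0, fun x => (Module.forall_dual_apply_eq_zero_iff F _).1 (fun β => ?_) |>.trans (by simp)⟩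
    simpa [hk, h0, h6, h7] using congrArg χ' (LinearMap.congr_fun (h1 (β.smulRight a)) (ψ x))
  refine ⟨-χ (s (s a)) / (2 * χ' (s (s a))), fun x => sub_eq_zero.1
    ((Module.forall_dual_apply_eq_zero_iff F _).1 fun β => ?_)⟩
  have h8 := congrArg χ (LinearMap.congr_fun (h1 (β.smulRight a)) x)
  have h9 := congrArg χ' (LinearMap.congr_fun (h1 (β.smulRight a)) x)
  simp [hk, h4, h5, h6, h7] at h8 h9 ⊢
  field_simp
  linear_combination χ (s (s a)) * h9 - χ' (s (s a)) * h8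

variable [FiniteDimensional F U] [FiniteDimensional F W]

namespace TS
variable (h : TS g p f B M) [Finite F] (hn : 4 ≤ finrank F W) (hm : 3 ≤ finrank F U)
  (hq : 4 ≤ finrank F U ∨ ∃ t : F, t ≠ 0 ∧ t * t ≠ 1) (hM : ¬ h.hV.Om ≤ M) [Nontrivial U]
include h hn hm hq hM

theorem st2 (hk : k ∈ M) {s : U ≃ₗ[F] U} {w y : W} (hw : w ≠ 0)
    (hs : ∀ a, k (pt U f a w) = pt U f (s a) w) (hy : f y w = 0) :
    ∃ y', ∀ a, k (pt U f a y) = pt U f (s a) y' := by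
  have h1 : ∀ k ∈ M, ∀ s : U ≃ₗ[F] U, (∀ a, k (pt U f a w) = pt U f (s a) w) → ∀ y z, f y w = 0 →
      f z w = 0 → ∃ c : F, ∀ a, k (pt U f a y) z = c • s a := fun k hk s hs y z hy hz => by
    obtain ⟨c, hc⟩ := h.q2_scal hn hm hq hM hw hy (h.tg.q2_conj hk s (h.ff w) hs
      (h.one_mem_e2 w (h.ff w) z hz)
      (ψ' := s⁻¹.toLinearMap ∘ₗ LinearMap.applyₗ z ∘ₗ k.toLinearMap) fun v => by simp)
    exact ⟨c, fun a => by rw [← map_smul, ← hc]; simp⟩
  by_cases h2 : y ∈ F ∙ w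
  · obtain ⟨c, rfl⟩ := Submodule.mem_span_singleton.1 h2
    exact ⟨c • w, fun a => by simp [hs]⟩
  obtain ⟨a₀, ha₀⟩ := exists_ne (0 : U)
  obtain ⟨χ, hχ⟩ := exists_dual_one (F := F) (app_ne_zero s ha₀)
  obtain ⟨y₁, h3⟩ := ex_flip h.hW (χ ∘ₗ k (pt U f a₀ y))
  replace h3 : ∀ z, f z y₁ = χ (k (pt U f a₀ y) z) := LinearMap.congr_fun h3
  have h4 : f w y₁ = 0 := by rw [h3, h.tg.perp_map hk hs (by simp [h.hW.refl hy]), map_zero]
  obtain ⟨x, hx⟩ := h.hW.form.exists_right_eq_one h.hW.sep hw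
  let κ : End F U := LinearMap.applyₗ (-x) ∘ₗ
    (k.toLinearMap ∘ₗ (pt U f).flip y - (pt U f).flip y₁ ∘ₗ s.toLinearMap)
  have h5 : ∀ a, k (pt U f a y) = pt U f (s a) y₁ + pt U f (κ a) w := fun a =>
    sub_eq_iff_eq_add'.1 (eq_pt_of (x := -x) (by simp [h.hW.flip_one hx]) fun z hz => by
      obtain ⟨c, hc⟩ := h1 k hk s hs y z hy hz
      simp [h3, hc, hχ])
  have h6 : y₁ ∉ F ∙ w := fun h6 => by
    obtain ⟨c, rfl⟩ := Submodule.mem_span_singleton.1 h6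
    obtain ⟨z, h6, h7⟩ := exists_perp_one h.hW h2
    have := LinearMap.congr_fun (k.injective (a₁ := pt U f a₀ y) (a₂ := pt U f (s⁻¹ (c • s a₀ + κ a₀)) w)
      (by rw [h5, hs, app_inv]; simp)) z
    simp [h.hW.refl h6, h.hW.flip_one h7, ha₀] at this
  obtain ⟨z, h7, h8⟩ := exists_perp_one h.hW h6
  have h9 : ∀ a (v : W →ₗ[F] U), v w = 0 → g a (k⁻¹ v y) = g (s a) (v y₁) := fun a v hv => by
    rw [← h.Bp, ← (h.le hk).1, app_inv, h5]; simp [h.Bp, hv]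
  obtain ⟨l, hl⟩ := h1 k⁻¹ (inv_mem hk) s⁻¹ (fun a => inv_eq_of (by rw [hs, app_inv])) z y (h.hW.refl h7) hy
  have h10 : ∀ a b, g (s a) b = l * g a (s⁻¹ b) := fun a b => by
    have := h9 a (pt U f b z) (by simp [h7])
    rw [hl] at this
    simpa [h8] using this.symm
  have h11 : l ≠ 0 := by
    obtain ⟨b, hb⟩ := h.hU.exists_ne (app_ne_zero s ha₀)
    rintro rfl
    simp [h10] at hb
  have h12 : ∀ v : W →ₗ[F] U, v w = 0 → k⁻¹ v y = l • s⁻¹ (v y₁) := fun v hv =>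
    sub_eq_zero.1 (h.tg.gs _ fun a => by rw [map_sub, h9 a v hv, h10]; simp)
  obtain ⟨μ, hμ⟩ := h.q2_scal hn hm hq hM (hw := h.ff w) hw (h.hW.refl h7)
    (ψ := l • κ ∘ₗ s⁻¹.toLinearMap ∘ₗ LinearMap.applyₗ y₁) fun c => ⟨fun a => by simp [h.hW.refl h4], by
      obtain ⟨t, h13, h14⟩ := h.exists_T y c
      obtain ⟨t', h15, h16⟩ := h.exists_T y₁ (-(c * l))
      refine ⟨t' * (k * t * k⁻¹), mul_mem h15 (mul_mem (mul_mem hk h13) (inv_mem hk)), fun v hv => ?_⟩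
      rw [mul_app, mul_app, mul_app, h14, map_add k, app_inv, map_smul k, h5, h12 v hv, h16]
      simp [h.hW.refl h4, h.ff]
      module⟩
  refine ⟨y₁ + (μ / l) • w, fun a => ?_⟩
  have h13 : κ a = (μ / l) • s a := by
    rw [div_eq_inv_mul, mul_smul, eq_inv_smul_iff₀ h11, ← hμ]; simp [h8]
  simp [h5, h13]

theorem st3 (hk : k ∈ M) {w y : W} (hw : w ≠ 0) (hs : St f k w) (hy : f y w = 0) : St f k y := by
  obtain ⟨w', hs⟩ := hs
  obtain ⟨x, hx⟩ := h.hW.form.exists_right_eq_one h.hW.sep hw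
  replace hx := h.hW.flip_one hx
  have h1 : ∀ a, pt U f a w = 0 → a = 0 := fun a ha => by simpa [hx] using LinearMap.congr_fun ha x
  obtain ⟨a₀, ha₀⟩ := exists_ne (0 : U)
  obtain ⟨t, h2, h3⟩ := h.hW.form.witt_one h.hW.sep (v := w') (by
    rintro rfl
    obtain ⟨a, ha⟩ := hs a₀
    exact ha₀ (h1 _ (by simpa using ha))) hw rfl
  let s : End F U := LinearMap.applyₗ (-x) ∘ₗ (rt U t * k).toLinearMap ∘ₗ (pt U f).flip w
  have h4 : ∀ a, (rt U t * k) (pt U f a w) = pt U f (s a) w := fun a => by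
    obtain ⟨a', ha⟩ := hs a
    simp [s, mul_app, ha, rt_pt h2.1, h3, hx]
  obtain ⟨y', h5⟩ := h.st2 hn hm hq hM (mul_mem (h.rm t h2.1) hk) hw
    (s := LinearEquiv.ofInjectiveEndo s ((injective_iff_map_eq_zero _).2 fun a ha =>
      h1 a ((rt U t * k).injective (by rw [h4, ha]; simp)))) h4 hy
  exact ⟨t⁻¹ y', fun a => ⟨s a, (rt U t).injective (by rw [rt_pt h2.1, app_inv]; exact h5 a)⟩⟩

omit hm hq hM [Finite F] [FiniteDimensional F U] [Nontrivial U] in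
theorem exists_perp2 (w y : W) : ∃ z, z ≠ 0 ∧ f z w = 0 ∧ f z y = 0 := by
  obtain ⟨z, h1, hz⟩ := (Submodule.ne_bot_iff _).1 (LinearMap.ker_ne_bot_of_finrank_lt
    (f := (f.flip w).prod (f.flip y)) (by simp; omega))
  simp only [LinearMap.mem_ker, LinearMap.prod_apply, Function.prod, Prod.mk_eq_zero] at h1
  exact ⟨z, hz, h1⟩

theorem tn_st (hk : k ∈ M) {w : W} (hw : w ≠ 0) (hs : St f k w) : Tn k :=
  tn_of_Wt (by omega) fun β _ => by
    obtain ⟨y, rfl⟩ := ex_flip h.hW β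
    obtain ⟨z, hz, h1, h2⟩ := h.exists_perp2 hn w y
    obtain ⟨y', h2⟩ := h.st3 hn hm hq hM hk hz (h.st3 hn hm hq hM hk hw hs h1) (h.hW.refl h2)
    exact ⟨f.flip y', fun a => (h2 a).imp fun _ h => h.symm⟩

theorem rk (hk : k ∈ M) {w : W} (hw : w ≠ 0) {T : (W →ₗ[F] U) ≃ₗ[F] (W →ₗ[F] U)} (hT : T ∈ M)
    (h1 : ∀ v, T v = v + (1 : F) • pt U f (v w) w) (ht : Tn (k⁻¹ * T * k)) : Tn k := by
  obtain ⟨s, ψ, h2⟩ := tn_form ht
  obtain ⟨a₀, ha₀⟩ := exists_ne (0 : U)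
  obtain ⟨x, hx⟩ := h.hW.form.exists_right_eq_one h.hW.sep hw
  have h3 : ∀ v, k ((k⁻¹ * T * k) v - v) = pt U f (k v w) w := fun v => by simp [mul_app, h1]
  have hj := mul_mem (mul_mem (inv_mem hk) hT) hk
  generalize k⁻¹ * T * k = j at h2 h3 hj
  have h4 : ∀ (s : U ≃ₗ[F] U) (ψ : W ≃ₗ[F] W) (c : F), (∀ v x, j v x = s (v (ψ x))) →
      (∀ a, s a = c • a) → Tn k := fun s ψ c h2 hc => by
    have h4 : ∀ v, j v - v = v ∘ₗ (c • ψ.toLinearMap - 1) := fun v => by ext; simp [h2, hc]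
    obtain ⟨y, y', h5, h6⟩ := exists_pt_comp (U := U) h.hW (ψ := c • ψ.toLinearMap - 1) fun h5 => by
      have := h3 (k⁻¹ (pt U f a₀ x))
      rw [h4, h5] at this
      simpa [hx, h.hW.flip_one hx, ha₀] using LinearMap.congr_fun this x
    exact h.tn_st hn hm hq hM hk h5 ⟨w, fun a => ⟨_, by rw [← h6, ← h4, h3]⟩⟩
  have h3' : ∀ v, j (j v - v) = j v - v := fun v => k.injective (by
    rw [← sub_eq_zero, ← map_sub, h3, h3]; simp [h.ff])
  rcases scalar_or h.two h2 h3' with ⟨c, hc⟩ | ⟨c, hc⟩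
  · exact h4 s ψ c h2 hc
  obtain ⟨s, h2⟩ : ∃ s : U ≃ₗ[F] U, ∀ v x, j v x = s (v x) :=
    ⟨s.trans (LinearEquiv.smulOfNeZero F U c (by rintro rfl; simpa [hw] using hc w)), by simp [h2, hc]⟩
  have h6 : ∀ a b, g (s a) (s b) = 1 * g a b := fun a b => by
    have := (h.le hj).1 (pt U f a w) (pt U f b x)
    rw [show j (pt U f a w) = pt U f (s a) w by ext; simp [h2]] at this
    simpa [h.Bp, h2, hx] using this
  refine h4 s 1 1 h2 (no_tv h.hU h.two hm h6 ⟨2, LinearMap.ext fun a => by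
    simpa [h2, hx, pow_two, sub_eq_zero] using LinearMap.congr_fun (h3' (pt U f a x)) w⟩ ?_)
  have h8 : ∀ v, pt U f (k v w) w = k ((s.toLinearMap - (1 : F) • 1 : End F U) ∘ₗ v) := fun v => by
    rw [← h3]; congr 1; ext; simp [h2]
  generalize (s.toLinearMap - (1 : F) • 1 : End F U) = ν at h8
  have h9 : finrank F W * finrank F (LinearMap.range ν) ≤ finrank F U := by
    let L : (W →ₗ[F] LinearMap.range ν) →ₗ[F] (W →ₗ[F] U) :=
      k.toLinearMap ∘ₗ LinearMap.llcomp F W _ U (LinearMap.range ν).subtype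
    have h9 := Submodule.finrank_mono (show LinearMap.range L ≤ LinearMap.range ((pt U f).flip w) by
      rintro _ ⟨v, rfl⟩
      refine pt_ind h.hW (S := .comap L (LinearMap.range ((pt U f).flip w))) (fun ⟨_, a, rfl⟩ y => ⟨_, (h8 (pt U f a y)).trans ?_⟩) v
      exact congrArg k (by ext; simp))
    rw [LinearMap.finrank_range_of_inj (f := L) (fun v v' h => LinearMap.ext fun x =>
      Subtype.ext (LinearMap.congr_fun (k.injective h) x)), finrank_linearMap] at h9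
    exact h9.trans (LinearMap.finrank_range_le _)
  have h10 := h.hU.form.finrank_perp h.hU.sep (LinearMap.range ν)
  obtain ⟨c, h11, h12⟩ := exists_not_mem_of_lt (U := perp g (LinearMap.range ν)) (W := LinearMap.range ν)
    (by nlinarith)
  obtain ⟨z, h13, h14⟩ := exists_nons h.hU h11 h12
  have h15 := IsQuad.reflO_apply h.hU.form z
  have h15' := IsQuad.reflO_self h.hU.form h14
  generalize IsQuad.reflO h.hU.form z = r at h15 h15'
  have h16 := mul_mem (mul_mem hk (h.lm r r.2)) (inv_mem hk)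
  have h17 : ∀ a, (k * lf W r.1 * k⁻¹) (pt U f a w) = pt U f a w := fun a => by
    have h17 := h8 (k⁻¹ (pt U f a x))
    rw [app_inv, pt_apply, hx, one_smul] at h17
    rw [h17, mul_app, inv_app, mul_app]
    congr 1; ext y
    simp [h15, h.hU.refl (h13 _ ⟨_, rfl⟩)]
  have h18 : ∀ v, k⁻¹ ((k * lf W r.1 * k⁻¹) v - v) = lf W r.1 (k⁻¹ v) - k⁻¹ v := fun v => by simp [mul_app]
  obtain ⟨s, ψ, h19⟩ := tn_form (h.tn_st hn hm hq hM h16 hw ⟨w, fun a => ⟨a, h17 a⟩⟩)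
  generalize k * lf W r.1 * k⁻¹ = j at h17 h18 h19
  obtain ⟨c, h20⟩ : ∃ c : F, ∀ a, s a = c • a := ⟨-f (ψ⁻¹ x) w, fun a => by
    simpa [h19, h.hW.flip_one hx, neg_eq_iff_eq_neg] using LinearMap.congr_fun (h17 a) (ψ⁻¹ x)⟩
  have h21 : ∀ v, j v - v = v ∘ₗ (c • ψ.toLinearMap - 1) := fun v => by ext; simp [h19, h20]
  obtain ⟨y, y', h22, h23⟩ := exists_pt_comp (U := U) h.hW (ψ := c • ψ.toLinearMap - 1) fun h5 => by
    have := h18 (k (pt U f z x))
    rw [h21, h5, inv_app, lf_pt, h15'] at this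
    have := congrArg (g z) (LinearMap.congr_fun this w)
    simp only [LinearMap.comp_zero, map_zero, LinearMap.zero_apply, LinearMap.sub_apply, pt_apply, hx,
      one_smul, map_sub, map_neg, qd h.hU z, LinearMap.neg_apply] at this
    exact mul_ne_zero h.two (mul_ne_zero h.two h14) (by linear_combination this)
  obtain ⟨x', hx'⟩ := h.hW.form.exists_right_eq_one h.hW.sep h22
  have h24 := Submodule.finrank_mono (show LinearMap.range (k⁻¹.toLinearMap ∘ₗ (pt U f).flip y') ≤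
      LinearMap.range (pt U f z) by
    rintro _ ⟨a, rfl⟩
    obtain ⟨u, hu⟩ := ex_flip h.hW (-(p z)⁻¹ • g z ∘ₗ k⁻¹ (pt U f a y))
    refine ⟨u, ((congrArg (k⁻¹ : _ ≃ₗ[F] _) ((h23 a).symm.trans (h21 _).symm)).trans
      ((h18 _).trans ?_)).symm⟩
    ext t
    simp [h15, show f t u = _ from LinearMap.congr_fun hu t])
  rw [LinearMap.finrank_range_of_inj (f := k⁻¹.toLinearMap ∘ₗ (pt U f).flip y') fun a a' h1 => by
    simpa [h.hW.flip_one hx'] using LinearMap.congr_fun (k⁻¹.injective h1) x'] at h24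
  replace h24 := h24.trans (LinearMap.finrank_range_le _)
  by_contra! h25
  nlinarith

theorem tn_mem (hk : k ∈ M) : Tn k := by
  have : Nontrivial W := Module.nontrivial_of_finrank_pos (R := F) (by omega)
  obtain ⟨w, hw⟩ := exists_ne (0 : W)
  let X := LinearMap.range ((pt U f).flip w)
  by_contra hk'
  have : Finite (W →ₗ[F] U) := Module.finite_of_finite F
  have : Finite ((W →ₗ[F] U) ≃ₗ[F] (W →ₗ[F] U)) := DFunLike.finite _
  obtain ⟨k, ⟨hk, hk'⟩, hx⟩ := Set.exists_max_image {k | k ∈ M ∧ ¬ Tn k}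
    (fun k => finrank F ↥(X ⊓ X.comap k.toLinearMap)) (Set.toFinite _) ⟨k, hk, hk'⟩
  let X' := X.comap k.toLinearMap
  have g1 : ∀ j ∈ M, (∀ x ∈ X, x ∈ X' → j x ∈ X) → ∀ x ∈ X, x ∉ X' → j x ∈ X → Tn j :=
    fun j hj h1 x h2 h3 h4 => by_contra fun h5 => (hx j ⟨hj, h5⟩).not_gt
      (Submodule.finrank_lt_finrank_of_lt (lt_of_le_of_ne (fun y hy => ⟨hy.1, h1 y hy.1 hy.2⟩)
        fun h6 => h3 (h6.ge ⟨h2, h4⟩).2))
  have g2 : ∀ j ∈ M, (∀ x ∈ X, x ∈ X' → j x ∈ X') → ∀ x ∈ X', x ∉ X → j x ∈ X' →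
      Tn (k⁻¹⁻¹ * j * k⁻¹) := fun j hj h1 x h2 h3 h4 => by_contra fun h5 => by
    refine (hx _ ⟨mul_mem (mul_mem (inv_mem (inv_mem hk)) hj) (inv_mem hk), h5⟩).not_gt ?_
    rw [← finrank_map _ k]
    refine Submodule.finrank_lt_finrank_of_lt (lt_of_le_of_ne ?_ fun h6 => h3 ?_)
    · rintro _ ⟨y, hy, rfl⟩
      exact ⟨hy.2, by simpa [mul_app, X'] using h1 y hy.1 hy.2⟩
    · simpa using (mem_map_iff.1 (h6.ge (Submodule.mem_inf.2 ⟨h2, by simpa [mul_app, X'] using h4⟩ :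
        k x ∈ _))).1
  obtain ⟨T, hT, h0⟩ := h.exists_T w 1
  let N : End F (W →ₗ[F] U) := (pt U f).flip w ∘ₗ LinearMap.applyₗ w
  have h1 : ∀ v, T v = v + N v := fun v => by simp [N, h0]
  have h2 : ∀ v, N v ∈ X := fun v => ⟨v w, rfl⟩
  have h3 : ∀ x ∈ X, ∀ y, f y w = 0 → x y = 0 := by rintro _ ⟨a, rfl⟩ y h3; simp [h3]
  have h4 : ∀ x ∈ X, N x = 0 := fun x hx => by simp [N, h3 x hx w (h.ff w)]
  have f1 : ∀ x ∈ X', N x ∈ X' → x ∈ X := fun x h5 h6 => by_contra fun h7 => hk' (tn_inv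
    (h.rk hn hm hq hM (inv_mem hk) hw hT h0 (g2 _ hT (fun y h8 h9 => by rwa [h1, h4 y h8, add_zero])
      x h5 h7 (by rw [h1]; exact add_mem h5 h6))))
  let N' : End F (W →ₗ[F] U) := k⁻¹.toLinearMap ∘ₗ N ∘ₗ k.toLinearMap
  have h5 : ∀ v, (k⁻¹ * T * k) v = v + N' v := fun v => by simp [N', mul_app, h1]
  have h6 : ∀ v, N' v ∈ X' := fun v => by simpa [N', X'] using h2 _
  have h7 : ∀ x ∈ X', N' x = 0 := fun x hx => by simp [N', h4 (k x) hx]
  have hT' := mul_mem (mul_mem (inv_mem hk) hT) hk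
  have f2 : ∀ x ∈ X, N' x ∈ X → x ∈ X' := fun x h8 h9 => by_contra fun h10 => hk'
    (h.rk hn hm hq hM hk hw hT h0 (g1 _ hT' (fun y h11 h12 => by rwa [h5, h7 y h12, add_zero])
      x h8 h10 (by rw [h5]; exact add_mem h8 h9)))
  have h8 : ∀ a ∈ X'.map N, N' a ∈ X → a = 0 := by
    rintro _ ⟨x, hx, rfl⟩ h8
    exact h4 x (f1 x hx (f2 _ (h2 x) h8))
  have ei : ∀ b y, b ≠ 0 → pt U f b y ∈ X ⊔ X' → ∀ a, pt U f a y ∈ X := fun b y hb h9 a => by
    obtain ⟨x, h9, x', h10, h11⟩ := Submodule.mem_sup.1 h9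
    by_cases h12 : x' ∈ X
    · obtain ⟨c, h13⟩ := add_mem h9 h12
      obtain ⟨χ, hχ⟩ := exists_dual_one (F := F) hb
      rw [show y = χ c • w from h.hW.form.separatingRight h.hW.sep (y := _ - _) (fun z => by
        simpa [hχ, sub_eq_zero, mul_comm] using
          congrArg χ (LinearMap.congr_fun (h13.trans h11) z).symm) |> sub_eq_zero.1]
      exact ⟨χ c • a, by simp⟩
    replace h11 := eq_sub_of_add_eq' h11
    obtain ⟨z, h13, h14, h15⟩ := h.exists_perp2 hn w y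
    obtain ⟨t, h16, h17⟩ := h.exists_T z 1
    have h18 : ∀ x ∈ X, t x = x := fun x hx => by simp [h17, h3 x hx z h14]
    exact absurd (tn_inv (h.rk hn hm hq hM (inv_mem hk) h13 h16 h17 (g2 _ h16
      (fun y h19 h20 => by rwa [h18 y h19]) x' h10 h12 (by
        rwa [h11, map_sub, h18 x h9, h17, pt_apply, h15, zero_smul, map_zero, LinearMap.zero_apply, smul_zero,
          add_zero, ← h11])))) hk'
  obtain ⟨z, h9, a, h10, h11, h12, h13⟩ := exists_neg h.two h1 h5 (fun v => h7 _ (h6 v)) (A := X'.map N)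
    (fun h9 => by
      obtain ⟨b, hb⟩ : ∃ b, k⁻¹ (pt U f b w) ∉ X := by
        by_contra! h10
        exact hk' (tn_inv (h.tn_st hn hm hq hM (inv_mem hk) hw ⟨w, fun a => (h10 a).imp fun _ h => h.symm⟩))
      have h10 : k⁻¹ (pt U f b w) ∈ X' := by simp [X', X]
      exact hb (f1 _ h10 ((h9.le ⟨_, h10, rfl⟩ : N _ = 0) ▸ zero_mem _)))
    (by rintro _ ⟨x, -, rfl⟩; exact h4 _ (h2 x)) (fun a _ => ⟨_, h6 a, rfl⟩)
    fun a ha h9 => h8 a ha (f1 _ (h6 a) (h9 ▸ zero_mem _))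
  let S : Subgroup ((W →ₗ[F] U) ≃ₗ[F] (W →ₗ[F] U)) :=
    { carrier := {z | z ∈ M ∧ (∀ v, z v - v ∈ X ⊔ X') ∧ ∀ x ∈ X, x ∈ X' → z x = x}
      one_mem' := ⟨one_mem _, by simp, by simp⟩
      mul_mem' := fun {a b} ha hb => ⟨mul_mem ha.1 hb.1, fun v => by
        simpa using add_mem (ha.2.1 (b v)) (hb.2.1 v), fun x h1 h2 => by
          rw [mul_app, hb.2.2 x h1 h2, ha.2.2 x h1 h2]⟩
      inv_mem' := fun {a} ha => ⟨inv_mem ha.1, fun v => by simpa using neg_mem (ha.2.1 (a⁻¹ v)),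
        fun x h1 h2 => inv_eq_of (ha.2.2 x h1 h2)⟩ }
  replace h9 : z ∈ S := (Subgroup.closure_le S).2 (by
    rintro _ (rfl | rfl)
    · exact ⟨hT, fun v => by rw [h1, add_sub_cancel_left]; exact Submodule.mem_sup_left (h2 v),
        fun x hx _ => by rw [h1, h4 x hx, add_zero]⟩
    · exact ⟨hT', fun v => by rw [h5, add_sub_cancel_left]; exact Submodule.mem_sup_right (h6 v),
        fun x _ hx => by rw [h5, h7 x hx, add_zero]⟩) h9
  have h14 : a ∈ X := by obtain ⟨x, -, rfl⟩ := h10; exact h2 x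
  have h15 : Tn z := g1 z h9.1 (fun x h15 h16 => by rwa [h9.2.2 x h15 h16]) a h14
    (fun h15 => h11 (h8 a h10 (by rw [h7 a h15]; exact zero_mem _))) (h12 ▸ neg_mem h14)
  obtain ⟨a₀, ha₀⟩ := exists_ne (0 : U)
  have h16 : ∀ a, z⁻¹ (pt U f a w) ∈ X := fun a => by
    obtain ⟨s, ψ, h16⟩ := tn_form (tn_inv (k := z⁻¹) (by rwa [inv_inv]))
    obtain ⟨y', h17⟩ := pt_of_form h.hW h16 w
    rw [h17]
    exact ei _ _ (app_ne_zero s ha₀) (by
      simpa [h17] using add_mem ((inv_mem h9).2.1 (pt U f a₀ w)) (Submodule.mem_sup_left ⟨a₀, rfl⟩)) _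
  obtain ⟨s, ψ, h17⟩ := tn_form h15
  obtain ⟨z₀, z', h18, h19, h20⟩ := exists_hyp h.hW (F ∙ w) (by rw [finrank_span_singleton hw]; omega)
  replace h18 := h18 w (Submodule.mem_span_singleton_self w)
  replace h19 := h19 w (Submodule.mem_span_singleton_self w)
  obtain ⟨z₁, h21⟩ := pt_of_form h.hW h17 z'
  have h22 : ∀ b, f z₀ z₁ • s b = b := fun b => by
    have h22 : z (pt U f b z') w = 0 := h.tg.gs _ fun a => by
      obtain ⟨c, h22⟩ := h16 a
      rw [← h.Bp, ← app_inv z (pt U f a w), (h.le h9.1).1, ← h22]; simp [h.Bp, h19]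
    obtain ⟨x, h23, x', h24, h25⟩ := Submodule.mem_sup.1 (h9.2.1 (pt U f b z'))
    have h26 := f1 x' h24 (by rw [eq_sub_of_add_eq' h25, map_sub, h4 x h23]; simp [N, h19, h22])
    simpa [h25, h21, sub_eq_zero, h20] using h3 _ (add_mem h23 h26) z₀ (h.hW.refl h18)
  have h23 : f z₀ z₁ ≠ 0 := fun h23 => by simpa [h23, ha₀] using (h22 a₀).symm
  have h24 := pt_ind h.hW (S := X.comap (z.toLinearMap - 1)) (fun b y => by
    obtain ⟨y', h24⟩ := pt_of_form h.hW h17 y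
    have h25 : ∀ b, z (pt U f b y) - pt U f b y = pt U f b ((f z₀ z₁)⁻¹ • y' - y) := fun b => by
      rw [h24, (eq_inv_smul_iff₀ h23).2 (h22 b)]; simp
    exact (h25 b).symm.subst (motive := (· ∈ X)) (ei _ _ ha₀ (h25 a₀ ▸ h9.2.1 _) b)) (N' a)
  refine h11 (h8 a h10 ((X.smul_mem_iff (neg_ne_zero.2 h.two)).1 ?_))
  rw [show (-2 : F) • N' a = z (N' a) - N' a by rw [h13]; module]; exact h24

end TS

open Cfsg.Geo in
/-- `O ⊗ Sp` -/
theorem osp_max [Fintype F] (h2 : (2 : F) ≠ 0) {m a b : ℕ} (ha : 3 ≤ a) (hb : 4 ≤ b)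
    (hq : ¬ (Fintype.card F = 3 ∧ a = 3)) (e : Fin m ⊕ Fin m ≃ Fin a × Fin b) (P : GL (Fin m ⊕ Fin m) F)
    {f₁ : (Fin a → F) → (Fin a → F) → F} {f₂ : (Fin b → F) → (Fin b → F) → F} (h₁ : IsSymmetricForm f₁)
    (h₂ : IsSymplecticForm f₂) (hT : IsTensorFormStructure id (sympForm m F) f₁ f₂ e P) :
    IsMaximalIn (spGL m F) (tensorProductSubgroup a b e P ⊓ spGL m F) := by
  obtain ⟨c, hc, hT⟩ := hT
  have s₁ := sep_of h₁.bilinear h₁.nondegenerate
  have s₂ := sep_of h₂.bilinear h₂.nondegenerate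
  obtain ⟨θ, hθ⟩ := exists_theta s₂
  have h1 := tensor_form h₁.bilinear h₂.bilinear hT hθ
  have hU := clSym (g := c • bilinOf h₁.bilinear) h2 (fun x y => by simp [h₁.symm x y])
    fun x hx => s₁ x fun y => by simpa [hc] using hx y
  have hW := (clAlt (B := bilinOf h₂.bilinear) h₂.alternating s₂).pullback θ
  have hV := (clSp m F).pullback (tenE e P)
  have Bp : ∀ x w v, pull (spBilin (Fin m) F) (tenE e P).toLinearMap (pt _ (pull (bilinOf h₂.bilinear)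
      θ.toLinearMap) x w) v = (c • bilinOf h₁.bilinear) x (v w) := fun x w v => by
    simpa [spBilin_eq_sympForm] using (h1 x w v).2
  have : Nontrivial (Fin a → F) := Module.nontrivial_of_finrank_pos (R := F) (by simp; omega)
  have : Nontrivial (Fin b → F) := Module.nontrivial_of_finrank_pos (R := F) (by simp; omega)
  refine ten_max_of (fun g => (mem_spGL_iff g).trans (mem_om_cjE _ _ _)) ⟨?_, fun M h3 h4 h5 k hk =>
    TS.tn_mem ⟨hU, hW, hV, h2, Bp, h3.trans hV.om_le_isom,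
      fun s hs => h4 _ ((mem_om_alt hV).2 (lf_iso hW Bp hs.1)) ⟨s, 1, fun β z => by ext; simp⟩,
      fun t ht => h4 _ ((mem_om_alt hV).2 (rt_iso hW Bp ht)) ⟨1, t⁻¹.dualMap, fun β z => by ext; simp⟩⟩
      (by simpa) (by simpa) ?_ h5 hk⟩
  · generalize pull (bilinOf h₂.bilinear) θ.toLinearMap = f at hW Bp
    obtain ⟨w, hw⟩ := exists_ne (0 : Fin b → F)
    obtain ⟨x, hx⟩ := hW.form.exists_right_eq_one hW.sep hw
    obtain ⟨c, h3, h0⟩ := (Submodule.ne_bot_iff _).1 (LinearMap.ker_ne_bot_of_finrank_lt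
      (f := (f.flip w).prod (f.flip x)) (by simp; omega))
    simp only [LinearMap.mem_ker, LinearMap.prod_apply, Function.prod, Prod.mk_eq_zero,
      LinearMap.flip_apply] at h3
    obtain ⟨c', h6, h7⟩ := exists_perp_one hW (w := w) (y := c) fun h6 => by
      obtain ⟨d, rfl⟩ := Submodule.mem_span_singleton.1 h6
      simp [hx] at h3; simp [h3] at h0
    obtain ⟨u, hu⟩ := exists_ne (0 : Fin a → F)
    obtain ⟨b', hb'⟩ := hU.exists_ne hu
    obtain ⟨v, -, hv⟩ := exists_not_mem_of_lt (U := ⊤) (W := F ∙ u) (by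
      rw [finrank_span_singleton hu, finrank_top]; simp; omega)
    exact not_tn_eich hV Bp rfl h3.2 h3.1 (hW.refl h3.2) (hW.refl h6) (by simp [hW.flip_one hx])
      (by simp [hW.flip_one h7]) (hU.refl_ne hb') hv
  · by_cases h : a = 3
    · exact Or.inr (exists_sq_ne h2 fun h' => hq ⟨h', h⟩)
    · exact Or.inl (by simp; omega)

open Cfsg.Geo in
/-- `Sp ⊗ O` in `Sp`, all cases but `Sp₂ ⊗ O₃`, `Sp₂ ⊗ O₄` -/
theorem spo_max [Fintype F] (h2 : (2 : F) ≠ 0) {m a b : ℕ} (hb : 3 ≤ b) (hm : 5 ≤ m)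
    (hq : ¬ (Fintype.card F = 3 ∧ b = 3)) (e : Fin m ⊕ Fin m ≃ Fin a × Fin b) (P : GL (Fin m ⊕ Fin m) F)
    {f₁ : (Fin a → F) → (Fin a → F) → F} {f₂ : (Fin b → F) → (Fin b → F) → F} (h₁ : IsSymplecticForm f₁)
    (h₂ : IsSymmetricForm f₂) (hT : IsTensorFormStructure id (sympForm m F) f₁ f₂ e P) :
    IsMaximalIn (spGL m F) (tensorProductSubgroup a b e P ⊓ spGL m F) := by
  have a₁ : (bilinOf h₁.bilinear).IsAlt := h₁.alternating
  obtain ⟨a', ha'⟩ := even_finrank_of_alt (a₁.isRefl.nondegenerate_iff_separatingLeft.mpr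
    (sep_of h₁.bilinear h₁.nondegenerate)) a₁
  have h3 := Fintype.card_congr e
  simp only [finrank_fintype_fun_eq_card, Fintype.card_fin, Fintype.card_prod, Fintype.card_sum] at ha' h3
  by_cases h4 : a = 2
  · subst h4
    exact sp2o_max h2 (by omega) e P h₁ h₂ hT
  rw [← ten_swap]
  exact osp_max h2 hb (by
    by_contra h5
    rw [show a = 0 by omega] at h3; omega) hq _ P h₂ h₁ (tfs_swap hT)

end Cfsg.Agent.H19.TA
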