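import Cfsg.Agent.H19.TC2

/-! Tensor products of unitary spaces: generalities, and the coefficient lemma. -/

set_option autoImplicit false
set_option maxHeartbeats 400000

namespace Cfsg.Agent.H19.TA

open Module H10 H11 H26.MX

variable {F : Type*} [Field F] {σ : F →+* F} {U W : Type*} [AddCommGroup U] [Module F U] [AddCommGroup W]
  [Module F W] {g : U →ₛₗ[σ] U →ₗ[F] F} {f : W →ₛₗ[σ] W →ₗ[F] F} {p : U → F} {q : W → F}

/-- hermitian spaces -/
abbrev Hm (σ : F →+* F) (f : W →ₛₗ[σ] W →ₗ[F] F) (q : W → F) : Prop := Cl 1 1 (trHom σ) f q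

namespace Hm
variable (h : Hm σ f q)
include h

theorem hs (x y : W) : σ (f x y) = f y x := by simp [h.symm x y]

theorem qq (x : W) : q x = f x x := by simp [h.form.diag x]

theorem ne : ∃ l, σ l ≠ l := by
  rcases h.kind with ⟨-, -, h1, -⟩ | ⟨-, -, h1, -⟩ | ⟨h1, -⟩
  · simp at h1
  · exact absurd (by linear_combination h1 : (0 : F) = 1) zero_ne_one
  · by_contra! h2; exact h1 (RingHom.ext h2)

theorem nq : ∃ d, d ≠ 0 ∧ σ d = -d := h.ne.elim fun l hl =>
  ⟨l - σ l, sub_ne_zero.2 hl.symm, by simp [h.invol]⟩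

theorem nq' : NQ (trHom σ) := h.nq.imp fun d hd => ⟨hd.1, by simp [hd.2]⟩

theorem isHerm : IsHerm f := ⟨fun h1 => h.ne.elim fun l hl => hl (by simp [h1]), h.invol, h.hs⟩

theorem tv {u : W} (hu : q u = 0) (d : F) (x : W) : h.eich u 0 d x = x - (d * f u x) • u := by
  simp [h.eich_apply hu (map_zero _)]

variable [FiniteDimensional F W]

theorem eq_top {a : W} (ha : a ≠ 0) (hp : q a = 0) {S : Submodule F W} (h1 : a ∈ S)
    (h2 : ∀ b, q b = 0 → f a b ≠ 0 → b ∈ S) (x : W) : x ∈ S := by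
  obtain ⟨b, h3, h4⟩ := h.form.exists_partner h.sep hp ha
  have h5 := h2 b h3 (by simp [h4])
  have h6 : f a (x - f a x • b) = 0 := by simp [h4]
  obtain ⟨c, hc⟩ := h.exists_tau (x - f a x • b)
  have h7 := h2 _ (((h.eich_mem_isom hp h6 hc).2 b).trans h3) (by
    rw [h.eich_apply hp h6, map_sub, map_sub, map_add, map_smul, map_smul, map_smul, h6]
    simp [h4, h.diag0 hp])
  rw [h.eich_apply hp h6, Submodule.sub_mem_iff_left _ (S.smul_mem _ h1), Submodule.sub_mem_iff_right _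
    (add_mem h5 (S.smul_mem _ h1)), Submodule.smul_mem_iff _ (by simp [h4])] at h7
  simpa using add_mem h7 (S.smul_mem (f a x) h5)

theorem perp_one {w y : W} (hy : y ∉ F ∙ w) : ∃ z, f w z = 0 ∧ f y z = 1 := by
  obtain ⟨z, h1, h2⟩ := h.form.exists_perp_not h.sep hy
  exact ⟨z, h1 w (Submodule.mem_span_singleton_self w), h2⟩

variable [Finite F] (hn : 4 ≤ finrank F W)
include hn

theorem sing2 (w y : W) : ∃ z, z ≠ 0 ∧ f w z = 0 ∧ f y z = 0 ∧ q z = 0 := by
  have h1 := H10.finrank_span_pair_le (F := F) w y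
  have h2 := h.form.finrank_perp h.sep (Submodule.span F {w, y})
  obtain ⟨z, h3, h4, h5⟩ := h.exists_sing (W := perp f (Submodule.span F {w, y})) (.inr ⟨by omega, h.nq'⟩)
  rw [mem_perp_span] at h3
  exact ⟨z, h4, h3 w (by simp), h3 y (by simp), h5⟩

theorem sing3 {w x : W} (h1 : f w x = 1) : ∃ z, z ∉ F ∙ w ∧ f w z = 0 ∧ f x z = 0 ∧ q z = 0 :=
  (h.sing2 hn w x).imp fun z hz => ⟨fun h2 => by
    obtain ⟨c, rfl⟩ := Submodule.mem_span_singleton.1 h2
    have := hz.2.2.1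
    simp [h.flip_one h1] at this
    simp [this] at hz, hz.2⟩

theorem om_apply {w w' : W} (h0 : w ≠ 0) (h0' : w' ≠ 0) (hw : q w = 0) (hw' : q w' = 0) :
    ∃ t ∈ h.Om, ∃ c : F, c ≠ 0 ∧ t w' = c • w := by
  have h1 : ∀ w w' u, q w = 0 → q w' = 0 → q u = 0 → f u w ≠ 0 → f u w' ≠ 0 →
      ∃ t ∈ h.Om, ∃ c : F, c ≠ 0 ∧ t w' = c • w := fun w w' u hw hw' hu h1 h2 => by
    obtain ⟨x, c, h3, h4, h5⟩ := h.exists_eich_apply (v := w') (v' := (f u w' / f u w) • w) hu
      (by rw [hw', h.sing_smul hw]) (by simp [h1]) h2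
    exact ⟨_, h.eich_mem_om hu h3 h4, _, div_ne_zero h2 h1, h5⟩
  have h2 : ∀ w w', w ≠ 0 → w' ≠ 0 → q w = 0 → q w' = 0 → f w w' = 0 →
      ∃ t ∈ h.Om, ∃ c : F, c ≠ 0 ∧ t w' = c • w := fun w w' h0 h0' hw hw' h2 => by
    obtain ⟨u, h3, h4⟩ := h.form.exists_partner h.sep hw h0
    obtain ⟨u', h5, h6⟩ := h.form.exists_partner h.sep hw' h0'
    by_cases h7 : f w' u = 0
    swap
    · exact h1 w w' u hw hw' h3 (by simp [h.flip_one h4]) (h.refl_ne h7)
    by_cases h8 : f w u' = 0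
    swap
    · exact h1 w w' u' hw hw' h5 (h.refl_ne h8) (by simp [h.flip_one h6])
    refine h1 w w' (u + u' + (-f u u') • w) hw hw' ?_ ?_ ?_
    · simp [-neg_smul, h.Q_add, h.Q_smul, h3, h5, hw, h.flip_one h4, h.refl h8]; ring
    · simp [h.flip_one h4, h.refl h8, h.diag0 hw]
    · simp [h.flip_one h6, h.refl h7, h2]
  obtain ⟨z, h3, h4, h5, h6⟩ := h.sing2 hn w w'
  obtain ⟨t, h7, c, hc, h8⟩ := h2 w z h0 h3 hw h6 h4
  obtain ⟨t', h9, c', hc', h10⟩ := h2 z w' h3 h0' h6 hw' (h.refl h5)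
  exact ⟨t * t', mul_mem h7 h9, c' * c, mul_ne_zero hc' hc, by simp [h8, h10, mul_smul]⟩

theorem perp_le {w : W} (h0 : w ≠ 0) (hw : q w = 0)
    {S : Submodule F W} (hS : ∀ t ∈ h.Om, t w = w → ∀ s ∈ S, t s ∈ S) {s : W} (hs : s ∈ S)
    (h1 : f w s = 0) (h2 : s ∉ F ∙ w) {y : W} (hy : f w y = 0) : y ∈ S := by
  obtain ⟨x, hx, h3⟩ := h.form.exists_partner h.sep hw h0
  have h4 := H10.finrank_span_pair_le (F := F) w x
  have h5 := h.form.finrank_perp h.sep (Submodule.span F {w, x})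
  have h6 : ∀ y, f w y = 0 → y - f x y • w ∈ perp f (Submodule.span F {w, x}) := fun y hy => by
    simp [mem_perp_span, hy, h.diag0 hw, h.flip_one h3]
  have h7 : ∀ y, f w y = 0 → (∀ u ∈ perp f (Submodule.span F {w, x}), f u y = 0) → y ∈ F ∙ w :=
    fun y hy h7 => by
    obtain ⟨a, b, rfl⟩ := Submodule.mem_span_pair.1 (h.form.mem_of_perp h.sep
      (W := Submodule.span F {w, x}) (x := y) fun u hu => h.refl (h7 u hu))
    simp [h.diag0 hw, h3] at hy
    simp [hy, Submodule.smul_mem, Submodule.mem_span_singleton_self]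
  have h8 : perp f (Submodule.span F {w, x}) ≤ S := h.irr (fun u hu h8 => by
      obtain ⟨c, rfl⟩ := Submodule.mem_span_singleton.1 (h7 u (hu w (Submodule.subset_span (by simp)))
        fun z hz => h.refl (h8 z hz))
      have := hu x (Submodule.subset_span (by simp))
      simp [h.flip_one h3] at this
      simp [this]) (Or.inr ⟨by omega, h.nq'⟩)
    (fun u hu z hz c h8 h9 h10 => hS _ (h.eich_mem_om h8 h9 h10) (h.eich_fix c
      (h.refl (hu w (Submodule.subset_span (by simp)))) (h.refl (hz w (Submodule.subset_span (by simp))))))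
    hs (by by_contra! h8; exact h2 (h7 s h1 h8))
  obtain ⟨c, h9, h10, h11, -⟩ := h.sing3 hn h3
  obtain ⟨c', h12, h13⟩ := h.perp_one h9
  obtain ⟨d, hd⟩ := h.exists_tau c
  have h14 := h8 (h6 c' h12)
  have h15 := sub_mem (hS _ (h.eich_mem_om hw h10 hd) (h.eich_fix _ (h.diag0 hw) (h.refl h10)) _ h14) h14
  rw [h.eich_of_perp hw h10 _ (by simp [h12, h.diag0 hw]), add_sub_cancel_left,
    Submodule.smul_mem_iff _ (by simp [h13, h.refl h10])] at h15
  simpa using add_mem (h8 (h6 y hy)) (S.smul_mem (f x y) h15)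

theorem mem_of_sing {w : W} (h0 : w ≠ 0) (hw : q w = 0) {S : Submodule F W}
    (hS : ∀ y, q y = 0 → f w y = 0 → y ∉ F ∙ w → y ∈ S) {y : W} (hy : f w y = 0) : y ∈ S := by
  obtain ⟨x, h1⟩ := h.form.exists_right_eq_one h.sep h0
  obtain ⟨s, h3, h2, -, h4⟩ := h.sing3 hn h1
  refine (Submodule.span_le.2 fun y hy => hS y hy.1 hy.2.1 hy.2.2 :
    Submodule.span F {y | q y = 0 ∧ f w y = 0 ∧ y ∉ F ∙ w} ≤ S) (h.perp_le hn h0 hw (fun t ht h5 s hs => ?_)
      (Submodule.subset_span (And.intro h4 (And.intro h2 h3))) h2 h3 hy)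
  refine (Submodule.span_le (p := Submodule.comap t.toLinearMap (Submodule.span F
    {y | q y = 0 ∧ f w y = 0 ∧ y ∉ F ∙ w}))).2 (fun y hy => Submodule.subset_span
    (And.intro (((h.om_le_isom ht).2 y).trans hy.1) (And.intro ?_ fun h6 => hy.2.2 ?_))) hs
  · conv_lhs => rw [← h5]
    exact ((h.om_le_isom ht).1 _ _).trans hy.2.1
  · obtain ⟨c, hc⟩ := Submodule.mem_span_singleton.1 h6
    exact Submodule.mem_span_singleton.2 ⟨c, t.injective (by rw [map_smul, h5]; exact hc)⟩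

end Hm

theorem exists_rank_one_herm [FiniteDimensional F U] [Finite F] (h : Hm σ g p) {E : Submodule F (End F U)}
    (hcj : ∀ s ∈ h.Om, ∀ m ∈ E, ∀ m' : End F U, (∀ x, s (m' x) = m (s x)) → m' ∈ E)
    (hn : 2 ≤ finrank F U) (hq : 3 ≤ finrank F U ∨ ∃ t : F, σ t = t ∧ t ≠ 0 ∧ t ≠ 1)
    {m : End F U} (hm : m ∈ E) (h0 : ∀ c : F, m ≠ c • LinearMap.id) :
    ∃ a, a ≠ 0 ∧ p a = 0 ∧ (g a).smulRight a ∈ E := by
  obtain ⟨δ, hδ, hδ'⟩ := h.nq
  obtain ⟨a, hp, h1⟩ : ∃ a, p a = 0 ∧ m a ∉ F ∙ a := by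
    by_contra! h1
    obtain ⟨a, -, ha, hp⟩ := h.exists_sing (W := ⊤) (.inr ⟨by simpa, h.nq'⟩)
    obtain ⟨l, hl⟩ := Submodule.mem_span_singleton.1 (h1 a hp)
    refine h0 l (sub_eq_zero.1 (LinearMap.ext (h.eq_top ha hp
      (S := LinearMap.ker (m - l • LinearMap.id)) (by simp [hl]) fun b hb h2 => ?_)))
    obtain ⟨μ, hμ⟩ := Submodule.mem_span_singleton.1 (h1 b hb)
    obtain ⟨ν, hν⟩ := Submodule.mem_span_singleton.1 (h1 (a + (δ / g a b) • b) (by
      simp [h.Q_add, h.Q_smul, hp, hb, h2, hδ']))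
    rw [map_add, map_smul, ← hl, ← hμ] at hν
    have h3 := congrArg (g a) hν
    have h4 := congrArg (g b) hν
    simp [h.diag0, hp, hb, h2, hδ, h.refl_ne h2] at h3 h4
    simp [← hμ, ← h4, show ν = μ from mul_left_cancel₀ hδ (by field_simp at h3; linear_combination δ * h3)]
  have ha : a ≠ 0 := by rintro rfl; simp at h1
  refine ⟨a, ha, hp, by_contra fun hE => ?_⟩
  have haa := h.diag0 hp
  have h2 : ∀ c : F, c • (g a).smulRight a ∈ E → c = 0 := fun c hc => by_contra fun h2 =>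
    hE ((E.smul_mem_iff h2).1 hc)
  have h3 : ∀ d, σ d = -d → d • ((g a ∘ₗ m).smulRight a - (g a).smulRight (m a)) -
      (d * d * g a (m a)) • (g a).smulRight a ∈ E := fun d hd => by
    convert sub_mem (hcj _ (h.eich_mem_om (w := 0) (c := d) hp (map_zero _) (by simp [hd, h.Q_zero])) m hm
      ((h.eich a 0 (-d)).toLinearMap ∘ₗ m ∘ₗ (h.eich a 0 d).toLinearMap) fun x => by
        simp [h.tv hp, haa]) hm using 1
    ext x
    simp [h.tv hp]; module
  have h4 : ∀ u u' z d, g a z = 0 → trHom σ d = p z → (g a).smulRight u - (g u').smulRight a ∈ E →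
      (g a).smulRight (h.eich a z d u - u) - (g (h.eich a z d u' - u')).smulRight a ∈ E :=
    fun u u' z d h4 h5 h6 => by
    have h7 := h.eich_mem_om hp h4 h5
    have h8 := h.eich_fix d haa (h.refl h4)
    generalize h.eich a z d = t at h7 h8
    convert sub_mem (hcj _ (inv_mem h7) _ h6 ((g a).smulRight (t u) - (g (t u')).smulRight a) fun x => by
      have h9 : ∀ y, g y (t.symm x) = g (t y) x := fun y => by
        rw [← (h.om_le_isom h7).1, t.apply_symm_apply]
      simp [show t.symm a = a from inv_eq_of h8, h9, h8]) h6 using 1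
    ext; simp; module
  have h5 : ∀ u u', g a u = 0 → g a u' = 0 → (g a).smulRight u - (g u').smulRight a ∈ E → u ∈ F ∙ a :=
    fun u u' h5 h6 h7 => by
    have h8 : ∀ z, g a z = 0 → g z u - σ (g z u') = 0 := fun z hz => h2 _ (by
      obtain ⟨d, hd⟩ := h.exists_tau z
      convert h4 u u' z d hz hd h7 using 1
      ext; simp [h.eich_of_perp hp hz, h5, h6]; module)
    obtain ⟨l, hl⟩ := h.ne
    refine h.form.mem_of_perp h.sep fun z hz => h.refl ?_
    replace hz := hz a (Submodule.mem_span_singleton_self a)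
    have h9 := h8 (l • z) (by simp [hz])
    simp only [LinearMap.map_smulₛₗ, LinearMap.smul_apply, smul_eq_mul, map_mul, h.invol] at h9
    exact (mul_eq_zero.1 (by linear_combination h9 - l * h8 z hz : (σ l - l) * g z u = 0)).resolve_left
      (sub_ne_zero.2 hl)
  obtain ⟨u', h6⟩ := h.exists_B (g a ∘ₗ m - (δ * g a (m a)) • g a)
  have h7 : (g a).smulRight (m a) - (g u').smulRight a ∈ E := by
    rw [← E.smul_mem_iff (neg_ne_zero.2 hδ)]
    convert h3 δ hδ' using 1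
    ext; simp [h6]; module
  have h8 : g a (m a) ≠ 0 := fun h8 => h1 (h5 _ u' h8 (h.refl (by simp [h6, h8, haa])) h7)
  rcases hq with hq | ⟨t, h9, h10, h11⟩
  · have h9 := h.form.finrank_perp h.sep (F ∙ a)
    obtain ⟨z, h10, h11⟩ := exists_not_mem_of_lt (W := F ∙ a) (U := perp g (F ∙ a)) (by
      rw [finrank_span_singleton ha] at *; omega)
    replace h10 := h10 a (Submodule.mem_span_singleton_self a)
    obtain ⟨d, hd⟩ := h.exists_tau z
    have h12 := h5 _ _ (by simp [h.eich_apply hp h10, haa, h10]) (by simp [h.eich_apply hp h10, haa, h10])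
      (h4 _ _ z d h10 hd h7)
    rw [h.eich_apply hp h10, show ∀ x y z w : U, x + y - z - w - x = y - w - z by intros; abel,
      Submodule.sub_mem_iff_right _ (sub_mem (Submodule.smul_mem _ _ (Submodule.mem_span_singleton_self a))
      (Submodule.smul_mem _ _ (Submodule.mem_span_singleton_self a))), Submodule.smul_mem_iff _ (by simpa)] at h12
    exact h11 h12
  · refine mul_ne_zero (mul_ne_zero (mul_ne_zero h10 (sub_ne_zero.2 h11)) (mul_ne_zero hδ hδ)) h8 (h2 _ ?_)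
    convert sub_mem (E.smul_mem t (h3 δ hδ')) (h3 (t * δ) (by simp [h9, hδ'])) using 1
    module

end Cfsg.Agent.H19.TA
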