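import Cfsg.Agent.H19.TU1

/-! Tensor products of unitary spaces: the unipotent radical of the stabiliser of `U ⊗ w`. -/

set_option autoImplicit false
set_option maxHeartbeats 400000

namespace Cfsg.Agent.H19.TA

open Module H10 H11 H26.MX

variable {F : Type*} [Field F] {σ : F →+* F} {U W : Type*} [AddCommGroup U] [Module F U] [AddCommGroup W]
  [Module F W] {g : U →ₛₗ[σ] U →ₗ[F] F} {f : W →ₛₗ[σ] W →ₗ[F] F} {p : U → F} {q : W → F}
  {B : (W →ₗ[F] U) →ₛₗ[σ] (W →ₗ[F] U) →ₗ[F] F} {Q : (W →ₗ[F] U) → F}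
  {M : Subgroup ((W →ₗ[F] U) ≃ₗ[F] (W →ₗ[F] U))}

/-- pure tensors -/
def pu (U : Type*) [AddCommGroup U] [Module F U] (f : W →ₛₗ[σ] W →ₗ[F] F) :
    W →ₛₗ[σ] U →ₗ[F] (W →ₗ[F] U) := LinearMap.smulRightₗ ∘ₛₗ f

@[simp] theorem pu_apply (f : W →ₛₗ[σ] W →ₗ[F] F) (a : U) (w y : W) : pu U f w a y = f w y • a := rfl

theorem lf_pu (s : U ≃ₗ[F] U) (a : U) (w : W) : lf W s (pu U f w a) = pu U f w (s a) := by
  ext; simp

theorem rt_pu {t : W ≃ₗ[F] W} (ht : ∀ x y, f (t x) (t y) = f x y) (a : U) (w : W) :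
    rt U t (pu U f w a) = pu U f (t w) a := by
  ext y; rw [rt_apply, pu_apply, pu_apply, ← ht, app_inv]

theorem eq_pu_of {v : W →ₗ[F] U} {w x : W} (hx : f w x = 1) (hv : ∀ z, f w z = 0 → v z = 0) :
    v = pu U f w (v x) := LinearMap.ext fun z => by
  simpa [sub_eq_zero] using hv (z - f w z • x) (by simp [hx])

theorem pu_ind [FiniteDimensional F U] [FiniteDimensional F W] (h : Hm σ f q)
    {S : Submodule F (W →ₗ[F] U)} (hS : ∀ a w, pu U f w a ∈ S) (v : W →ₗ[F] U) : v ∈ S := by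
  have := ext_sr (f := S.mkQ) (g := 0) fun β z => by
    obtain ⟨w, rfl⟩ := h.exists_B β
    exact (Submodule.Quotient.mk_eq_zero S).2 (hS z w)
  exact (Submodule.Quotient.mk_eq_zero S).1 (LinearMap.congr_fun this v)

theorem rt_eichu (h : Hm σ f q) {u w : W} {c : F} (hu : q u = 0) (huw : f u w = 0) (hc : trHom σ c = q w)
    (v : W →ₗ[F] U) : rt U (h.eich u w c) v =
      v + pu U f u (v w) - pu U f w (v u) - σ c • pu U f u (v u) := by
  ext x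
  rw [rt_apply, h.eich_inv hu huw, h.eich_apply hu (by simp [huw])]
  simp [← h.qq w, ← hc]; module

/-- the action on `(U ⊗ w)^⊥` of an element of the unipotent radical -/
def Pq (f : W →ₛₗ[σ] W →ₗ[F] F) (M : Subgroup ((W →ₗ[F] U) ≃ₗ[F] (W →ₗ[F] U))) (w : W)
    (ψ : (W →ₗ[F] U) →ₗ[F] U) : Prop :=
  (∀ a, ψ (pu U f w a) = 0) ∧ ∃ e ∈ M, ∀ v : W →ₗ[F] U, v w = 0 → e v = v + pu U f w (ψ v)

/-- these form a group -/
def R1 (M : Subgroup ((W →ₗ[F] U) ≃ₗ[F] (W →ₗ[F] U))) {w : W} (hw : f w w = 0) :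
    AddSubgroup ((W →ₗ[F] U) →ₗ[F] U) where
  carrier := {ψ | Pq f M w ψ}
  zero_mem' := ⟨fun _ => rfl, 1, one_mem _, fun v _ => by simp⟩
  add_mem' := by
    rintro ψ χ ⟨h1, e, h5, h6⟩ ⟨h3, e', h7, h8⟩
    exact ⟨fun a => by simp [h1, h3], e * e', mul_mem h5 h7, fun v hv => by
      rw [mul_app, h8 v hv, h6 _ (by simp [hv, hw])]; simp [h1]; abel⟩
  neg_mem' := by
    rintro ψ ⟨h1, e, h5, h6⟩
    exact ⟨fun a => by simp [h1], e⁻¹, inv_mem h5, fun v hv => inv_eq_of (by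
      rw [h6 _ (by simp [hv, hw])]; simp [h1])⟩

/-- the largest subspace in `R1` -/
def R2 (M : Subgroup ((W →ₗ[F] U) ≃ₗ[F] (W →ₗ[F] U))) {w : W} (hw : f w w = 0) :
    Submodule F ((W →ₗ[F] U) →ₗ[F] U) where
  carrier := {ψ | ∀ c : F, c • ψ ∈ R1 M hw}
  zero_mem' c := by simp
  add_mem' h1 h2 c := by rw [smul_add]; exact add_mem (h1 c) (h2 c)
  smul_mem' d ψ h1 c := by rw [smul_smul]; exact h1 _

theorem r2_pu {w : W} {hw : f w w = 0} {ψ : (W →ₗ[F] U) →ₗ[F] U} (h : ψ ∈ R2 M hw) (a : U) :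
    ψ (pu U f w a) = 0 := by simpa using (h 1).1 a

/-- the coefficient space -/
def E3 (f : W →ₛₗ[σ] W →ₗ[F] F) (M : Subgroup ((W →ₗ[F] U) ≃ₗ[F] (W →ₗ[F] U))) :
    Submodule F (End F U) where
  carrier := {m | ∀ w (hw : f w w = 0) y, f w y = 0 → m ∘ₗ LinearMap.applyₗ y ∈ R2 M hw}
  zero_mem' w hw y _ := by simp
  add_mem' ha hb w hw y hy := by rw [LinearMap.add_comp]; exact add_mem (ha w hw y hy) (hb w hw y hy)
  smul_mem' c m ha w hw y hy := by rw [LinearMap.smul_comp]; exact Submodule.smul_mem _ c (ha w hw y hy)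

/-- an overgroup of the product of two special unitary groups -/
structure TH (g : U →ₛₗ[σ] U →ₗ[F] F) (p : U → F) (f : W →ₛₗ[σ] W →ₗ[F] F) (q : W → F)
    (B : (W →ₗ[F] U) →ₛₗ[σ] (W →ₗ[F] U) →ₗ[F] F) (Q : (W →ₗ[F] U) → F)
    (M : Subgroup ((W →ₗ[F] U) ≃ₗ[F] (W →ₗ[F] U))) : Prop where
  hU : Hm σ g p
  hW : Hm σ f q
  hV : Hm σ B Q
  Bp : ∀ a w v, B (pu U f w a) v = g a (v w)
  le : M ≤ Isom B Q
  lm : ∀ s ∈ hU.Om, lf W s ∈ M
  rm : ∀ t ∈ hW.Om, rt U t ∈ M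

namespace TH
variable (h : TH g p f q B Q M)
include h

theorem gs {a : U} (ha : ∀ x, g x a = 0) : a = 0 := h.hU.form.separatingRight h.hU.sep ha

theorem Qp (a : U) {w : W} (hw : q w = 0) : Q (pu U f w a) = 0 := by
  simp [h.hV.qq, h.Bp, h.hW.diag0 hw]

theorem perp_map {k : (W →ₗ[F] U) ≃ₗ[F] (W →ₗ[F] U)} (hk : k ∈ M) {s : U ≃ₗ[F] U} {w w' : W}
    (h1 : ∀ a, k (pu U f w a) = pu U f w' (s a)) {v : W →ₗ[F] U} (hv : v w = 0) : k v w' = 0 :=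
  h.gs fun a => by rw [← app_inv s a, ← h.Bp, ← h1, (h.le hk).1, h.Bp, hv, map_zero]

theorem pq_conj {k : (W →ₗ[F] U) ≃ₗ[F] (W →ₗ[F] U)} (hk : k ∈ M) (s : U ≃ₗ[F] U) {w w' : W}
    (h1 : ∀ a, k (pu U f w a) = pu U f w' (s a)) {ψ ψ' : (W →ₗ[F] U) →ₗ[F] U} (hψ : Pq f M w' ψ)
    (h2 : ∀ v, s (ψ' v) = ψ (k v)) : Pq f M w ψ' := by
  obtain ⟨h0, e, h3, h4⟩ := hψ
  refine ⟨fun a => s.injective (by simp [h2, h1, h0]), k⁻¹ * e * k,
    mul_mem (mul_mem (inv_mem hk) h3) hk, fun v hv => inv_eq_of (y := e (k v)) ?_⟩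
  rw [h4 _ (h.perp_map hk h1 hv), map_add, h1, h2]

theorem r2_conj {k : (W →ₗ[F] U) ≃ₗ[F] (W →ₗ[F] U)} (hk : k ∈ M) (s : U ≃ₗ[F] U) {w w' : W}
    (hw : f w w = 0) {hw' : f w' w' = 0}
    (h1 : ∀ a, k (pu U f w a) = pu U f w' (s a)) {ψ ψ' : (W →ₗ[F] U) →ₗ[F] U} (hψ : ψ ∈ R2 M hw')
    (h2 : ∀ v, s (ψ' v) = ψ (k v)) : ψ' ∈ R2 M hw := fun c =>
  h.pq_conj hk s h1 (hψ c) fun v => by simp [h2]

theorem e3_conj {s : U ≃ₗ[F] U} (hs : lf W s ∈ M) {m m' : End F U} (hm : m ∈ E3 f M)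
    (h1 : ∀ x, s (m' x) = m (s x)) : m' ∈ E3 f M := fun w hw y hy =>
  h.r2_conj hs s hw (fun a => lf_pu s a w) (hm w hw y hy) fun v => h1 (v y)

theorem exists_T {y : W} (hy : q y = 0) {c : F} (hc : σ c = -c) :
    ∃ k ∈ M, ∀ v, k v = v + c • pu U f y (v y) := by
  have h1 : trHom σ c = q 0 := by simp [hc, h.hW.Q_zero]
  exact ⟨_, h.rm _ (h.hW.eich_mem_om hy (map_zero _) h1), fun v => by
    simp [rt_eichu h.hW hy (map_zero _) h1, hc]⟩

theorem one_mem_e3 : (1 : End F U) ∈ E3 f M := fun w hw y hy c => by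
  have h1 : f w (c • y) = 0 := by simp [hy]
  obtain ⟨d, hd⟩ := h.hW.exists_tau (c • y)
  exact ⟨fun a => by simp [hy], _, h.rm _ (h.hW.eich_mem_om ((h.hW.qq w).trans hw) h1 hd), fun v hv => by
    simp [rt_eichu h.hW ((h.hW.qq w).trans hw) h1 hd, hv]⟩

theorem r2_comp {w y : W} {hw : f w w = 0} (hy : f w y = 0) (hq : q y = 0) {ψ : (W →ₗ[F] U) →ₗ[F] U}
    (hψ : ψ ∈ R2 M hw) : (ψ ∘ₗ pu U f y) ∘ₗ LinearMap.applyₗ y ∈ R2 M hw := by
  obtain ⟨δ, hδ, hδ'⟩ := h.hW.nq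
  obtain ⟨k, h1, h2⟩ := h.exists_T hq hδ'
  rw [← Submodule.smul_mem_iff _ hδ]
  convert sub_mem (h.r2_conj h1 1 hw (fun a => by simp [h2, hy]) hψ (ψ' := ψ ∘ₗ k.toLinearMap)
    fun _ => rfl) hψ using 1
  ext v; simp [h2]

variable [FiniteDimensional F W]

theorem r2_of_r1 {m : End F U} {w y : W} {hw : f w w = 0} (h0 : w ≠ 0) (hy : y ∉ F ∙ w) (hy' : f w y = 0)
    (hq : q y = 0) (hm : ∀ c, σ c = -c → Pq f M w (m ∘ₗ LinearMap.applyₗ (c • y))) :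
    m ∘ₗ LinearMap.applyₗ y ∈ R2 M hw := by
  have h1 : ∀ w y (c : F), f w w = 0 → Pq f M w (m ∘ₗ LinearMap.applyₗ y) →
      Pq f M w (m ∘ₗ LinearMap.applyₗ (y + c • w)) := fun w y c hw ⟨h1, e, h2, h3⟩ =>
    ⟨fun a => by simpa [hw] using h1 a, e, h2, fun v hv => by simp [h3 v hv, hv]⟩
  have h2 : ∀ w y z, q y = 0 → f y z = 0 → f y w = 0 → Pq f M w (m ∘ₗ LinearMap.applyₗ y) →
      Pq f M (w + f z w • y) (m ∘ₗ LinearMap.applyₗ y) := fun w y z h2 h3 h4 h5 => by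
    obtain ⟨d, hd⟩ := h.hW.exists_tau z
    have h6 := h.hW.eich_mem_om h2 h3 hd
    refine h.pq_conj (h.rm _ (inv_mem h6)) 1 (fun a => ?_) h5 fun v => ?_
    · rw [rt_pu (h.hW.om_le_isom (inv_mem h6)).1, inv_eq_of (h.hW.eich_of_perp h2 h3 d h4)]; rfl
    · exact congrArg (fun x => m (v x)) (h.hW.eich_fix d (h.hW.diag0 h2) (h.hW.refl h3)).symm
  obtain ⟨x₂, h3, h4⟩ := h.hW.perp_one hy
  obtain ⟨x₁, h5, h6⟩ := h.hW.perp_one (w := y) (y := w) fun h5 => by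
    obtain ⟨c, rfl⟩ := Submodule.mem_span_singleton.1 h5
    simp [h4] at h3; simp [h3] at h0
  have hyy := h.hW.diag0 hq
  have hyw := h.hW.refl hy'
  have h7 : ∀ c μ : F, c ≠ 0 → μ ≠ 0 → σ c = -c → Pq f M w (m ∘ₗ LinearMap.applyₗ ((σ μ / μ * c) • y)) :=
    fun c μ hc hμ hc' => by
    have h7 := h2 w _ (x₁ + (σ (μ - 1) / c) • x₂) (by simp [h.hW.qq, hw, hyy, hyw, hy'])
      (by simp [h3, h4, h5, h6, hc']; field_simp; ring) (by simp [hw, hyw]) (h1 w _ (μ - 1) hw (hm c hc'))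
    have h8 := h1 _ _ ((1 - μ) / μ) (by simp [hw, hyy, hyw, hy']) h7
    rw [show f (x₁ + (σ (μ - 1) / c) • x₂) w = 1 by simp [h.hW.refl h3, h.hW.flip_one h6],
      show c • y + (μ - 1) • w + ((1 - μ) / μ) • (w + (1 : F) • (c • y + (μ - 1) • w)) = (c / μ) • y by
        match_scalars <;> field_simp <;> ring] at h8
    obtain ⟨h9, e, h10, h11⟩ := h2 _ _ (-x₁) (h.hW.sing_smul hq _) (by simp [h5]) (by simp [hyy, hyw]) h8
    rw [show w + (1 : F) • (c • y + (μ - 1) • w) + f (-x₁) (w + (1 : F) • (c • y + (μ - 1) • w)) •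
      (c / μ) • y = μ • w by
        simp only [map_neg, LinearMap.neg_apply, map_add, map_smul, h.hW.refl h5, h.hW.flip_one h6, smul_eq_mul]
        match_scalars <;> field_simp <;> ring] at h9 h11
    exact ⟨fun a => by simp [hy'], e, h10, fun v hv => by
      rw [h11 v (by simp [hv])]; simp [smul_smul]; ring_nf⟩
  obtain ⟨μ, h8, h9⟩ : ∃ μ : F, μ ≠ 0 ∧ σ (σ μ / μ) ≠ σ μ / μ := by
    obtain ⟨l, hl⟩ := h.hW.ne
    have h8 : ∀ μ, σ μ ≠ μ → σ μ ≠ -μ → μ ≠ 0 ∧ σ (σ μ / μ) ≠ σ μ / μ := fun μ h8 h9 => by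
      have h10 : μ ≠ 0 := by rintro rfl; simp at h8
      refine ⟨h10, fun h11 => ?_⟩
      rw [map_div₀, h.hW.invol, div_eq_div_iff (h.hW.sigma_ne h10) h10] at h11
      exact (mul_self_eq_mul_self_iff.1 h11.symm).elim h8 h9
    by_cases h9 : σ l = -l
    · exact ⟨1 + l, h8 _ (by simpa) fun h10 => hl (by
        rw [map_add, map_one, h9] at h10; linear_combination h9 - l * h10)⟩
    · exact ⟨l, h8 l hl h9⟩
  intro c
  have h11 : ∀ c, σ c = -c → m ∘ₗ LinearMap.applyₗ ((σ μ / μ * c) • y) ∈ R1 M hw := fun c hc => by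
    by_cases h : c = 0
    · simp [h]
    · exact h7 c μ h h8 hc
  generalize σ μ / μ = ζ at h9 h11
  replace h9 := sub_ne_zero.2 h9
  have h12 : σ (σ ζ - ζ) = -(σ ζ - ζ) := by simp [h.hW.invol]
  obtain ⟨r, h13, h14⟩ : ∃ r, σ r = -r ∧ r * (σ ζ - ζ) = -(c + σ c) := ⟨-(c + σ c) / (σ ζ - ζ), by
    rw [map_div₀, h12, div_neg, map_neg, map_add, h.hW.invol, add_comm], div_mul_cancel₀ _ h9⟩
  convert add_mem (hm (c - ζ * r) (by rw [map_sub, map_mul, h13]; linear_combination h14) : _ ∈ R1 M hw)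
    (h11 r h13) using 1
  ext v; simp only [LinearMap.smul_apply, LinearMap.comp_apply, LinearMap.applyₗ_apply_apply, map_smul,
    LinearMap.add_apply]
  match_scalars; ring

variable [Finite F] (hn : 4 ≤ finrank F W)
include hn

theorem mem_e3 {m : End F U} {w y : W} {hw : f w w = 0} (h0 : w ≠ 0) (hy : y ∉ F ∙ w) (hy' : f w y = 0)
    (hm : m ∘ₗ LinearMap.applyₗ y ∈ R2 M hw) : m ∈ E3 f M := fun w' hw' y' hy' => by
  have hq := (h.hW.qq w).trans hw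
  have h2 : ∀ z, f w z = 0 → m ∘ₗ LinearMap.applyₗ z ∈ R2 M hw := fun z hz =>
    h.hW.perp_le hn h0 hq (S := (R2 M hw).comap (LinearMap.llcomp F _ _ _ m ∘ₗ
      LinearMap.applyₗ)) (fun t ht h1 s hs => h.r2_conj (h.rm _ (inv_mem ht)) 1 hw
        (fun a => by rw [rt_pu (h.hW.om_le_isom (inv_mem ht)).1, inv_eq_of h1]; rfl) hs fun v => rfl)
      hm ‹f w y = 0› hy hz
  by_cases h3 : w' = 0
  · exact fun c => ⟨fun a => by simp [h3], 1, one_mem _, fun v _ => by simp [h3]⟩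
  obtain ⟨t, h4, c, hc, h5⟩ := h.hW.om_apply hn h0 h3 hq ((h.hW.qq w').trans hw')
  have h6 := (h.hW.om_le_isom h4).1
  refine h.r2_conj (h.rm t h4) (LinearEquiv.smulOfNeZero F U _ (h.hW.sigma_ne hc)) hw' (fun a => by
    simp [rt_pu h6, h5]) (Submodule.smul_mem _ (σ c) (h2 (t y') ?_)) fun v => by simp
  have := h6 w' y'
  rw [h5, hy'] at this
  simpa [hc] using this

theorem tv_mem {a : U} (hm : (g a).smulRight a ∈ E3 f M) (hp : p a = 0) {w : W} (hw : q w = 0) {d : F}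
    (hd : σ d = -d) : h.hV.eich (pu U f w a) 0 d ∈ M := by
  by_cases h0 : w = 0
  · simp [h0, h.hV.eich_zero_left, one_mem]
  have hww := h.hW.diag0 hw
  obtain ⟨x, hx⟩ := h.hW.form.exists_right_eq_one h.hW.sep h0
  obtain ⟨y, h1, h2, -, -⟩ := h.hW.sing3 hn hx
  obtain ⟨y', h3, h4⟩ := h.hW.perp_one h1
  have h5 : ∀ {m n : End F U} {y : W} {e : (W →ₗ[F] U) ≃ₗ[F] (W →ₗ[F] U)}, e ∈ M → f w y = 0 →
      (∀ a b, g (m a) b = g a (n b)) → (∀ v : W →ₗ[F] U, v w = 0 → e v = v + pu U f w (m (v y))) →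
      ∀ v, ∃ b, e v = v - pu U f y (n (v w)) + pu U f w b := fun {m n y e} h5 h6 h7 h8 v => by
    refine ⟨_, sub_eq_iff_eq_add'.1 (eq_pu_of hx fun z hz => h.gs fun a => ?_)⟩
    have h9 := (h.le h5).1 (pu U f z a - pu U f w (f z y • m a)) v
    rw [h8 _ (by simp [h.hW.refl hz, hww])] at h9
    simp [h.Bp, h6, h7, h.hW.hs] at h9
    simp [h9]
  obtain ⟨l, hl⟩ := h.hW.ne
  replace hl := sub_ne_zero.2 hl.symm
  obtain ⟨c, hc⟩ : ∃ c, c - σ c = d := ⟨d / (l - σ l) * l, by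
    rw [map_mul, map_div₀, hd, map_sub, h.hW.invol, ← neg_sub l, neg_div_neg_eq]; field_simp⟩
  obtain ⟨-, e, h6, h7⟩ := hm w hww y h2 c
  obtain ⟨-, e', h8, h9⟩ := h.one_mem_e3 w hww y' h3 1
  have h10 := h5 (m := c • (g a).smulRight a) (n := σ c • (g a).smulRight a) h6 h2
    (by simp [h.hU.hs, mul_comm]) h7
  have h11 := h5 (m := 1) (n := 1) h8 h3 (fun _ _ => rfl) (by simpa using h9)
  convert mul_mem (mul_mem h6 h8) (inv_mem (mul_mem h8 h6)) using 1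
  ext1 v
  obtain ⟨v, rfl⟩ := (e' * e).surjective v
  obtain ⟨b, h12⟩ := h10 v
  obtain ⟨b', h13⟩ := h11 v
  rw [h.hV.tv (h.Qp a hw), mul_app _ (e' * e)⁻¹, inv_app, mul_app, mul_app, h13, h12, sub_add, sub_add,
    map_sub e, map_sub e', h12, h13, h7 _ (by simp [h.hW.refl h3, hww]), h9 _ (by simp [h.hW.refl h2, hww])]
  simp [h.Bp, ← hc, h2, h3, h4, h.hW.refl h2, h.hW.refl h3, hww, h.hW.flip_one h4]; module

variable [FiniteDimensional F U]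

theorem om_le_of_e3 {a : U} (ha : a ≠ 0) (hp : p a = 0) (hm : (g a).smulRight a ∈ E3 f M) :
    h.hV.Om ≤ M := by
  obtain ⟨δ, hδ, hδ'⟩ := h.hW.nq
  have h0 : ∀ t ∈ h.hU.Om, ∀ b, (g b).smulRight b ∈ E3 f M → (g (t b)).smulRight (t b) ∈ E3 f M :=
    fun t ht b hb => h.e3_conj (h.lm _ (inv_mem ht)) hb fun x => by simp [← (h.hU.om_le_isom ht).1 b]
  have h1 : ∀ a b, p a = 0 → (g a).smulRight a ∈ E3 f M → p b = 0 → g a b ≠ 0 →
      (g b).smulRight b ∈ E3 f M := fun a b h1 h2 h3 h4 => by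
    have h5 := h.hU.eich_mem_om (w := 0) (c := δ) h3 (map_zero _) (by simp [hδ', h.hU.Q_zero])
    have h6 : g a (h.hU.eich b 0 δ a) ≠ 0 := by simp [h.hU.tv h3, h.hU.diag0 h1, hδ, h4, h.hU.refl_ne h4]
    have h7 := ((h.hU.om_le_isom h5).2 a).trans h1
    have h8 := h0 _ h5 a h2
    generalize h.hU.eich b 0 δ a = a' at h6 h7 h8
    obtain ⟨w, c, h9, h10, h11⟩ := h.hU.exists_eich_apply (v := (g a b / g a a') • a') (v' := b) h1
      (by rw [h3, h.hU.sing_smul h7]) (by simp [h6]) (by simp [h4, h6])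
    refine h11 ▸ h0 _ (h.hU.eich_mem_om h1 h9 h10) _ ?_
    convert Submodule.smul_mem _ (σ (g a b / g a a') * (g a b / g a a')) h8 using 1
    ext; simp only [LinearMap.smulRight_apply, LinearMap.map_smulₛₗ, LinearMap.smul_apply]; module
  have h2 : ∀ a w y, p a = 0 → (g a).smulRight a ∈ E3 f M → w ≠ 0 → q w = 0 → f w y = 0 →
      pu U f y a ∈ h.hV.Arm M (pu U f w a) := fun a w y hp hm h0 hw hy =>
    h.hW.mem_of_sing hn h0 hw (S := (h.hV.Arm M (pu U f w a)).comap ((pu U f).flip a))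
      (fun y h2 h3 _ c => by
        have h4 : B (pu U f w a) (c • pu U f y a) = 0 := by simp [h.Bp, h.hU.diag0 hp]
        refine (h.hV.mem_ar (h.Qp a hw)).2 ⟨h4, 0, by simp [h.hV.Q_smul, h.Qp a h2], ?_⟩
        have h5 := h.hW.sing_smul h2 (σ (c / δ))
        have h6 : q (w + σ (c / δ) • y) = 0 := by rw [h.hW.Q_add, hw, h5]; simp [h3]
        convert mul_mem (h.tv_mem hn hm hp h6 hδ') (mul_mem (h.tv_mem hn hm hp hw (d := -δ) (by simp [hδ']))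
          (h.tv_mem hn hm hp h5 (d := -δ) (by simp [hδ']))) using 1
        ext1 v
        simp only [mul_app, h.hV.tv (h.Qp a hw), h.hV.tv (h.Qp a h5), h.hV.tv (h.Qp a h6)]
        rw [LinearMap.flip_apply, h.hV.eich_apply (h.Qp a hw) h4]
        simp [h.Bp, h.hU.diag0 hp, h.hW.invol, hδ']
        match_scalars <;> field_simp <;> ring) hy
  have h3 : ∀ a w b z, a ≠ 0 → p a = 0 → (g a).smulRight a ∈ E3 f M → w ≠ 0 → q w = 0 → f w z = 0 →
      pu U f z b ∈ h.hV.Arm M (pu U f w a) := fun a w b z ha hp hm h0 hw hz =>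
    h.hW.mem_of_sing hn h0 hw (S := (h.hV.Arm M (pu U f w a)).comap ((pu U f).flip b))
      (fun z h3 h4 h5 => h.hU.eq_top ha hp (S := (h.hV.Arm M (pu U f w a)).comap (pu U f z))
        (h2 a w z hp hm h0 hw h4) (fun b hb h6 => by
          obtain ⟨y, h7, h8⟩ := h.hW.perp_one h5
          have h9 := h2 a w y hp hm h0 hw h7
          have h10 := h.hV.map_mem_arm h.le (h.tv_mem hn (h1 a b hp hm hb h6) hb h3 hδ')
            (h.hV.eich_fix δ (by simp [h.Bp, h4]) (by simp)) h9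
          rw [h.hV.tv (h.Qp b h3), Submodule.sub_mem_iff_right _ h9, Submodule.smul_mem_iff _ (by
            simp [h.Bp, h.hW.flip_one h8, hδ, h.hU.refl_ne h6])] at h10
          exact h10) b) hz
  have h5 : ∀ a w x, a ≠ 0 → p a = 0 → (g a).smulRight a ∈ E3 f M → q w = 0 → f w x = 1 →
      h.hV.Full M (pu U f w a) := fun a w x₀ ha hp hm hw hx => by
    have h0 : w ≠ 0 := by rintro rfl; simp at hx
    refine h.hV.full_of_ar (h.Qp a hw) (fun t ht => h.hV.ar_of_arm ?_) fun c hc =>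
      h.tv_mem hn hm hp hw (eq_neg_of_add_eq_zero_right hc)
    have := pu_ind h.hW (S := (h.hV.Arm M (pu U f w a)).comap
      (1 - pu U f x₀ ∘ₗ LinearMap.applyₗ w)) (fun b y => by
        simpa [h.hW.hs] using h3 a w b (y - f w y • x₀) ha hp hm h0 hw (by simp [hx])) t
    refine (sub_add_cancel t (pu U f x₀ (t w))).subst (motive := (· ∈ _)) (add_mem this ?_)
    rw [h.Bp] at ht
    obtain ⟨x, h7, h8, h9, h10⟩ := h.hW.sing3 hn hx
    obtain ⟨c', h11, h12⟩ := h.hW.perp_one h7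
    obtain ⟨α, hα⟩ := h.hU.form.exists_right_eq_one h.hU.sep ha
    obtain ⟨h13, d, -, h14⟩ := (h.hV.mem_ar (h.Qp a h10)).1 (h.hV.ar_of_arm
      (h3 a x (t w) x₀ ha hp hm (by rintro rfl; simp at h7) h10 (h.hW.refl h9)))
    have h15 := h3 a w α c' ha hp hm h0 hw h11
    have h16 := h.hV.map_mem_arm h.le h14 (h.hV.eich_fix d (by simp [h.Bp, h8])
      (by simp [h.Bp, h.hU.refl ht])) h15
    have h17 := h2 a w x hp hm h0 hw h8
    rw [h.hV.eich_apply (h.Qp a h10) h13, Submodule.sub_mem_iff_left _ (Submodule.smul_mem _ _ h17),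
      Submodule.sub_mem_iff_right _ (add_mem h15 (Submodule.smul_mem _ _ h17))] at h16
    simpa [h.Bp, h.hW.flip_one h12, hα] using h16
  obtain ⟨w, h6, -, -, hw⟩ := h.hW.sing2 hn 0 0
  obtain ⟨x, hx, h7⟩ := h.hW.form.exists_partner h.hW.sep hw h6
  obtain ⟨b, hb, h8⟩ := h.hU.form.exists_partner h.hU.sep hp ha
  exact h.hV.om_le_of_full h.le (h5 a w x ha hp hm hw h7) (h5 b x w (by rintro rfl; simp at h8) hb
    (h1 a b hp hm hb (by simp [h8])) hx (h.hW.flip_one h7)) (by simp [h.Bp, h.hW.flip_one h7, h8])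

end TH

end Cfsg.Agent.H19.TA
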