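import Cfsg.Agent.H19.TU3

/-! Tensor products of unitary spaces: the main step. -/

set_option autoImplicit false
set_option maxHeartbeats 400000

namespace Cfsg.Agent.H19.TA

open Module H10 H11 H26.MX

variable {F : Type*} [Field F] {σ : F →+* F} {U W : Type*} [AddCommGroup U] [Module F U] [AddCommGroup W]
  [Module F W] {g : U →ₛₗ[σ] U →ₗ[F] F} {f : W →ₛₗ[σ] W →ₗ[F] F} {p : U → F} {q : W → F}
  {B : (W →ₗ[F] U) →ₛₗ[σ] (W →ₗ[F] U) →ₗ[F] F} {Q : (W →ₗ[F] U) → F}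
  {M : Subgroup ((W →ₗ[F] U) ≃ₗ[F] (W →ₗ[F] U))} {i j k : (W →ₗ[F] U) ≃ₗ[F] (W →ₗ[F] U)}

/-- involutions of the right factor which detect the tensor structure -/
def Gd (M : Subgroup ((W →ₗ[F] U) ≃ₗ[F] (W →ₗ[F] U))) (i : (W →ₗ[F] U) ≃ₗ[F] (W →ₗ[F] U)) : Prop :=
  i ∈ M ∧ i * i = 1 ∧ Pr i ∧ ∀ k ∈ M, Tn (k⁻¹ * i * k) → Tn k

variable [FiniteDimensional F U] [FiniteDimensional F W]

theorem Gd.pr (h : Gd M i) (hk : k ∈ M) (h1 : j = k⁻¹ * i * k) (h2 : Tn j) : Pr j :=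
  h1 ▸ h.2.2.1.conj (h.2.2.2 k hk (h1 ▸ h2))

namespace TH
variable (h : TH g p f q B Q M) [Nontrivial U]
include h

omit [Nontrivial U] [FiniteDimensional F U] [FiniteDimensional F W] in
theorem adj (hj : j ∈ M) (h1 : j * j = 1) (v v' : W →ₗ[F] U) : B (j v) v' = B v (j v') := by
  rw [← (h.le hj).1 v, ← mul_app, h1]; rfl

theorem inv_range (h2 : (2 : F) = 0) (hj : j ∈ M) (h1 : j * j = 1) (h0 : j ≠ 1) (hp : Pr j) :
    ∃ y, y ≠ 0 ∧ q y = 0 ∧ (∀ a, ∃ v, pu U f y a = j v - v) ∧ ∀ v, (j v - v) y = 0 := by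
  obtain ⟨ψ, h3⟩ := hp
  obtain ⟨y, y', h4, h5⟩ := exists_pu_comp (U := U) h.hW (ψ := ψ - 1) fun h4 =>
    h0 (by ext1 v; rw [h3, sub_eq_zero.1 h4]; rfl)
  have h6 : ∀ a, pu U f y' a = j (pu U f y a) - pu U f y a := fun a => by
    rw [← h5, h3]; ext; simp [sub_smul]
  have h7 : ∀ v, (j v - v) y' = 0 := fun v => h.gs fun a => by
    rw [← h.Bp, h6]
    simp only [map_sub, LinearMap.sub_apply, (h.le hj).1, h.adj hj h1 _ v]
    linear_combination (B (pu U f y a) v - B (pu U f y a) (j v)) * h2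
  obtain ⟨a, ha⟩ := exists_ne (0 : U)
  exact ⟨y', h4, (h.hW.qq _).trans (by simpa [← h6, ha] using h7 (pu U f y a)), fun a => ⟨_, h6 a⟩, h7⟩

variable [Finite F] (hn : 4 ≤ finrank F W)
include hn

theorem exists_comm (h2 : (2 : F) = 0) (hj : j ∈ M) (h1 : j * j = 1) (ht : Tn j) :
    ∃ y, y ≠ 0 ∧ q y = 0 ∧ ∀ v, j (pu U f y (v y)) = pu U f y (j v y) := by
  obtain ⟨a, ha⟩ := exists_ne (0 : U)
  obtain ⟨w, hw, -, -, hw'⟩ := h.hW.sing2 hn 0 0
  obtain ⟨s, φ, h3, h4, h5⟩ : ∃ (s : End F U) (φ : End F W), (∀ v x, j v x = s (v (φ x))) ∧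
      (∀ x, φ (φ x) = x) ∧ s a ≠ 0 := by
    obtain ⟨s, ψ, h3⟩ := tn_form ht
    obtain ⟨χ, hχ⟩ := exists_dual_one (F := F) ha
    have := CharTwo.of_one_ne_zero_of_two_eq_zero one_ne_zero h2
    obtain ⟨c, hc⟩ := surjective_frobenius F 2 (χ (s (s a)))
    have h4 : ∀ x, c • ψ (c • ψ x) = x := fun x => sub_eq_zero.1
      ((Module.forall_dual_apply_eq_zero_iff F _).1 fun β => by
        have := congrArg χ (LinearMap.congr_fun (LinearEquiv.congr_fun h1 (β.smulRight a)) x)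
        simp [mul_app, h3, hχ, ← hc, frobenius_def] at this
        simp; linear_combination this)
    have h5 : c ≠ 0 := by rintro rfl; simpa [hw] using (h4 w).symm
    exact ⟨c⁻¹ • s.toLinearMap, c • ψ.toLinearMap, by simp [h3, h5], h4, by simp [h5, ha]⟩
  obtain ⟨b, hb⟩ := h.hU.form.exists_right_eq_one h.hU.sep h5
  have h6 : ∀ y x, f y (φ x) = σ (g a (s b)) * f (φ y) x := fun y x => by
    obtain ⟨y', h6⟩ := h.hW.exists_B (f y ∘ₗ φ)
    have h7 : y' = g a (s b) • φ y := sub_eq_zero.1 ((Module.forall_dual_apply_eq_zero_iff F _).1 fun β => by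
      have := h.adj hj h1 (pu U f y a) (β.smulRight b)
      rw [show j (pu U f y a) = pu U f y' (s a) by ext; simp [h3, h6]] at this
      simp [h.Bp, h3, hb] at this
      simp [this, mul_comm])
    simpa [h7] using (LinearMap.congr_fun h6 x).symm
  obtain ⟨x, hx⟩ := h.hW.form.exists_right_eq_one h.hW.sep hw
  have h7 : σ (g a (s b)) = 1 := sub_eq_zero.1 (pow_eq_zero_iff two_ne_zero |>.1 (by
    have := h6 w (φ x)
    rw [h4, h6, h4, hx] at this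
    linear_combination -this + (1 - σ (g a (s b))) * h2))
  obtain ⟨y, h8, h9, h10⟩ : ∃ y, y ≠ 0 ∧ q y = 0 ∧ φ y = y := by
    by_cases h8 : φ w = w
    · exact ⟨w, hw, hw', h8⟩
    have h9 : φ (φ w - w) = φ w - w := by
      rw [map_sub, h4, ← sub_eq_zero, show w - φ w - (φ w - w) = (2 : F) • (w - φ w) by module, h2, zero_smul]
    refine ⟨_, sub_ne_zero.2 h8, (h.hW.qq _).trans ?_, h9⟩
    have := h6 w (φ w - w)
    rw [h7, h9] at this
    rw [LinearMap.map_sub₂, this]; ring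
  exact ⟨y, h8, h9, fun v => by ext; simp [h3, h6, h7, h10]⟩

variable (hm : 2 ≤ finrank F U) (hq : 3 ≤ finrank F U ∨ ∃ t : F, σ t = t ∧ t ≠ 0 ∧ t ≠ 1)
  (hM : ¬ h.hV.Om ≤ M) (hmn : finrank F U < finrank F W)
include hm hq hM hmn

theorem ly (h2 : (2 : F) = 0) (hk : k ∈ M) (hj : j ∈ M) (h1 : j * j = 1) (h0 : j ≠ 1) (hp : Pr j)
    (hp' : Pr (k * j * k⁻¹)) : Tn k := by
  obtain ⟨y, h3, h4, -, h5⟩ := h.inv_range h2 hj h1 h0 hp
  obtain ⟨y', h6, h7, h8, -⟩ := h.inv_range h2 (mul_mem (mul_mem hk hj) (inv_mem hk))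
    (by rw [conj_mul, h1]; simp) (by simpa using h0) hp'
  obtain ⟨δ, hδ, hδ'⟩ := h.hW.nq
  obtain ⟨t, h9, h10⟩ := h.exists_T h4 hδ'
  refine tn_inv (h.rk hn hm hq hM hmn (inv_mem hk) h3 h4 hδ h10 (h.tn_st hn hm hq hM
    (mul_mem (mul_mem (inv_mem (inv_mem hk)) h9) (inv_mem hk)) h6 h7 (w' := y') fun a => ⟨a, ?_⟩))
  obtain ⟨v, h11⟩ := h8 a
  rw [h11, show (k * j * k⁻¹) v - v = k (j (k⁻¹ v) - k⁻¹ v) by simp [mul_app], mul_app, mul_app, inv_app,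
    h10, h5]
  simp

theorem dih (h2 : (2 : F) = 0) (hi : Gd M i) (hj : Gd M j) (hk : k ∈ M) (hk' : ¬ Tn k)
    {K : Subgroup _} (hK : K ≤ M) (h1 : i ∈ K) (h3 : k⁻¹ * j * k ∈ K) :
    ∃ t ∈ K, t⁻¹ * i * t = k⁻¹ * j * k := by
  have : Finite (W →ₗ[F] U) := Module.finite_of_finite F
  have : Finite ((W →ₗ[F] U) ≃ₗ[F] (W →ₗ[F] U)) := DFunLike.finite _
  refine (dihedral_or hi.2.1 (by rw [← inv_inv k, inv_inv k⁻¹, conj_mul, hj.2.1]; simp) h1 h3).resolve_right ?_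
  rintro ⟨v, h4, h5, h6, h7, h8, ⟨t, h9, h10⟩, t', h11, h12⟩
  have h13 := hi.2.2.1.tn (by omega)
  have h14 := hj.2.2.1.tn (by omega)
  have h15 := tn_mul (hi.2.2.2 v (hK h4) (h7.symm ▸ h13)) h13
  have h16 := tn_mul (hj.2.2.2 _ (mul_mem (mul_mem hk (hK h4)) (inv_mem hk)) (by
    rwa [show (k * v * k⁻¹)⁻¹ * j * (k * v * k⁻¹) = k * (v⁻¹ * (k⁻¹ * j * k) * v) * k⁻¹ by group, h8,
      show k * (k⁻¹ * j * k) * k⁻¹ = j by group])) h14
  have h17 : k * v * k⁻¹ * j = k * (v * (k⁻¹ * j * k)) * k⁻¹ := by group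
  refine hk' (h.ly hn hm hq hM hmn h2 hk (hK h4) h6 h5 ?_ ?_)
  · simpa [mul_assoc, hi.2.1] using (h10.elim (hi.pr (hK h9) · h15) fun h10 =>
      hj.pr (mul_mem hk (hK h9)) (by rw [h10]; group) h15).mul hi.2.2.1
  · simpa [mul_assoc, hj.2.1] using (h12.elim (fun h12 => hi.pr (mul_mem (hK h11) (inv_mem hk))
      (by rw [h17, h12]; group) h16) fun h12 => hj.pr (mul_mem (mul_mem hk (hK h11)) (inv_mem hk))
      (by rw [h17, h12]; group) h16).mul hj.2.2.1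

theorem tn_two (h2 : (2 : F) = 0) (hk : k ∈ M) : Tn k := by
  obtain ⟨δ, hδ, hδ'⟩ := h.hW.nq
  have h1 : ∀ y, y ≠ 0 → q y = 0 → ∃ t, Gd M t ∧ ∀ v, t v = v + δ • pu U f y (v y) := fun y h1 hy =>
    (h.exists_T hy hδ').imp fun t ht => ⟨⟨ht.1, by
      ext1 v
      rw [mul_app, ht.2, ht.2, add_assoc]
      simp [h.hW.diag0 hy, ← two_smul F, h2], ⟨1 + δ • (f y).smulRight y, fun v => by ext; simp [ht.2]⟩,
      fun k hk => h.rk hn hm hq hM hmn hk h1 hy hδ ht.2⟩, ht.2⟩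
  obtain ⟨w, hw, -, -, hw'⟩ := h.hW.sing2 hn 0 0
  obtain ⟨x, hx⟩ := h.hW.form.exists_right_eq_one h.hW.sep hw
  obtain ⟨y, h3, h4, h5, h6⟩ := h.hW.sing3 hn hx
  obtain ⟨x', h7, h8⟩ := h.hW.perp_one h3
  obtain ⟨t, h9, h10⟩ := h1 w hw hw'
  obtain ⟨t', h11, h12⟩ := h1 y (by rintro rfl; simp at h3) h6
  have h13 : ∀ v, (t * t') v = v + δ • (pu U f w (v w) + pu U f y (v y)) := fun v => by
    simp [mul_app, h10, h12, h.hW.refl h4]; module
  have h14 : t' * t = t * t' := by ext1 v; simp [h13, mul_app, h10, h12, h4]; module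
  have h15 : t * t' * (t * t') = 1 := by
    rw [mul_assoc, ← mul_assoc t', h14, ← mul_assoc, ← mul_assoc, h9.2.1, one_mul, h11.2.1]
  have h16 : ∀ a b, ∃ v, (t * t') v - v = pu U f w a + pu U f y b := fun a b =>
    ⟨δ⁻¹ • (pu U f x a + pu U f x' b - pu U f x' (pu U f x a y)), by
      simp [h13, h.hW.flip_one hx, h.hW.flip_one h8, h.hW.refl h7, smul_smul, hδ]⟩
  have hu : Gd M (t * t') := by
    refine ⟨mul_mem h9.1 h11.1, h15, h9.2.2.1.mul h11.2.2.1, fun k hk h17 => by_contra fun hk' => ?_⟩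
    have h18 := mul_mem (mul_mem (inv_mem hk) (mul_mem h9.1 h11.1)) hk
    have h19 : k⁻¹ * (t * t') * k * (k⁻¹ * (t * t') * k) = 1 := by
      rw [← inv_inv k, inv_inv k⁻¹, conj_mul, h15]; simp
    obtain ⟨z, h20, h21, h22⟩ := h.exists_comm hn h2 h18 h19 h17
    obtain ⟨r, h23, h24⟩ := h1 z h20 h21
    have h25 : ∀ v, (k⁻¹ * t * k) ((k⁻¹ * (t * t') * k) v - v) = (k⁻¹ * (t * t') * k) v - v := fun v => by
      rw [show (k⁻¹ * (t * t') * k) v - v = k⁻¹ ((t * t') (k v) - k v) by simp [mul_app], mul_app, mul_app,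
        app_inv, h13, h10]
      simp [h.hW.refl h4, h.hW.diag0 hw']
    have h26 : k * (k⁻¹ * (t * t') * k) * k⁻¹ = t * t' := by group
    have h27 : k⁻¹ * (t * t') * k * (k⁻¹ * t * k) = k⁻¹ * t * k * (k⁻¹ * (t * t') * k) := by
      rw [show k⁻¹ * (t * t') * k * (k⁻¹ * t * k) = k⁻¹ * t * (t' * t) * k by group, h14]; group
    generalize k⁻¹ * (t * t') * k = u at h17 h18 h19 h22 h25 h26 h27
    obtain ⟨e, h28, h29⟩ := h.dih hn hm hq hM hmn h2 h23 h9 hk hk' (K := M ⊓ Subgroup.centralizer {u})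
      inf_le_left ⟨h23.1, Subgroup.mem_centralizer_singleton_iff.2 (by ext1 v; simp [mul_app, h24, h22])⟩
      (Subgroup.mem_inf.2 ⟨mul_mem (mul_mem (inv_mem hk) h9.1) hk,
        Subgroup.mem_centralizer_singleton_iff.2 h27.symm⟩)
    replace h28 := Subgroup.mem_centralizer_singleton_iff.1 h28.2
    obtain ⟨s, ψ, h30⟩ := tn_form h17
    obtain ⟨β, hβ⟩ := exists_dual_one (F := F) h20
    obtain ⟨z', h31⟩ := h.hW.form.exists_right_eq_one h.hW.sep h20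
    have h32 : ∀ a, β (ψ z) • s a = a := fun a => by
      obtain ⟨v, hv⟩ := e.surjective (β.smulRight a)
      have := congrArg e (h25 v)
      rw [← h29, mul_app, mul_app, app_inv, map_sub, ← mul_app e u, h28, mul_app, hv, h24, add_eq_left] at this
      simpa [h31, hδ, h30, hβ, sub_eq_zero] using LinearMap.congr_fun this z'
    obtain ⟨a, ha⟩ := exists_ne (0 : U)
    have h33 : β (ψ z) ≠ 0 := fun h33 => by simpa [h33, ha] using (h32 a).symm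
    refine hk' (h.ly hn hm hq hM hmn h2 hk h18 h19 ?_ ⟨(β (ψ z))⁻¹ • ψ.toLinearMap, fun v => ?_⟩
      (h26 ▸ h9.2.2.1.mul h11.2.2.1))
    · rintro rfl
      obtain ⟨v, hv⟩ := h16 a 0
      simpa [← h26, hx, ha] using (LinearMap.congr_fun hv x).symm
    · ext; simp [h30, eq_inv_smul_iff₀ h33, h32]
  by_contra hk'
  obtain ⟨e, -, h17⟩ := h.dih hn hm hq hM hmn h2 hu h9 hk hk' le_rfl hu.1
    (mul_mem (mul_mem (inv_mem hk) h9.1) hk)
  have h18 := Submodule.finrank_mono (show LinearMap.range ((pu U f w).coprod (pu U f y)) ≤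
      (LinearMap.range (pu U f w)).map (e * k⁻¹).toLinearMap by
    rintro _ ⟨⟨a, b⟩, rfl⟩
    obtain ⟨v, hv⟩ := h16 a b
    refine ⟨_, ⟨δ • k (e⁻¹ v) w, rfl⟩, .trans ?_ hv⟩
    rw [show t * t' = e * k⁻¹ * t * (k * e⁻¹) by
      rw [show e * k⁻¹ * t * (k * e⁻¹) = e * (k⁻¹ * t * k) * e⁻¹ by group, ← h17]; group]
    simp [mul_app, h10])
  rw [LinearMap.finrank_range_of_inj ((injective_iff_map_eq_zero _).2 fun ⟨a, b⟩ h18 => by
    have h19 := LinearMap.congr_fun h18 x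
    have h20 := LinearMap.congr_fun h18 x'
    simp [hx, h.hW.refl h5, h7, h8] at h19 h20
    simp [h19, h20]), finrank_prod] at h18
  have := (Submodule.finrank_map_le _ _).trans' h18 |>.trans (LinearMap.finrank_range_le _)
  omega

theorem tn_mem (hk : k ∈ M) : Tn k := by
  by_cases two : (2 : F) = 0
  · exact h.tn_two hn hm hq hM hmn two hk
  obtain ⟨δ, hδ, hδ'⟩ := h.hW.nq
  obtain ⟨w, hw, -, -, hw'⟩ := h.hW.sing2 hn 0 0
  have hww := h.hW.diag0 hw'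
  let X := LinearMap.range (pu U f w)
  by_contra hk'
  have : Finite (W →ₗ[F] U) := Module.finite_of_finite F
  have : Finite ((W →ₗ[F] U) ≃ₗ[F] (W →ₗ[F] U)) := DFunLike.finite _
  obtain ⟨k, ⟨hk, hk'⟩, hx⟩ := Set.exists_max_image {k | k ∈ M ∧ ¬ Tn k}
    (fun k => finrank F ↥(X ⊓ X.comap k.toLinearMap)) (Set.toFinite _) ⟨k, hk, hk'⟩
  let X' := X.comap k.toLinearMap
  have g1 : ∀ j ∈ M, (∀ x ∈ X, x ∈ X' → j x ∈ X) → ∀ x ∈ X, x ∉ X' → j x ∈ X → Tn j :=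
    fun j hj h1 x h2 h3 h4 => by_contra fun h5 => (hx j ⟨hj, h5⟩).not_gt
      (Submodule.finrank_lt_finrank_of_lt (lt_of_le_of_ne (fun y hy => ⟨hy.1, h1 y hy.1 hy.2⟩)
        fun h6 => h3 (h6.ge ⟨h2, h4⟩).2))
  have g2 : ∀ j ∈ M, (∀ x ∈ X, x ∈ X' → j x ∈ X') → ∀ x ∈ X', x ∉ X → j x ∈ X' →
      Tn (k⁻¹⁻¹ * j * k⁻¹) := fun j hj h1 x h2 h3 h4 => by_contra fun h5 => by
    refine (hx _ ⟨mul_mem (mul_mem (inv_mem (inv_mem hk)) hj) (inv_mem hk), h5⟩).not_gt ?_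
    rw [← finrank_map _ k]
    refine Submodule.finrank_lt_finrank_of_lt (lt_of_le_of_ne ?_ fun h6 => h3 ?_)
    · rintro _ ⟨y, hy, rfl⟩
      exact ⟨hy.2, by simpa [mul_app, X'] using h1 y hy.1 hy.2⟩
    · simpa using (mem_map_iff.1 (h6.ge (Submodule.mem_inf.2 ⟨h2, by simpa [mul_app, X'] using h4⟩ :
        k x ∈ _))).1
  obtain ⟨T, hT, h0⟩ := h.exists_T hw' hδ'
  let N : End F (W →ₗ[F] U) := δ • pu U f w ∘ₗ LinearMap.applyₗ w
  have h1 : ∀ v, T v = v + N v := fun v => by simp [N, h0]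
  have h2 : ∀ v, N v ∈ X := fun v => ⟨δ • v w, by simp [N]⟩
  have h3 : ∀ x ∈ X, ∀ y, f w y = 0 → x y = 0 := by rintro _ ⟨a, rfl⟩ y h3; simp [h3]
  have h4 : ∀ x ∈ X, N x = 0 := fun x hx => by simp [N, h3 x hx w hww]
  have f1 : ∀ x ∈ X', N x ∈ X' → x ∈ X := fun x h5 h6 => by_contra fun h7 => hk' (tn_inv
    (h.rk hn hm hq hM hmn (inv_mem hk) hw hw' hδ h0 (g2 _ hT (fun y h8 h9 => by rwa [h1, h4 y h8, add_zero])
      x h5 h7 (by rw [h1]; exact add_mem h5 h6))))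
  let N' : End F (W →ₗ[F] U) := k⁻¹.toLinearMap ∘ₗ N ∘ₗ k.toLinearMap
  have h5 : ∀ v, (k⁻¹ * T * k) v = v + N' v := fun v => by simp [N', mul_app, h1]
  have h6 : ∀ v, N' v ∈ X' := fun v => by simpa [N', X'] using h2 _
  have h7 : ∀ x ∈ X', N' x = 0 := fun x hx => by simp [N', h4 (k x) hx]
  have hT' := mul_mem (mul_mem (inv_mem hk) hT) hk
  have f2 : ∀ x ∈ X, N' x ∈ X → x ∈ X' := fun x h8 h9 => by_contra fun h10 => hk'
    (h.rk hn hm hq hM hmn hk hw hw' hδ h0 (g1 _ hT' (fun y h11 h12 => by rwa [h5, h7 y h12, add_zero])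
      x h8 h10 (by rw [h5]; exact add_mem h8 h9)))
  have h8 : ∀ a ∈ X'.map N, N' a ∈ X → a = 0 := by
    rintro _ ⟨x, hx, rfl⟩ h8
    exact h4 x (f1 x hx (f2 _ (h2 x) h8))
  have ei : ∀ b y, b ≠ 0 → pu U f y b ∈ X ⊔ X' → ∀ a, pu U f y a ∈ X := fun b y hb h9 a => by
    obtain ⟨x, h9, x', h10, h11⟩ := Submodule.mem_sup.1 h9
    by_cases h12 : x' ∈ X
    · obtain ⟨c, h13⟩ := add_mem h9 h12
      obtain ⟨χ, hχ⟩ := exists_dual_one (F := F) hb
      refine ⟨χ c • a, LinearMap.ext fun z => ?_⟩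
      have := congrArg χ (LinearMap.congr_fun (h13.trans h11) z)
      simp [hχ] at this
      simp [← this, smul_smul, mul_comm]
    replace h11 := eq_sub_of_add_eq' h11
    obtain ⟨z, h13, h14, h15, hz⟩ := h.hW.sing2 hn w y
    obtain ⟨t, h16, h17⟩ := h.exists_T hz hδ'
    have h18 : ∀ x ∈ X, t x = x := fun x hx => by simp [h17, h3 x hx z h14]
    exact absurd (tn_inv (h.rk hn hm hq hM hmn (inv_mem hk) h13 hz hδ h17 (g2 _ h16
      (fun y h19 h20 => by rwa [h18 y h19]) x' h10 h12 (by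
        rwa [h11, map_sub, h18 x h9, h17, pu_apply, h15, zero_smul, map_zero, smul_zero,
          add_zero, ← h11])))) hk'
  obtain ⟨z, h9, a, h10, h11, h12, h13⟩ := exists_neg two h1 h5 (fun v => h7 _ (h6 v)) (A := X'.map N)
    (fun h9 => by
      obtain ⟨b, hb⟩ : ∃ b, k⁻¹ (pu U f w b) ∉ X := by
        by_contra! h10
        exact hk' (tn_inv (h.tn_st hn hm hq hM (inv_mem hk) hw hw' fun a => (h10 a).imp fun _ h => h.symm))
      have h10 : k⁻¹ (pu U f w b) ∈ X' := by simp [X', X]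
      exact hb (f1 _ h10 ((h9.le ⟨_, h10, rfl⟩ : N _ = 0) ▸ zero_mem _)))
    (by rintro _ ⟨x, -, rfl⟩; exact h4 _ (h2 x)) (fun a _ => ⟨_, h6 a, rfl⟩)
    fun a ha h9 => h8 a ha (f1 _ (h6 a) (h9 ▸ zero_mem _))
  let S : Subgroup ((W →ₗ[F] U) ≃ₗ[F] (W →ₗ[F] U)) :=
    { carrier := {z | z ∈ M ∧ (∀ v, z v - v ∈ X ⊔ X') ∧ ∀ x ∈ X, x ∈ X' → z x = x}
      one_mem' := ⟨one_mem _, by simp, by simp⟩
      mul_mem' := fun {a b} ha hb => ⟨mul_mem ha.1 hb.1, fun v => by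
        simpa using add_mem (ha.2.1 (b v)) (hb.2.1 v), fun x h1 h2 => by
          rw [mul_app, hb.2.2 x h1 h2, ha.2.2 x h1 h2]⟩
      inv_mem' := fun {a} ha => ⟨inv_mem ha.1, fun v => by simpa using neg_mem (ha.2.1 (a⁻¹ v)),
        fun x h1 h2 => inv_eq_of (ha.2.2 x h1 h2)⟩ }
  replace h9 : z ∈ S := (Subgroup.closure_le S).2 (by
    rintro _ (rfl | rfl)
    · exact ⟨hT, fun v => by rw [h1, add_sub_cancel_left]; exact Submodule.mem_sup_left (h2 v),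
        fun x hx _ => by rw [h1, h4 x hx, add_zero]⟩
    · exact ⟨hT', fun v => by rw [h5, add_sub_cancel_left]; exact Submodule.mem_sup_right (h6 v),
        fun x _ hx => by rw [h5, h7 x hx, add_zero]⟩) h9
  have h14 : a ∈ X := by obtain ⟨x, -, rfl⟩ := h10; exact h2 x
  have h15 : Tn z := g1 z h9.1 (fun x h15 h16 => by rwa [h9.2.2 x h15 h16]) a h14
    (fun h15 => h11 (h8 a h10 (by rw [h7 a h15]; exact zero_mem _))) (h12 ▸ neg_mem h14)
  obtain ⟨a₀, ha₀⟩ := exists_ne (0 : U)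
  have h16 : ∀ a, z⁻¹ (pu U f w a) ∈ X := fun a => by
    obtain ⟨s, ψ, h16⟩ := tn_form (tn_inv (k := z⁻¹) (by rwa [inv_inv]))
    obtain ⟨y', h17⟩ := pu_of_form h.hW h16 w
    rw [h17]
    exact ei _ _ (app_ne_zero s ha₀) (by
      simpa [h17] using add_mem ((inv_mem h9).2.1 (pu U f w a₀)) (Submodule.mem_sup_left ⟨a₀, rfl⟩)) _
  obtain ⟨s, ψ, h17⟩ := tn_form h15
  obtain ⟨x₀, hx₀⟩ := h.hW.form.exists_right_eq_one h.hW.sep hw
  obtain ⟨z', h18, h19, -, -⟩ := h.hW.sing3 hn hx₀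
  obtain ⟨z₀, h18, h20⟩ := h.hW.perp_one h18
  replace h19 := h.hW.refl h19
  obtain ⟨z₁, h21⟩ := pu_of_form h.hW h17 z'
  have h22 : ∀ b, f z₁ z₀ • s b = b := fun b => by
    have h22 : z (pu U f z' b) w = 0 := h.gs fun a => by
      obtain ⟨c, h22⟩ := h16 a
      rw [← h.Bp, ← app_inv z (pu U f w a), (h.le h9.1).1, ← h22]; simp [h.Bp, h19]
    obtain ⟨x, h23, x', h24, h25⟩ := Submodule.mem_sup.1 (h9.2.1 (pu U f z' b))
    have h26 := f1 x' h24 (by rw [eq_sub_of_add_eq' h25, map_sub, h4 x h23]; simp [N, h19, h22])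
    simpa [h25, h21, sub_eq_zero, h20] using h3 _ (add_mem h23 h26) z₀ h18
  have h23 : f z₁ z₀ ≠ 0 := fun h23 => by simpa [h23, ha₀] using (h22 a₀).symm
  have h24 := pu_ind h.hW (S := X.comap (z.toLinearMap - 1)) (fun b y => by
    obtain ⟨y', h24⟩ := pu_of_form h.hW h17 y
    have h25 : ∀ b, z (pu U f y b) - pu U f y b = pu U f (σ (f z₁ z₀)⁻¹ • y' - y) b := fun b => by
      rw [h24, (eq_inv_smul_iff₀ h23).2 (h22 b)]; simp [h.hW.invol]
    exact (h25 b).symm.subst (motive := (· ∈ X)) (ei _ _ ha₀ (h25 a₀ ▸ h9.2.1 _) b)) (N' a)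
  refine h11 (h8 a h10 ((X.smul_mem_iff (neg_ne_zero.2 two)).1 ?_))
  rw [show (-2 : F) • N' a = z (N' a) - N' a by rw [h13]; module]; exact h24

end TH

end Cfsg.Agent.H19.TA
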