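import Cfsg.Agent.H19.TU5

/-! `GU₂ ⊗ GU₃` in `SU₆`: the Siegel radical. -/

set_option autoImplicit false
set_option maxHeartbeats 400000

namespace Cfsg.Agent.H19.TV

open Module H10 H11 H26.MX TA

variable {F : Type*} [Field F] {σ : F →+* F} {V W : Type*} [AddCommGroup V] [Module F V] [AddCommGroup W]
  [Module F W] {f : W →ₛₗ[σ] W →ₗ[F] F} {q : W → F} {B : V →ₛₗ[σ] V →ₗ[F] F} {Q : V → F}
  {M : Subgroup (V ≃ₗ[F] V)} {a b : W →ₗ[F] V} {p r : V →ₗ[F] W} {k : V ≃ₗ[F] V}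

/-- an overgroup of `SU₂ ⊗ SU₃` -/
structure T6 (f : W →ₛₗ[σ] W →ₗ[F] F) (q : W → F) (B : V →ₛₗ[σ] V →ₗ[F] F) (Q : V → F)
    (M : Subgroup (V ≃ₗ[F] V)) (a b : W →ₗ[F] V) (p r : V →ₗ[F] W) : Prop where
  hW : Hm σ f q
  hV : Hm σ B Q
  dW : finrank F W = 3
  dec : ∀ v, a (p v) + b (r v) = v
  aa : ∀ x y, B (a x) (a y) = 0
  bb : ∀ x y, B (b x) (b y) = 0
  ab : ∀ x y, B (a x) (b y) = f x y
  ba : ∀ x y, B (b x) (a y) = f x y
  le : M ≤ Isom B Q
  rm : ∀ t ∈ hW.Om, ∃ k ∈ M, (∀ x, k (a x) = a (t x)) ∧ ∀ x, k (b x) = b (t x)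
  up : ∀ d, σ d = -d → ∃ k ∈ M, (∀ x, k (a x) = a x) ∧ ∀ x, k (b x) = b x + d • a x
  lo : ∀ d, σ d = -d → ∃ k ∈ M, (∀ x, k (b x) = b x) ∧ ∀ x, k (a x) = a x + d • b x
  three : ∃ t, σ t = t ∧ t ≠ 0 ∧ t ≠ 1
  sq : ∀ c, σ c = c → ∃ ρ, ρ * ρ = c

/-- elements of the Siegel radical -/
def Sg (M : Subgroup (V ≃ₗ[F] V)) (a b : W →ₗ[F] V) (φ : End F W) : Prop :=
  ∃ k ∈ M, (∀ x, k (a x) = a x) ∧ ∀ x, k (b x) = b x + a (φ x)

theorem Sg.add {φ ψ : End F W} (h : Sg M a b φ) (h' : Sg M a b ψ) : Sg M a b (φ + ψ) :=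
  let ⟨k, k1, k2, k3⟩ := h; let ⟨j, j1, j2, j3⟩ := h'
  ⟨k * j, mul_mem k1 j1, fun x => by simp [k2, j2], fun x => by simp [k2, k3, j3, add_assoc]⟩

theorem Sg.neg {φ : End F W} (h : Sg M a b φ) : Sg M a b (-φ) :=
  let ⟨k, k1, k2, k3⟩ := h
  ⟨k⁻¹, inv_mem k1, fun x => inv_eq_of (k2 x), fun x => inv_eq_of (by simp [k2, k3])⟩

/-- the coefficient space -/
def Ec (f : W →ₛₗ[σ] W →ₗ[F] F) (M : Subgroup (V ≃ₗ[F] V)) (a b : W →ₗ[F] V) : Submodule F (End F W) where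
  carrier := {m | ∃ m' : End F W, (∀ l x y, f ((l • m) x) y = f x ((σ l • m') y)) ∧
    ∀ l, Sg M a b (l • m - σ l • m')}
  zero_mem' := ⟨0, by simp, fun l => ⟨1, one_mem _, by simp, by simp⟩⟩
  add_mem' := fun ⟨m, h1, h2⟩ ⟨n, h3, h4⟩ => ⟨m + n, fun l x y => by
    simpa using congrArg₂ (· + ·) (h1 l x y) (h3 l x y), fun l => by
    convert (h2 l).add (h4 l) using 1; module⟩
  smul_mem' := fun c _ ⟨m, h1, h2⟩ => ⟨σ c • m, fun l => by simpa only [smul_smul, map_mul] using h1 (l * c),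
    fun l => by simpa only [smul_smul, map_mul] using h2 (l * c)⟩

namespace T6
variable (h : T6 f q B Q M a b p r)
include h

theorem Ba (x : W) (v : V) : B (a x) v = f x (r v) := by
  conv_lhs => rw [← h.dec v]
  simp [h.aa, h.ab]
theorem Bb (x : W) (v : V) : B (b x) v = f x (p v) := by
  conv_lhs => rw [← h.dec v]
  simp [h.bb, h.ba]
theorem fs {x y : W} (e : ∀ z, f z x = f z y) : x = y :=
  sub_eq_zero.1 (h.hW.form.separatingRight h.hW.sep fun z => by simp [e])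
theorem pa (x : W) : p (a x) = x := h.fs fun z => by rw [← h.Bb, h.ba]
theorem pb (x : W) : p (b x) = 0 := h.fs fun z => by rw [← h.Bb, h.bb, map_zero]
theorem ra (x : W) : r (a x) = 0 := h.fs fun z => by rw [← h.Ba, h.aa, map_zero]
theorem rb (x : W) : r (b x) = x := h.fs fun z => by rw [← h.Ba, h.ab]
theorem Qa (x : W) : Q (a x) = 0 := (h.hV.qq _).trans (h.aa x x)

theorem ext' {j : V ≃ₗ[F] V} (h1 : ∀ x, k (a x) = j (a x)) (h2 : ∀ x, k (b x) = j (b x)) : k = j :=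
  LinearEquiv.ext fun v => by rw [← h.dec v, map_add, map_add, h1, h2]

theorem wey {d : F} (hd : σ d = -d) (h0 : d ≠ 0) :
    ∃ k ∈ M, (∀ x, k (a x) = -d⁻¹ • b x) ∧ ∀ x, k (b x) = d • a x := by
  obtain ⟨k, k1, k2, k3⟩ := h.up d hd
  obtain ⟨j, j1, j2, j3⟩ := h.lo (-d⁻¹) (by simp [hd])
  exact ⟨k * j * k, mul_mem (mul_mem k1 j1) k1, fun x => by simp [k2, k3, j3, smul_smul, h0],
    fun x => by simp [k2, k3, j2, j3, smul_smul, h0]⟩

theorem sg_smul {φ : End F W} (hφ : Sg M a b φ) {c : F} (hc : σ c = c) : Sg M a b (c • φ) := by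
  have h1 : ∀ l, σ l = l → Sg M a b ((l * l) • φ) := fun l hl => by
    by_cases h0 : l = 0
    · simpa [h0] using hφ.add hφ.neg
    obtain ⟨δ, hδ, hδ'⟩ := h.hW.nq
    obtain ⟨k, k1, k2, k3⟩ := hφ
    obtain ⟨j, j1, j2, j3⟩ := h.wey hδ' hδ
    obtain ⟨i, i1, i2, i3⟩ := h.wey (d := l * δ) (by simp [hl, hδ']) (mul_ne_zero h0 hδ)
    have e1 : ∀ x, (i * j)⁻¹ (a x) = -l⁻¹ • a x := fun x => inv_eq_of (by
      simp [j2, i3, smul_smul, h0, hδ]; field_simp; simp)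
    have e2 : ∀ x, (i * j)⁻¹ (b x) = -l • b x := fun x => inv_eq_of (by
      simp [j3, i2, smul_smul, h0, hδ]; field_simp; simp)
    refine ⟨i * j * k * (i * j)⁻¹, mul_mem (mul_mem (mul_mem i1 j1) k1) (inv_mem (mul_mem i1 j1)),
      fun x => ?_, fun x => ?_⟩
    · rw [mul_app, e1, map_smul, mul_app, k2, ← map_smul, ← e1, app_inv]
    · rw [mul_app, e2, map_smul, mul_app, k3, map_add, smul_add, ← map_smul, ← e2, app_inv]
      simp [j2, i3, smul_smul, hδ]; field_simp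
  by_cases h2 : (2 : F) = 0
  · obtain ⟨ρ, rfl⟩ := h.sq c hc
    rw [map_mul, mul_self_eq_mul_self_iff] at hc
    exact h1 ρ (hc.elim id fun e => by linear_combination e - ρ * h2)
  · convert (h1 ((c + 1) / 2) (by simp [hc, map_ofNat])).add (h1 ((c - 1) / 2) (by simp [hc, map_ofNat])).neg
      using 1
    match_scalars; field_simp; ring

theorem ec_of_sg {φ : End F W} (hφ : Sg M a b φ) : φ ∈ Ec f M a b := by
  refine ⟨-φ, fun l x y => ?_, fun l => by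
    convert h.sg_smul hφ (c := l + σ l) (by simp [h.hW.invol, add_comm]) using 1; module⟩
  obtain ⟨k, k1, -, k3⟩ := hφ
  have := (h.le k1).1 (b x) (b y)
  simp [k3, h.aa, h.bb, h.ab, h.ba] at this
  simp [eq_neg_of_add_eq_zero_right this]

theorem sg_of_ec {m m' : End F W} (hm : m ∈ Ec f M a b) (e : ∀ x y, f (m x) y = f x (m' y)) (l : F) :
    Sg M a b (l • m - σ l • m') := by
  obtain ⟨n, h1, h2⟩ := hm
  obtain rfl : n = m' := LinearMap.ext fun y => h.fs fun x => by simpa [e] using (h1 1 x y).symm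
  exact h2 l

theorem ec_conj (s : W ≃ₗ[F] W) (hs : s ∈ h.hW.Om) (m : End F W) (hm : m ∈ Ec f M a b) (m' : End F W)
    (e : ∀ x, s (m' x) = m (s x)) : m' ∈ Ec f M a b := by
  obtain ⟨n, h1, h2⟩ := hm
  obtain ⟨j, j1, j2, j3⟩ := h.rm s hs
  refine ⟨s⁻¹.toLinearMap ∘ₗ n ∘ₗ s.toLinearMap, fun l x y => ?_, fun l => ?_⟩
  · rw [← (h.hW.om_le_isom hs).1, ← (h.hW.om_le_isom hs).1 x]
    simpa [e] using h1 l (s x) (s y)
  · obtain ⟨k, k1, k2, k3⟩ := h2 l
    exact ⟨j⁻¹ * k * j, mul_mem (mul_mem (inv_mem j1) k1) j1, fun x => inv_eq_of (y := k (j (a x))) (by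
      rw [j2, k2]), fun x => inv_eq_of (y := k (j (b x))) (by
        rw [map_add, j2, j3, k3]; simp [e])⟩

variable [FiniteDimensional F W] [FiniteDimensional F V]

theorem om_le {w : W} (h0 : w ≠ 0) (hw : q w = 0) (hm : (f w).smulRight w ∈ Ec f M a b) :
    h.hV.Om ≤ M := by
  obtain ⟨δ, hδ, hδ'⟩ := h.hW.nq
  have ww := h.hW.diag0 hw
  have cj : ∀ t ∈ h.hW.Om, ∀ u v u' v', (f u).smulRight v - (f u').smulRight v' ∈ Ec f M a b →
      (f (t u)).smulRight (t v) - (f (t u')).smulRight (t v') ∈ Ec f M a b := fun t ht u v u' v' hm =>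
    h.ec_conj _ (inv_mem ht) _ hm _ fun x => by simp [← (h.hW.om_le_isom ht).1 u, ← (h.hW.om_le_isom ht).1 u']
  have tv : ∀ u, q u = 0 → h.hW.eich u 0 δ ∈ h.hW.Om := fun u hu =>
    h.hW.eich_mem_om hu (map_zero _) (by simp [hδ', h.hW.Q_zero])
  obtain ⟨x, hx, wx, e1⟩ : ∃ x, q x = 0 ∧ f w x = 1 ∧ (f x).smulRight x ∈ Ec f M a b := by
    obtain ⟨x, hx, wx⟩ := h.hW.form.exists_partner h.hW.sep hw h0
    refine ⟨(-δ⁻¹) • h.hW.eich x 0 δ w, h.hW.sing_smul (((h.hW.om_le_isom (tv x hx)).2 w).trans hw) _,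
      by simp [h.hW.tv hx, ww, wx, h.hW.flip_one wx, hδ], ?_⟩
    convert Submodule.smul_mem _ (σ (-δ⁻¹) * -δ⁻¹) (cj _ (tv x hx) w w 0 0 (by simpa using hm)) using 1
    ext; simp only [LinearMap.smulRight_apply, LinearMap.map_smulₛₗ, LinearMap.smul_apply, map_zero,
      LinearMap.sub_apply]; module
  have xw := h.hW.flip_one wx
  have e2 : (f x).smulRight w - (f w).smulRight x ∈ Ec f M a b := by
    rw [← Submodule.smul_mem_iff _ hδ]
    convert sub_mem (sub_mem e1 (cj _ (tv w hw) x x 0 0 (by simpa using e1))) (Submodule.smul_mem _ (δ * δ) hm)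
      using 1
    ext; simp [h.hW.tv hw, wx, hδ']; module
  have e3 : ∀ z, f w z = 0 → h.hV.eich (a w) (a z) 0 ∈ M := fun z hz => by
    obtain ⟨c, hc⟩ := h.hW.exists_tau z
    have e3 : (f z).smulRight w - (f w).smulRight z ∈ Ec f M a b := by
      convert add_mem (sub_mem e2 (cj _ (h.hW.eich_mem_om hw hz hc) _ _ _ _ e2))
        (Submodule.smul_mem _ (σ (f z x - c) - (f z x - c)) hm) using 1
      ext; simp [h.hW.eich_apply hw hz, wx, ww, h.hW.refl hz]; module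
    obtain ⟨l, hl⟩ : ∃ l, l + σ l = 1 := by
      obtain ⟨l, hl⟩ := h.hW.ne
      replace hl := sub_ne_zero.2 hl
      exact ⟨-l / (σ l - l), by
        rw [map_div₀, map_sub, h.hW.invol, ← neg_sub (σ l), map_neg, neg_div_neg_eq]; field_simp; ring⟩
    obtain ⟨k, k1, k2, k3⟩ := h.sg_of_ec e3 (m' := (f w).smulRight z - (f z).smulRight w)
      (fun x y => by simp [h.hW.hs]; ring) l
    refine (h.ext' (k := k) (fun x => ?_) fun x => ?_).subst (motive := (· ∈ M)) k1 <;>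
      rw [h.hV.eich_apply (h.Qa w) (h.aa _ _)]
    · simp [k2, h.aa]
    · simp [k3, h.ab]; linear_combination (norm := module) hl • (f z x • a w - f w x • a z)
  have e4 : ∀ u, q u = 0 → (f u).smulRight u ∈ Ec f M a b → ∀ c, σ c = -c → h.hV.eich (a u) 0 c ∈ M :=
    fun u hu hm c hc => by
    obtain ⟨l, hl⟩ := h.hW.ne
    replace hl := sub_ne_zero.2 hl
    obtain ⟨k, k1, k2, k3⟩ := h.sg_of_ec hm (m' := (f u).smulRight u) (fun x y => by simp [h.hW.hs]; ring)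
      (c / (σ l - l) * l)
    refine (h.ext' (k := k) (fun x => ?_) fun x => ?_).subst (motive := (· ∈ M)) k1 <;>
      rw [h.hV.tv (h.Qa u)]
    · simp [k2, h.aa]
    · rw [k3, map_mul, map_div₀, hc, map_sub σ, h.hW.invol, ← neg_sub (σ l), neg_div_neg_eq]
      simp [h.ab]; match_scalars <;> field_simp <;> ring
  have e5 : ∀ z, f w z = 0 → a z ∈ h.hV.Arm M (a w) := fun z hz c => (h.hV.mem_ar (h.Qa w)).2
    ⟨by simp [h.aa], 0, by simp [h.hV.Q_smul, h.Qa], by simpa using e3 (c • z) (by simp [hz])⟩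
  obtain ⟨j, j1, j2, j3⟩ := h.wey hδ' hδ
  have e6 : ∀ z, f w z = 0 → ∀ y, a y ∈ h.hV.Arm M (a w) → f z y • b w - f w y • b z ∈ h.hV.Arm M (a w) :=
    fun z hz y hy => by
    have k1 := mul_mem (mul_mem j1 (e3 z hz)) (inv_mem j1)
    rw [h.hV.conj_eich (h.le j1), j2, j2] at k1
    have k2 := sub_mem (h.hV.map_mem_arm h.le k1 (h.hV.eich_fix _ (by simp [h.ba, ww])
      (by simp [h.ba, h.hW.refl hz])) hy) hy
    rw [h.hV.eich_apply (by simp [h.hV.qq, h.bb]) (by simp [h.bb])] at k2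
    convert Submodule.smul_mem _ (-(δ * δ)) k2 using 1
    simp [h.ba, hδ']; match_scalars <;> field_simp <;> ring
  have e7 : b w ∈ h.hV.Arm M (a w) := by
    have h9 := h.hW.form.finrank_perp h.hW.sep (F ∙ w)
    obtain ⟨z, h10, h11⟩ := exists_not_mem_of_lt (W := F ∙ w) (U := perp f (F ∙ w)) (by
      rw [finrank_span_singleton h0, h.dW] at *; omega)
    obtain ⟨y, h12, h13⟩ := h.hW.perp_one h11
    simpa [h12, h13] using e6 z (h10 w (Submodule.mem_span_singleton_self w)) y (e5 y h12)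
  have e8 : a x ∈ h.hV.Arm M (a w) := by
    have := sub_mem e7 (h.hV.map_mem_arm h.le (e4 x hx e1 δ hδ') (h.hV.eich_fix _ (h.aa _ _) (by simp)) e7)
    rwa [h.hV.tv (h.Qa x), sub_sub_cancel, Submodule.smul_mem_iff _ (by simp [h.ab, xw, hδ])] at this
  have e9 : h.hV.Full M (a w) := h.hV.full_of_ar (h.Qa w) (fun y hy => h.hV.ar_of_arm (by
    rw [h.Ba] at hy
    convert add_mem (add_mem (e5 (p y - f w (p y) • x) (by simp [wx])) (Submodule.smul_mem _ (f w (p y)) e8))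
      (sub_mem (Submodule.smul_mem _ (f (r y) x) e7) (e6 _ hy x e8)) using 1
    simp [wx, h.dec])) fun c hc => e4 w hw hm c (eq_neg_of_add_eq_zero_right hc)
  obtain ⟨i, i1, i2, -⟩ := h.rm _ (tv x hx)
  exact h.hV.om_le_of_full h.le e9 ((e9.map h.le i1).map h.le j1) (by
    simp [i2, j2, h.ab, h.hW.tv hx, ww, wx, xw, hδ])

theorem rig [Finite F] (hM : ¬ h.hV.Om ≤ M) (hk : k ∈ M) (h1 : ∀ x, k (a x) = a x) :
    ∃ c : F, ∀ v, k v = v + c • a (r v) := by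
  have h2 : ∀ y, k (b y) = b y + a (p (k (b y))) := fun y => by
    rw [← h.dec (k (b y)), h.fs (x := r (k (b y))) (y := y) fun z => by
      rw [← h.Ba, ← h1, (h.le hk).1, h.ab], add_comm]
    simp [h.pa, h.pb]
  by_contra! h3
  obtain ⟨w, h4, h5, h6⟩ := exists_rank_one_herm h.hW h.ec_conj (by simp [h.dW]) (.inl h.dW.ge)
    (h.ec_of_sg (φ := p ∘ₗ k.toLinearMap ∘ₗ b) ⟨k, hk, h1, h2⟩) fun c hc => (h3 c).elim fun v hv => hv (by
      rw [← h.dec v, map_add, h1, h2, show p (k (b (r v))) = c • r v from LinearMap.congr_fun hc _]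
      simp [h.ra, h.rb, add_assoc])
  exact hM (h.om_le h4 h5 h6)

end T6

end Cfsg.Agent.H19.TV
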