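import Cfsg.Agent.H19.TV1

/-! `GU₂ ⊗ GU₃` in `SU₆`: conjugates of the root group. -/

set_option autoImplicit false
set_option maxHeartbeats 400000

namespace Cfsg.Agent.H19.TV

open Module H10 H11 H26.MX TA

variable {F : Type*} [Field F] {σ : F →+* F} {V W : Type*} [AddCommGroup V] [Module F V] [AddCommGroup W]
  [Module F W] {f : W →ₛₗ[σ] W →ₗ[F] F} {q : W → F} {B : V →ₛₗ[σ] V →ₗ[F] F} {Q : V → F}
  {M : Subgroup (V ≃ₗ[F] V)} {a b : W →ₗ[F] V} {p r : V →ₗ[F] W} {j k : V ≃ₗ[F] V} {N N' : End F V}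

/-- conjugates of the root group -/
def Cj (M : Subgroup (V ≃ₗ[F] V)) (a : W →ₗ[F] V) (r : V →ₗ[F] W) (N : End F V) : Prop :=
  ∃ k ∈ M, ∀ v, N (k v) = k (a (r v))

theorem cj0 : Cj M a r (a ∘ₗ r) := ⟨1, one_mem _, fun _ => rfl⟩

theorem Cj.conj (h : Cj M a r N) (hk : k ∈ M) (e : ∀ v, N' (k v) = k (N v)) : Cj M a r N' :=
  let ⟨j, j1, j2⟩ := h; ⟨k * j, mul_mem hk j1, fun v => by rw [mul_app, e, j2, mul_app]⟩

theorem Cj.pull (h : Cj M a r N) (hk : k ∈ M) : ∃ N', Cj M a r N' ∧ ∀ v, N (k v) = k (N' v) :=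
  ⟨k⁻¹.toLinearMap ∘ₗ N ∘ₗ k.toLinearMap, h.conj (inv_mem hk) fun v => by simp, fun v => by simp⟩

namespace T6
variable (h : T6 f q B Q M a b p r)
include h

theorem a0 {x : W} (e : a x = 0) : x = 0 := by rw [← h.pa x, e, map_zero]

theorem csq (n : Cj M a r N) (v : V) : N (N v) = 0 := by
  obtain ⟨k, -, e⟩ := n
  obtain ⟨v, rfl⟩ := k.surjective v
  simp [e, h.ra]

theorem csym (n : Cj M a r N) (u v : V) : B (N u) v = B u (N v) := by
  obtain ⟨k, hk, e⟩ := n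
  obtain ⟨u, rfl⟩ := k.surjective u
  obtain ⟨v, rfl⟩ := k.surjective v
  rw [e, e, (h.le hk).1, (h.le hk).1, ← h.hV.hs _ u, h.Ba, h.Ba, h.hW.hs]

theorem cker (n : Cj M a r N) {v : V} (hv : N v = 0) : ∃ u, v = N u := by
  obtain ⟨k, hk, e⟩ := n
  obtain ⟨v, rfl⟩ := k.surjective v
  rw [e, k.map_eq_zero_iff] at hv
  exact ⟨k (b (p v)), by rw [e, h.rb, ← add_zero (a _), ← b.map_zero, ← h.a0 hv, h.dec]⟩

theorem cti (n : Cj M a r N) {u v : V} (hu : N u = 0) (hv : N v = 0) : B u v = 0 := by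
  obtain ⟨u, rfl⟩ := h.cker n hu
  rw [h.csym n, hv, map_zero]

theorem exN {d : F} (hd : σ d = -d) : ∃ k ∈ M, ∀ v, k v = v + d • a (r v) :=
  let ⟨k, k1, k2, k3⟩ := h.up d hd
  ⟨k, k1, fun v => by rw [← h.dec v, map_add, k2, k3]; simp [h.ra, h.rb, add_assoc]⟩

theorem cmem (n : Cj M a r N) {d : F} (hd : σ d = -d) : ∃ k ∈ M, ∀ v, k v = v + d • N v := by
  obtain ⟨k, hk, e⟩ := n
  obtain ⟨j, j1, j2⟩ := h.exN hd
  refine ⟨k * j * k⁻¹, mul_mem (mul_mem hk j1) (inv_mem hk), fun v => ?_⟩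
  obtain ⟨v, rfl⟩ := k.surjective v
  simp [j2, e]

theorem csymm (n : Cj M a r N) (n' : Cj M a r N') (e : ∀ v, N v = 0 → N' v = 0) (v : V) (hv : N' v = 0) :
    N v = 0 := by
  obtain ⟨u, rfl⟩ := h.cker n' hv
  exact h.hV.sep _ fun y => by rw [h.csym n, h.csym n', e _ (h.csq n y), map_zero]

theorem exT {w : W} (hw : q w = 0) {d : F} (hd : σ d = -d) :
    ∃ k ∈ M, ∀ v, k v = v - (d * f w (p v)) • a w - (d * f w (r v)) • b w := by
  obtain ⟨k, k1, k2, k3⟩ := h.rm _ (h.hW.eich_mem_om (w := 0) (c := d) hw (map_zero _) (by simp [hd, h.hW.Q_zero]))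
  refine ⟨k, k1, fun v => ?_⟩
  conv_lhs => rw [← h.dec v, map_add, k2, k3, h.hW.tv hw, h.hW.tv hw]
  rw [map_sub, map_sub, sub_add_sub_comm, h.dec, map_smul, map_smul, sub_sub]

variable [FiniteDimensional F W]

theorem perp2 {x y : W} (li : ∀ s t : F, s • x + t • y = 0 → s = 0 ∧ t = 0) :
    ∃ u, u ≠ 0 ∧ f x u = 0 ∧ f y u = 0 ∧ ∀ z, f x z = 0 → f y z = 0 → ∃ c : F, c • u = z := by
  have e1 := h.hW.form.finrank_perp h.hW.sep (Submodule.span F {x, y})
  have e2 := finrank_span_eq_card (LinearIndependent.pair_iff.2 li)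
  rw [show Set.range ![x, y] = {x, y} by simp [Set.pair_comm y x], Fintype.card_fin] at e2
  obtain ⟨⟨u, hu⟩, h0, h1⟩ := finrank_eq_one_iff'.1 (show finrank F (perp f (Submodule.span F {x, y})) = 1 by
    have := h.dW; omega)
  rw [mem_perp_span] at hu
  exact ⟨u, by simpa using h0, hu x (by simp), hu y (by simp), fun z a b =>
    (h1 ⟨z, mem_perp_span.2 (by simp [a, b])⟩).imp fun c => congrArg Subtype.val⟩

theorem exv (n : Cj M a r N) {z : W} (hz : ∀ y, N (a y) = 0 → f y z = 0) : ∃ v, N v = 0 ∧ r v = z :=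
  h.hW.form.mem_of_perp h.hW.sep (W := (LinearMap.ker N).map r) fun y hy => h.hW.refl (hz y (h.hV.sep _
    fun v => by rw [h.csym n, h.Ba]; exact h.hW.refl (hy _ ⟨_, h.csq n v, rfl⟩)))

theorem hyp {y : W} (hy : q y ≠ 0) {w : W} (h0 : w ≠ 0) (hw : q w = 0) (yw : f y w = 0) :
    ∃ x, q x = 0 ∧ f w x = 1 ∧ f y x = 0 := by
  obtain ⟨x, h1, h2⟩ := h.hW.exists_partner_in' (h.hW.form.nondegOn_perp h.hW.sep (W := F ∙ y) fun u hu h1 => by
    obtain ⟨c, rfl⟩ := Submodule.mem_span_singleton.1 hu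
    have := h1 y (Submodule.mem_span_singleton_self y)
    rw [h.hW.qq] at hy
    simp [hy] at this
    simp [this]) (mem_perp_span.2 (by simpa)) hw h0
  exact ⟨x, h2.1, h2.2, h1 y (Submodule.mem_span_singleton_self y)⟩

variable [FiniteDimensional F V] [Finite F]

theorem exw {y : W} (hy : y ≠ 0) : ∃ w, w ≠ 0 ∧ q w = 0 ∧ f y w = 0 := by
  have h9 := h.hW.form.finrank_perp h.hW.sep (F ∙ y)
  rw [finrank_span_singleton hy, h.dW] at h9
  obtain ⟨w, h1, h2, h3⟩ := h.hW.exists_sing (W := perp f (F ∙ y)) (.inr ⟨by omega, h.hW.nq'⟩)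
  exact ⟨w, h2, h3, h1 y (Submodule.mem_span_singleton_self y)⟩

variable (hM : ¬ h.hV.Om ≤ M)
include hM

theorem cmp (n : Cj M a r N) (n' : Cj M a r N') (e : ∀ v, N v = 0 → N' v = 0) :
    ∃ c : F, ∀ v, N' v = c • N v := by
  obtain ⟨δ, hδ, hδ'⟩ := h.hW.nq
  obtain ⟨j, j1, j2⟩ := h.cmem n' hδ'
  have n2 := h.csq n
  obtain ⟨k, hk, e'⟩ := n
  obtain ⟨c, hc⟩ := h.rig hM (mul_mem (mul_mem (inv_mem hk) j1) hk) fun x => inv_eq_of (y := j (k (a x))) (by
    rw [j2, e _ (by simp [e', h.ra]), smul_zero, add_zero])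
  refine ⟨δ⁻¹ * c, fun v => ?_⟩
  obtain ⟨v, rfl⟩ := k.surjective v
  have := congrArg k (hc v)
  simp only [mul_app, app_inv, j2 (k v), map_add, map_smul, add_right_inj] at this
  rw [mul_smul, e', ← this, inv_smul_smul₀ hδ]

theorem w0 (n : Cj M a r N) (e : ∀ v, N v = 0 → N (a (r v)) = 0) (x₀ : W) : N (a x₀) = 0 := by
  by_contra h0
  obtain ⟨δ, hδ, hδ'⟩ := h.hW.nq
  obtain ⟨T, T1, T2⟩ := h.exN hδ'
  obtain ⟨N', n', e'⟩ := n.pull T1
  obtain ⟨μ, hμ⟩ := h.cmp hM n n' fun v hv => T.injective (by simp [← e', T2 v, hv, e v hv])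
  have h1 : ∀ v, N v + δ • N (a (r v)) = μ • (N v + δ • a (r (N v))) := fun v => by
    rw [← T2, ← map_smul T, ← hμ, ← e', T2, map_add, map_smul]
  have h2 : μ = 1 := by_contra fun h2 => h0 (by
    have h3 := h1 (a x₀)
    have h4 := congrArg r h3
    simp only [h.ra, map_zero, smul_zero, add_zero, map_smul, map_add] at h3 h4
    have h5 := sub_ne_zero.2 h2
    have h6 : r (N (a x₀)) = 0 := (smul_eq_zero_iff_right h5).1 (by rw [sub_smul, ← h4]; simp)
    exact (smul_eq_zero_iff_right h5).1 (by rw [h6] at h3; rw [sub_smul, one_smul, sub_eq_zero, eq_comm]; simpa using h3))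
  let m : End F W := r ∘ₗ N ∘ₗ b
  have h3 : ∀ x, N (a x) = a (m x) := fun x => by simpa [h2, hδ, h.rb, m] using h1 (b x)
  have h4 : ∀ x y, f (m x) y = f x (m y) := fun x y => by rw [← h.ab, ← h3, h.csym n, h.Ba]; rfl
  have h5 : ∀ x, m (m x) = 0 := fun x => h.a0 (by rw [← h3, ← h3, h.csq n])
  have h6 : m x₀ ≠ 0 := fun h6 => h0 (by rw [h3, h6, map_zero])
  have h7 : ∀ y, ∃ c : F, c • m x₀ = m y := fun y => by
    have := m.finrank_range_add_finrank_ker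
    have h7 := Submodule.finrank_mono (show LinearMap.range m ≤ LinearMap.ker m by
      rintro _ ⟨x, rfl⟩; exact h5 x)
    have h8 := (LinearMap.range m).finrank_eq_zero.not.2 fun e => h6 (e.le ⟨x₀, rfl⟩)
    exact ((finrank_eq_one_iff_of_nonzero' (⟨_, x₀, rfl⟩ : LinearMap.range m)
      fun e => h6 (congrArg Subtype.val e)).1 (by
      have := h.dW; omega) ⟨_, y, rfl⟩).imp fun c => congrArg Subtype.val
  have ww : f (m x₀) (m x₀) = 0 := by rw [h4, h5, map_zero]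
  have h8 := h5 x₀
  generalize m x₀ = w at h6 h7 ww h8
  obtain ⟨x, wx⟩ := h.hW.form.exists_right_eq_one h.hW.sep h6
  have xw := h.hW.flip_one wx
  obtain ⟨c, hc⟩ := h7 x
  have h9 : σ c = c := by simpa [← hc, wx, xw] using h4 x x
  have h10 : ∀ y, m y = (c * f w y) • w := fun y => by
    obtain ⟨e, he⟩ := h7 y
    rw [← he, show e = c * f w y by simpa [← hc, ← he, xw, h9] using (h4 x y).symm]
  have h11 : ∀ d, σ d = -d → ∃ l : F, ∀ y, d • N (b y) - (d * c * f w y) • (b w + d • N (b w)) = l • a y :=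
    fun d hd => by
    obtain ⟨k, k1, k2⟩ := h.cmem n hd
    obtain ⟨j, j1, j2⟩ := h.exT ((h.hW.qq w).trans ww) (d := d * c) (by simp [hd, h9])
    obtain ⟨l, hl⟩ := h.rig hM (mul_mem k1 j1) fun y => by
      simp [j2, k2, h.pa, h.ra, h3, h8, h10 y, smul_smul, mul_assoc]
    exact ⟨l, fun y => by
      have := hl (b y)
      simp only [mul_app, j2, k2, h.pb, h.rb, map_sub, map_smul, map_zero] at this
      linear_combination (norm := module) this⟩
  obtain ⟨t, t1, t2, t3⟩ := h.three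
  obtain ⟨l, hl⟩ := h11 δ hδ'
  obtain ⟨l', hl'⟩ := h11 (t * δ) (by simp [t1, hδ'])
  have k1 := hl w
  have k2 := hl' w
  have k3 := hl x
  have k4 := hl' x
  simp only [ww, wx, mul_zero, zero_smul, sub_zero, mul_one] at k1 k2 k3 k4
  have aw : a w ≠ 0 := fun e => h6 (h.a0 e)
  have k5 : l' = t * l := smul_left_injective F aw (by linear_combination (norm := module) t • k1 - k2)
  have k6 : (t * (t - 1) * δ * c * l) • a w = 0 := by
    rw [k5] at k4; linear_combination (norm := module) t • k3 - k4 - (t * (t - 1) * δ * c) • k1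
  have k7 : c ≠ 0 := by rintro rfl; obtain ⟨e, he⟩ := h7 x₀; exact h0 (by simp [h3, h10 x₀])
  have k8 : l = 0 := by simpa [aw, t2, sub_ne_zero.2 t3, hδ, k7] using k6
  have h12 := h.hW.form.finrank_perp h.hW.sep (F ∙ w)
  obtain ⟨z, h13, h14⟩ := exists_not_mem_of_lt (W := F ∙ w) (U := perp f (F ∙ w)) (by
    rw [finrank_span_singleton h6, h.dW] at *; omega)
  obtain ⟨y, h15, h16⟩ := h.hW.perp_one h14
  simpa [h.ab, h16] using h.cti n (u := a z) (v := b y)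
    (by simp [h3, h10, h13 w (Submodule.mem_span_singleton_self w)]) (by simpa [h15, k8, hδ] using hl y)

theorem w1 (n : Cj M a r N) (n' : Cj M a r N') (e : ∀ v, N' v = 0 → N' (N v) = 0) (v : V) (hv : N v = 0) :
    N' v = 0 := by
  obtain ⟨u, rfl⟩ := h.cker n hv
  obtain ⟨k, hk, e1⟩ := n
  obtain ⟨N₂, n₂, e2⟩ := n'.pull hk
  obtain ⟨u, rfl⟩ := k.surjective u
  rw [e1, e2, h.w0 hM n₂ (fun v hv => k.injective (by rw [← e2, ← e1, e _ (by rw [e2, hv, map_zero]), map_zero])),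
    map_zero]

theorem two0 (n : Cj M a r N) {y : W} (y0 : y ≠ 0) (e : ∀ z, f y z = 0 → N (a z) = 0) (x₀ : W) :
    N (a x₀) = 0 := by
  have h1 : ∀ v, N v = 0 → ∃ c : F, c • y = r v := fun v hv => Submodule.mem_span_singleton.1
    (h.hW.form.mem_of_perp h.hW.sep fun z hz => h.hW.refl (by
      rw [← h.Ba, h.cti n (e z (hz y (Submodule.mem_span_singleton_self y))) hv]))
  by_cases yy : f y y = 0
  · exact h.w0 hM n (fun v hv => (h1 v hv).elim fun c hc => by simp [← hc, e y yy]) x₀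
  have h2 : ∀ x, N (a x) = (f y x / f y y) • N (a y) := fun x => by
    simpa [sub_eq_zero] using e (x - (f y x / f y y) • y) (by simp [yy])
  obtain ⟨δ, hδ, hδ'⟩ := h.hW.nq
  obtain ⟨w, w0, hw, yw⟩ := h.exw y0
  obtain ⟨x, -, wx, yx⟩ := h.hyp (by rwa [h.hW.qq]) w0 hw yw
  have ww := h.hW.diag0 hw
  have wy := h.hW.refl yw
  have h3 : ∀ v, N v = 0 → f w (r v) = 0 := fun v hv => (h1 v hv).elim fun c hc => by simp [← hc, wy]
  obtain ⟨μ, hμ⟩ : ∃ μ : F, N (b w) = μ • a w := by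
    obtain ⟨T, T1, T2⟩ := h.exT hw hδ'
    obtain ⟨N', n', e'⟩ := n.pull T1
    obtain ⟨ν, hν⟩ := h.cmp hM n n' fun v hv => T.injective (by simp [← e', T2 v, hv, h3 v hv, e w yw])
    have h4 : ∀ z, N (b z) - (δ * f w z) • N (b w) = ν • N (b z) - (δ * (ν * f w (p (N (b z))))) • a w :=
      fun z => by simpa [hν, T2, h.pb, h.rb, h3 _ (h.csq n _)] using e' (b z)
    by_cases h5 : ν = 1
    · exact ⟨_, smul_right_injective V hδ (by simpa [h5, wx, smul_smul] using h4 x)⟩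
    · refine ⟨ν * (δ * f w (p (N (b w)))) / (ν - 1), smul_right_injective V (sub_ne_zero.2 h5) ?_⟩
      have := h4 w
      simp only [smul_smul, mul_div_cancel₀ _ (sub_ne_zero.2 h5), ww] at this ⊢
      linear_combination (norm := module) -this
  obtain ⟨c, hc⟩ := h.hW.exists_tau y
  obtain ⟨j, j1, j2, j3⟩ := h.rm _ (h.hW.eich_mem_om hw wy hc)
  have jw : j (a w) = a w := by rw [j2, h.hW.eich_fix c ww yw]
  have h4 : ∀ v, f w (p v) = 0 → f w (r v) = 0 → j⁻¹ v = v - f y (p v) • a w - f y (r v) • b w :=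
    fun v h4 h5 => inv_eq_of (by
      rw [map_sub, map_sub, map_smul, map_smul, jw, j3, h.hW.eich_fix c ww yw]
      conv_lhs => enter [1, 1]; rw [← h.dec v, map_add, j2, j3, h.hW.eich_of_perp hw wy _ h4,
        h.hW.eich_of_perp hw wy _ h5, map_add, map_add, add_add_add_comm, h.dec, map_smul, map_smul]
      abel)
  have h5 : ∀ v, f w (r v) = 0 → j⁻¹ (N v) = N v - f y (p (N v)) • a w - f y (r (N v)) • b w := fun v hv =>
    h4 _ (by simp [← h.Bb, ← h.csym n, hμ, h.Ba, hv]) (h3 _ (h.csq n v))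
  obtain ⟨T, T1, T2⟩ := h.cmem n hδ'
  obtain ⟨κ, κ1, h6⟩ : ∃ κ ∈ M, ∀ v, κ v = v + δ • j⁻¹ (N (j v)) :=
    ⟨_, mul_mem (mul_mem (inv_mem j1) T1) j1, fun v => by simp [T2]⟩
  obtain ⟨N', n', e'⟩ := n.pull (inv_mem κ1)
  have h7 : κ⁻¹ (a w) = a w := inv_eq_of (by simp [h6, jw, e w yw])
  have h8 := h.csymm n n' (h.w1 hM n n' fun v hv => κ⁻¹.injective (by
    obtain ⟨u, rfl⟩ := κ.surjective v
    have h8 : N u = 0 := by simpa [hv] using e' (κ u)
    rw [← e', h6, map_add, map_smul, h5 _ (by rw [← h.Ba, ← jw, (h.le j1).1, h.Ba, h3 u h8])]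
    simp only [h8, h.csq n, hμ, e w yw, h7, map_sub, map_smul, map_zero, smul_zero, zero_add, sub_zero]))
    (κ (a x)) (κ⁻¹.injective (by rw [← e', inv_app, e x yx, map_zero]))
  have h9 : N (j (a x)) = N (-a y) := by simp [j2, h.hW.eich_apply hw wy, wx, e x yx, e w yw]
  rw [h6, h9, h5 _ (by simp [h.ra])] at h8
  have h10 : f y (r (N (a y))) * μ = 0 := by
    simpa [e x yx, h.csq n, e w yw, hμ, hδ, smul_smul, w0, (h.a0 (x := w)).mt w0] using h8
  have h11 : μ ≠ 0 := by rintro rfl; simpa [h.ab, h.hW.flip_one wx] using h.cti n (e x yx) (hμ.trans (zero_smul _ _))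
  obtain ⟨β, hβ⟩ := h1 _ (h.csq n (a y))
  have h12 : β = 0 := by simpa [← hβ, yy, h11] using h10
  exact h.csymm n cj0 (h.w1 hM n cj0 fun v hv => by
    rw [← h.dec v, h.a0 hv]; simp [h2 (p v), ← hβ, h12]) _ (by simp [h.ra])

theorem two (n : Cj M a r N) (n' : Cj M a r N') {u v : V} (li : ∀ s t : F, s • u + t • v = 0 → s = 0 ∧ t = 0)
    (h1 : N u = 0) (h2 : N v = 0) (h3 : N' u = 0) (h4 : N' v = 0) (z : V) (hz : N z = 0) : N' z = 0 := by
  obtain ⟨k, hk, e1⟩ := n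
  obtain ⟨N₂, n₂, e2⟩ := n'.pull hk
  obtain ⟨u, rfl⟩ := k.surjective u
  obtain ⟨v, rfl⟩ := k.surjective v
  obtain ⟨z, rfl⟩ := k.surjective z
  have h5 : ∀ u, N (k u) = 0 → u = a (p u) := fun u hu => by
    simpa [h.a0 (k.map_eq_zero_iff.1 ((e1 u).symm.trans hu))] using (h.dec u).symm
  rw [h5 u h1] at li h3
  rw [h5 v h2] at li h4
  rw [e2, k.map_eq_zero_iff] at h3 h4
  obtain ⟨y, y0, y1, y2, y3⟩ := h.perp2 (x := p u) (y := p v) fun s t e => li s t (by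
    simpa using congrArg (fun x => k (a x)) e)
  rw [h5 z hz, e2, h.two0 hM n₂ y0 fun x hx => ?_, map_zero]
  obtain ⟨s, t, rfl⟩ := Submodule.mem_span_pair.1 (h.hW.form.mem_of_perp h.hW.sep
    (W := Submodule.span F {p u, p v}) (x := x) fun y' hy => by
      obtain ⟨c, rfl⟩ := y3 y' (hy _ (Submodule.subset_span (by simp))) (hy _ (Submodule.subset_span (by simp)))
      simp [h.hW.refl hx])
  simp [h3, h4]

theorem two_fix (n : Cj M a r N) (hj : j ∈ M) {u v : V} (li : ∀ s t : F, s • u + t • v = 0 → s = 0 ∧ t = 0)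
    (h1 : N u = 0) (h2 : N v = 0) (h3 : N (j u) = 0) (h4 : N (j v) = 0) (z : V) (hz : N z = 0) :
    N (j z) = 0 := by
  obtain ⟨N', n', e⟩ := n.pull hj
  rw [e, j.map_eq_zero_iff] at *
  exact h.two hM n n' li h1 h2 h3 h4 z hz

end T6

end Cfsg.Agent.H19.TV
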