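import Cfsg.Agent.H19.TV2

/-! `GU₂ ⊗ GU₃` in `SU₆`: distinct conjugates of `a ⊗ W` are disjoint. -/

set_option autoImplicit false
set_option maxHeartbeats 400000

namespace Cfsg.Agent.H19.TV

open Module H10 H11 H26.MX TA

variable {F : Type*} [Field F] {σ : F →+* F} {V W : Type*} [AddCommGroup V] [Module F V] [AddCommGroup W]
  [Module F W] {f : W →ₛₗ[σ] W →ₗ[F] F} {q : W → F} {B : V →ₛₗ[σ] V →ₗ[F] F} {Q : V → F}
  {M : Subgroup (V ≃ₗ[F] V)} {a b : W →ₗ[F] V} {p r : V →ₗ[F] W} {j k : V ≃ₗ[F] V} {N N' : End F V}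

namespace T6
variable (h : T6 f q B Q M a b p r)
include h

theorem Bv (u v : V) : B u v = f (p u) (r v) + f (r u) (p v) := by
  conv_lhs => rw [← h.dec u]
  simp [h.Ba, h.Bb]

theorem exU {l : F} (hl : σ l = -l) : ∃ k ∈ M, ∃ δ : F, δ ≠ 0 ∧ (∀ x, k (a x) = -δ⁻¹ • (b x + l • a x)) ∧
    ∀ x, k (b x) = δ • a x := by
  obtain ⟨δ, hδ, hδ'⟩ := h.hW.nq
  obtain ⟨j, j1, j2, j3⟩ := h.wey hδ' hδ
  obtain ⟨k, k1, k2, k3⟩ := h.up l hl
  exact ⟨k * j, mul_mem k1 j1, δ, hδ, fun x => by simp [j2, k3, add_comm], fun x => by simp [j3, k2]⟩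

variable [FiniteDimensional F W] [FiniteDimensional F V] [Finite F]

omit [FiniteDimensional F V] [Finite F] in
theorem dec3 {w x y : W} (ww : f w w = 0) (xx : f x x = 0) (wx : f w x = 1) (wy : f w y = 0) (xy : f x y = 0)
    (y0 : y ≠ 0) (z : W) : ∃ c : F, z = f x z • w + f w z • x + c • y := by
  have xw := h.hW.flip_one wx
  obtain ⟨u, -, -, -, h1⟩ := h.perp2 (x := w) (y := x) fun s t e =>
    ⟨by simpa [xw, xx] using congrArg (f x) e, by simpa [ww, wx] using congrArg (f w) e⟩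
  obtain ⟨c, rfl⟩ := h1 y wy xy
  obtain ⟨d, hd⟩ := h1 (z - f x z • w - f w z • x) (by simp [ww, wx]) (by simp [xx, xw])
  exact ⟨d / c, by rw [smul_smul, div_mul_cancel₀ _ (left_ne_zero_of_smul y0), hd]; abel⟩

omit [FiniteDimensional F V] in
theorem weyl {w x y : W} (hw : q w = 0) (hx : q x = 0) (wx : f w x = 1) (wy : f w y = 0) (xy : f x y = 0)
    (yy : f y y ≠ 0) {c : F} (c0 : c ≠ 0) :
    ∃ n ∈ h.hW.Om, n w = -c • x ∧ n x = -(σ c)⁻¹ • w ∧ ∃ κ : F, n y = κ • y := by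
  have ww := h.hW.diag0 hw
  have xx := h.hW.diag0 hx
  have xw := h.hW.flip_one wx
  obtain ⟨ν, hν⟩ := h.hW.isHerm.exists_norm (a := (c + σ c) / f y y) (by simp [h.hW.hs, h.hW.invol, add_comm])
  have h1 : f x (ν • y) = 0 := by simp [xy]
  have h2 := h.hW.eich_mem_om (c := c) hx h1 (by simp [h.hW.Q_smul, hν, h.hW.qq, yy])
  obtain ⟨z, c', h3, h4, h5⟩ := h.hW.exists_eich_apply (v := h.hW.eich x (ν • y) c w) (v' := -c • x) hw
    (by rw [(h.hW.om_le_isom h2).2, hw, h.hW.sing_smul hx])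
    (by simp [h.hW.eich_apply hx h1, ww, wx, xw, wy, h.hW.refl wy]) (by
      simp [h.hW.eich_apply hx h1, ww, wx, xw, wy, h.hW.refl wy, c0])
  have h6 := mul_mem (h.hW.eich_mem_om hw h3 h4) h2
  rw [← mul_app] at h5
  generalize h.hW.eich w z c' * _ = t at h5 h6
  obtain ⟨z', c'', h7, h8, h9⟩ := h.hW.exists_eich_apply (v := x) (v' := t⁻¹ (-(σ c)⁻¹ • w)) hw
    (by rw [← (h.hW.om_le_isom h6).2 (t⁻¹ _), app_inv, hx, h.hW.sing_smul hw])
    (by rw [← (h.hW.om_le_isom h6).1 w (t⁻¹ _), app_inv, h5]; simp [wx, xw, c0]) (by simp [wx])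
  have h10 := mul_mem h6 (h.hW.eich_mem_om hw h7 h8)
  have h11 : (t * h.hW.eich w z' c'') w = -c • x := by rw [mul_app, h.hW.eich_fix _ ww (h.hW.refl h7), h5]
  have h12 : (t * h.hW.eich w z' c'') x = -(σ c)⁻¹ • w := by rw [mul_app, h9, app_inv]
  refine ⟨_, h10, h11, h12, ?_⟩
  generalize t * _ = n at h10 h11 h12
  obtain ⟨κ, h13⟩ := h.dec3 ww xx wx wy xy (by rintro rfl; simp at yy) (n y)
  have h14 := (h.hW.om_le_isom h10).1 w y
  have h15 := (h.hW.om_le_isom h10).1 x y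
  simp [h11, h12, wy, xy, c0] at h14 h15
  exact ⟨κ, by simpa [h14, h15] using h13⟩

variable (hM : ¬ h.hV.Om ≤ M)
include hM

theorem d1 (n : Cj M a r N) {w : W} (w0 : w ≠ 0) (h1 : N (a w) = 0) (ww : f w w = 0) (x : W) : N (a x) = 0 := by
  by_cases h2 : ∀ y, N (a y) = 0 → f y w = 0
  · obtain ⟨v, h3, h4⟩ := h.exv n h2
    obtain ⟨δ, hδ, hδ'⟩ := h.hW.nq
    obtain ⟨T, T1, T2⟩ := h.exN hδ'
    exact h.w0 hM n (fun z hz => by
      simpa [T2, hz, hδ] using h.two_fix hM n T1 (u := a w) (v := v) (fun s t e => by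
        have : t = 0 := by simpa [h.ra, h4, w0] using congrArg r e
        exact ⟨by simpa [this, (h.a0 (x := w)).mt w0] using e, this⟩) h1 h3 (by simp [T2, h.ra, h1])
        (by simp [T2, h3, h4, h1]) z hz) x
  · push Not at h2
    obtain ⟨y, h2, h3⟩ := h2
    exact h.two hM cj0 n (u := a w) (v := a y) (fun s t e => by
      have : t = 0 := by simpa [h.ba, ww, h.hW.refl_ne h3] using congrArg (B (b w)) e
      exact ⟨by simpa [this, (h.a0 (x := w)).mt w0] using e, this⟩) (by simp [h.ra]) (by simp [h.ra]) h1 h2 _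
      (by simp [h.ra])

theorem n1 (n : Cj M a r N) {y : W} (yy : f y y ≠ 0) (h1 : N (a y) = 0) (x₀ : W) : N (a x₀) = 0 := by
  by_contra h0
  have y0 : y ≠ 0 := by rintro rfl; simp at yy
  have ay := (h.a0 (x := y)).mt y0
  have hy : q y ≠ 0 := by rwa [h.hW.qq]
  obtain ⟨δ, hδ, hδ'⟩ := h.hW.nq
  have h2 : ∀ z, N (a z) = 0 → ∃ c : F, c • y = z := fun z hz => by_contra fun h2 => h0
    (h.two hM cj0 n (u := a y) (v := a z) (fun s t e => by
      have h3 : t = 0 := by_contra fun h3 => h2 ⟨-s / t, smul_right_injective W h3 (by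
        have := congrArg p e
        simp only [map_add, map_smul, h.pa, map_zero] at this
        simp only [smul_smul, mul_div_cancel₀ _ h3]
        linear_combination (norm := module) -this)⟩
      exact ⟨by simpa [h3, ay] using e, h3⟩) (by simp [h.ra]) (by simp [h.ra]) h1 hz _ (by simp [h.ra]))
  have h3 : ∀ z, f y z = 0 → ∃ v, N v = 0 ∧ r v = z := fun z hz =>
    h.exv n fun u hu => (h2 u hu).elim fun c hc => by simp [← hc, hz]
  have li : ∀ v, r v ≠ 0 → ∀ s t : F, s • a y + t • v = 0 → s = 0 ∧ t = 0 := fun v hv s t e => by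
    have : t = 0 := by simpa [h.ra, hv] using congrArg r e
    exact ⟨by simpa [this, ay] using e, this⟩
  have h4 : ∀ v, N v = 0 → r v ≠ 0 → q (r v) = 0 → f (r v) (p v) ≠ 0 := fun v hv w0 hw h4 => by
    have yw : f y (r v) = 0 := by rw [← h.Ba, h.cti n h1 hv]
    obtain ⟨x, -, wx, yx⟩ := h.hyp hy w0 hw yw
    obtain ⟨u, h5, rfl⟩ := h3 x yx
    obtain ⟨T, T1, T2⟩ := h.exT hw hδ'
    have h6 := h.two_fix hM n T1 (li v w0) h1 hv (by simp [T2, h.pa, h.ra, h.hW.refl yw, h1])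
      (by simp [T2, h4, h.hW.diag0 hw, hv]) u h5
    have h7 : N (b (r v) + f (r v) (p u) • a (r v)) = 0 := smul_right_injective V hδ (by
      simp only [T2, map_sub, map_smul, h5, wx, map_add] at h6 ⊢
      linear_combination (norm := module) -h6)
    obtain ⟨c, hc⟩ := h2 (p v - f (r v) (p u) • r v) (by
      rw [← h.dec v] at hv
      simp only [map_sub, map_smul, map_add] at hv h7 ⊢
      linear_combination (norm := module) hv - h7)
    have h8 := h.cti n hv h5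
    rw [h.Bv, eq_add_of_sub_eq hc.symm] at h8
    obtain ⟨k, k1, ε, k0, k2, -⟩ := h.exU (l := f (r v) (p u)) (by
      simp [yx, wx] at h8; linear_combination h8)
    obtain ⟨N₂, n₂, e⟩ := n.pull k1
    have h9 := h.d1 hM n₂ w0 (k.injective (by rw [← e, k2, map_smul, h7]; simp)) (h.hW.diag0 hw) y
    simpa [k2, h.ab, h.aa, k0, yy] using h.cti n h1 ((e (a y)).trans (by simp [h9]))
  obtain ⟨w, w0, hw, yw⟩ := h.exw y0
  obtain ⟨x, hx, wx, yx⟩ := h.hyp hy w0 hw yw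
  have ww := h.hW.diag0 hw
  have xx := h.hW.diag0 hx
  have xw := h.hW.flip_one wx
  have wy := h.hW.refl yw
  have xy := h.hW.refl yx
  have h5 : ∀ z, f y z = 0 → ∃ s t : F, N (s • a w + t • a x + b z) = 0 := fun z hz => by
    obtain ⟨v, h5, rfl⟩ := h3 z hz
    obtain ⟨c, hc⟩ := h.dec3 ww xx wx wy xy y0 (p v)
    refine ⟨f x (p v), f w (p v), ?_⟩
    rw [← h.dec v, hc] at h5
    simpa [h1] using h5
  obtain ⟨P, s, v1⟩ := h5 w yw
  obtain ⟨ρ, t, v2⟩ := h5 x yx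
  have h6 : ∀ α β : F, N (α • a w + β • a x) = 0 → α = 0 ∧ β = 0 := fun α β e => by
    obtain ⟨c, hc⟩ := h2 (α • w + β • x) (by simpa using e)
    exact ⟨by simpa [xy, xw, xx] using (congrArg (f x) hc).symm, by
      simpa [wy, ww, wx] using (congrArg (f w) hc).symm⟩
  have s0 : s ≠ 0 := by simpa [h.ra, h.rb, h.pa, h.pb, ww, wx] using h4 _ v1 (by simpa [h.ra, h.rb]) (by
    simpa [h.ra, h.rb])
  have ρ0 : ρ ≠ 0 := by simpa [h.ra, h.rb, h.pa, h.pb, xx, xw] using h4 _ v2 (by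
    simp [h.ra, h.rb]; rintro rfl; simp at wx) (by simpa [h.ra, h.rb])
  have hs : σ s = -s := by
    have := h.cti n v1 v1
    simp [h.aa, h.ab, h.ba, h.bb, ww, wx, xw] at this
    linear_combination this
  have hρ : σ ρ = -ρ := by
    have := h.cti n v2 v2
    simp [h.aa, h.ab, h.ba, h.bb, xx, wx, xw] at this
    linear_combination this
  have hP : σ P = -t := by
    have := h.cti n v1 v2
    simp [h.aa, h.ab, h.ba, h.bb, xx, wx, ww] at this
    linear_combination this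
  have ht : σ t = -P := by simpa [h.hW.invol, neg_eq_iff_eq_neg] using (congrArg σ hP).symm
  by_cases two : (2 : F) = 0
  · have h7 : ∀ d, σ d = -d → d ≠ 0 → P - t = d * s := fun d hd d0 => by
      obtain ⟨T, T1, T2⟩ := h.exT hw hd
      obtain ⟨U, U1, U2⟩ := h.exN (d := d * s) (by rw [map_mul, hd, hs]; linear_combination d * s * two)
      have h7 := h.two_fix hM n (mul_mem U1 T1) (li _ (by simpa [h.ra, h.rb])) h1 v1
        (by simp [T2, U2, h.pa, h.ra, wy, h1]) (by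
          convert v1 using 2; simp [T2, U2, h.pa, h.ra, h.pb, h.rb, ww, wx]) _ v2
      refine mul_left_cancel₀ d0 (sub_eq_zero.1 ((by ring :  _ = d * P - d * t - d * s * d).trans
        (h6 _ (2 * d * s) ?_).1))
      simp [T2, U2, h.pa, h.ra, h.pb, h.rb, ww, wx] at h7 v1 v2 ⊢
      linear_combination (norm := module) h7 - v2 + d • v1
    obtain ⟨u, u1, u2, u3⟩ := h.three
    exact mul_ne_zero (mul_ne_zero (sub_ne_zero.2 u3) hδ) s0 (by
      linear_combination h7 δ hδ' hδ - h7 (u * δ) (by simp [u1, hδ']) (mul_ne_zero u2 hδ))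
  obtain ⟨d, hd⟩ := h.sq ((P - t) * (P - t) + 4 * ρ * s) (by simp [hP, ht, hρ, hs, map_ofNat]; ring)
  rcases mul_self_eq_mul_self_iff.1 (show σ d * σ d = d * d by
    rw [← map_mul, hd]; simp [hP, ht, hρ, hs, map_ofNat]; ring) with h7 | h7
  · obtain ⟨l, hl, hl'⟩ : ∃ l, σ l = -l ∧ ρ * l * l + (P - t) * l - s = 0 := ⟨(d - (P - t)) / (2 * ρ), by
      simp [hP, ht, hρ, h7, map_ofNat, div_neg]; ring, by field_simp; linear_combination hd⟩
    refine h4 ((P • a w + s • a x + b w) + l • (ρ • a w + t • a x + b x))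
      (by rw [map_add, map_smul, v1, v2]; simp) (fun e => ?_) ?_ ?_
    · simpa [h.ra, h.rb, xw, xx] using congrArg (f x) e
    · simp [h.ra, h.rb, h.hW.qq, ww, xx, wx, xw, hl]
    · simp [h.ra, h.rb, h.pa, h.pb, ww, xx, wx, xw, hl]; linear_combination -hl'
  obtain ⟨c, hc⟩ := h.hW.isHerm.exists_norm (a := -s / ρ) (by simp [hρ, hs, div_neg, neg_div])
  have c0 : c ≠ 0 := by rintro rfl; simp [s0, ρ0, eq_comm] at hc
  have c1 := h.hW.sigma_ne c0
  obtain ⟨m, m1, m2, m3, κ, m4⟩ := h.weyl hw hx wx wy xy yy c0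
  obtain ⟨j, j1, j2, j3⟩ := h.rm m m1
  obtain ⟨U, U1, U2⟩ := h.exN h7
  have hs' : s = -(σ c * c * ρ) := by rw [hc]; field_simp
  have e1 : (U * j) (P • a w + s • a x + b w) = -c • (-ρ • a w + (P + d) • a x + b x) := by
    simp [U2, j2, j3, m2, m3, h.ra, h.rb, hs']; match_scalars <;> field_simp <;> ring
  have e2 : (U * j) (ρ • a w + t • a x + b x) = -(σ c)⁻¹ • ((t + d) • a w + -s • a x + b w) := by
    simp [U2, j2, j3, m2, m3, h.ra, h.rb, hs']; match_scalars <;> field_simp <;> ring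
  have h8 := h.two_fix hM n (mul_mem U1 j1) (li (((P - t + d) * σ c) • (ρ • a w + t • a x + b x) +
      (2 * s / c) • (P • a w + s • a x + b w)) fun e => by
        simpa [h.ra, h.rb, xw, xx, two, s0, c0] using congrArg (f x) e) h1 (by
      rw [map_add, map_smul, map_smul, v1, v2]; simp) (by simp [U2, j2, m4, h.ra, h1]) (by
      rw [map_add (U * j), map_smul, map_smul, e1, e2]
      convert (show N (-(P - t + d) • (P • a w + s • a x + b w) + -(2 * s) • (ρ • a w + t • a x + b x)) = 0 by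
        rw [map_add, map_smul, map_smul, v1, v2]; simp) using 2
      match_scalars <;> field_simp <;> first | ring1 | linear_combination -hd) _ v2
  rw [e2, map_smul, smul_eq_zero_iff_right (by simpa)] at h8
  exact mul_ne_zero two s0 (h6 (P - t - d) _ (by
    simp only [map_add, map_smul] at h8 v1 ⊢
    linear_combination (norm := module) v1 - h8)).2

theorem meet (n : Cj M a r N) (n' : Cj M a r N') {u : V} (u0 : u ≠ 0) (h1 : N u = 0) (h2 : N' u = 0)
    (z : V) (hz : N z = 0) : N' z = 0 := by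
  obtain ⟨k, hk, e1⟩ := n
  obtain ⟨N₂, n₂, e2⟩ := n'.pull hk
  obtain ⟨u, rfl⟩ := k.surjective u
  obtain ⟨z, rfl⟩ := k.surjective z
  have h5 : ∀ u, N (k u) = 0 → u = a (p u) := fun u hu => by
    simpa [h.a0 (k.map_eq_zero_iff.1 ((e1 u).symm.trans hu))] using (h.dec u).symm
  rw [h5 u h1] at u0 h2
  rw [e2, k.map_eq_zero_iff] at h2
  rw [h5 z hz, e2, k.map_eq_zero_iff]
  by_cases h3 : f (p u) (p u) = 0
  · exact h.d1 hM n₂ (fun e => by simp [e] at u0) h2 h3 _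
  · exact h.n1 hM n₂ h3 h2 _

theorem norm (n : Cj M a r N) : ∃ α β l m : F, ∀ v, N v = α • a (l • p v + m • r v) + β • b (l • p v + m • r v) := by
  obtain ⟨δ, hδ, hδ'⟩ := h.hW.nq
  have h1 : ∀ w, q w = 0 → ∀ v, N v = 0 → N (f w (p v) • a w + f w (r v) • b w) = 0 := fun w hw v hv => by
    obtain ⟨T, T1, T2⟩ := h.exT hw hδ'
    obtain ⟨N', n', e⟩ := n.pull T1
    obtain ⟨k, -, e'⟩ := id n
    obtain ⟨z, h1, z0⟩ := Submodule.exists_mem_ne_zero_of_ne_bot (LinearMap.ker_ne_bot_of_finrank_lt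
      (f := ((f w ∘ₗ p).prod (f w ∘ₗ r)) ∘ₗ k.toLinearMap ∘ₗ a) (by simp [h.dW]))
    replace h1 : f w (p (k (a z))) = 0 ∧ f w (r (k (a z))) = 0 := ⟨congrArg Prod.fst h1, congrArg Prod.snd h1⟩
    have h2 : N (k (a z)) = 0 := by simp [e', h.ra]
    have h3 := congrArg T (h.meet hM n n' (u := k (a z)) (by simpa using (h.a0 (x := z)).mt z0) h2
      (T.injective (by simp [← e, T2 (k _), h1.1, h1.2, h2])) v hv)
    rw [← e, T2] at h3
    refine smul_right_injective V hδ ?_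
    simp only [map_sub, map_smul, map_add, hv, map_zero] at h3 ⊢
    linear_combination (norm := module) -h3
  obtain ⟨w₀, -, w0, hw₀⟩ := h.hW.exists_sing (W := ⊤) (.inl (by simp [h.dW]))
  obtain ⟨v, hv, v0⟩ : ∃ v, N v = 0 ∧ v ≠ 0 := let ⟨k, _, e⟩ := n
    ⟨k (a w₀), by simp [e, h.ra], by simpa using (h.a0 (x := w₀)).mt w0⟩
  obtain ⟨w, hw, h2⟩ : ∃ w, q w = 0 ∧ ¬ (f w (p v) = 0 ∧ f w (r v) = 0) := by
    by_contra! h2
    have h3 : ∀ z, (∀ w, q w = 0 → f w z = 0) → z = 0 := fun z hz => h.hW.sep z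
      (h.hW.eq_top w0 hw₀ (S := LinearMap.ker (f z)) (h.hW.refl (hz _ hw₀)) fun b hb _ => h.hW.refl (hz b hb))
    exact v0 (by rw [← h.dec v, h3 _ fun w hw => (h2 w hw).1, h3 (r v) fun w hw => (h2 w hw).2]; simp)
  have h3 := h1 w hw v hv
  have w0 : w ≠ 0 := by rintro rfl; simp at h2
  generalize f w (p v) = α at *
  generalize f w (r v) = β at *
  obtain ⟨x, hx, wx⟩ := h.hW.form.exists_partner h.hW.sep hw w0
  by_cases h4 : β = 0
  · obtain ⟨c, hc⟩ := h.cmp hM cj0 n (h.meet hM cj0 n (u := α • a w + β • b w) (by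
      simpa [h4, (h.a0 (x := w)).mt w0] using h2) (by simp [h4, h.ra]) h3)
    exact ⟨c, 0, 0, 1, by simp [hc]⟩
  have h5 := h.cti n h3 (h1 x hx _ h3)
  simp [h.pa, h.pb, h.ra, h.rb, h.hW.flip_one wx, h.aa, h.ab, h.ba, h.bb, wx] at h5
  obtain ⟨k, k1, ε, k0, k2, k3⟩ := h.exU (l := α / β) (by
    have := h.hW.sigma_ne h4
    rw [map_div₀]; field_simp; linear_combination h5)
  generalize hl : α / β = l at k2
  have n' : Cj M a r (-(ε * ε)⁻¹ • (b + l • a) ∘ₗ (p - l • r)) := ⟨k, k1, fun v => by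
    conv_lhs => rw [← h.dec v]
    simp [k2, k3, h.pa, h.pb, h.ra, h.rb]; match_scalars <;> field_simp <;> ring⟩
  obtain ⟨c, hc⟩ := h.cmp hM n' n (h.meet hM n' n (u := α • a w + β • b w)
    (fun e => by simpa [h.ra, h.rb, h4, w0] using congrArg r e)
    (by simp [h.pa, h.pb, h.ra, h.rb, ← hl, smul_smul, h4]) h3)
  exact ⟨-c * (ε * ε)⁻¹ * l, -c * (ε * ε)⁻¹, 1, -l, fun v => by simp [hc]; module⟩

theorem tens (hk : k ∈ M) (x : W) : ∃ y, ∀ s t : F, ∃ s' t' : F, k (s • a x + t • b x) = s' • a y + t' • b y := by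
  obtain ⟨δ, hδ, hδ'⟩ := h.hW.nq
  obtain ⟨j, j1, j2, j3⟩ := h.wey hδ' hδ
  obtain ⟨N, n, e⟩ := (cj0 (a := a) (r := r)).pull (inv_mem hk)
  obtain ⟨N', n', e'⟩ := (cj0 (a := a) (r := r)).pull (inv_mem (mul_mem hk j1))
  obtain ⟨α, β, l, m, h1⟩ := h.norm hM n
  obtain ⟨α', β', l', m', h2⟩ := h.norm hM n'
  have h3 : k (a x) = N (k (b x)) := k⁻¹.injective (by simp [← e, h.rb])
  have h4 : k (b x) = N' ((-δ * δ) • k (a x)) := (k * j)⁻¹.injective (by
    rw [← e', show k (b x) = (k * j) (-δ • a x) by simp [j2, smul_smul, hδ],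
      show (-δ * δ) • k (a x) = (k * j) (-δ • b x) by simp [j3, smul_smul], inv_app, inv_app]
    simp [h.rb])
  rw [h1] at h3
  generalize l • p (k (b x)) + m • r (k (b x)) = y at h3
  rw [h3, h2] at h4
  refine ⟨y, fun s t => ⟨s * α - t * α' * δ * δ * (l' * α + m' * β), s * β - t * β' * δ * δ * (l' * α + m' * β), ?_⟩⟩
  rw [map_add, map_smul, map_smul, h3, h4]
  simp [h.pa, h.pb, h.ra, h.rb]; module

end T6

end Cfsg.Agent.H19.TV
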