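import Cfsg.Agent.H19.TV3

/-! `GU₂ ⊗ GU₃` in `SU₆`. -/

set_option autoImplicit false
set_option maxHeartbeats 400000

namespace Cfsg.Agent.H19.TV

open Module H10 H11 H26 H26.MX Cfsg.Geo Matrix Kronecker TA

variable {F : Type*} [Field F] {σ : F →+* F}

section abs
variable {U W : Type*} [AddCommGroup U] [Module F U] [AddCommGroup W] [Module F W]
  {g : U →ₛₗ[σ] U →ₗ[F] F} {f : W →ₛₗ[σ] W →ₗ[F] F} {q : W → F}
  {B : (W →ₗ[F] U) →ₛₗ[σ] (W →ₗ[F] U) →ₗ[F] F} [FiniteDimensional F U] [FiniteDimensional F W]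

theorem exrm [Finite F] {B : U →ₛₗ[σ] U →ₗ[F] F} {a b : W →ₗ[F] U} {p r : U →ₗ[F] W} (hW : Hm σ f q)
    (hV : Hm σ B fun v => B v v) (dec : ∀ v, a (p v) + b (r v) = v) (pa : ∀ x, p (a x) = x)
    (pb : ∀ x, p (b x) = 0) (ra : ∀ x, r (a x) = 0) (rb : ∀ x, r (b x) = x)
    (Bv : ∀ u v, B u v = f (p u) (r v) + f (r u) (p v)) {t : W ≃ₗ[F] W} (ht : t ∈ hW.Om) :
    ∃ k ∈ hV.Om, (∀ x, k (a x) = a (t x)) ∧ ∀ x, k (b x) = b (t x) := by
  let E : U ≃ₗ[F] W × W := LinearEquiv.ofLinearMap (p.prod r) (a.coprod b)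
    (LinearMap.ext fun x => by simp [pa, pb, ra, rb]) (LinearMap.ext fun x => by simp [dec])
  let Φ : (W ≃ₗ[F] W) →* (U ≃ₗ[F] U) :=
    { toFun := fun t => E ≪≫ₗ t.prodCongr t ≪≫ₗ E.symm
      map_one' := LinearEquiv.ext fun v => E.symm_apply_apply v
      map_mul' := fun s t => LinearEquiv.ext fun v => by simp }
  have h1 : ∀ v, Φ t v = a (t (p v)) + b (t (r v)) := fun v => rfl
  exact ⟨Φ t, (mem_om_herm hV.isHerm hV).2 ⟨fun u v => by
    simp [h1, Bv, pa, pb, ra, rb, (hW.om_le_isom ht).1], hom_om hW (((LinearMap.det (A := F)).comp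
      (LinearEquiv.automorphismGroup.toLinearMapMonoidHom (M := U))).comp Φ) ht⟩,
    fun x => by simp [h1, pa, ra], fun x => by simp [h1, pb, rb]⟩

theorem gu23_core [Finite F] (hW : Hm σ f q) (hV : Hm σ B fun v => B v v)
    (Bp : ∀ a w v, B (pu U f w a) v = g a (v w)) (hn : finrank F W = 3) (hm : finrank F U = 2)
    (hq : ∃ t : F, σ t = t ∧ t ≠ 0 ∧ t ≠ 1) (hs : ∀ c, σ c = c → ∃ ρ, ρ * ρ = c) :
    (∃ k ∈ hV.Om, ¬ Tn k) ∧ ∀ M ≤ hV.Om, (∀ k ∈ hV.Om, Tn k → k ∈ M) → ¬ hV.Om ≤ M → ∀ k ∈ M, Tn k := by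
  have : Nontrivial U := Module.nontrivial_of_finrank_pos (R := F) (by omega)
  obtain ⟨w, -, hw, hw'⟩ := hW.exists_sing (W := ⊤) (.inl (by simp [hn]))
  obtain ⟨x, hx⟩ := hW.form.exists_right_eq_one hW.sep hw
  have hU : Hm σ g fun a => g a a := clHerm ⟨hW.isHerm.ne, hW.invol, fun a b => by
    simpa [Bp, hx, hW.flip_one hx] using hV.hs (pu U f w a) (pu U f x b)⟩ fun a ha => by
      simpa [hx] using LinearMap.congr_fun (hV.sep (pu U f w a) fun v => by simp [Bp, ha]) x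
  let D := (LinearMap.det (A := F)).comp (LinearEquiv.automorphismGroup.toLinearMapMonoidHom (M := W →ₗ[F] U))
  have h1 : ∀ s ∈ hU.Om, lf W s ∈ hV.Om := fun s hs => (mem_om_herm hV.isHerm hV).2 ⟨iso_of_pu hW
    (fun a w v => by simp [lf_pu, Bp, (hU.om_le_isom hs).1]), hom_om hU (D.comp (lf W)) hs⟩
  obtain ⟨δ, hδ, hδ'⟩ := hW.nq
  obtain ⟨a, -, ha, hp⟩ := hU.exists_sing (W := ⊤) (.inr ⟨by simp [hm], hU.nq'⟩)
  obtain ⟨b, hb', hb⟩ := hU.form.exists_partner hU.sep hp ha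
  have aa := hU.diag0 hp
  have bb := hU.diag0 hb'
  have ba := hU.flip_one hb
  constructor
  · have Qp : B (pu U f w a) (pu U f w a) = 0 := by simp [Bp, aa]
    obtain ⟨y, -, h2⟩ := exists_not_mem_of_lt (W := F ∙ w) (U := ⊤) (by simp [finrank_span_singleton hw, hn])
    obtain ⟨y', h4, h5⟩ := hW.perp_one h2
    refine ⟨_, hV.eich_mem_om (w := 0) (c := δ) Qp (map_zero _) (by simp [hδ']), fun h6 => ?_⟩
    obtain ⟨s, ψ, h6⟩ := tn_form h6
    have h7 : ∀ c z u, f z u • c - (δ * (f z w * g a c) * f w u) • a = f z (ψ u) • s c := fun c z u => by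
      simpa [hV.tv Qp, Bp, smul_smul] using h6 (pu U f z c) u
    have h8 : ∀ c, c = f y (ψ y') • s c := fun c => by simpa [h4, h5] using h7 c y y'
    have h9 : ∀ c, (f y (ψ y') * f x x - f x (ψ x)) • c = (f y (ψ y') * δ * g a c) • a := fun c => by
      have := congrArg (f y (ψ y') • ·) (h7 c x x)
      simp only [smul_comm (f y (ψ y')) (f x (ψ x)), ← h8, hx, hW.flip_one hx] at this
      linear_combination (norm := module) this
    have h10 := h9 b
    rw [(smul_eq_zero_iff_left ha).1 ((h9 a).trans (by simp [aa])), hb] at h10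
    exact ha ((h8 a).trans (by simp [show f y (ψ y') = 0 by simpa [ha, hδ] using h10.symm]))
  intro M h2 h3 h4 k hk
  have dec : ∀ u, g b u • a + g a u • b = u := fun u => by
    have li : LinearIndependent F ![a, b] := LinearIndependent.pair_iff.2 fun s t e =>
      ⟨by simpa [bb, ba] using congrArg (g b) e, by simpa [aa, hb] using congrArg (g a) e⟩
    have := li.span_eq_top_of_card_eq_finrank' (by simp [hm])
    rw [show Set.range ![a, b] = {a, b} by simp [Set.pair_comm b a]] at this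
    obtain ⟨s, t, rfl⟩ := Submodule.mem_span_pair.1 (this ▸ Submodule.mem_top (x := u))
    simp [aa, bb, ba, hb]
  let A : U → Dual F W →ₗ[F] (W →ₗ[F] U) := fun z => LinearMap.smulRightₗ.flip z
  let P : U → (W →ₗ[F] U) →ₗ[F] Dual F W := fun z => LinearMap.llcomp F W U F (g z)
  have eA : ∀ z β, A z β = β.smulRight z := fun _ _ => rfl
  have eB : ∀ z z' w γ, B (A z (f w)) (A z' γ) = γ w * g z z' := fun z z' w γ =>
    (Bp z w _).trans (by simp [eA])
  have eP : ∀ z z' β, P z (A z' β) = g z z' • β := fun z z' β => by ext; simp [eA, P, mul_comm]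
  let f' : Dual F W →ₛₗ[σ] Dual F W →ₗ[F] F := ((B ∘ₛₗ A a).flip ∘ₗ A b).flip
  have ef : ∀ β γ, f' β γ = B (A a β) (A b γ) := fun _ _ => rfl
  have eC : ∀ z z' β γ, B (A z β) (A z' γ) = f' β γ * g z z' := fun z z' β γ => by
    obtain ⟨w, rfl⟩ := hW.exists_B β
    simp [ef, eB, hb]
  have hD : Hm σ f' fun β => f' β β := clHerm ⟨hW.isHerm.ne, hW.invol, fun β γ => by
    rw [ef, hV.hs, eC, ba, mul_one]⟩ fun β hβ => by
      obtain ⟨w, rfl⟩ := hW.exists_B β
      rw [(Module.forall_dual_apply_eq_zero_iff F w).1 fun γ => by simpa [ef, eB, hb] using hβ γ, map_zero]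
  have dec' : ∀ v, A a (P b v) + A b (P a v) = v := fun v => LinearMap.ext fun y => dec (v y)
  have eD : ∀ β : Dual F W, ∀ z, β.smulRight z = g b z • A a β + g a z • A b β := fun β z => by
    conv_lhs => rw [← dec z]
    ext; simp [eA, smul_smul, mul_comm]
  have eE : ∀ u, g u u = 0 → ∀ d, σ d = -d → ∃ k ∈ M, ∀ z β, k (A z β) = A z β + (d * g u z) • A u β :=
    fun u hu d hd => by
    have := h1 _ (hU.eich_mem_om (w := 0) (c := -d) hu (map_zero _) (by simp [hd]))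
    exact ⟨_, h3 _ this ⟨hU.eich u 0 (-d), 1, fun β z => by ext; simp⟩, fun z β => by
      ext; simp [eA, hU.tv hu]; module⟩
  have h : T6 f' _ B _ M (A a) (A b) (P b) (P a) := ⟨hD, hV, by simp [hn], dec', by simp [eC, aa],
    by simp [eC, bb], by simp [eC, hb], by simp [eC, ba], h2.trans hV.om_le_isom, fun t ht => by
      obtain ⟨j, j1, j2, j3⟩ := exrm hD hV dec' (by simp [eP, ba]) (by simp [eP, bb]) (by simp [eP, aa])
        (by simp [eP, hb]) (fun u v => by
          conv_lhs => rw [← dec' u, ← dec' v]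
          simp [eC, aa, bb, hb, ba]) ht
      exact ⟨j, h3 j j1 ⟨1, t, fun β z => by simp [eD, j2, j3]⟩, j2, j3⟩,
    fun d hd => let ⟨j, j1, j2⟩ := eE a hp d hd; ⟨j, j1, by simp [j2, aa], by simp [j2, hb]⟩,
    fun d hd => let ⟨j, j1, j2⟩ := eE b hb' d hd; ⟨j, j1, by simp [j2, bb], by simp [j2, ba]⟩, hq, hs⟩
  refine tn_of_Wt (by omega) fun β _ => (h.tens h4 hk β).imp fun γ hγ z => ?_
  obtain ⟨s, t, e⟩ := hγ (g b z) (g a z)
  exact ⟨s • a + t • b, by rw [eD β, e]; ext; simp [eA, smul_smul, mul_comm]⟩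

end abs

/-- `GU₂ ⊗ GU₃` in `SU₆` -/
theorem gugu23_max [Fintype F] {n q : ℕ} (hF : Fintype.card F = q ^ 2) (hq : 3 ≤ q)
    (e : Fin n ≃ Fin 2 × Fin 3) (P : GL (Fin n) F)
    {f₁ : (Fin 2 → F) → (Fin 2 → F) → F} {f₂ : (Fin 3 → F) → (Fin 3 → F) → F} (h₂ : IsUnitaryFormPow q f₂)
    (hT : IsTensorFormStructure (fun x : F => x ^ q) (hermForm n F q) f₁ f₂ e P) :
    IsMaximalIn (GU n F q ⊓ specialLinear (Fin n) F)
      (tensorProductSubgroup 2 3 e P ⊓ (GU n F q ⊓ specialLinear (Fin n) F)) := by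
  obtain ⟨c, hc, hT⟩ := hT
  have h1 := qConj_conjQ hF
  obtain ⟨f, hW, h2⟩ := exists_dual_form (hf_gram_unitary (σ := conjQ hF) rfl h1.invol h₂) h1.ne_id
  refine ten_max_of (fun g => (mem_SU_iff hF g).trans (mem_om_cjE _ _ _)) (gu23_core
    (g := toLinearMapₛₗ₂' F _ (RingHom.id F) (c • (gramMatrix f₁)ᵀ)) hW _ (fun x w v => ?_)
    (by simp) (by simp) ?_ fun c hc => ?_)
  · have h3 : ∀ i, v w i = ∑ j, w j * v (eb j) i := fun i => by
      rw [LinearMap.pi_apply_eq_sum_univ v w]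
      simp only [Finset.sum_apply, Pi.smul_apply, smul_eq_mul]
      refine Finset.sum_congr rfl fun j _ => ?_
      rw [show (fun k => if j = k then (1 : F) else 0) = eb j by ext; simp [Pi.single_apply, eq_comm]]
    rw [pull_apply, ← hermForm_eq, LinearEquiv.coe_coe, tenE_apply, tenE_apply, hT]
    simp only [formOfGram, Fintype.sum_prod_type, kroneckerMap_apply, h3, ← h2 w, Finset.mul_sum,
      Finset.sum_mul, toLinearMapₛₗ₂'_apply, pu_apply, Pi.smul_apply, smul_eq_mul, ← h1.eq, map_mul,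
      RingHom.id_apply, Matrix.smul_apply, transpose_apply]
    refine .trans ?_ Finset.sum_comm
    exact Finset.sum_congr rfl fun i _ => Finset.sum_comm.trans (Finset.sum_congr rfl fun i' _ =>
      Finset.sum_congr rfl fun _ _ => Finset.sum_congr rfl fun _ _ => by ring)
  · classical
    obtain ⟨⟨t, h3⟩, -, h4⟩ := Finset.exists_mem_notMem_of_card_lt_card (t := Finset.univ)
      (s := ({⟨0, by simp⟩, ⟨1, by simp⟩} : Finset {x : F // conjQ hF x = x})) (Finset.card_le_two.trans_lt (by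
        rw [Finset.card_univ, ← Nat.card_eq_fintype_card, h1.card_fixed]; omega))
    exact ⟨t, h3, by simpa using h4⟩
  · suffices IsSquare c from this.imp fun _ => Eq.symm
    by_cases two : ringChar F = 2
    · exact FiniteField.isSquare_of_char_two two c
    by_cases c0 : c = 0
    · simp [c0]
    obtain ⟨m, rfl⟩ : Odd q := by
      have := FiniteField.odd_card_of_char_ne_two two
      rw [hF, ← Nat.odd_iff, Nat.odd_pow_iff two_ne_zero] at this
      exact this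
    rw [h1.eq, pow_succ, mul_left_eq_self₀] at hc
    rw [FiniteField.isSquare_iff two c0, hF, show (2 * m + 1) ^ 2 / 2 = 2 * m * (m + 1) by
      rw [show (2 * m + 1) ^ 2 = 2 * (2 * m * (m + 1)) + 1 by ring]; omega, pow_mul, hc.resolve_right c0, one_pow]

end Cfsg.Agent.H19.TV
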