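import Cfsg.Agent.H19.TU3

/-! Full matrix subalgebras whose root elements lie in a linear group: generalities. -/

set_option autoImplicit false
set_option maxHeartbeats 400000

namespace Cfsg.Agent.H19.TW

open Module H26.MX

variable {F : Type*} [Field F] {U V : Type*} [AddCommGroup U] [Module F U] [AddCommGroup V] [Module F V]
  {ι ι' : End F U →ₐ[F] End F V} {M : Subgroup (V ≃ₗ[F] V)}

/-- rank one maps -/
def r1 : U →ₗ[F] Dual F U →ₗ[F] End F U := LinearMap.smulRightₗ.flip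

@[simp] theorem r1_apply (u : U) (φ : Dual F U) (x : U) : r1 u φ x = φ x • u := rfl

theorem r1_mul (u y : U) (φ ψ : Dual F U) : r1 u φ * r1 y ψ = φ y • r1 u ψ := by
  ext; simp [smul_smul, mul_comm]

theorem mul_r1 (g : End F U) (u : U) (φ : Dual F U) : g * r1 u φ = r1 (g u) φ := by ext; simp

theorem ir_mul (ι : End F U →ₐ[F] End F V) (u y : U) (φ ψ : Dual F U) :
    ι (r1 u φ) * ι (r1 y ψ) = φ y • ι (r1 u ψ) := by rw [← map_mul, r1_mul, map_smul]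

@[simp] theorem ir_ir (ι : End F U →ₐ[F] End F V) (u y : U) (φ ψ : Dual F U) (v : V) :
    ι (r1 u φ) (ι (r1 y ψ) v) = φ y • ι (r1 u ψ) v := LinearMap.congr_fun (ir_mul ι u y φ ψ) v

theorem i_i (ι : End F U →ₐ[F] End F V) (x y : End F U) (v : V) : ι x (ι y v) = ι (x * y) v := by
  rw [map_mul]; rfl

/-- commuting with the subalgebra -/
def Cm (ι : End F U →ₐ[F] End F V) (e : End F V) : Prop := ∀ y v, e (ι y v) = ι y (e v)

/-- membership of an endomorphism in the group -/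
def In (M : Subgroup (V ≃ₗ[F] V)) (x : End F V) : Prop := ∃ g ∈ M, ∀ v, g v = v + x v

theorem In.mul {x y z : End F V} (h : In M x) (h' : In M y) (h1 : ∀ v, z v = y v + x v + x (y v)) : In M z :=
  let ⟨g, hg, h⟩ := h; let ⟨g', hg', h'⟩ := h'
  ⟨g * g', mul_mem hg hg', fun v => by rw [mul_app, h', h, h1, map_add]; abel⟩

theorem In.conj {x y : End F V} (h : In M x) {k : V ≃ₗ[F] V} (hk : k ∈ M) (h1 : ∀ v, y (k v) = k (x v)) :
    In M y := let ⟨g, hg, h⟩ := h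
  ⟨k * g * k⁻¹, mul_mem (mul_mem hk hg) (inv_mem hk), fun v => by simp [mul_app, h, ← h1]⟩

/-- the subspace `u ⊗ W` -/
def Xs (ι : End F U →ₐ[F] End F V) (u : U) : Submodule F V where
  carrier := {v | ∀ y : End F U, y u = 0 → ι y v = 0}
  zero_mem' := by simp
  add_mem' ha hb y hy := by simp [ha y hy, hb y hy]
  smul_mem' c v ha y hy := by simp [ha y hy]

theorem ir_mem (ι : End F U →ₐ[F] End F V) (u : U) (φ : Dual F U) (v : V) : ι (r1 u φ) v ∈ Xs ι u :=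
  fun y hy => by simp [i_i, mul_r1, hy]

theorem xs_eq {u : U} {v : V} (hv : v ∈ Xs ι u) {χ : Dual F U} (h : χ u = 1) : ι (r1 u χ) v = v := by
  simpa [sub_eq_zero, eq_comm (a := v)] using hv (1 - r1 u χ) (by simp [h])

theorem xs_kill {u : U} {v : V} (hv : v ∈ Xs ι u) (y : U) {φ : Dual F U} (h : φ u = 0) : ι (r1 y φ) v = 0 :=
  hv _ (by simp [h])

theorem Cm.mem {e : End F V} (h : Cm ι e) {u : U} {v : V} (hv : v ∈ Xs ι u) : e v ∈ Xs ι u :=
  fun y hy => by rw [← h, hv y hy, map_zero]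

theorem xs_inf {u y : U} (h : ∀ c : F, y ≠ c • u) {v : V} (h1 : v ∈ Xs ι u) (h2 : v ∈ Xs ι y) : v = 0 := by
  obtain ⟨χ, h3, h4⟩ := exists_dual_pair h
  rw [← xs_eq h2 h3, xs_kill h1 _ h4]

/-- conjugate embeddings -/
def cg (k : V ≃ₗ[F] V) (ι : End F U →ₐ[F] End F V) : End F U →ₐ[F] End F V :=
  (k.conjAlgEquiv F).toAlgHom.comp ι

@[simp] theorem cg_apply (k : V ≃ₗ[F] V) (y : End F U) (v : V) : cg k ι y v = k (ι y (k⁻¹ v)) := rfl

theorem mem_xs_cg {k : V ≃ₗ[F] V} {u : U} {v : V} : v ∈ Xs (cg k ι) u ↔ k⁻¹ v ∈ Xs ι u :=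
  forall₂_congr fun _ _ => by simp

theorem cg_cg (j k : V ≃ₗ[F] V) : cg j (cg k ι) = cg (j * k) ι := rfl

theorem cg_one : cg 1 ι = ι := rfl

variable [FiniteDimensional F U]

theorem sum_r1 : ∑ k, r1 (finBasis F U k) ((finBasis F U).coord k) = 1 := by
  ext x; simp [(finBasis F U).sum_repr]

theorem sum_ir (ι : End F U →ₐ[F] End F V) (v : V) :
    ∑ k, ι (r1 (finBasis F U k) ((finBasis F U).coord k)) v = v := by
  rw [← LinearMap.sum_apply, ← map_sum, sum_r1, map_one]; rfl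

theorem cm_of {e : End F V} (h : ∀ u φ v, e (ι (r1 u φ) v) = ι (r1 u φ) (e v)) : Cm ι e := fun y v => by
  rw [← mul_one y, ← sum_r1]; simp [Finset.mul_sum, mul_r1, h]

theorem coef (ι : End F U →ₐ[F] End F V) (χ : Dual F U) (a : U) (τ : End F V) : ∃ c, Cm ι c ∧
    (∀ u φ v, ι (r1 u χ) (τ (ι (r1 a φ) v)) = ι (r1 u φ) (c v)) ∧
    ∀ z : End F V, (∀ y v, z (ι y v) = ι y (z v)) → (∀ v, z (τ v) = τ (z v)) → ∀ v, z (c v) = c (z v) := by
  let b := finBasis F U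
  have h1 : ∀ u φ v, ι (r1 u χ) (τ (ι (r1 a φ) v)) =
      ι (r1 u φ) ((∑ k, ι (r1 (b k) χ) * τ * ι (r1 a (b.coord k))) v) := fun u φ v => by
    conv_lhs => rw [← b.sum_dual_apply_smul_coord φ]
    simp [-Basis.sum_dual_apply_smul_coord]
  refine ⟨_, cm_of fun u φ v => ?_, h1, fun z h2 h3 v => by simp [h2, h3]⟩
  rw [← h1]
  conv_rhs => rw [← b.sum_repr u]
  simp [-Basis.sum_repr]

theorem Cm.cancel {e : End F V} (h : Cm ι e) {x : End F U} (hx : x ≠ 0) (h1 : ∀ v, ι x (e v) = 0) (v : V) :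
    e v = 0 := by
  obtain ⟨a, ha⟩ := DFunLike.ne_iff.1 hx
  obtain ⟨χ, hχ⟩ := exists_dual_one (F := F) ha
  rw [← sum_ir ι (e v)]
  refine Finset.sum_eq_zero fun k _ => ?_
  simpa [-map_mul, h _, i_i, mul_r1, r1_mul, hχ] using
    congrArg (ι (r1 (finBasis F U k) χ)) (h1 (ι (r1 a ((finBasis F U).coord k)) v))

theorem i_inj [Nontrivial V] {x : End F U} (h : ∀ v, ι x v = 0) : x = 0 := by_contra fun hx =>
  let ⟨v, hv⟩ := exists_ne (0 : V); hv (Cm.cancel (e := 1) (fun _ _ => rfl) hx h v)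

theorem ann2 (hm : 3 ≤ finrank F U) (a b : U) : ∃ φ : Dual F U, φ ≠ 0 ∧ φ a = 0 ∧ φ b = 0 := by
  obtain ⟨z, -, hz⟩ := exists_not_mem_of_lt (W := Submodule.span F {a, b}) (U := ⊤) (by
    have := finrank_span_pair_le (F := F) a b; rw [finrank_top]; omega)
  obtain ⟨φ, h1, h2⟩ := exists_dual hz
  exact ⟨φ, by rintro rfl; simp at h1, h2 a (Submodule.subset_span (by simp)),
    h2 b (Submodule.subset_span (by simp))⟩

theorem ker2 (hm : 3 ≤ finrank F U) (φ χ : Dual F U) : ∃ a, a ≠ 0 ∧ φ a = 0 ∧ χ a = 0 := by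
  obtain ⟨z, h1, hz⟩ := (Submodule.ne_bot_iff _).1 (LinearMap.ker_ne_bot_of_finrank_lt
    (f := φ.prod χ) (by simp; omega))
  exact ⟨z, hz, by simpa using h1⟩

theorem ker_ind (hm : 3 ≤ finrank F U) (u : U) (φ : Dual F U) : ∃ y, φ y = 0 ∧ ∀ c : F, y ≠ c • u := by
  obtain ⟨y, h1, h2⟩ := exists_not_mem_of_lt (W := F ∙ u) (U := ⊤ ⊓ LinearMap.ker φ) (by
    have := finrank_le_inf_ker ⊤ φ
    have := finrank_span_one_le (F := F) u
    rw [finrank_top] at *; omega)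
  exact ⟨y, h1.2, fun c hc => h2 (Submodule.mem_span_singleton.2 ⟨c, hc.symm⟩)⟩

theorem top_of_r1 (hm : 3 ≤ finrank F U) {S : Submodule F (End F U)} (h1 : ∀ x ∈ S, ∀ y ∈ S, x * y ∈ S)
    (h2 : ∀ u φ, φ u = 0 → r1 u φ ∈ S) (x : End F U) : x ∈ S := by
  rw [← mul_one x, ← sum_r1, Finset.mul_sum]
  refine S.sum_mem fun k _ => ?_
  rw [mul_r1]
  obtain ⟨y, h3, h4⟩ := ker_ind hm (x (finBasis F U k)) ((finBasis F U).coord k)
  obtain ⟨ψ, h5, h6⟩ := exists_dual_pair h4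
  simpa [r1_mul, h5] using h1 _ (h2 _ ψ h6) _ (h2 y _ h3)

theorem finrank_xs_le [FiniteDimensional F V] (ι : End F U →ₐ[F] End F V) (u : U) {y : U} (hy : y ≠ 0) :
    finrank F (Xs ι u) ≤ finrank F (Xs ι y) := by
  by_cases hu : u = 0
  · exact Submodule.finrank_mono fun v hv => by simp [show v = 0 by simpa using hv 1 (by simp [hu])]
  obtain ⟨χ, h1⟩ := exists_dual_one (F := F) hu
  obtain ⟨ψ, h2⟩ := exists_dual_one (F := F) hy
  refine LinearMap.finrank_le_finrank_of_injective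
    (f := (ι (r1 y χ)).restrict fun v _ => ir_mem ι y χ v) ((injective_iff_map_eq_zero _).2 fun v hv => ?_)
  simpa [h2, xs_eq v.2 h1] using congrArg (ι (r1 u ψ)) (congrArg Subtype.val hv)

/-- the root elements lie in `M`, and all coefficients are scalars -/
structure Sc (M : Subgroup (V ≃ₗ[F] V)) (ι : End F U →ₐ[F] End F V) : Prop where
  tv : ∀ u φ, φ u = 0 → In M (ι (r1 u φ))
  sc : ∀ e u φ, Cm ι e → u ≠ 0 → φ ≠ 0 → φ u = 0 → (∀ c : F, In M (c • ι (r1 u φ) * e)) →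
    ∃ c : F, ∀ v, e v = c • v

omit [FiniteDimensional F U] in
theorem Sc.conj (h : Sc M ι) {k : V ≃ₗ[F] V} (hk : k ∈ M) : Sc M (cg k ι) := by
  refine ⟨fun u φ h1 => (h.tv u φ h1).conj hk fun v => by simp, fun e u φ h1 h2 h3 h4 h5 => ?_⟩
  obtain ⟨c, hc⟩ := h.sc (k⁻¹.toLinearMap * e * k.toLinearMap) u φ (fun y v => by
    simpa using congrArg (k⁻¹ ·) (h1 y (k v))) h2 h3 h4 fun c => (h5 c).conj (inv_mem hk) fun v => by simp
  exact ⟨c, fun v => by simpa using congrArg k (hc (k⁻¹ v))⟩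

variable (hm : 3 ≤ finrank F U)
include hm

theorem Sc.th (h : Sc M ι) {u : U} (hu : u ≠ 0) {τ : End F V} (h1 : ∀ v, τ v ∈ Xs ι u)
    (h2 : ∀ x ∈ Xs ι u, τ x = 0) (h3 : ∀ c : F, In M (c • τ)) : ∃ φ, τ = ι (r1 u φ) := by
  obtain ⟨χ, hχ⟩ := exists_dual_one (F := F) hu
  have h4 : ∀ a, ∃ l : F, ∀ φ v, τ (ι (r1 a φ) v) = l • ι (r1 u φ) v := fun a => by
    obtain ⟨e, h4, h5, -⟩ := coef ι χ a τ
    obtain ⟨φ, h6, h7, h8⟩ := ann2 hm u a
    obtain ⟨g, h9, h10⟩ := h.tv a φ h8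
    obtain ⟨l, hl⟩ := h.sc e u φ h4 hu h6 h7 fun c =>
      ((h3 c).conj (y := c • τ * g.toLinearMap) (inv_mem h9) fun v => (inv_eq_of (by
        simp [h10 (τ _), xs_kill (h1 _) a h7])).symm).mul (h3 (-c)) fun v => by
          simp [h10, xs_kill (h1 _) a h7, h2 _ (h1 _), ← h5, xs_eq (h1 _) hχ]
    exact ⟨l, fun φ v => by rw [← xs_eq (h1 _) hχ, h5, hl, map_smul]⟩
  choose l hl using h4
  refine ⟨∑ k, l (finBasis F U k) • (finBasis F U).coord k, LinearMap.ext fun v => ?_⟩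
  conv_lhs => rw [← sum_ir ι v]
  simp [hl]

theorem Sc.stab [Nontrivial V] (h : Sc M ι) (h' : Sc M ι') {u u' : U} (hu : u ≠ 0) (hu' : u' ≠ 0)
    (h1 : Xs ι u = Xs ι' u') (x : End F U) : ι x ∈ ι'.range := by
  have h2 : ∀ {ι ι' : End F U →ₐ[F] End F V} {u u'}, Sc M ι → Sc M ι' → u' ≠ 0 → Xs ι u = Xs ι' u' → ∀ φ,
      φ u = 0 → ∃ φ', φ' u' = 0 ∧ ι (r1 u φ) = ι' (r1 u' φ') := fun {ι ι' u u'} h h' hu' h1 φ h2 => by
    obtain ⟨φ', h3⟩ := h'.th hm hu' (τ := ι (r1 u φ)) (fun v => h1 ▸ ir_mem ι u φ v)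
      (fun x hx => xs_kill (h1 ▸ hx) u h2) fun c => by simpa using h.tv u (c • φ) (by simp [h2])
    obtain ⟨χ, hχ⟩ := exists_dual_one (F := F) hu'
    refine ⟨φ', ?_, h3⟩
    simpa [hu', hχ] using LinearMap.congr_fun (i_inj (ι := ι') (x := φ' u' • r1 u' χ) fun v => by
      have := xs_kill (h1 ▸ ir_mem ι' u' χ v) u h2
      rw [h3] at this; simpa using this) u'
  refine top_of_r1 hm (S := (Subalgebra.toSubmodule ι'.range).comap ι.toLinearMap)
    (fun x hx y hy => by simpa using ι'.range.mul_mem hx hy) (fun y φ₀ h0 => ?_) x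
  by_cases hy : y = 0
  · simp [hy]
  suffices ∃ y', y' ≠ 0 ∧ Xs ι y = Xs ι' y' by
    obtain ⟨y', h3, h4⟩ := this
    obtain ⟨φ', -, h5⟩ := h2 h h' h3 h4 φ₀ h0
    exact ⟨_, h5.symm⟩
  obtain ⟨φ, h3, h4, h5⟩ := ann2 hm u y
  obtain ⟨φ', h6, h7⟩ := h2 h h' hu' h1 φ h4
  obtain ⟨χ, hχ⟩ := exists_dual_one (F := F) hu
  obtain ⟨χ', hχ'⟩ := exists_dual_one (F := F) hu'
  obtain ⟨a, ha⟩ := exists_apply_eq_one h3
  obtain ⟨a', ha'⟩ := exists_apply_eq_one (φ := φ') (by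
    rintro rfl; simpa [ha, hu] using LinearMap.congr_fun (i_inj (ι := ι) (x := r1 u φ) (by simp [h7])) a)
  have h8 : ∀ v, ι (r1 y φ) v = ι (r1 y χ) (ι' (r1 u' φ') v) := fun v => by simp [← h7, hχ]
  have h9 : ∀ ψ' : Dual F U, ∃ l : F, ∀ v, ι' (r1 u' (ψ' - ψ' u' • χ')) (ι (r1 y φ) v) = l • ι' (r1 u' φ') v :=
    fun ψ' => by
    obtain ⟨ψ, -, h9⟩ := h2 h' h hu h1.symm (ψ' - ψ' u' • χ') (by simp [hχ'])
    exact ⟨ψ y, fun v => by rw [h9, ir_ir, h7]⟩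
  choose l hl using h9
  obtain ⟨y₁, h9⟩ : ∃ y₁, ∀ v, ι (r1 y φ) v - ι' (r1 u' χ') (ι (r1 y φ) v) = ι' (r1 y₁ φ') v := by
    refine ⟨∑ k, l ((finBasis F U).coord k) • finBasis F U k, fun v => ?_⟩
    rw [← sum_ir ι' (_ - _)]
    simp only [map_sum, LinearMap.sum_apply]
    refine Finset.sum_congr rfl fun k _ => ?_
    simpa [hχ'] using congrArg (ι' (r1 (finBasis F U k) χ')) (hl ((finBasis F U).coord k) v)
  have h10 : φ' y₁ = 0 := by
    simpa [ha', hu'] using LinearMap.congr_fun (i_inj (ι := ι') (x := φ' y₁ • r1 u' φ') fun v => by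
      have := congrArg (ι' (r1 u' φ')) (h9 v)
      rw [map_sub, ir_ir ι', ir_ir ι', h6, ← h7, ir_ir, h5] at this
      simpa [h7] using this.symm) a'
  obtain ⟨ψ, h11⟩ := h'.th hm hu' (τ := ι' (r1 u' χ') * ι (r1 y φ)) (fun v => ir_mem _ _ _ _)
    (fun x hx => by simp [xs_kill (h1 ▸ hx) y h4]) fun c =>
      (h.tv y (c • φ) (by simp [h5])).mul (h'.tv y₁ (-c • φ') (by simp [h10])) fun v => by
        have := h8 (ι' (r1 y₁ φ') v)
        simp [h10] at this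
        simp [this]; simp [← h9, smul_sub]
  have h12 : ∀ v, ι (r1 y φ) v = ι' (r1 (y₁ + ψ a' • u') φ') v := fun v => by
    have h12 := h9 (ι' (r1 a' φ') v)
    rw [show ι' (r1 u' χ') _ = _ from LinearMap.congr_fun h11 _, h8] at h12
    simp only [ir_ir, ha', one_smul, ← h8] at h12
    simp [sub_eq_iff_eq_add.1 h12]
  obtain ⟨χ₁, h13⟩ := exists_dual_one (F := F) hy
  have h14 : y₁ + ψ a' • u' ≠ 0 := fun h14 => by
    simpa [ha, hy] using LinearMap.congr_fun (i_inj (ι := ι) (x := r1 y φ) (by simp [h12, h14])) a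
  obtain ⟨χ₂, h15⟩ := exists_dual_one (F := F) h14
  refine ⟨_, h14, le_antisymm (fun v hv => ?_) fun v hv => ?_⟩
  · convert ir_mem ι' _ φ' (ι (r1 a χ₁) v); simp [-map_add, ← h12, ha, xs_eq hv h13]
  · convert ir_mem ι y φ (ι' (r1 a' χ₂) v); simp [-map_add, h12, ha', xs_eq hv h15]

end Cfsg.Agent.H19.TW
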