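import Cfsg.Agent.H19.TW1

/-! Full matrix subalgebras whose root elements lie in a linear group: normalisers. -/

set_option autoImplicit false
set_option maxHeartbeats 400000

namespace Cfsg.Agent.H19.TW

open Module H26.MX Polynomial

variable {F : Type*} [Field F] {U V : Type*} [AddCommGroup U] [Module F U] [AddCommGroup V] [Module F V]
  {ι ι' : End F U →ₐ[F] End F V} {M : Subgroup (V ≃ₗ[F] V)}

theorem exists_eig [FiniteDimensional F V] (hV : Odd (finrank F V)) {h : End F V} {δ τ : F}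
    (h1 : ∀ v, τ • h v - v - δ • h (h v) = 0) : ∃ (c : F) (v : V), v ≠ 0 ∧ h v = c • v := by
  obtain ⟨Q, h2, h3, h4⟩ : ∃ Q : F[X], Irreducible Q ∧ Q ∣ h.charpoly ∧ Odd Q.natDegree := by
    rw [← h.charpoly_natDegree] at hV
    generalize h.charpoly = P at hV
    induction P using WfDvdMonoid.induction_on_irreducible with
    | zero => simp at hV
    | unit P hP => simp [natDegree_eq_zero_of_isUnit hP] at hV
    | mul P Q h0 hQ ih =>
      rw [natDegree_mul hQ.ne_zero h0, Nat.odd_add] at hV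
      by_cases h2 : Odd Q.natDegree
      · exact ⟨Q, hQ, dvd_mul_right _ _, h2⟩
      · exact (ih (by rw [← Nat.not_even_iff_odd]; tauto)).imp fun R hR => ⟨hR.1, hR.2.1.mul_left _, hR.2.2⟩
  have h5 : Q ∣ C τ * X - 1 - C δ * X ^ 2 := by
    have := Fact.mk h2
    let b := finBasis F V
    let A := (LinearMap.toMatrix b b h).map (AdjoinRoot.of Q)
    have h5 : A.charpoly.IsRoot (AdjoinRoot.root Q) := by
      rw [Matrix.charpoly_map, LinearMap.charpoly_toMatrix]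
      exact (AdjoinRoot.isRoot_root Q).dvd (Polynomial.map_dvd _ h3)
    rw [← Matrix.charpoly_toLin', ← End.hasEigenvalue_iff_isRoot_charpoly] at h5
    obtain ⟨x, hx⟩ := h5.exists_hasEigenvector
    have h6 : AdjoinRoot.of Q τ • A - 1 - AdjoinRoot.of Q δ • (A * A) = 0 := by
      have := congrArg (fun x => (LinearMap.toMatrix b b x).map (AdjoinRoot.of Q))
        (show τ • h - 1 - δ • (h * h) = 0 from LinearMap.ext h1)
      simp only [map_sub, map_smul, LinearMap.toMatrix_mul, LinearMap.toMatrix_one, map_zero] at this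
      rw [← this.trans (Matrix.map_zero _ (map_zero _))]
      ext i j; simp [A, Matrix.mul_apply, Matrix.one_apply, apply_ite]
    have h7 := congrArg (Matrix.toLin' · x) h6
    simp only [map_sub, map_smul, Matrix.toLin'_mul, Matrix.toLin'_one, LinearMap.sub_apply, LinearMap.smul_apply,
      LinearMap.comp_apply, hx.apply_eq_smul, smul_smul, LinearMap.id_apply, map_zero, LinearMap.zero_apply] at h7
    rw [← AdjoinRoot.mk_eq_zero, ← smul_eq_zero_iff_left hx.2, ← h7]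
    simp [sub_smul, pow_two]
  have h6 : Q.natDegree = 1 := by
    have := natDegree_le_of_dvd h5 fun h => by simpa using congrArg (coeff · 0) h
    have : (C τ * X - 1 - C δ * X ^ 2).natDegree ≤ 2 := by compute_degree
    obtain ⟨k, hk⟩ := h4; omega
  obtain ⟨c, hc⟩ := exists_root_of_degree_eq_one ((degree_eq_iff_natDegree_eq h2.ne_zero).2 h6)
  obtain ⟨v, hv⟩ := ((End.hasEigenvalue_iff_isRoot_charpoly h c).2 (hc.dvd h3)).exists_hasEigenvector
  exact ⟨c, v, hv.2, hv.apply_eq_smul⟩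

/-- commuting subalgebras -/
def CC (ι ι' : End F U →ₐ[F] End F V) : Prop := ∀ y, Cm ι (ι' y)

theorem CC.symm (h : CC ι ι') : CC ι' ι := fun y x v => (h x y v).symm

theorem CC.conj (h : CC ι ι') (k : V ≃ₗ[F] V) : CC (cg k ι) (cg k ι') := fun y x v => by simp [h y x]

/-- equal or commuting -/
def Gd (ι ι' : End F U →ₐ[F] End F V) : Prop := ι.range = ι'.range ∨ CC ι ι'

theorem Gd.symm (h : Gd ι ι') : Gd ι' ι := h.imp Eq.symm CC.symm

theorem xs_map {a : U} {v : V} (hv : v ∈ Xs ι a) (g : End F U) : ι g v ∈ Xs ι (g a) :=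
  fun y hy => by rw [i_i, hv (y * g) hy]

theorem xs_range {u : U} {φ : Dual F U} (hu : u ≠ 0) (h : φ ≠ 0) {x : V} (hx : x ∈ Xs ι u) :
    ∃ v, x = ι (r1 u φ) v := by
  obtain ⟨a, ha⟩ := exists_apply_eq_one h
  obtain ⟨χ, hχ⟩ := exists_dual_one (F := F) hu
  exact ⟨ι (r1 a χ) x, by simp [ha, xs_eq hx hχ]⟩

theorem finrank_xs_cg (k : V ≃ₗ[F] V) (u : U) : finrank F (Xs (cg k ι) u) = finrank F (Xs ι u) := by
  rw [← finrank_map (Xs ι u) k, show Xs (cg k ι) u = _ from Submodule.ext fun _ => mem_xs_cg.trans mem_map_iff.symm]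

theorem r1_ne {u : U} {φ : Dual F U} (hu : u ≠ 0) (h : φ ≠ 0) : r1 u φ ≠ 0 := fun h1 =>
  let ⟨a, ha⟩ := exists_apply_eq_one h; hu (by simpa [ha] using LinearMap.congr_fun h1 a)

variable [FiniteDimensional F U]

theorem eq_zero_of_ir {a : U} (ha : a ≠ 0) {v : V} (h : ∀ χ, ι (r1 a χ) v = 0) : v = 0 := by
  obtain ⟨χ, hχ⟩ := exists_dual_one (F := F) ha
  rw [← sum_ir ι v]
  exact Finset.sum_eq_zero fun k _ => by simpa [hχ] using congrArg (ι (r1 (finBasis F U k) χ)) (h _)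

theorem scal {h : End F V} (h1 : Cm ι h) {g : End F U} {b : U} (hb : b ≠ 0) {χ : Dual F U}
    (h2 : ∀ v, ι (r1 b χ) (ι g (h v) - v) = 0) (a : U) (v : V) : χ (g a) • h v = χ a • v :=
  sub_eq_zero.1 (eq_zero_of_ir (ι := ι) hb fun ψ => by
    simpa [-map_mul, h1 _, i_i ι g, mul_r1] using h2 (ι (r1 a ψ) v))

variable [Nontrivial V]

theorem CC.exists_mem (h : CC ι ι') {u y : U} (hu : u ≠ 0) (hy : y ≠ 0) :
    ∃ v, v ≠ 0 ∧ v ∈ Xs ι u ∧ v ∈ Xs ι' y := by
  obtain ⟨χ, h1⟩ := exists_dual_one (F := F) hu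
  obtain ⟨ψ, h2⟩ := exists_dual_one (F := F) hy
  obtain ⟨v, hv⟩ : ∃ v, ι (r1 u χ) (ι' (r1 y ψ) v) ≠ 0 := by
    by_contra! h3
    exact r1_ne hy (by rintro rfl; simp at h2) (i_inj ((h _).cancel (r1_ne hu (by rintro rfl; simp at h1)) h3))
  exact ⟨_, hv, ir_mem _ _ _ _, h _ _ _ ▸ ir_mem _ _ _ _⟩

theorem norm_form {z : V ≃ₗ[F] V} (hz : (cg z ι).range = ι.range) :
    ∃ (g h : _), Cm ι h ∧ ∀ v, z v = ι g (h v) := by
  have h1 : ∀ ι : End F U →ₐ[F] End F V, Function.Injective ι := fun ι =>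
    (injective_iff_map_eq_zero _).2 fun x hx => i_inj (ι := ι) (by simp [hx])
  obtain ⟨T, hT⟩ := ((AlgEquiv.ofInjective _ (h1 _)).trans ((Subalgebra.equivOfEq _ _ hz).trans
    (AlgEquiv.ofInjective _ (h1 ι)).symm)).eq_linearEquivConjAlgEquiv
  have h2 : ∀ y, ι (T.conjAlgEquiv F y) = cg z ι y := fun y =>
    hT ▸ congrArg Subtype.val ((AlgEquiv.ofInjective _ (h1 ι)).apply_symm_apply _)
  refine ⟨T.toLinearMap, ι T.symm.toLinearMap * z.toLinearMap, fun y v => ?_, fun v => ?_⟩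
  · have := LinearMap.congr_fun (h2 y) (z v)
    rw [cg_apply, inv_app] at this
    simp only [End.mul_apply, LinearEquiv.coe_coe, ← this, i_i]
    congr 2; ext; simp
  · simp only [End.mul_apply, i_i]
    rw [show T.toLinearMap * T.symm.toLinearMap = 1 by ext; simp, map_one]; rfl

variable [FiniteDimensional F V] (hm : 3 ≤ finrank F U)
include hm

theorem cm_or {z : V ≃ₗ[F] V} (hz : (cg z ι).range = ι.range) {Z : Submodule F V} {u : U}
    (hZ : finrank F Z ≤ finrank F (Xs ι u)) (h1 : ∀ v, z v - v ∈ Z) :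
    Cm ι z.toLinearMap ∨ ∃ a, a ≠ 0 ∧ Z = Xs ι a := by
  obtain ⟨g, h, h2, h3⟩ := norm_form hz
  refine or_iff_not_imp_left.2 fun h4 => ?_
  obtain ⟨a, ha⟩ : ∃ a, LinearIndependent F ![a, g a] := by
    by_contra! h5
    obtain ⟨c, hc⟩ := g.exists_eq_smul_id_of_forall_notLinearIndependent h5
    exact h4 fun y v => by simp [h3, hc, ← End.one_eq_id, h2 y]
  have h5 := (LinearIndependent.pair_iff' (ha.ne_zero 0)).1 ha
  let L : Xs ι a →ₗ[F] Z := (z.toLinearMap - 1).restrict fun v _ => h1 v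
  have h6 : Function.Injective L := (injective_iff_map_eq_zero _).2 fun v hv => Subtype.ext
    (xs_inf (fun c hc => h5 c hc.symm) v.2 (by
      rw [← show z v = v from sub_eq_zero.1 (congrArg Subtype.val hv), h3]; exact xs_map (h2.mem v.2) g))
  have h7 := LinearMap.finrank_le_finrank_of_injective h6
  have h8 := (LinearMap.injective_iff_surjective_of_finrank_eq_finrank
    (h7.antisymm (hZ.trans (finrank_xs_le ι u (ha.ne_zero 0))))).1 h6
  obtain ⟨χ, h9, h10, h11⟩ := ann2 hm a (g a)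
  obtain ⟨b, hb⟩ := exists_apply_eq_one h9
  have h12 := scal h2 (ha.ne_zero 0) (g := g) (χ := χ) (fun v => by
    obtain ⟨x, hx⟩ := h8 ⟨_, h1 v⟩
    rw [← h3, ← show z x - x = z v - v from congrArg Subtype.val hx, h3, map_sub, xs_kill x.2 _ h10,
      xs_kill (xs_map (h2.mem x.2) g) _ h11, sub_zero]) b
  have h13 : χ (g b) ≠ 0 := fun h13 => let ⟨v, hv⟩ := exists_ne (0 : V); hv (by simpa [h13, hb] using (h12 v).symm)
  have h14 : ((χ (g b))⁻¹ • g - 1 : End F U) a ≠ 0 := fun h14 => h5 (χ (g b)) (by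
    rw [eq_comm, ← inv_smul_eq_iff₀ h13, ← sub_eq_zero]; exact h14)
  refine ⟨_, h14, Submodule.eq_of_le_of_finrank_le (fun v hv => ?_) ((finrank_xs_le ι _ (ha.ne_zero 0)).trans h7)⟩
  obtain ⟨x, hx⟩ := h8 ⟨v, hv⟩
  convert xs_map x.2 ((χ (g b))⁻¹ • g - 1)
  rw [← show z x - x = v from congrArg Subtype.val hx, h3, (eq_inv_smul_iff₀ h13).2 (h12 x)]; simp [hb]

omit [FiniteDimensional F V] in
theorem Sc.eqv (h : Sc M ι) (h' : Sc M ι') {u u' : U} (hu : u ≠ 0) (hu' : u' ≠ 0) (h1 : Xs ι u = Xs ι' u') :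
    ι.range = ι'.range := le_antisymm (by rintro _ ⟨x, rfl⟩; exact h.stab hm h' hu hu' h1 x)
  (by rintro _ ⟨x, rfl⟩; exact h'.stab hm h hu' hu h1.symm x)

theorem Sc.norm (h : Sc M ι) {z : V ≃ₗ[F] V} (hz : z ∈ M) {u : U} (hu : u ≠ 0)
    (h1 : ∀ x ∈ Xs ι u, z x ∈ Xs ι u) : (cg z ι).range = ι.range :=
  (h.conj hz).eqv hm h hu hu (Submodule.eq_of_le_of_finrank_eq
    (fun x hx => app_inv z x ▸ h1 _ (mem_xs_cg.1 hx)) (finrank_xs_cg _ _))

theorem Sc.gd_of_norm (h : Sc M ι) (h' : Sc M ι') {u : U} (hu : u ≠ 0)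
    (hd : finrank F (Xs ι u) = finrank F (Xs ι' u)) {φ : Dual F U} (hφ : φ ≠ 0) {T : V ≃ₗ[F] V}
    (hT : ∀ v, T v = v + ι (r1 u φ) v) (h1 : (cg T ι').range = ι'.range) : Gd ι ι' := by
  rcases cm_or hm h1 hd.le (fun v => by simp [hT, ir_mem]) with h2 | ⟨a, ha, h2⟩
  swap
  · exact .inl (h.eqv hm h' hu ha h2)
  refine or_iff_not_imp_left.2 fun h3 => top_of_r1 hm (S :=
    { carrier := {y | Cm ι (ι' y)}
      zero_mem' := fun _ _ => by simp
      add_mem' := fun ha hb y v => by simp [ha y, hb y]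
      smul_mem' := fun c _ ha y v => by simp [ha y] }) (fun x hx y hy a v => by simp [hx a, hy a]) fun y ψ h4 => ?_
  by_cases hy : y = 0
  · exact fun _ _ => by simp [hy]
  obtain ⟨t, h5, h6⟩ := h'.tv y ψ h4
  rcases cm_or hm (h.norm hm h5 hu fun x hx => by
      obtain ⟨v, rfl⟩ := xs_range hu hφ hx
      rw [h6, ← show ι (r1 u φ) (ι' (r1 y ψ) v) = ι' (r1 y ψ) (ι (r1 u φ) v) by simpa [hT] using h2 (r1 y ψ) v]
      exact add_mem hx (ir_mem _ _ _ _)) ((finrank_xs_le ι' y hu).trans hd.ge)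
      (fun v => by simp [h6, ir_mem]) with h7 | ⟨a, ha, h7⟩
  · exact fun x v => by simpa [h6] using h7 x v
  · exact absurd (h.eqv hm h' ha hy h7.symm) h3

end Cfsg.Agent.H19.TW
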