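import Cfsg.Agent.H19.TW2

/-! Full matrix subalgebras whose root elements lie in a linear group: conjugates commute or are equal. -/

set_option autoImplicit false
set_option maxHeartbeats 400000

namespace Cfsg.Agent.H19.TW

open Module H26.MX

variable {F : Type*} [Field F] {U V : Type*} [AddCommGroup U] [Module F U] [AddCommGroup V] [Module F V]
  {ι ι' : End F U →ₐ[F] End F V} {M : Subgroup (V ≃ₗ[F] V)} {u : U}

/-- an extremal bad pair -/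
structure Ext (M : Subgroup (V ≃ₗ[F] V)) (ι ι' : End F U →ₐ[F] End F V) (u : U) : Prop where
  s : Sc M ι
  s' : Sc M ι'
  ne : u ≠ 0
  bad : ¬ Gd ι ι'
  dim : finrank F (Xs ι u) = finrank F (Xs ι' u)
  g1 : ∀ j ∈ M, (∀ x ∈ Xs ι u, x ∈ Xs ι' u → j x = x) → ∀ x ∈ Xs ι u, x ∉ Xs ι' u → j x ∈ Xs ι u →
    Gd ι (cg j ι)
  g2 : ∀ j ∈ M, (∀ x ∈ Xs ι' u, x ∈ Xs ι u → j x = x) → ∀ x ∈ Xs ι' u, x ∉ Xs ι u → j x ∈ Xs ι' u →
    Gd ι' (cg j ι')

theorem Ext.symm (h : Ext M ι ι' u) : Ext M ι' ι u :=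
  ⟨h.s', h.s, h.ne, fun h1 => h.bad h1.symm, h.dim.symm, h.g2, h.g1⟩

theorem cc_pair {j k : V ≃ₗ[F] V} (h : CC ι (cg (j⁻¹ * k) ι)) : CC (cg j ι) (cg k ι) := by
  simpa [cg_cg] using h.conj j

theorem cg_kill {x : V} (hx : x ∈ Xs ι u) {φ : Dual F U} (h : φ u = 0) (k : V ≃ₗ[F] V) :
    cg k ι (r1 u φ) (k x) = 0 := by simp [xs_kill hx u h]

variable [FiniteDimensional F U] [Nontrivial V] [FiniteDimensional F V]

namespace Ext
variable (h : Ext M ι ι' u) (hm : 3 ≤ finrank F U)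
include h hm

theorem not_le : ∃ x ∈ Xs ι u, x ∉ Xs ι' u := by
  by_contra! h1
  exact h.bad (.inl (h.s.eqv hm h.s' h.ne h.ne (Submodule.eq_of_le_of_finrank_eq h1 h.dim)))

theorem key {φ : Dual F U} (hφ : φ ≠ 0) (h0 : φ u = 0) {T : V ≃ₗ[F] V} (hT : T ∈ M)
    (h1 : ∀ v, T v = v + ι' (r1 u φ) v) {x : V} (hx : x ∈ Xs ι u) (hx' : x ∉ Xs ι' u)
    (h2 : ι' (r1 u φ) x ∈ Xs ι u) : CC ι (cg T ι) :=
  (h.g1 T hT (fun x _ hx => by simp [h1, xs_kill hx u h0]) x hx hx' (h1 x ▸ add_mem hx h2)).resolve_left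
    fun h3 => h.bad (h.s'.gd_of_norm hm h.s h.ne h.dim.symm hφ h1 h3.symm).symm

theorem f1 {φ : Dual F U} (hφ : φ ≠ 0) (h0 : φ u = 0) {x : V} (hx : x ∈ Xs ι u)
    (h2 : ι' (r1 u φ) x ∈ Xs ι u) : x ∈ Xs ι' u := by
  by_contra hx'
  have h3 : ∀ {ι₀ ι₁ : End F U →ₐ[F] End F V} (e : End F V), Cm ι₁ e → (∀ v, ι₁ (r1 u φ) (e v) = 0) →
      ∀ v, e v = 0 := fun e h3 h4 => h3.cancel (r1_ne h.ne hφ) h4
  obtain ⟨T, h4, h5⟩ := h.s'.tv u φ h0
  have h6 := h.key hm hφ h0 h4 h5 hx hx' h2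
  by_cases two : (2 : F) = 0
  swap
  · have h7 : ∀ v, T⁻¹ v = v + ι' (r1 u (-φ)) v := fun v => inv_eq_of (by simp [h5, h0])
    have h8 := h.key hm (neg_ne_zero.2 hφ) (by simp [h0]) (inv_mem h4) h7 hx hx' (by simpa using h2)
    have h9 := cc_pair (h.key hm (φ := (2 : F) • φ) (smul_ne_zero two hφ) (by simp [h0])
      (mul_mem (inv_mem (inv_mem h4)) h4) (fun v => by simp [mul_app, h5, h0, two_smul, add_assoc]) hx hx'
      (by simpa using Submodule.smul_mem _ 2 h2))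
    refine r1_ne h.ne hφ (i_inj (h3 (ι₀ := ι) _ (h6.symm _) (h3 (ι₀ := ι) (cg T ι (r1 u φ) * ι (r1 u φ))
      (fun y v => by rw [End.mul_apply, h8.symm _, h9 _]; rfl) fun v => ?_)))
    have h10 := ir_mem ι u φ v
    rw [End.mul_apply]
    generalize ι (r1 u φ) v = x at h10
    have h11 : (2 : F) • x = T x + T⁻¹ x := by rw [h5, h7, map_neg, map_neg, LinearMap.neg_apply]; module
    rw [← smul_right_inj two, ← map_smul, ← map_smul, h11, map_add, cg_kill h10 h0, zero_add, ← h9 _,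
      cg_kill h10 h0, map_zero, smul_zero]
  have h7 : ∀ v, T (T v) = v := fun v => by simp [h5, h0, add_assoc, ← two_smul F, two]
  have h8 : ∀ ψ : Dual F U, ψ ≠ 0 → ψ u = 0 → ∀ t ∈ M, (∀ v, t v = v + ι (r1 u ψ) v) → CC ι' (cg t ι') :=
    fun ψ h8 h9 t h10 h11 => by
    obtain ⟨y, h12, h13⟩ := ker_ind hm u ψ
    obtain ⟨v, h14, h15, h16⟩ := h6.exists_mem h.ne (y := y) fun h => h13 0 (by simp [h])
    rw [mem_xs_cg, inv_eq_of (h7 v)] at h16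
    refine h.symm.key hm h8 h9 h10 h11 (ir_mem _ u φ v) (fun h17 => h14 ?_) ?_
    · simpa using xs_inf h13 (h5 v ▸ add_mem h15 h17) h16
    · simp [eq_sub_of_add_eq' (h5 v).symm, xs_kill h15 u h9, xs_kill h16 u h12]
  obtain ⟨a, ha⟩ := exists_apply_eq_one hφ
  obtain ⟨ψ, h9, h10, h11⟩ := ann2 hm u a
  obtain ⟨t, h12, h13⟩ := h.s.tv u φ h0
  obtain ⟨t', h14, h15⟩ := h.s.tv u ψ h10
  have h16 : ∀ v, t (t v) = v := fun v => by simp [h13, h0, add_assoc, ← two_smul F, two]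
  have h17 : ∀ v, (t * t') v = v + ι (r1 u (φ + ψ)) v := fun v => by simp [mul_app, h13, h15, h0]; abel
  have h18 := h8 φ hφ h0 t h12 h13
  have h19 := h8 ψ h9 h10 t' h14 h15
  have h20 := h8 _ (fun h => by simpa [ha, h11] using LinearMap.congr_fun h a) (by simp [h0, h10]) _
    (mul_mem h12 h14) h17
  have h21 : t⁻¹ = t := by ext v; exact inv_eq_of (h16 v)
  have h22 : CC (cg t ι') (cg t' ι') := cc_pair (h21.symm ▸ h20)
  have h23 : CC (cg t ι') (cg (t * t') ι') := cc_pair (by simpa)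
  have h24 : CC (cg t' ι') (cg (t * t') ι') := cc_pair (by
    rwa [show t'⁻¹ * (t * t') = t from inv_mul_eq_of_eq_mul (by
      ext v; simp [h17, mul_app, h13, h15, h10]; abel)])
  refine r1_ne h.ne hφ (i_inj (h3 (ι₀ := ι) _ (h20.symm _) (h3 (ι₀ := ι)
    (cg (t * t') ι' (r1 u φ) * ι' (r1 u φ)) (fun y v => by rw [End.mul_apply, h19.symm _, h24 _]; rfl)
    (h3 (ι₀ := ι) (cg t' ι' (r1 u φ) * cg (t * t') ι' (r1 u φ) * ι' (r1 u φ))
      (fun y v => by rw [End.mul_apply, End.mul_apply, h18.symm _, h23 _, h22 _]; rfl) fun v => ?_))))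
  have h25 := ir_mem ι' u φ v
  rw [End.mul_apply, End.mul_apply]
  generalize ι' (r1 u φ) v = x at h25
  have h26 : x = (t * t') x + (t' x + t x) := by
    rw [h17, h13, h15, ← sub_eq_zero]
    simp only [map_add, LinearMap.add_apply]
    linear_combination (norm := module) two • (-x - ι (r1 u φ) x - ι (r1 u ψ) x)
  rw [h26, map_add, cg_kill h25 h0, zero_add, map_add, map_add, ← h24 _, cg_kill h25 h0, map_zero, zero_add,
    ← h22 _, ← h23 _, cg_kill h25 h0, map_zero, map_zero]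

theorem ff {φ : Dual F U} (hφ : φ ≠ 0) (h0 : φ u = 0) {v : V} (hv : v ∈ Xs ι u ⊔ Xs ι' u) (y : U) (hy : y ≠ 0)
    (h1 : ι (r1 y φ) v = 0) : v ∈ Xs ι u := by
  obtain ⟨x, h2, x', h3, rfl⟩ := Submodule.mem_sup.1 hv
  obtain ⟨χ, hχ⟩ := exists_dual_one (F := F) hy
  refine add_mem h2 (h.symm.f1 hm hφ h0 h3 ?_)
  rw [show ι (r1 u φ) x' = 0 by simpa [hχ, xs_kill h2 u h0] using congrArg (ι (r1 u χ)) h1]
  exact zero_mem _

variable (ho : 4 ≤ finrank F U ∨ Odd (finrank F V))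
include ho

theorem lz {z : V ≃ₗ[F] V} (hz : (cg z ι).range = ι.range) (h1 : ∀ v, z v - v ∈ Xs ι u ⊔ Xs ι' u) :
    ∃ ψ, ∀ v, z v = v + ι (r1 u ψ) v := by
  obtain ⟨g, e, h2, h3⟩ := norm_form hz
  have h4 : ∀ a χ v, z (ι (r1 a χ) v) = ι (r1 (g a) χ) (e v) := fun a χ v => by rw [h3, h2, i_i, mul_r1]
  have h5 : ∀ a χ v, z (ι (r1 a χ) v) - ι (r1 a χ) v ∈ Xs ι u := fun a χ v => by
    by_cases h5 : ∃ φ : Dual F U, φ ≠ 0 ∧ φ u = 0 ∧ φ a = 0 ∧ φ (g a) = 0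
    · obtain ⟨φ, h5, h6, h7, h8⟩ := h5
      exact h.ff hm h5 h6 (h1 _) u h.ne (by simp [h4, h7, h8])
    push Not at h5
    rcases ho with ho | ho
    · obtain ⟨y, -, hy⟩ := exists_not_mem_of_lt (W := Submodule.span F (Set.range ![u, a, g a])) (U := ⊤) (by
        have := finrank_range_le_card (R := F) ![u, a, g a]
        rw [finrank_top]; simp only [Set.finrank, Fintype.card_fin] at this; omega)
      obtain ⟨φ, h6, h7⟩ := exists_dual hy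
      exact absurd (h7 _ (Submodule.subset_span ⟨2, rfl⟩)) (h5 φ (by rintro rfl; simp at h6)
        (h7 _ (Submodule.subset_span ⟨0, rfl⟩)) (h7 _ (Submodule.subset_span ⟨1, rfl⟩)))
    obtain ⟨α, h6, h7, h8⟩ : ∃ α : Dual F U, α u = 0 ∧ α (g a) = 0 ∧ α a = 1 := by
      obtain ⟨α, h6, h7, h8⟩ := ann2 hm u (g a)
      exact ⟨(α a)⁻¹ • α, by simp [h7], by simp [h8], by simpa using inv_mul_cancel₀ (h5 α h6 h7 · h8)⟩
    obtain ⟨γ, h9, h10, h11⟩ : ∃ γ : Dual F U, γ u = 0 ∧ γ a = 0 ∧ γ (g a) = 1 := by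
      obtain ⟨γ, h6, h7, h8⟩ := ann2 hm u a
      exact ⟨(γ (g a))⁻¹ • γ, by simp [h7], by simp [h8], by simpa using inv_mul_cancel₀ (h5 γ h6 h7 h8)⟩
    obtain ⟨c, w, h12, h13⟩ := exists_eig ho (h := e) (δ := -α (g (g a))) (τ := γ (g (g a))) fun w =>
      eq_zero_of_ir (ι := ι) h.ne fun χ => by
        have := xs_kill (h.ff hm (φ := α) (by rintro rfl; simp at h8) h6
          (sub_mem (h1 (ι (r1 (g a) χ) w)) (h1 (ι (r1 a χ) (-α (g (g a)) • e w)))) u h.ne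
          (by simp [h4, h7, h8])) u h9
        simp only [h4, map_sub, ir_ir, h10, h11, map_smul] at this ⊢
        linear_combination (norm := module) this
    exact absurd (eq_zero_of_ir (ι := ι) h.ne fun χ => by
      simpa [h4, h7, h8] using xs_kill (h.ff hm (φ := c • α + γ) (fun h => by
        simpa [h7, h11] using LinearMap.congr_fun h (g a)) (by simp [h6, h9]) (h1 (ι (r1 a χ) w)) u h.ne
        (by simp [h4, h7, h8, h10, h11, h13])) u h6) h12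
  have h6 : ∀ v, z v - v ∈ Xs ι u := fun v => by
    rw [← sum_ir ι v, map_sum, ← Finset.sum_sub_distrib]
    exact Submodule.sum_mem _ fun k _ => h5 _ _ _
  obtain ⟨χ, h7, h8, -⟩ := ann2 hm u u
  obtain ⟨b, hb⟩ := exists_apply_eq_one h7
  have h9 := scal h2 h.ne (g := g) (fun v => h3 v ▸ xs_kill (h6 v) u h8) b
  have h10 : χ (g b) ≠ 0 := fun h10 => let ⟨v, hv⟩ := exists_ne (0 : V); hv (by simpa [h10, hb] using (h9 v).symm)
  obtain ⟨ψ, hψ⟩ := exists_dual_one (F := F) h.ne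
  refine ⟨ψ ∘ₗ ((χ (g b))⁻¹ • g - 1), fun v => eq_add_of_sub_eq' ?_⟩
  rw [← xs_eq (h6 v) hψ, show r1 u (ψ ∘ₗ _) = r1 u ψ * ((χ (g b))⁻¹ • g - 1) from rfl, ← i_i, h3,
    (eq_inv_smul_iff₀ h10).2 (h9 v)]
  simp [hb]

theorem false [Finite F] : False := by
  let S : Subgroup (V ≃ₗ[F] V) :=
    { carrier := {z | z ∈ M ∧ (∀ v, z v - v ∈ Xs ι u ⊔ Xs ι' u) ∧ ∀ x ∈ Xs ι u, x ∈ Xs ι' u → z x = x}
      one_mem' := ⟨one_mem _, by simp, by simp⟩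
      mul_mem' := fun {a b} ha hb => ⟨mul_mem ha.1 hb.1, fun v => by
        simpa using add_mem (ha.2.1 (b v)) (hb.2.1 v), fun x h1 h2 => by
          rw [mul_app, hb.2.2 x h1 h2, ha.2.2 x h1 h2]⟩
      inv_mem' := fun {a} ha => ⟨inv_mem ha.1, fun v => by simpa using neg_mem (ha.2.1 (a⁻¹ v)),
        fun x h1 h2 => inv_eq_of (ha.2.2 x h1 h2)⟩ }
  have h1 : ∀ φ : Dual F U, φ u = 0 → ∃ T ∈ S, ∀ v, T v = v + ι (r1 u φ) v := fun φ h0 =>
    (h.s.tv u φ h0).imp fun T hT => ⟨⟨hT.1, fun v => by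
      simpa [hT.2] using Submodule.mem_sup_left (ir_mem ι u φ v), fun x hx _ => by
        simp [hT.2, xs_kill hx u h0]⟩, hT.2⟩
  obtain ⟨φ, hφ, h0, -⟩ := ann2 hm u u
  obtain ⟨T, hT, h2⟩ := h1 φ h0
  obtain ⟨T', h3, h4⟩ := h.s'.tv u φ h0
  replace h3 : T' ∈ S := ⟨h3, fun v => by simpa [h4] using Submodule.mem_sup_right (ir_mem ι' u φ v),
    fun x _ hx => by simp [h4, xs_kill hx u h0]⟩
  by_cases two : (2 : F) = 0
  · have : Finite V := Module.finite_of_finite F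
    have : Finite (V ≃ₗ[F] V) := DFunLike.finite _
    have h5 : ∀ φ : Dual F U, φ ≠ 0 → φ u = 0 → ∀ T ∈ S, (∀ v, T v = v + ι (r1 u φ) v) →
        ∃ g ∈ S, g⁻¹ * T * g = T' := fun φ₁ h5 h6 T hT h2 => by
      refine (TA.dihedral_or (by ext v; simp [mul_app, h2, h6, add_assoc, ← two_smul F, two])
        (by ext v; simp [mul_app, h4, h0, add_assoc, ← two_smul F, two]) hT h3).resolve_right ?_
      rintro ⟨z, h7, h8, -, h9, h10, -⟩
      obtain ⟨ψ, h11⟩ := h.lz hm ho (h.s.norm hm h7.1 h.ne fun x hx => by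
        obtain ⟨v, rfl⟩ := xs_range h.ne h5 hx
        rw [← show ι (r1 u φ₁) (z v) = z (ι (r1 u φ₁) v) by
          simpa [mul_app, h2] using congrArg z (LinearEquiv.congr_fun h9 v)]
        exact ir_mem _ _ _ _) h7.2.1
      obtain ⟨ψ', h12⟩ := h.symm.lz hm ho (h.s'.norm hm h7.1 h.ne fun x hx => by
        obtain ⟨v, rfl⟩ := xs_range h.ne hφ hx
        rw [← show ι' (r1 u φ) (z v) = z (ι' (r1 u φ) v) by
          simpa [mul_app, h4] using congrArg z (LinearEquiv.congr_fun h10 v)]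
        exact ir_mem _ _ _ _) (sup_comm (Xs ι u) _ ▸ h7.2.1)
      obtain ⟨x, h13, h14⟩ := h.not_le hm
      obtain ⟨v, rfl⟩ := xs_range h.ne (φ := ψ) (by rintro rfl; exact h8 (by ext; simp [h11])) h13
      exact h14 (add_left_cancel ((h11 v).symm.trans (h12 v)) ▸ ir_mem _ _ _ _)
    obtain ⟨a, ha⟩ := exists_apply_eq_one hφ
    obtain ⟨φ₂, h6, h7, h8⟩ := ann2 hm u a
    obtain ⟨T₂, h9, h10⟩ := h1 φ₂ h7
    obtain ⟨g, h11, h12⟩ := h5 φ hφ h0 T hT h2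
    obtain ⟨g₂, h13, h14⟩ := h5 φ₂ h6 h7 T₂ h9 h10
    have h15 := mul_mem h11 (inv_mem h13)
    have h16 : T * (g * g₂⁻¹) = g * g₂⁻¹ * T₂ := by
      rw [show T = g * (g⁻¹ * T * g) * g⁻¹ by group, h12, ← h14]; group
    generalize g * g₂⁻¹ = z at h15 h16
    replace h16 : ∀ v, ι (r1 u φ) (z v) = z (ι (r1 u φ₂) v) := fun v => by
      simpa [mul_app, h2, h10] using LinearEquiv.congr_fun h16 v
    obtain ⟨ψ, h17⟩ := h.lz hm ho (h.s.norm hm h15.1 h.ne fun x hx => by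
      obtain ⟨v, rfl⟩ := xs_range h.ne h6 hx
      exact h16 v ▸ ir_mem _ _ _ _) h15.2.1
    exact r1_ne h.ne hφ (i_inj (ι := ι) fun v => by simpa [h17, h0, ha, h8] using h16 (ι (r1 a φ) v))
  have h8 : ∀ a ∈ (Xs ι' u).map (ι (r1 u φ)), ι' (r1 u φ) a ∈ Xs ι u → a = 0 := by
    rintro _ ⟨x, hx, rfl⟩ h8
    exact xs_kill (h.symm.f1 hm hφ h0 hx (h.f1 hm hφ h0 (ir_mem _ _ _ _) h8)) u h0
  obtain ⟨z, h9, a, h10, h11, h12, h13⟩ := TA.exists_neg two h2 h4 (fun v => by simp [h0])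
    (A := (Xs ι' u).map (ι (r1 u φ))) (fun h9 => by
      obtain ⟨x, h10, h11⟩ := h.symm.not_le hm
      exact h11 (h.symm.f1 hm hφ h0 h10 ((h9.le ⟨_, h10, rfl⟩ : ι (r1 u φ) x = 0) ▸ zero_mem _)))
    (by rintro _ ⟨x, -, rfl⟩; simp [h0]) (fun a _ => ⟨_, ir_mem _ _ _ a, rfl⟩)
    fun a ha h9 => h8 a ha (h.symm.f1 hm hφ h0 (ir_mem _ _ _ _) (h9 ▸ zero_mem _))
  replace h9 : z ∈ S := (Subgroup.closure_le S).2 (by rintro _ (rfl | rfl) <;> assumption) h9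
  have h14 : a ∈ Xs ι u := by obtain ⟨x, -, rfl⟩ := h10; exact ir_mem _ _ _ _
  rcases h.g1 z h9.1 h9.2.2 a h14 (fun h15 => h11 (h8 a h10 (by simp [xs_kill h15 u h0]))) (h12 ▸ neg_mem h14)
    with h15 | h15
  · obtain ⟨ψ, h16⟩ := h.lz hm ho h15.symm h9.2.1
    refine h11 (h8 a h10 ((Submodule.smul_mem_iff _ (neg_ne_zero.2 two)).1 ?_))
    rw [show (-2 : F) • ι' (r1 u φ) a = _ by rw [← add_right_inj (ι' (r1 u φ) a), ← h16, h13]; module]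
    exact ir_mem _ _ _ _
  obtain ⟨y, h16, h17⟩ := ker_ind hm u φ
  obtain ⟨v, h18, h19, h20⟩ := h15.exists_mem (u := y) (fun h => h17 0 (by simp [h])) h.ne
  exact h18 (xs_inf h17 (h.ff hm hφ h0 (by simpa using add_mem (h9.2.1 (z⁻¹ v)) (Submodule.mem_sup_left
    (mem_xs_cg.1 h20))) u h.ne (xs_kill h19 u h16)) h19)

end Ext

theorem Sc.gd [Finite F] (h : Sc M ι) (hm : 3 ≤ finrank F U) (ho : 4 ≤ finrank F U ∨ Odd (finrank F V))
    {k k' : V ≃ₗ[F] V} (hk : k ∈ M) (hk' : k' ∈ M) : Gd (cg k ι) (cg k' ι) := by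
  by_contra h1
  have : Nontrivial U := Module.nontrivial_of_finrank_pos (R := F) (by omega)
  obtain ⟨u, hu⟩ := exists_ne (0 : U)
  have : Finite V := Module.finite_of_finite F
  have : Finite (V ≃ₗ[F] V) := DFunLike.finite _
  obtain ⟨⟨k, k'⟩, ⟨hk, hk', h1⟩, hx⟩ := Set.exists_max_image
    {p : _ × _ | p.1 ∈ M ∧ p.2 ∈ M ∧ ¬ Gd (cg p.1 ι) (cg p.2 ι)}
    (fun p => finrank F ↥(Xs (cg p.1 ι) u ⊓ Xs (cg p.2 ι) u)) (Set.toFinite _) ⟨(k, k'), hk, hk', h1⟩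
  have h2 : ∀ a ∈ M, ∀ X : Submodule F V, Xs (cg a ι) u ⊓ X = Xs (cg k ι) u ⊓ Xs (cg k' ι) u → ∀ j ∈ M,
      (∀ x ∈ Xs (cg a ι) u, x ∈ X → j x = x) → ∀ x ∈ Xs (cg a ι) u, x ∉ X → j x ∈ Xs (cg a ι) u →
      Gd (cg a ι) (cg j (cg a ι)) := fun a ha X h2 j hj h3 x h4 h5 h6 => by_contra fun h7 => by
    have h8 : finrank F ↥(Xs (cg a ι) u ⊓ Xs (cg (j * a) ι) u) ≤ finrank F ↥(Xs (cg k ι) u ⊓ Xs (cg k' ι) u) :=
      hx (a, j * a) ⟨ha, mul_mem hj ha, by rwa [cg_cg] at h7⟩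
    rw [← h2, ← cg_cg j a] at h8
    generalize cg a ι = ι₁ at h3 h4 h6 h8
    refine h8.not_gt (Submodule.finrank_lt_finrank_of_lt (lt_of_le_of_ne
      (fun y hy => ⟨hy.1, mem_xs_cg.2 ((inv_eq_of (h3 y hy.1 hy.2)).symm ▸ hy.1)⟩) fun h8 => ?_))
    have h9 := (h8.ge ⟨h6, mem_xs_cg.2 (by rwa [inv_app])⟩).2
    exact h5 (j.injective (h3 _ h6 h9) ▸ h9)
  exact Ext.false ⟨h.conj hk, h.conj hk', hu, h1, (finrank_xs_cg _ _).trans (finrank_xs_cg _ _).symm,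
    h2 k hk _ rfl, h2 k' hk' _ (inf_comm _ _)⟩ hm ho

end Cfsg.Agent.H19.TW
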