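import Cfsg.Agent.H19.TW3

/-! Overgroups of tensor induced subgroups of the special linear group. -/

set_option autoImplicit false
set_option maxHeartbeats 400000

namespace Cfsg.Agent.H19.TW

open Module H26.MX

variable {F : Type*} [Field F] {U V : Type*} [AddCommGroup U] [Module F U] [AddCommGroup V] [Module F V]
  {M : Subgroup (V ≃ₗ[F] V)}

theorem In.comm {x y : End F V} (h : In M x) (h' : In M y) (h1 : ∀ v, x (x v) = 0) (h2 : ∀ v, y (y v) = 0)
    (h3 : ∀ v, y (x v) = 0) : In M (x * y) := by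
  obtain ⟨g, hg, h⟩ := h
  obtain ⟨g', hg', h'⟩ := h'
  refine ⟨g * g' * g⁻¹ * g'⁻¹, mul_mem (mul_mem (mul_mem hg hg') (inv_mem hg)) (inv_mem hg'), fun v => ?_⟩
  rw [mul_app, mul_app, mul_app, inv_eq_of (g := g') (x := v - y v) (by simp [h', h2]),
    inv_eq_of (g := g) (x := v - y v - x (v - y v)) (by simp [h, h1])]
  simp [h, h', h1, h2, h3]; abel

theorem bil_eq {β : Dual F U →ₗ[F] U →ₗ[F] V} (h : ∀ χ a, χ a = 0 → β χ a = 0) (χ ψ : Dual F U) (a y : U) :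
    ψ y • β χ a = χ a • β ψ y := by
  have h1 : ∀ χ : Dual F U, χ y ≠ 0 → ψ y • β χ a = χ a • β ψ y := fun χ h1 => by
    have h2 := h (ψ y • χ - χ y • ψ) y (by simp [mul_comm])
    have h3 := h χ (χ y • a - χ a • y) (by simp [mul_comm])
    simp only [map_sub, map_smul, LinearMap.sub_apply, LinearMap.smul_apply] at h2 h3
    rw [← smul_right_inj h1]
    linear_combination (norm := module) ψ y • h3 + χ a • h2
  by_cases hy : y = 0
  · simp [hy]
  obtain ⟨χ', h2⟩ := exists_dual_one (F := F) hy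
  by_cases h3 : χ y = 0
  · have h4 := h1 (χ + χ') (by simp [h2, h3])
    simpa [add_smul, h1 χ' (by simp [h2])] using h4
  · exact h1 χ h3

variable [FiniteDimensional F U] (hm : 3 ≤ finrank F U)

section
include hm

theorem tv_trans {P : U → Dual F U → Prop} (h1 : ∀ u φ y (ψ : Dual F U), P u φ → φ y = 0 → ψ y = 0 → ψ u = 1 → P y φ)
    (h2 : ∀ u φ y ψ, P u φ → ψ u = 0 → ψ y = 0 → φ y = 1 → P u ψ) (h3 : ∀ u φ (c : F), P u φ → P (c • u) φ)
    (h4 : ∀ u φ (c : F), P u φ → P u (c • φ)) {u u' : U} {φ φ' : Dual F U} (hu : u ≠ 0) (hφ : φ ≠ 0)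
    (h : P u φ) (h0 : φ' u' = 0) : P u' φ' := by
  have h5 : ∀ u φ y, u ≠ 0 → P u φ → φ y = 0 → P y φ := fun u φ y hu h h5 => by
    by_cases h6 : ∃ c : F, y = c • u
    · obtain ⟨c, rfl⟩ := h6; exact h3 _ _ c h
    by_cases hy : y = 0
    · simpa [hy] using h3 _ _ 0 h
    obtain ⟨ψ, h7, h8⟩ := exists_dual_pair (F := F) (u := y) (x := u) fun c hc => h6 ⟨c⁻¹, by
      rw [hc, inv_smul_smul₀]; rintro rfl; simp [hc] at hu⟩
    exact h1 u φ y ψ h h5 h8 h7
  obtain ⟨y, h6, h7, h8⟩ := ker2 hm φ φ'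
  refine h5 y φ' u' h6 ?_ h0
  by_cases h9 : ∃ c : F, φ' = c • φ
  · obtain ⟨c, rfl⟩ := h9; exact h4 _ _ c (h5 u φ y hu h h7)
  by_cases h10 : φ' = 0
  · simpa [h10] using h4 _ _ 0 (h5 u φ y hu h h7)
  obtain ⟨a, h11, h12⟩ := exists_vec_pair (φ := φ) (ψ := φ') fun c hc => h9 ⟨c⁻¹, by
    rw [hc, inv_smul_smul₀]; rintro rfl; simp [hc] at hφ⟩
  exact h2 y φ a φ' (h5 u φ y hu h h7) h8 h12 h11

theorem exists_mid (u : U) (φ : Dual F U) : ∃ (y : U) (ψ : Dual F U), φ y = 0 ∧ ψ u = 0 ∧ ψ y = 1 :=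
  let ⟨y, h1, h2⟩ := ker_ind hm u φ; let ⟨ψ, h3, h4⟩ := exists_dual_pair h2; ⟨y, ψ, h1, h4, h3⟩

theorem not_cc [Nontrivial V] {ι ι' : End F U →ₐ[F] End F V} (h : CC ι ι') : ¬ ι.range ≤ ι'.range := fun h1 => by
  obtain ⟨u, hu, -⟩ := ker2 hm (0 : Dual F U) 0
  obtain ⟨φ, h2, h3, -⟩ := ann2 hm u u
  obtain ⟨a, ha⟩ := exists_apply_eq_one h2
  obtain ⟨x, hx⟩ := h1 ⟨r1 a φ, rfl⟩
  refine r1_ne hu h2 (i_inj (ι := ι) fun v => ?_)
  have := h x (r1 u φ) v
  rw [show ι' x = ι (r1 a φ) from hx] at this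
  simpa [ha, h3] using this.symm

end

/-- the coefficient algebra -/
def Ec (M : Subgroup (V ≃ₗ[F] V)) {ι : End F U →ₐ[F] End F V} (h : ∀ u φ, φ u = 0 → In M (ι (r1 u φ))) :
    Subalgebra F (End F V) where
  carrier := {e | Cm ι e ∧ ∀ u φ, φ u = 0 → In M (ι (r1 u φ) * e)}
  add_mem' ha hb := ⟨fun y v => by simp [ha.1 y, hb.1 y], fun u φ h0 =>
    (ha.2 u φ h0).mul (hb.2 u φ h0) fun v => by simp [ha.1 _, h0, add_comm]⟩
  mul_mem' ha hb := ⟨fun y v => by simp [ha.1 y, hb.1 y], fun u φ h0 => by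
    obtain ⟨y, ψ, h1, h2, h3⟩ := exists_mid hm u φ
    convert (ha.2 u ψ h2).comm (hb.2 y φ h1) (fun v => by simp [ha.1 _, h2]) (fun v => by simp [hb.1 _, h1])
      (fun v => by simp [hb.1 _, h0]) using 1
    ext v; simp [ha.1 _, h3]⟩
  algebraMap_mem' c := ⟨fun y v => by simp, fun u φ h0 => by
    convert h u (c • φ) (by simp [h0]) using 1; ext v; simp⟩

variable {T : Type} [Fintype T] [DecidableEq T] {ι : T → (End F U →ₐ[F] End F V)}
  (hc : ∀ i j, i ≠ j → CC (ι i) (ι j)) (hg : ∀ A : Subalgebra F (End F V), (∀ i x, ι i x ∈ A) → A = ⊤)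
include hm hc hg

theorem mem_of_cm {i : T} {E : Subalgebra F (End F V)} (h1 : ∀ c ∈ E, Cm (ι i) c)
    (h2 : ∀ j, j ≠ i → ∀ y, ι j y ∈ E) {e : End F V} (he : Cm (ι i) e) : e ∈ E := by
  obtain ⟨u, hu, -⟩ := ker2 hm (0 : Dual F U) 0
  obtain ⟨χ₀, h3⟩ := exists_dual_one (F := F) hu
  let A : Subalgebra F (End F V) :=
    { carrier := {x | ∀ χ a, ∃ c ∈ E, ∀ u φ v, ι i (r1 u χ) (x (ι i (r1 a φ) v)) = ι i (r1 u φ) (c v)}
      add_mem' := fun ha hb χ a => let ⟨c, h1, h2⟩ := ha χ a; let ⟨d, h3, h4⟩ := hb χ a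
        ⟨c + d, add_mem h1 h3, fun u φ v => by simp [h2, h4]⟩
      mul_mem' := fun {x y} ha hb χ a => by
        choose c h4 h5 using ha χ
        choose d h6 h7 using fun χ => hb χ a
        refine ⟨∑ k, c (finBasis F U k) * d ((finBasis F U).coord k),
          sum_mem fun k _ => mul_mem (h4 _) (h6 _), fun u φ v => ?_⟩
        rw [End.mul_apply, ← sum_ir (ι i) (y _)]
        simp [h7, h5]
      algebraMap_mem' := fun c χ a => ⟨algebraMap F _ (c * χ a), E.algebraMap_mem _, fun u φ v => by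
        simp [smul_smul, mul_comm]⟩ }
  obtain ⟨c, h4, h5⟩ := (hg A fun j x χ a => by
    by_cases h4 : j = i
    · exact ⟨algebraMap F _ (χ (x a)), E.algebraMap_mem _, fun u φ v => by simp [h4, i_i _ x, mul_r1]⟩
    · exact ⟨χ a • ι j x, E.smul_mem (h2 j h4 x) _, fun u φ v => by simp [hc i j (Ne.symm h4) x _]⟩).ge
    (Algebra.mem_top (x := e)) χ₀ u
  rwa [show e = c from LinearMap.ext fun v => sub_eq_zero.1 (eq_zero_of_ir (ι := ι i) hu fun φ => by
    simpa [he _, h3, sub_eq_zero] using h5 u φ v)]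

omit hm hc [FiniteDimensional F U] [Fintype T] [DecidableEq T] in
theorem scal_of_cm {e : End F V} (he : ∀ i, Cm (ι i) e) : ∃ c : F, ∀ v, e v = c • v := by
  obtain ⟨c, h⟩ := Algebra.mem_bot.1 ((Algebra.IsCentral.center_eq_bot F (End F V)).le
    (Subalgebra.mem_center_iff.2 fun x => ((Subalgebra.mem_centralizer_iff F).1
      ((hg (Subalgebra.centralizer F {e}) fun i x => (Subalgebra.mem_centralizer_iff F).2 (by
        rintro _ rfl; exact LinearMap.ext (he i x))).ge Algebra.mem_top) e rfl).symm))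
  exact ⟨c, fun v => by simp [← h]⟩

theorem alg (J : Finset T) : ∀ E : Submodule F (End F V), (∀ x ∈ E, ∀ y ∈ E, x * y ∈ E) →
    (∀ j ∈ J, ∀ u φ, φ u = 0 → ∀ e ∈ E, (1 + ι j (r1 u φ)) * e * (1 - ι j (r1 u φ)) ∈ E) →
    (∀ e ∈ E, ∀ j ∉ J, Cm (ι j) e) → (∀ e ∈ E, ∃ c : F, ∀ v, e v = c • v) ∨ ∃ j ∈ J, ∀ y, ι j y ∈ E := by
  induction J using Finset.strongInduction with | H J ih => ?_
  refine fun E h1 h2 h3 => or_iff_not_imp_left.2 fun h4 => ?_
  obtain ⟨e, he, j, h5⟩ : ∃ e ∈ E, ∃ j, ¬ Cm (ι j) e := by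
    by_contra! h5; exact h4 fun e he => scal_of_cm hg (h5 e he)
  have hj : j ∈ J := by_contra fun h => h5 (h3 e he j h)
  obtain ⟨u, φ, h6, v₀, h7⟩ : ∃ u φ, φ u = 0 ∧ ∃ v, ι j (r1 u φ) (e (ι j (r1 u φ) v)) ≠ 0 := by
    by_contra! h6
    obtain ⟨u, hu, -⟩ := ker2 hm (0 : Dual F U) 0
    refine h5 (cm_of fun y ψ v => sub_eq_zero.1 (eq_zero_of_ir (ι := ι j) hu fun χ => ?_))
    rw [← sum_ir (ι j) v]
    simp only [map_sum, map_sub, ← Finset.sum_sub_distrib, ir_ir, map_smul]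
    refine Finset.sum_eq_zero fun k _ => sub_eq_zero.2 (bil_eq (β := LinearMap.mk₂ F
      (fun χ a => ι j (r1 u χ) (e (ι j (r1 a ((finBasis F U).coord k)) v))) (by simp) (by simp) (by simp) (by simp))
      (fun χ a h => ?_) χ ψ y _)
    by_cases ha : a = 0
    · simp [ha]
    by_cases hχ : χ = 0
    · simp [hχ]
    obtain ⟨α, hα⟩ := exists_dual_one (F := F) ha
    obtain ⟨b, hb⟩ := exists_apply_eq_one hχ
    simpa [hα, hb] using congrArg (ι j (r1 u α)) (h6 a χ h (ι j (r1 b ((finBasis F U).coord k)) v))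
  obtain ⟨c, h8, h9, h10⟩ := coef (ι j) φ u e
  let E' : Submodule F (End F V) :=
    { carrier := {c | (∀ k ∉ J.erase j, Cm (ι k) c) ∧ ∀ u φ, φ u = 0 → ι j (r1 u φ) * c ∈ E}
      zero_mem' := ⟨fun _ _ _ _ => by simp, by simp⟩
      add_mem' := fun ha hb => ⟨fun k hk y v => by simp [ha.1 k hk y, hb.1 k hk y], fun u φ h => by
        simpa [mul_add] using add_mem (ha.2 u φ h) (hb.2 u φ h)⟩
      smul_mem' := fun d _ ha => ⟨fun k hk y v => by simp [ha.1 k hk y], fun u φ h => by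
        simpa using E.smul_mem d (ha.2 u φ h)⟩ }
  have h11 : ∀ u φ, φ u = 0 → ∀ e ∈ E, (1 + ι j (r1 u φ)) * e * (1 - ι j (r1 u φ)) - e ∈ E :=
    fun u φ h e he => sub_mem (h2 j hj u φ h e he) he
  have h12 : c ∈ E' := ⟨fun k hk y v => by
    by_cases h : k = j
    · exact h ▸ h8 y v
    · exact (h10 (ι k y) (hc j k (Ne.symm h) y) (fun v => (h3 e he k (by simpa [h] using hk) y v).symm) v).symm,
    fun u' φ' => tv_trans hm (P := fun u φ => ι j (r1 u φ) * c ∈ E) (fun u φ y ψ h h1 h2 h3 => by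
        convert h11 y ψ h2 _ h using 1; ext; simp [h8 _, h1, h3])
      (fun u φ y ψ h h1 h2 h3 => by
        convert neg_mem (h11 y ψ h2 _ h) using 1; ext; simp [h8 _, h1, h3])
      (fun u φ d h => by simpa using E.smul_mem d h) (fun u φ d h => by simpa using E.smul_mem d h)
      (u := u) (φ := φ) (by rintro rfl; simp at h7) (by rintro rfl; simp at h7) (by
        obtain ⟨y, ψ, h12, h13, h14⟩ := exists_mid hm u φ
        convert h11 y φ h12 _ (h11 u ψ h13 _ (h11 u φ h6 e he)) using 1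
        ext; simp [← h9, h6, h12, h13, h14]; abel)⟩
  have h13 : 1 ∈ E' := by
    rcases ih _ (Finset.erase_ssubset hj) E' (fun x hx y hy => ⟨fun k hk z v => by
        simp [hx.1 k hk z, hy.1 k hk z], fun u φ h => by
        obtain ⟨a, ψ, h12, h13, h14⟩ := exists_mid hm u φ
        convert h1 _ (hx.2 u ψ h13) _ (hy.2 a φ h12) using 1
        ext; simp [hx.1 j (by simp) _, h14]⟩)
      (fun k hk a ψ h x hx => ⟨fun l hl z v => by
        simp [hx.1 l hl z, hc l k (by rintro rfl; exact hl hk) _ z], fun u φ h0 => by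
        convert h2 k (Finset.mem_of_mem_erase hk) a ψ h _ (hx.2 u φ h0) using 1
        ext; simp [hc j k (Finset.ne_of_mem_erase hk).symm _ _]⟩) (fun x hx => hx.1) with h13 | ⟨k, -, h13⟩
    · obtain ⟨d, hd⟩ := h13 c h12
      have h14 : d ≠ 0 := by rintro rfl; simp [h9, hd] at h7
      convert E'.smul_mem d⁻¹ h12 using 1; ext; simp [hd, h14]
    · simpa using h13 1
  exact ⟨j, hj, top_of_r1 hm (S := E.comap (ι j).toLinearMap) (fun x hx y hy => by simpa using h1 _ hx _ hy)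
    fun u φ h => by simpa using h13.2 u φ h⟩

variable [FiniteDimensional F V] (ht : ∀ i u φ, φ u = 0 → In M (ι i (r1 u φ)))
  (hs : ∀ i j k, i ≠ j → j ≠ k → i ≠ k → ∃ s ∈ M, cg s (ι i) = ι j ∧ cg s (ι j) = ι k)
include ht hs

theorem sc_of (hM : ¬ SLv F V ≤ M) (i : T) : Sc M (ι i) := by
  refine ⟨ht i, fun e u φ h1 hu hφ h0 h2 => ?_⟩
  refine (alg hm hc hg (Finset.univ.erase i) (Ec hm M (ht i)).toSubmodule (fun x hx y hy => (Ec hm M (ht i)).mul_mem hx hy)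
    (fun j hj a ψ h x hx => ?_) fun x hx j hj => ?_).elim (fun h3 => h3 e ⟨h1, fun u' φ' h3 => ?_⟩) ?_
  · have h3 := hc i j (Finset.ne_of_mem_erase hj).symm
    obtain ⟨g, h4, h5⟩ := ht j a ψ h
    exact ⟨fun y v => by simp [hx.1 y, h3 _ y], fun u φ h0 => (hx.2 u φ h0).conj h4 fun v => by
      simp [h5, h, h3 _ _]⟩
  · exact (show j = i by simpa using hj) ▸ hx.1
  · simpa using tv_trans hm (P := fun u φ => φ u = 0 ∧ ∀ c : F, In M (c • ι i (r1 u φ) * e))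
      (fun u φ y ψ h h4 h5 h6 => ⟨h4, fun c => by
        convert (ht i y ψ h5).comm (h.2 c) (by simp [h5]) (by simp [h1 _, h.1]) (by simp [h1 _, h4]) using 1
        ext; simp [h6]⟩)
      (fun u φ y ψ h h4 h5 h6 => ⟨h4, fun c => by
        convert (h.2 c).comm (ht i y ψ h5) (by simp [h1 _, h.1]) (by simp [h5]) (by simp [h4]) using 1
        ext; simp [h1 _, h6]⟩)
      (fun u φ d h => ⟨by simp [h.1], fun c => by simpa [smul_smul] using h.2 (c * d)⟩)
      (fun u φ d h => ⟨by simp [h.1], fun c => by simpa [smul_smul] using h.2 (c * d)⟩) hu hφ ⟨h0, h2⟩ h3 |>.2 1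
  rintro ⟨j, hj, h3⟩
  replace hj := Finset.ne_of_mem_erase hj
  have h4 : ∀ τ u φ χ a, φ u = 0 → In M (ι i (r1 u χ) * τ * ι i (r1 a φ)) := fun τ u φ χ a h0 => by
    obtain ⟨c, h4, h5, -⟩ := coef (ι i) χ a τ
    convert (mem_of_cm hm hc hg (E := Ec hm M (ht i)) (fun c h => h.1) (fun k hk y => ?_) h4).2 u φ h0 using 1
    · exact LinearMap.ext (h5 u φ)
    by_cases h6 : j = k
    · exact h6 ▸ h3 y
    obtain ⟨s, h7, h8, h9⟩ := hs i j k hj.symm h6 hk.symm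
    simpa using top_of_r1 hm (S := (Ec hm M (ht i)).toSubmodule.comap
      (LinearMap.mulRight F (ι k y) ∘ₗ (ι j).toLinearMap))
      (fun x _ x' hx => by simpa [mul_assoc] using (Ec hm M (ht i)).mul_mem (h3 x) hx) (fun a β h10 => ⟨fun z v => by
        simp [hc i j hj.symm _ z, hc i k hk.symm _ z], fun u φ h0 => by
        obtain ⟨b, α, h11, -, h12⟩ := exists_mid hm a β
        convert ((h3 (r1 a α)).2 u φ h0).comm (y := ι j (r1 b β) * ι k y) (((h3 y).2 b β h11).conj h7 fun v => by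
          simp [← h9, ← h8]) (by simp [hc i j hj.symm _ _, h0]) (by simp [hc j k h6 _ _, h11])
          (by simp [hc j k h6 _ _, ← hc i j hj.symm _ _, h10]) using 1
        ext; simp [h12]⟩) 1
  refine absurd (sl_le_of_span (s := ⋃ u, Xs (ι i) u) (top_unique fun v _ => sum_ir (ι i) v ▸
    Submodule.sum_mem _ fun k _ => Submodule.subset_span (Set.mem_iUnion.2 ⟨_, ir_mem _ _ _ _⟩)) ?_) hM
  have h5 : ∀ u, u ≠ 0 → ∀ x ∈ Xs (ι i) u, ∀ (ξ : Dual F V) φ a, φ u = 0 → Tv M x (ξ ∘ₗ ι i (r1 a φ)) :=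
    fun u hu x hx ξ φ a h0 => by
    obtain ⟨χ, hχ⟩ := exists_dual_one (F := F) hu
    obtain ⟨g, h5, h6⟩ := h4 (ξ.smulRight x) u φ χ a h0
    exact Tv.of h5 (by simp [xs_kill hx a h0]) fun v => by simp [h6, xs_eq hx hχ]
  rintro x ⟨_, ⟨u, rfl⟩, hx⟩ ξ h6
  by_cases h7 : x = 0
  · exact Tv.of (one_mem _) h6 (by simp [h7])
  have hu : u ≠ 0 := by rintro rfl; exact h7 (by simpa using hx 1 rfl)
  obtain ⟨χ, hχ⟩ := exists_dual_one (F := F) hu
  have h8 : ∀ ξ : Dual F V, Tv M x (ξ - ξ ∘ₗ ι i (r1 u χ)) := fun ξ => by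
    convert Tv.sum Finset.univ fun k _ => h5 u hu x hx ξ
      ((finBasis F U).coord k - (finBasis F U).coord k u • χ) (finBasis F U k) (by simp [hχ]) using 1
    ext v
    conv_lhs => rw [LinearMap.sub_apply, LinearMap.comp_apply, ← map_sub, ← sum_ir (ι i) (_ - _)]
    simp
  obtain ⟨y, h9, h10⟩ := ker_ind hm u χ
  have hy : y ≠ 0 := fun h => h10 0 (by simp [h])
  obtain ⟨ψ, hψ⟩ := exists_dual_one (F := F) hy
  obtain ⟨η, h11⟩ := exists_dual_one (F := F) (x := ι i (r1 y χ) x) fun h => h7 (by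
    simpa [hψ, xs_eq hx hχ] using congrArg (ι i (r1 u ψ)) h)
  simpa [h9, h11] using (h8 ξ).add ((h8 η).comm (h5 y hy _ (ir_mem _ y χ x) ξ χ u h9) (by simp [xs_eq hx hχ, h6]))

theorem exists_perm [Finite F] [Nontrivial T] [Nontrivial V] (ho : 4 ≤ finrank F U ∨ Odd (finrank F V))
    (hM : ¬ SLv F V ≤ M) {k : V ≃ₗ[F] V} (hk : k ∈ M) :
    ∃ σ : Equiv.Perm T, ∀ i, (cg k (ι i)).range ≤ (ι (σ i)).range := by
  have h1 : ∀ i, ∃ j, (cg k (ι i)).range ≤ (ι j).range := fun i => by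
    by_contra! h1
    have h2 : ∀ s ∈ M, ∀ j, cg s (ι i) = ι j → CC (ι j) (cg k (ι i)) := fun s h2 j h3 =>
      h3 ▸ ((sc_of hm hc hg ht hs hM i).gd hm ho h2 hk).resolve_left fun h4 => h1 j (h3 ▸ h4.ge)
    obtain ⟨j, hj⟩ := exists_ne i
    by_cases h3 : ∀ l, l ≠ i → l = j
    · refine h1 j ?_
      rintro _ ⟨x, rfl⟩
      exact mem_of_cm hm hc hg (by rintro _ ⟨y, rfl⟩; exact hc i j hj.symm y)
        (fun l hl y => h3 l hl ▸ ⟨y, rfl⟩) (h2 1 (one_mem _) i rfl x)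
    push Not at h3
    obtain ⟨l, h3, h4⟩ := h3
    refine h1 j ?_
    rintro _ ⟨x, rfl⟩
    obtain ⟨c, h5⟩ := scal_of_cm hg (e := cg k (ι i) x) fun a => by
      by_cases h5 : i = a
      · exact h5 ▸ h2 1 (one_mem _) i rfl x
      by_cases h6 : a = j
      · obtain ⟨s, h7, h8, -⟩ := hs i a l h5 (h6 ▸ h4.symm) h3.symm
        exact h2 s h7 a h8 x
      · obtain ⟨s, h7, h8, -⟩ := hs i a j h5 h6 hj.symm
        exact h2 s h7 a h8 x
    exact ⟨c • 1, LinearMap.ext fun v => by simpa using (h5 v).symm⟩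
  choose σ h2 using h1
  have h3 : ∀ ι : End F U →ₐ[F] End F V, finrank F ι.range = finrank F (End F U) := fun ι =>
    (AlgEquiv.ofInjective ι ((injective_iff_map_eq_zero _).2 fun x hx =>
      i_inj (ι := ι) (by simp [hx]))).toLinearEquiv.finrank_eq.symm
  exact ⟨Equiv.ofBijective σ (Finite.injective_iff_bijective.1 fun i j h4 => by_contra fun h5 =>
    not_cc hm ((hc i j h5).conj k) ((h2 i).trans (h4 ▸ (Subalgebra.eq_of_le_of_finrank_eq (h2 j)
      ((h3 _).trans (h3 _).symm)).ge))), h2⟩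

end Cfsg.Agent.H19.TW
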