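import Cfsg.Agent.H19.TW5

/-! Tensor factors carrying a symplectic or unitary form: generalities. -/

set_option autoImplicit false
set_option maxHeartbeats 400000

namespace Cfsg.Agent.H19.TX

open Module H10 H11 H26.MX TW

variable {F : Type*} [Field F] {σ : F →+* F} {ε κ : F} {τ : F →+ F} {U V : Type*} [AddCommGroup U] [Module F U]
  [AddCommGroup V] [Module F V] {f : U →ₛₗ[σ] U →ₗ[F] F} {q : U → F} {B : V →ₛₗ[σ] V →ₗ[F] F}
  {ι ι' : End F U →ₐ[F] End F V} {M : Subgroup (V ≃ₗ[F] V)} {u : U}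

section U
variable (h : Cl ε κ τ f q) (hq : NQ τ)
include h

theorem part (hu : q u = 0) (h0 : u ≠ 0) : ∃ y, q y = 0 ∧ f u y = 1 := h.form.exists_partner h.sep hu h0

theorem f_ne (h0 : u ≠ 0) : f u ≠ 0 := fun h1 => h0 (h.sep u (by simp [h1]))

theorem tau_fix {c l : F} (hc : τ c = 0) (hl : σ l = l) : τ (l * c) = 0 := by
  have h1 := h.tr c
  rcases h.kind with ⟨-, -, -, rfl⟩ | ⟨-, -, -, rfl⟩ | ⟨-, rfl, -, rfl⟩
  · rfl
  · simp_all
  · simp only [trHom_apply, map_mul, hl] at hc ⊢; linear_combination l * hc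

theorem sig_lam {c : F} (hc : τ c = 0) : σ c = -(ε * c) := by
  have := h.tr c; rw [hc] at this; linear_combination -this

theorem q_add {a b : U} (ha : q a = 0) (hb : q b = 0) {c : F} (hc : τ (c * f a b) = 0) : q (a + c • b) = 0 := by
  simp [h.Q_add, ha, h.sing_smul hb, hc]

include hq

theorem q_zero {a : U} (ha : f a a = 0) : q a = 0 := by
  obtain ⟨t, ht⟩ := h.form.tv a
  have h1 := h.form.diag a
  rcases h.kind with ⟨-, -, -, rfl⟩ | ⟨-, -, -, rfl⟩ | ⟨-, -, rfl, -⟩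
  · exact ht
  · simp [NQ] at hq
  · simpa [ha] using h1.symm

theorem span_np (hu : q u = 0) (h0 : u ≠ 0) {S : Submodule F U} (hS : ∀ b, q b = 0 → f u b = 1 → b ∈ S) (x : U) :
    x ∈ S := by
  obtain ⟨b, h3, h4⟩ := part h hu h0
  obtain ⟨δ, hδ, h5⟩ := hq
  have h6 := hS b h3 h4
  have h1 : u ∈ S := by
    have := hS (b + δ • u) (q_add h h3 hu (by rw [h.flip_one h4, mul_comm, h.tau_eps, h5])) (by simp [h4, h.diag0 hu])
    rwa [Submodule.add_mem_iff_right _ h6, Submodule.smul_mem_iff _ hδ] at this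
  have h7 : f u (x - f u x • b) = 0 := by simp [h4]
  obtain ⟨c, hc⟩ := h.exists_tau (x - f u x • b)
  have h8 := hS _ (((h.eich_mem_isom hu h7 hc).2 b).trans h3) (by
    rw [h.eich_apply hu h7, map_sub, map_sub, map_add, map_smul, map_smul, map_smul, h7]; simp [h4, h.diag0 hu])
  rw [h.eich_apply hu h7, Submodule.sub_mem_iff_left _ (S.smul_mem _ h1), Submodule.sub_mem_iff_right _
    (add_mem h6 (S.smul_mem _ h1)), Submodule.smul_mem_iff _ (by simp [h4, h.eps_ne])] at h8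
  simpa using add_mem h8 (S.smul_mem (f u x) h6)

theorem exists_np (hu : q u = 0) (h0 : u ≠ 0) {φ : Dual F U} (hφ : φ ≠ 0) : ∃ b, q b = 0 ∧ f u b = 1 ∧ φ b ≠ 0 := by
  by_contra! h1
  exact hφ (LinearMap.ext fun x => span_np h hq hu h0 (S := LinearMap.ker φ) h1 x)

theorem om_move {u' : U} (hu : q u = 0) (h0 : u ≠ 0) (hu' : q u' = 0) (h0' : u' ≠ 0) :
    ∃ s ∈ h.Om, ∃ c : F, c ≠ 0 ∧ s u = c • u' := by
  obtain ⟨y, h1, h2, h3⟩ := exists_np h hq hu h0 (f_ne h h0')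
  replace h3 := h.refl_ne h3
  have h4 := h.refl_ne (h2 ▸ one_ne_zero : f u y ≠ 0)
  obtain ⟨x, c, h5, h6, h7⟩ := h.exists_eich_apply (v := u) (v' := (f y u / f y u') • u') h1
    (by rw [hu, h.sing_smul hu']) (by simp [h3]) h4
  exact ⟨_, h.eich_mem_om h1 h5 h6, _, div_ne_zero h4 h3, h7⟩

variable [FiniteDimensional F U]

theorem top_tv (hu : q u = 0) (h0 : u ≠ 0) {S : Submodule F (End F U)} (h1 : ∀ x ∈ S, ∀ y ∈ S, x * y ∈ S)
    (h2 : r1 u (f u) ∈ S) (h3 : ∀ b, q b = 0 → f u b = 1 → r1 b (f b) ∈ S) (x : End F U) : x ∈ S := by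
  obtain ⟨y, h4, h5⟩ := part h hu h0
  have h6 : ∀ b, r1 u (f b) ∈ S := span_np h hq hu h0 (S := S.comap (r1 u ∘ₛₗ f)) fun b hb h6 => by
    simpa [r1_mul, h6] using h1 _ h2 _ (h3 b hb h6)
  have h7 : ∀ a, r1 a (f u) ∈ S := span_np h hq hu h0 (S := S.comap (r1.flip (f u))) fun b hb h7 => by
    simpa [r1_mul, h.flip_one h7, S.smul_mem_iff h.eps_ne] using h1 _ (h3 b hb h7) _ h2
  rw [← mul_one x, ← sum_r1, Finset.mul_sum]
  refine S.sum_mem fun k _ => ?_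
  obtain ⟨b, hb⟩ := h.exists_B ((finBasis F U).coord k)
  simpa [mul_r1, r1_mul, h5, h.flip_one h5, S.smul_mem_iff h.eps_ne, hb] using
    h1 _ (h7 (x (finBasis F U k))) _ (h1 _ (h3 y h4 h5) _ (h6 b))

theorem exists_iso [Finite F] (hn : 2 ≤ finrank F U) : ∃ u, u ≠ 0 ∧ q u = 0 :=
  let ⟨u, _, h1⟩ := h.exists_sing (W := ⊤) (.inr ⟨by simpa, hq⟩); ⟨u, h1⟩

theorem sing2 [Finite F] (hn : 4 ≤ finrank F U) (w y : U) : ∃ z, z ≠ 0 ∧ f w z = 0 ∧ f y z = 0 ∧ q z = 0 := by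
  have h1 := H10.finrank_span_pair_le (F := F) w y
  have h2 := h.form.finrank_perp h.sep (Submodule.span F {w, y})
  obtain ⟨z, h3, h4, h5⟩ := h.exists_sing (W := perp f (Submodule.span F {w, y})) (.inr ⟨by omega, hq⟩)
  rw [mem_perp_span] at h3
  exact ⟨z, h4, h3 w (by simp), h3 y (by simp), h5⟩

theorem sing3 [Finite F] (hn : 4 ≤ finrank F U) (hu : q u = 0) (h0 : u ≠ 0) :
    ∃ b, q b = 0 ∧ f u b = 0 ∧ ∀ c : F, b ≠ c • u := by
  obtain ⟨y, -, h1⟩ := part h hu h0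
  obtain ⟨b, h2, h3, h4, h5⟩ := sing2 h hq hn u y
  refine ⟨b, h5, h3, ?_⟩
  rintro c rfl
  simp [h.flip_one h1, h.eps_ne] at h4
  simp [h4] at h2

end U

/-- rank one groups with a large torus -/
def Tor (h : Cl ε κ τ f q) : Prop := ∀ u y, q u = 0 → q y = 0 → f u y = 1 → ∃ s ∈ h.Om, ∃ l m n : F,
  s u = l • u ∧ s y = n • y ∧ (∀ a, f u a = 0 → ∃ c : F, s a - m • a = c • u) ∧ l ≠ n ∧ m ≠ n

/-- a factor compatible with the forms -/
structure Fm (h : Cl ε κ τ f q) (B : V →ₛₗ[σ] V →ₗ[F] F) (M : Subgroup (V ≃ₗ[F] V))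
    (ι : End F U →ₐ[F] End F V) : Prop where
  sep : ∀ v, (∀ x, B x v = 0) → v = 0
  rf : ∀ x y, B x y = 0 → B y x = 0
  iso : ∀ g ∈ M, ∀ x y, B (g x) (g y) = B x y
  adj : ∀ a b v w, B (ι (r1 a (f b)) v) w = ε * B v (ι (r1 b (f a)) w)
  om : ∀ s ∈ h.Om, ∃ g ∈ M, ∀ v, g v = ι s.toLinearMap v

/-- the unipotent radicals are as small as possible -/
structure Fq (h : Cl ε κ τ f q) (B : V →ₛₗ[σ] V →ₗ[F] F) (M : Subgroup (V ≃ₗ[F] V))
    (ι : End F U →ₐ[F] End F V) : Prop extends Fm h B M ι where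
  nq : NQ τ
  ok : 4 ≤ finrank F U ∨ Tor h
  qq : ∀ u, q u = 0 → u ≠ 0 → ∀ θ ∈ M, (∀ x ∈ Xs ι u, θ x = x) →
    (∀ v, ι (r1 u (f u)) v = 0 → θ v - v ∈ Xs ι u) → ∃ x, ∀ v, θ v = ι x v

variable {h : Cl ε κ τ f q}

theorem Fm.conj (H : Fm h B M ι) {k : V ≃ₗ[F] V} (hk : k ∈ M) : Fm h B M (cg k ι) :=
  ⟨H.sep, H.rf, H.iso, fun a b v w => by
    rw [cg_apply, cg_apply, ← H.iso _ (inv_mem hk), inv_app, H.adj, ← H.iso k hk, app_inv], fun s hs =>
    let ⟨g, h1, h2⟩ := H.om s hs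
    ⟨k * g * k⁻¹, mul_mem (mul_mem hk h1) (inv_mem hk), fun v => by simp [mul_app, h2]⟩⟩

theorem Fq.conj (H : Fq h B M ι) {k : V ≃ₗ[F] V} (hk : k ∈ M) : Fq h B M (cg k ι) :=
  ⟨H.toFm.conj hk, H.nq, H.ok, fun u h1 h2 θ h3 h4 h5 => by
    obtain ⟨x, hx⟩ := H.qq u h1 h2 (k⁻¹ * θ * k) (mul_mem (mul_mem (inv_mem hk) h3) hk)
      (fun x hx => by rw [mul_app, mul_app, h4 _ (mem_xs_cg.2 (by simpa)), inv_app])
      fun v hv => by simpa [mul_app] using mem_xs_cg.1 (h5 (k v) (by simp [hv]))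
    exact ⟨x, fun v => by simp [← hx, mul_app]⟩⟩

theorem range_cg {g : V ≃ₗ[F] V} {s : U ≃ₗ[F] U} (hg : ∀ v, g v = ι s.toLinearMap v) : (cg g ι).range = ι.range := by
  have h1 : ∀ v, g⁻¹ v = ι s⁻¹.toLinearMap v := fun v => inv_eq_of (by
    rw [hg, i_i, show s.toLinearMap * s⁻¹.toLinearMap = 1 by ext; simp]; simp)
  refine le_antisymm ?_ ?_ <;> rintro _ ⟨x, rfl⟩
  · exact ⟨s.toLinearMap * x * s⁻¹.toLinearMap, LinearMap.ext fun v => by simp [hg, h1]⟩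
  · refine ⟨s⁻¹.toLinearMap * x * s.toLinearMap, LinearMap.ext fun v => ?_⟩
    simp [← hg, ← h1]

namespace Fm
variable (H : Fm h B M ι)
include H

theorem ei {w : U} {c : F} (hu : q u = 0) (hw : f u w = 0) (hc : τ c = q w) :
    In M (ι (r1 u (f w)) - ε • ι (r1 w (f u)) - c • ι (r1 u (f u))) := by
  obtain ⟨g, h1, h2⟩ := H.om _ (h.eich_mem_om hu hw hc)
  refine ⟨g, h1, fun v => ?_⟩
  rw [h2, show (h.eich u w c).toLinearMap = 1 + (r1 u (f w) - ε • r1 w (f u) - c • r1 u (f u)) from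
    LinearMap.ext fun x => by simp [h.eich_apply hu hw, smul_smul]; abel]
  simp

theorem tv {c : F} (hu : q u = 0) (hc : τ c = 0) : In M (c • ι (r1 u (f u))) := by
  simpa using H.ei (w := 0) (c := -c) hu (by simp) (by simp [hc, h.Q_zero])

variable [FiniteDimensional F U]

theorem ker_iff (h0 : u ≠ 0) {v : V} : ι (r1 u (f u)) v = 0 ↔ ∀ x ∈ Xs ι u, B x v = 0 := by
  refine ⟨fun h1 x hx => ?_, fun h1 => H.sep _ fun x => ?_⟩
  · obtain ⟨χ, hχ⟩ := exists_dual_one (F := F) h0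
    obtain ⟨a, rfl⟩ := h.exists_B χ
    have := congrArg (ι (r1 a (f a))) h1
    rw [ir_ir, hχ, one_smul, map_zero] at this
    rw [← xs_eq hx hχ, H.adj, this]; simp
  · simpa [H.adj, h.eps_ne] using h1 _ (ir_mem ι u (f u) x)

theorem mem_xs {w : V} (hw : ∀ x, ι (r1 u (f u)) x = 0 → B x w = 0) : w ∈ Xs ι u := fun y hy => by
  rw [← sum_ir ι (ι y w)]
  refine Finset.sum_eq_zero fun k _ => H.sep _ fun x => ?_
  obtain ⟨b, hb⟩ := h.exists_B ((finBasis F U).coord k ∘ₗ y)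
  have := H.adj b (finBasis F U k) x w
  rw [hw _ (by simp [h.refl (show f b u = 0 by simp [hb, hy])]), hb, eq_comm, mul_eq_zero] at this
  rw [i_i]; exact this.resolve_left h.eps_ne

theorem fix_ker (hu : q u = 0) (h0 : u ≠ 0) {z : V ≃ₗ[F] V} (hz : z ∈ M) (h1 : ∀ v, z v - v ∈ Xs ι u) {v : V}
    (hv : ι (r1 u (f u)) v = 0) : z v = v := sub_eq_zero.1 (H.sep _ fun x => by
  have h2 := (H.ker_iff h0).1 hv _ (h1 x)
  have h3 := (H.ker_iff h0).1 (xs_kill (h1 v) u (h.diag0 hu)) _ (h1 x)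
  have h4 := H.iso z hz x v
  simp only [map_sub, LinearMap.sub_apply] at h2 h3 ⊢
  linear_combination h4 - h2 - h3)

theorem img_mem {z : V ≃ₗ[F] V} (hz : z ∈ M) (h1 : ∀ v, ι (r1 u (f u)) v = 0 → z v = v) (v : V) :
    z v - v ∈ Xs ι u := H.mem_xs fun x hx => by rw [map_sub, ← H.iso z hz x v, h1 x hx, sub_self]

theorem ker_eq (H' : Fm h B M ι') {u' : U} (h0 : u ≠ 0) (h0' : u' ≠ 0) (h1 : Xs ι u = Xs ι' u') {v : V} :
    ι (r1 u (f u)) v = 0 ↔ ι' (r1 u' (f u')) v = 0 := by rw [H.ker_iff h0, H'.ker_iff h0', h1]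

theorem iso_of [Nontrivial V] (H' : Fm h B M ι') (hq : NQ τ) {u' : U} (hu : q u = 0) (h0 : u ≠ 0) (h0' : u' ≠ 0)
    (h1 : Xs ι u = Xs ι' u') : q u' = 0 := by
  refine q_zero h hq ((smul_eq_zero_iff_left (r1_ne h0' (f_ne h h0'))).1 (i_inj (ι := ι') fun v => ?_))
  have := (H.ker_eq H' h0 h0' h1).1 (xs_kill (h1 ▸ ir_mem ι' u' (f u') v) u (h.diag0 hu))
  simpa using (ir_ir ..).symm.trans this

end Fm

end Cfsg.Agent.H19.TX
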