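import Cfsg.Agent.H19.TX1

/-! Tensor factors carrying a symplectic or unitary form: normalisers. -/

set_option autoImplicit false
set_option maxHeartbeats 400000

namespace Cfsg.Agent.H19.TX

open Module H10 H11 H26.MX TW

variable {F : Type*} [Field F] {σ : F →+* F} {ε κ : F} {τ : F →+ F} {U V : Type*} [AddCommGroup U] [Module F U]
  [AddCommGroup V] [Module F V] {f : U →ₛₗ[σ] U →ₗ[F] F} {q : U → F} {B : V →ₛₗ[σ] V →ₗ[F] F}
  {ι ι' : End F U →ₐ[F] End F V} {M : Subgroup (V ≃ₗ[F] V)} {u u' : U} {h : Cl ε κ τ f q}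
  [FiniteDimensional F U] [Nontrivial V]

theorem app_eq_zero {x : End F U} {a : U} (h1 : ∀ v ∈ Xs ι a, ι x v = 0) : x a = 0 := by_contra fun h2 =>
  let ⟨χ, hχ⟩ := exists_dual_one (F := F) h2
  r1_ne h2 (φ := χ) (by rintro rfl; simp at hχ) (i_inj (ι := ι) fun v => by
    simpa [i_i, mul_r1] using h1 _ (ir_mem ι a χ v))

theorem Fq.rad (H : Fq h B M ι) (hu : q u = 0) (h0 : u ≠ 0) {θ : V ≃ₗ[F] V} (h1 : θ ∈ M) (h2 : ∀ x ∈ Xs ι u, θ x = x)
    (h3 : ∀ v, ι (r1 u (f u)) v = 0 → θ v - v ∈ Xs ι u) :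
    ∃ b, f u b = 0 ∧ ∀ v, ι (r1 u (f u)) v = 0 → θ v = v + ι (r1 u (f b)) v := by
  obtain ⟨x, hx⟩ := H.qq u hu h0 θ h1 h2 h3
  obtain ⟨χ, hχ⟩ := exists_dual_one (F := F) h0
  obtain ⟨b, hb⟩ := h.exists_B (χ ∘ₗ (x - 1))
  refine ⟨b, h.refl ?_, fun v hv => eq_add_of_sub_eq' ?_⟩
  · rw [hb, LinearMap.comp_apply, app_eq_zero (ι := ι) fun v hv => by simp [← hx, h2 v hv], map_zero]
  · rw [← xs_eq (h3 v hv) hχ, hb, show r1 u (χ ∘ₗ _) = r1 u χ * (x - 1) from rfl, ← i_i]; simp [hx]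

theorem Fq.cen (H : Fq h B M ι) (hu : q u = 0) (h0 : u ≠ 0) {θ : V ≃ₗ[F] V} (h1 : θ ∈ M)
    (h2 : ∀ v, ι (r1 u (f u)) v = 0 → θ v = v) : ∃ c : F, ∀ v, θ v = v + c • ι (r1 u (f u)) v := by
  obtain ⟨x, hx⟩ := H.qq u hu h0 θ h1 (fun x hx => h2 x (xs_kill hx u (h.diag0 hu))) fun v hv => by simp [h2 v hv]
  obtain ⟨χ, hχ⟩ := exists_dual_one (F := F) h0
  obtain ⟨c, hc⟩ := eq_smul_of_ker (φ := χ ∘ₗ (x - 1)) (ψ := f u) fun a ha => by
    rw [LinearMap.comp_apply, app_eq_zero (ι := ι) fun v hv => by simp [← hx, h2 v (xs_kill hv u ha)], map_zero]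
  refine ⟨c, fun v => eq_add_of_sub_eq' ?_⟩
  rw [← xs_eq (H.img_mem h1 h2 v) hχ, ← LinearMap.smul_apply, ← map_smul, ← map_smul, ← hc,
    show r1 u (χ ∘ₗ _) = r1 u χ * (x - 1) from rfl, ← i_i]
  simp [hx]

theorem Fq.kap (H : Fq h B M ι) (H' : Fm h B M ι') (hu : q u = 0) (h0 : u ≠ 0) (h0' : u' ≠ 0)
    (h1 : Xs ι u = Xs ι' u') : ∃ k : F, k ≠ 0 ∧ σ k = k ∧ ∀ v, ι' (r1 u' (f u')) v = k • ι (r1 u (f u)) v := by
  obtain ⟨δ, hδ, h3⟩ := H.nq
  obtain ⟨g, hg, h4⟩ := H'.tv (H.iso_of H' H.nq hu h0 h0' h1) h3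
  obtain ⟨c, hc⟩ := H.cen hu h0 hg fun v hv => by simp [h4, (H.ker_eq H' h0 h0' h1).1 hv]
  have h5 : ∀ v, ι' (r1 u' (f u')) v = (δ⁻¹ * c) • ι (r1 u (f u)) v := fun v => by
    rw [mul_smul, eq_inv_smul_iff₀ hδ]; exact add_left_cancel ((h4 v).symm.trans (hc v))
  refine ⟨_, fun h6 => r1_ne h0' (f_ne h h0') (i_inj (ι := ι') (by simp [h5, h6])), by_contra fun h6 =>
    r1_ne h0 (f_ne h h0) (i_inj (ι := ι) fun v => H.sep _ fun x => ?_), h5⟩
  have h7 := H'.adj u' u' x v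
  generalize δ⁻¹ * c = k at h5 h6
  simp only [h5, LinearMap.map_smulₛₗ, LinearMap.smul_apply, H.adj, map_smul, smul_eq_mul] at h7
  exact (mul_eq_zero.1 (show (ε * (σ k - k)) * _ = 0 by linear_combination h7)).resolve_left
    (mul_ne_zero h.eps_ne (sub_ne_zero.2 h6))

theorem Fq.step (H : Fq h B M ι) (H' : Fm h B M ι') {b : U} (hu : q u = 0) (h0 : u ≠ 0) (h0' : u' ≠ 0)
    (h1 : Xs ι u = Xs ι' u') (hb : q b = 0) (h2 : f u' b = 0) : ι' (r1 b (f b)) ∈ ι.range := by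
  have hk := fun v => H.ker_eq H' h0 h0' h1 (v := v)
  have hu' := H.iso_of H' H.nq hu h0 h0' h1
  obtain ⟨χ, hχ⟩ := exists_dual_one (F := F) h0
  obtain ⟨χ', hχ'⟩ := exists_dual_one (F := F) h0'
  obtain ⟨δ, hδ, h3⟩ := H.nq
  obtain ⟨k, hk0, hk1, h4⟩ := H.kap H' hu h0 h0' h1
  obtain ⟨g, hg, h5⟩ := H'.ei (c := 0) hu' h2 (by simp [hb])
  have h6 : ∀ v, ι' (r1 u' (f u')) v = 0 → ι' (r1 b (f u')) v = 0 := fun v hv => by
    simpa [hχ'] using congrArg (ι' (r1 b χ')) hv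
  have h7 : ∀ v, ι (r1 u (f u)) v = 0 → g v = v + ι' (r1 u' (f b)) v := fun v hv => by simp [h5, h6 v ((hk v).1 hv)]
  obtain ⟨a, h8, h9⟩ := H.rad hu h0 hg (fun x hx => by
    rw [h7 x (xs_kill hx u (h.diag0 hu)), xs_kill (h1 ▸ hx) u' (h.refl h2), add_zero])
    fun v hv => by simpa [h7 v hv, h1] using ir_mem _ _ _ _
  replace h9 : ∀ v, ι (r1 u (f u)) v = 0 → ι' (r1 u' (f b)) v = ι (r1 u (f a)) v := fun v hv =>
    add_left_cancel ((h7 v hv).symm.trans (h9 v hv))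
  have h10 : ∀ v, ι' (r1 b (f u')) v - ι (r1 a (f u)) v ∈ Xs ι u := fun v => H.mem_xs fun x hx => by
    have h10 := H'.adj u' b x v
    rw [h9 x hx, H.adj] at h10
    rw [map_sub, ← mul_left_cancel₀ h.eps_ne h10, sub_self]
  have h11 : q a = 0 := q_zero h H.nq ((smul_eq_zero_iff_left (r1_ne h0 (f_ne h h0))).1 (i_inj (ι := ι) fun v => by
    have := xs_kill (h1 ▸ h10 v) u' (h.refl h2)
    rw [map_sub, h9 (ι _ v) (by simp [h8])] at this
    simpa [h.diag0 hb] using this))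
  have h12 : ∀ v, ι (r1 u (f u)) v = 0 → ι' (r1 b (f b)) v - k⁻¹ • ι (r1 a (f a)) v ∈ Xs ι u := fun v hv => by
    obtain ⟨w, hw⟩ := xs_range h0' (f_ne h h0') (ir_mem ι' u' (f b) v)
    have h12 := congrArg (ι' (r1 b χ')) hw
    have h13 := congrArg (ι (r1 a χ)) hw
    rw [h9 v hv, h4] at h13
    simp only [ir_ir, hχ, hχ', one_smul, map_smul] at h12 h13
    simpa [h12, h13, hk0] using h10 w
  obtain ⟨t, h13, h14⟩ := H'.tv hb h3
  obtain ⟨t', h15, h16⟩ := H.tv (c := -k⁻¹ * δ) h11 (tau_fix h h3 (by simp [hk1]))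
  obtain ⟨x, hx⟩ := H.qq u hu h0 _ (mul_mem h15 h13) (fun x hx => by
    simp [mul_app, h14, h16, xs_kill hx a (h.refl h8), xs_kill (h1 ▸ hx) b (h.refl h2)]) fun v hv => by
    have h17 := xs_kill (h12 v hv) a (h.refl h8)
    simp only [map_sub, map_smul, ir_ir, h.diag0 h11, zero_smul, smul_zero, sub_zero] at h17
    convert (Xs ι u).smul_mem δ (h12 v hv) using 1
    simp [mul_app, h14, h16, h17]; module
  refine ⟨δ⁻¹ • ((1 + (k⁻¹ * δ) • r1 a (f a)) * x - 1), LinearMap.ext fun v => ?_⟩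
  simp [← hx, mul_app, h14, h16, h.diag0 h11, inv_smul_eq_iff₀ hδ]; module

variable [FiniteDimensional F V]

theorem eq_xs {Z : Submodule F V} (hZ : finrank F Z ≤ finrank F (Xs ι u)) {x : End F U} (hx : x ≠ 0)
    (h1 : ∀ v, ι x v ∈ Z) : ∃ a, a ≠ 0 ∧ Z = Xs ι a := by
  obtain ⟨a, ha⟩ := DFunLike.ne_iff.1 hx
  obtain ⟨χ, hχ⟩ := exists_dual_one (F := F) ha
  refine ⟨_, ha, (Submodule.eq_of_le_of_finrank_le (fun v hv => ?_) (hZ.trans (finrank_xs_le ι u ha))).symm⟩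
  simpa [i_i, mul_r1, xs_eq hv hχ] using h1 (ι (r1 a χ) v)

omit [FiniteDimensional F U] [Nontrivial V] [FiniteDimensional F V] in
theorem rg_map (h1 : ι.range = ι'.range) (j : V ≃ₗ[F] V) : (cg j ι).range = (cg j ι').range := by
  simp only [cg, AlgHom.range_comp, h1]

omit [FiniteDimensional F U] [Nontrivial V] [FiniteDimensional F V] in
theorem rg_conj {j : V ≃ₗ[F] V} (h1 : (cg j ι).range = (cg j ι').range) : ι.range = ι'.range := by
  simpa [cg_cg, cg_one] using rg_map h1 j⁻¹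

theorem range_eq (h1 : ι'.range ≤ ι.range) : ι'.range = ι.range := by
  have h3 : ∀ ι : End F U →ₐ[F] End F V, finrank F ι.range = finrank F (End F U) := fun ι =>
    (AlgEquiv.ofInjective ι ((injective_iff_map_eq_zero _).2 fun x hx =>
      i_inj (ι := ι) (by simp [hx]))).toLinearEquiv.finrank_eq.symm
  exact Subalgebra.eq_of_le_of_finrank_eq h1 ((h3 _).trans (h3 _).symm)

theorem Fq.tor (H : Fq h B M ι) (ht : Tor h) {z : V ≃ₗ[F] V} (hz : z ∈ M) (hu : q u = 0) (h0 : u ≠ 0)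
    (h1 : Xs ι u = Xs (cg z ι) u) {y : U} (hy : q y = 0) (h2 : f u y = 1) : ∃ a, a ≠ 0 ∧ Xs ι a = Xs (cg z ι) y := by
  obtain ⟨s, hs, l, m, n, h3, h4, h5, h6, h7⟩ := ht u y hu hy h2
  obtain ⟨g, hg, h8⟩ := H.om s hs
  have hk := fun v => H.ker_eq (H.toFm.conj hz) h0 h0 h1 (v := v)
  have h9 : ∀ {a : U} {c : F}, a ≠ 0 → s a = c • a → ∀ x ∈ Xs ι a, g x = c • x := fun {a c} ha h9 x hx => by
    obtain ⟨χ, hχ⟩ := exists_dual_one (F := F) ha
    rw [← xs_eq hx hχ, h8, i_i, mul_r1]; simp [h9]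
  have h10 : ∀ v, ι (r1 u (f u)) v = 0 → ι (r1 y (f u)) v = 0 := fun v hv => by
    simpa [h.flip_one h2, h.eps_ne] using congrArg (ι (r1 y (f y))) hv
  have h11 : ∀ v, ι (r1 u (f u)) v = 0 → g v - m • v ∈ Xs ι u := fun v hv x hx => by
    have : x * (s.toLinearMap - m • 1) * (1 - r1 y (f u)) = 0 := LinearMap.ext fun a => by
      obtain ⟨c, hc⟩ := h5 (a - f u a • y) (by simp [h2])
      simpa [hx] using congrArg x hc
    simpa [h10 v hv, ← h8] using congrArg (ι · v) this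
  have hy0 : y ≠ 0 := by rintro rfl; simp at h2
  have hl : l ≠ 0 := fun hl => app_ne_zero s h0 (by simp [h3, hl])
  obtain ⟨x, hx⟩ := H.qq u hu h0 _ (mul_mem (inv_mem hg) (mul_mem (mul_mem hz hg) (inv_mem hz)))
    (fun x hx => inv_eq_of (by
      change _ = z (g (z⁻¹ x))
      rw [h9 h0 h3 x hx, h9 h0 h3 _ (mem_xs_cg.1 (h1 ▸ hx)), map_smul, app_inv])) fun v hv => by
      have h12 : z (g (z⁻¹ v) - m • z⁻¹ v) ∈ Xs ι u :=
        h1 ▸ mem_xs_cg.2 (by simpa using h11 _ (by simpa using (hk v).1 hv))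
      have h13 := sub_mem h12 (h11 v hv)
      convert (Xs ι u).smul_mem l⁻¹ h13 using 1
      exact g.injective (by rw [map_smul, h9 h0 h3 _ h13]; simp [mul_app, hl])
  replace hx : ∀ v, z (g (z⁻¹ v)) = ι (s.toLinearMap * x) v := fun v => by simp [← hx, ← h8, mul_app]
  obtain ⟨a, h12, h13⟩ : ∃ a, a ≠ 0 ∧ (s.toLinearMap * x - n • 1 : End F U) a = 0 := by
    by_contra! h12
    obtain ⟨e, he⟩ := (LinearMap.isUnit_iff_ker_eq_bot (s.toLinearMap * x - n • 1 : End F U)).2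
      (LinearMap.ker_eq_bot'.2 fun a ha => by_contra (h12 a · ha))
    refine r1_ne hy0 (f_ne h h0) (i_inj (ι := ι) fun v => (map_eq_zero_iff z z.injective).1 ?_)
    have := congrArg (ι e.inv) (show ι e.val (z (ι (r1 y (f u)) v)) = 0 by
      simp [he, -map_mul, ← hx, h9 hy0 h4 _ (ir_mem _ _ _ _)])
    rwa [i_i, e.inv_val, map_one, map_zero] at this
  refine ⟨a, h12, Submodule.eq_of_le_of_finrank_le (fun v hv => mem_xs_cg.2 ?_)
    ((finrank_xs_cg _ _).le.trans (finrank_xs_le ι y h12))⟩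
  have h14 : g (z⁻¹ v) = n • z⁻¹ v := z.injective (by simpa [-map_mul, ← hx, sub_eq_zero] using hv _ h13)
  generalize z⁻¹ v = w at h14
  have h15 := h11 (w - ι (r1 y (f u)) w) (by simp [h2])
  rw [map_sub, h14, h9 hy0 h4 _ (ir_mem _ _ _ _), ← smul_sub, ← sub_smul,
    Submodule.smul_mem_iff _ (sub_ne_zero.2 h7.symm)] at h15
  have h16 := h9 h0 h3 _ h15
  rw [map_sub, h14, h9 hy0 h4 _ (ir_mem _ _ _ _), ← smul_sub, ← sub_eq_zero, ← sub_smul,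
    smul_eq_zero_iff_right (sub_ne_zero.2 h6.symm), sub_eq_zero] at h16
  exact h16 ▸ ir_mem _ _ _ _

theorem Fq.nrm [Finite F] (H : Fq h B M ι) {z : V ≃ₗ[F] V} (hz : z ∈ M) (hu : q u = 0) (h0 : u ≠ 0) (h0' : u' ≠ 0)
    (h1 : Xs ι u' = Xs (cg z ι) u) : (cg z ι).range = ι.range := by
  have H' := H.toFm.conj hz
  have hu' := H'.iso_of H.toFm H.nq hu h0 h0' h1.symm
  have h2 : ∀ {z}, z ∈ M → (∀ b, q b = 0 → f u b = 1 ∨ b = u → ∃ a, a ≠ 0 ∧ Xs ι a = Xs (cg z ι) b) →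
      (cg z ι).range = ι.range := fun {z} hz h2 => by
    have h3 : ∀ b, q b = 0 → f u b = 1 ∨ b = u → cg z ι (r1 b (f b)) ∈ ι.range := fun b hb h3 => by
      obtain ⟨a, h4, h5⟩ := h2 b hb h3
      have h6 : b ≠ 0 := by rintro rfl; simp [h0.symm] at h3
      exact H.step (H.toFm.conj hz) ((H.toFm.conj hz).iso_of H.toFm H.nq hb h6 h4 h5.symm) h4 h6 h5 hb (h.diag0 hb)
    refine range_eq ?_
    rintro _ ⟨x, rfl⟩
    exact top_tv h H.nq hu h0 (S := (Subalgebra.toSubmodule ι.range).comap (cg z ι).toLinearMap)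
      (fun x hx y hy => by simpa using ι.range.mul_mem hx hy) (h3 u hu (.inr rfl)) (fun b hb h4 => h3 b hb (.inl h4)) x
  rcases H.ok with h3 | h3
  · have h4 : ∀ a a' b, q a = 0 → a ≠ 0 → a' ≠ 0 → Xs ι a' = Xs (cg z ι) a → q b = 0 → b ≠ 0 → f a b = 0 →
        ∃ b', b' ≠ 0 ∧ Xs ι b' = Xs (cg z ι) b := fun a a' b h4 h5 h6 h7 h8 h9 h10 => by
      obtain ⟨x, hx⟩ := H.step H' (H'.iso_of H.toFm H.nq h4 h5 h6 h7.symm) h6 h5 h7 h8 h10
      replace hx : ι x = cg z ι (r1 b (f b)) := hx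
      exact (eq_xs (finrank_xs_cg z b).le (x := x) (by
        rintro rfl; exact r1_ne h9 (f_ne h h9) (i_inj (ι := cg z ι) (by simp [← hx])))
        fun v => hx ▸ ir_mem _ _ _ _).imp fun _ h => ⟨h.1, h.2.symm⟩
    refine h2 hz fun b hb h5 => ?_
    obtain ⟨c, h6, h7, h8, h9⟩ := sing2 h H.nq h3 u b
    obtain ⟨c', h10, h11⟩ := h4 u u' c hu h0 h0' h1 h9 h6 h7
    exact h4 c c' b h9 h6 h10 h11 hb (by rintro rfl; simp [h0.symm] at h5) (h.refl h8)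
  obtain ⟨s, hs, c, hc, h4⟩ := om_move h H.nq hu' h0' hu h0
  obtain ⟨g, hg, h5⟩ := H.om s hs
  have h6 : Xs ι u = Xs (cg (g * z) ι) u := (Submodule.eq_of_le_of_finrank_eq (fun v hv => by
    rw [← cg_cg, mem_xs_cg, ← h1] at hv
    have := xs_map hv s.toLinearMap
    rw [← h5, app_inv] at this
    exact fun y hy => this y (by simp [h4, hy])) (finrank_xs_cg _ _)).symm
  have h7 := h2 (mul_mem hg hz) fun b hb h7 =>
    h7.elim (H.tor h3 (mul_mem hg hz) hu h0 h6 hb) fun h7 => ⟨u, h0, h7 ▸ h6⟩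
  exact rg_conj (j := g) (h7.trans (range_cg h5).symm)

theorem cm2 (hk : 3 ≤ finrank F U ∨ (2 : F) ≠ 0) {z : V ≃ₗ[F] V} (hz : (cg z ι).range = ι.range) {Z : Submodule F V}
    (hZ : finrank F Z ≤ finrank F (Xs ι u)) {x : End F V} (h1 : ∀ v, z v = v + x v) (h2 : ∀ v, x (x v) = 0)
    (h3 : ∀ v, x v ∈ Z) : Cm ι z.toLinearMap ∨ ∃ a, a ≠ 0 ∧ Z = Xs ι a := by
  refine hk.elim (fun hk => cm_or hk hz hZ (by simpa [h1])) fun hk => or_iff_not_imp_left.2 fun h4 => ?_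
  obtain ⟨g, e, h5, h6⟩ := norm_form hz
  obtain ⟨a, ha⟩ : ∃ a, LinearIndependent F ![a, g a] := by
    by_contra! h5'
    obtain ⟨c, hc⟩ := g.exists_eq_smul_id_of_forall_notLinearIndependent h5'
    exact h4 fun y v => by simp [h6, hc, ← End.one_eq_id, h5 y]
  obtain ⟨γ, h7, h8⟩ := exists_dual_pair (F := F) (u := a) fun c hc =>
    (LinearIndependent.pair_iff' (ha.ne_zero 0)).1 ha c hc.symm
  have h9 : ∀ w, γ (g (g a)) • e (e w) = (2 : F) • e w := fun w => sub_eq_zero.1 (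
    eq_zero_of_ir (ι := ι) (a := a) (ha.ne_zero 0) fun χ => by
    have := congrArg (ι (r1 a γ)) (show z (z (ι (r1 a χ) w)) - (2 : F) • z (ι (r1 a χ) w) + ι (r1 a χ) w = 0 by
      simp [h1, h2]; module)
    simpa [h6, h5 _, i_i ι g, mul_r1, h7, h8] using this)
  have h10 : ∀ w, γ (g (g a)) • e w = (2 : F) • w := fun w => by
    obtain ⟨w, rfl⟩ := LinearMap.injective_iff_surjective.1 ((injective_iff_map_eq_zero e).2 fun v hv =>
      (map_eq_zero_iff z z.injective).1 (by rw [h6, hv, map_zero])) w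
    exact h9 w
  have h11 : γ (g (g a)) ≠ 0 := fun h11 => let ⟨v, hv⟩ := exists_ne (0 : V); hv (by simpa [h11, hk] using (h10 v).symm)
  have h12 : ∀ v, x v = ι (((γ (g (g a)))⁻¹ * 2) • g - 1) v := fun v => by
    rw [← add_right_inj v, ← h1, h6, (eq_inv_smul_iff₀ h11).2 (h10 v)]; simp [mul_smul]
  exact eq_xs hZ (fun h => h4 fun y v => by simp [h1, h12, h]) fun v => h12 v ▸ h3 v

variable [Finite F] (H : Fq h B M ι)
include H

theorem Fq.norm {z : V ≃ₗ[F] V} (hz : z ∈ M) (hu : q u = 0) (h0 : u ≠ 0) (h0' : u' ≠ 0)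
    (h1 : ∀ x ∈ Xs ι u, z x ∈ Xs ι u') : (cg z ι).range = ι.range :=
  H.nrm hz hu h0 h0' (Submodule.eq_of_le_of_finrank_le (fun x hx => app_inv z x ▸ h1 _ (mem_xs_cg.1 hx))
    ((finrank_xs_le ι u' h0).trans (finrank_xs_cg _ _).ge)).symm

variable (hc : ∃ k ∈ M, ι' = cg k ι)
include hc

theorem Fq.eqv (hu : q u = 0) (h0 : u ≠ 0) (h0' : u' ≠ 0) (h1 : Xs ι u = Xs ι' u') : ι.range = ι'.range := by
  obtain ⟨k, hk, rfl⟩ := hc
  exact (H.nrm hk (H.iso_of (H.toFm.conj hk) H.nq hu h0 h0' h1) h0' h0 h1).symm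

theorem Fq.gd (hk : 3 ≤ finrank F U ∨ (2 : F) ≠ 0) (hu : q u = 0) (h0 : u ≠ 0) {c : F} (h2 : c ≠ 0) {T : V ≃ₗ[F] V}
    (hT : ∀ v, T v = v + (c • ι (r1 u (f u))) v) (h1 : (cg T ι').range = ι'.range) : Gd ι ι' := by
  have hd : ∀ a b, b ≠ 0 → finrank F (Xs ι a) ≤ finrank F (Xs ι' b) ∧ finrank F (Xs ι' a) ≤ finrank F (Xs ι b) :=
    fun a b hb => by obtain ⟨k, -, rfl⟩ := hc; simp [finrank_xs_cg, finrank_xs_le ι a hb]
  have H' : Fm h B M ι' := by obtain ⟨k, hk, rfl⟩ := hc; exact H.toFm.conj hk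
  rcases cm2 hk h1 (hd u u h0).1 hT (by simp [h.diag0 hu]) (fun v => (Xs ι u).smul_mem c (ir_mem _ _ _ v))
    with h3 | ⟨a, ha, h3⟩
  swap
  · exact .inl (H.eqv hc hu h0 ha h3)
  obtain ⟨δ, hδ, h4⟩ := H.nq
  have h5 : ¬ ι.range = ι'.range → ∀ y, q y = 0 → Cm ι (ι' (r1 y (f y))) := fun h5 y hy => by
    by_cases h6 : y = 0
    · exact fun _ _ => by simp [h6]
    obtain ⟨t, h7, h8⟩ := H'.tv hy h4
    rcases cm2 hk (H.norm h7 hu h0 h0 fun x hx => by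
        obtain ⟨v, rfl⟩ := xs_range h0 (f_ne h h0) hx
        rw [h8, LinearMap.smul_apply, ← show ι (r1 u (f u)) (ι' (r1 y (f y)) v) = ι' (r1 y (f y)) (ι (r1 u (f u)) v) by
          simpa [hT, h2] using h3 (r1 y (f y)) v]
        exact add_mem hx (Submodule.smul_mem _ _ (ir_mem _ _ _ _))) (hd y u h0).2 h8 (by simp [h.diag0 hy])
        (fun v => (Xs ι' y).smul_mem δ (ir_mem _ _ _ v)) with h9 | ⟨a, ha, h9⟩
    · exact fun x v => by simpa [h8, hδ] using h9 x v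
    · exact absurd (H.eqv hc (H'.iso_of H.toFm H.nq hy h6 ha h9) ha h6 h9.symm) h5
  exact or_iff_not_imp_left.2 fun h6 => top_tv h H.nq hu h0 (S :=
    { carrier := {y | Cm ι (ι' y)}
      zero_mem' := fun _ _ => by simp
      add_mem' := fun ha hb y v => by simp [ha y, hb y]
      smul_mem' := fun c _ ha y v => by simp [ha y] }) (fun x hx y hy a v => by simp [hx a, hy a])
    (h5 h6 u hu) fun b hb _ => h5 h6 b hb

end Cfsg.Agent.H19.TX
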