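import Cfsg.Agent.H19.TX2

/-! Tensor factors carrying a symplectic or unitary form: extremal pairs. -/

set_option autoImplicit false
set_option maxHeartbeats 400000

namespace Cfsg.Agent.H19.TX

open Module H10 H11 H26.MX TW

variable {F : Type*} [Field F] {σ : F →+* F} {ε κ : F} {τ : F →+ F} {U V : Type*} [AddCommGroup U] [Module F U]
  [AddCommGroup V] [Module F V] {f : U →ₛₗ[σ] U →ₗ[F] F} {q : U → F} {B : V →ₛₗ[σ] V →ₗ[F] F}
  {ι ι' : End F U →ₐ[F] End F V} {M : Subgroup (V ≃ₗ[F] V)} {u u' : U} {h : Cl ε κ τ f q}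

/-- an extremal bad pair -/
structure Ext (h : Cl ε κ τ f q) (B : V →ₛₗ[σ] V →ₗ[F] F) (M : Subgroup (V ≃ₗ[F] V))
    (ι ι' : End F U →ₐ[F] End F V) (u u' : U) : Prop where
  s : Fq h B M ι
  cj : ∃ k ∈ M, ι' = cg k ι
  hu : q u = 0
  ne : u ≠ 0
  hu' : q u' = 0
  ne' : u' ≠ 0
  bad : ¬ Gd ι ι'
  mx : ∀ k ∈ M, ∀ k' ∈ M, ∀ a a', q a = 0 → a ≠ 0 → q a' = 0 → a' ≠ 0 → ¬ Gd (cg k ι) (cg k' ι) →
    finrank F ↥(Xs (cg k ι) a ⊓ Xs (cg k' ι) a') ≤ finrank F ↥(Xs ι u ⊓ Xs ι' u')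
  cs : (2 : F) ≠ 0 ∨ (3 ≤ finrank F U ∧ ∃ l : F, σ l = l ∧ l ≠ 0 ∧ l ≠ 1) ∨ 4 ≤ finrank F U

theorem Ext.symm (E : Ext h B M ι ι' u u') : Ext h B M ι' ι u' u := by
  obtain ⟨k, hk, rfl⟩ := E.cj
  exact ⟨E.s.conj hk, ⟨k⁻¹, inv_mem hk, by rw [cg_cg, inv_mul_cancel, cg_one]⟩, E.hu', E.ne', E.hu, E.ne,
    fun h1 => E.bad h1.symm, fun j hj j' hj' a a' h1 h2 h3 h4 h5 =>
    inf_comm (Xs ι u) _ ▸ E.mx _ (mul_mem hj hk) _ (mul_mem hj' hk) a a' h1 h2 h3 h4 h5, E.cs⟩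

theorem Ext.hk (E : Ext h B M ι ι' u u') : 3 ≤ finrank F U ∨ (2 : F) ≠ 0 := by
  rcases E.cs with h1 | h1 | h1
  exacts [.inr h1, .inl h1.1, .inl (by omega)]

variable [FiniteDimensional F U] [Nontrivial V] [FiniteDimensional F V]

theorem no_cc (two : (2 : F) = 0) (hn : 4 ≤ finrank F U) {T : V ≃ₗ[F] V} {N : End F V} (h1 : ∀ v, T v = v + N v)
    (h2 : ∀ v, N (N v) = 0) {Z : Submodule F V} (h3 : ∀ v, N v ∈ Z) (hZ : finrank F Z ≤ finrank F (Xs ι u)) :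
    ¬ CC ι (cg T ι) := fun hc => by
  let e : Fin 4 → U := fun i => finBasis F U (i.castLE hn)
  let χ : Fin 4 → Dual F U := fun i => (finBasis F U).coord (i.castLE hn)
  have he : ∀ i j, χ i (e j) = if j = i then 1 else 0 := fun i j => by simp [χ, e, Finsupp.single_apply]
  have h4 : ∀ v, T (T v) = v := fun v => by simp [h1, h2, add_assoc, ← two_smul F, two]
  have h5 : ∀ x v, ι x (T v) = T (cg T ι x v) := fun x v => by rw [cg_apply, h4, inv_eq_of (h4 v)]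
  have h0 : ∀ i, e i ≠ 0 := fun i => (finBasis F U).ne_zero _
  generalize cg T ι = ι₂ at hc h5
  let Ψ : (Xs ι (e 0) × ↥(Xs ι (e 1) ⊓ Xs ι₂ (e 3))) →ₗ[F] Z := LinearMap.codRestrict Z (N ∘ₗ
    (((ι₂ (1 - r1 (e 0) (χ 0)) + ι (r1 (e 1) (χ 0)) * ι₂ (r1 (e 2) (χ 0))) ∘ₗ Submodule.subtype _).coprod
      (Submodule.subtype _))) fun _ => h3 _
  have h6 := LinearMap.finrank_le_finrank_of_injective (f := Ψ) ((injective_iff_map_eq_zero _).2 fun v hv => by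
    obtain ⟨⟨x, hx⟩, y, h6, h7⟩ := v
    have h8 : T (ι₂ (1 - r1 (e 0) (χ 0)) x + ι (r1 (e 1) (χ 0)) (ι₂ (r1 (e 2) (χ 0)) x) + y) =
        ι₂ (1 - r1 (e 0) (χ 0)) x + ι (r1 (e 1) (χ 0)) (ι₂ (r1 (e 2) (χ 0)) x) + y := by
      rw [h1, add_eq_left]; exact congrArg Subtype.val hv
    have a1 := (hc (1 - r1 (e 0) (χ 0))).mem hx
    have a2 : ι₂ (r1 (e 0) (χ 0)) (ι₂ (1 - r1 (e 0) (χ 0)) x) = 0 := by simp [he]
    have a3 := ir_mem ι (e 1) (χ 0) (ι₂ (r1 (e 2) (χ 0)) x)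
    have a4 := (hc.symm (r1 (e 1) (χ 0))).mem (ir_mem ι₂ (e 2) (χ 0) x)
    have a5 : x = ι₂ (1 - r1 (e 0) (χ 0)) x +
        ι (r1 (e 0) (χ 1)) (ι₂ (r1 (e 0) (χ 2)) (ι (r1 (e 1) (χ 0)) (ι₂ (r1 (e 2) (χ 0)) x))) := by
      simp [hc _ _, he, xs_eq ((hc (r1 (e 0) (χ 0))).mem hx) (χ := χ 0) (by simp [he])]
    generalize ι₂ (1 - r1 (e 0) (χ 0)) x = y1 at *
    generalize ι (r1 (e 1) (χ 0)) (ι₂ (r1 (e 2) (χ 0)) x) = y2 at *
    have h9 := congrArg (ι (r1 (e 0) (χ 0))) h8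
    simp [h5, a2, xs_eq a1 (χ := χ 0) (by simp [he]), xs_kill h6 _ (φ := χ 0) (by simp [he]),
      xs_kill h7 _ (φ := χ 0) (by simp [he]), xs_kill a3 _ (φ := χ 0) (by simp [he]),
      xs_kill a4 _ (φ := χ 0) (by simp [he])] at h9
    have h10 := congrArg (ι (r1 (e 1) (χ 1))) h8
    simp [h5, ← h9, xs_eq a3 (χ := χ 1) (by simp [he]), xs_eq h6 (χ := χ 1) (by simp [he]),
      xs_kill h7 _ (φ := χ 1) (by simp [he]), xs_kill a4 _ (φ := χ 1) (by simp [he])] at h10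
    have h11 := congrArg (ι₂ (r1 (e 2) (χ 2))) h10
    simp [xs_eq a4 (χ := χ 2) (by simp [he]), xs_kill h7 _ (φ := χ 2) (by simp [he])] at h11
    rw [← h11, zero_add] at h10
    simp [← h9, ← h11] at a5
    simp [a5, ← h10])
  obtain ⟨v, h7, h8⟩ := hc.exists_mem (h0 1) (h0 3)
  have h9 := finrank_xs_le ι u (h0 0)
  have : Nontrivial ↥(Xs ι (e 1) ⊓ Xs ι₂ (e 3)) := ⟨⟨v, h8⟩, 0, fun h => h7 (congrArg Subtype.val h)⟩
  have h10 := finrank_pos (R := F) (M := ↥(Xs ι (e 1) ⊓ Xs ι₂ (e 3)))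
  rw [finrank_prod] at h6
  omega

namespace Ext
variable (E : Ext h B M ι ι' u u')
include E

omit [Nontrivial V] in
theorem dim {a b : U} (hb : b ≠ 0) : finrank F (Xs ι a) ≤ finrank F (Xs ι' b) := by
  obtain ⟨k, -, rfl⟩ := E.cj
  exact (finrank_xs_le ι a hb).trans (finrank_xs_cg _ _).ge

omit [FiniteDimensional F U] [Nontrivial V] in
theorem g1 {j : V ≃ₗ[F] V} (hj : j ∈ M) (h3 : ∀ x ∈ Xs ι u, x ∈ Xs ι' u' → j x = x) {x : V} (h4 : x ∈ Xs ι u)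
    (h5 : x ∉ Xs ι' u') (h6 : j x ∈ Xs ι u) : Gd ι (cg j ι) := by_contra fun h7 => by
  refine (E.mx 1 (one_mem _) j hj u u E.hu E.ne E.hu E.ne h7).not_gt (Submodule.finrank_lt_finrank_of_lt (lt_of_le_of_ne
    (fun y hy => ⟨hy.1, mem_xs_cg.2 ((inv_eq_of (h3 y hy.1 hy.2)).symm ▸ hy.1)⟩) fun h8 => ?_))
  have h9 := (h8.ge ⟨h6, mem_xs_cg.2 (by rwa [inv_app])⟩).2
  exact h5 (j.injective (h3 _ h6 h9) ▸ h9)

variable [Finite F]

theorem ne_xs {a a' : U} (ha : a ≠ 0) (ha' : a' ≠ 0) (h1 : q a = 0 ∨ q a' = 0) : ¬ Xs ι a ≤ Xs ι' a' := fun h2 => by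
  have h3 := Submodule.eq_of_le_of_finrank_le h2 (E.symm.dim ha)
  exact E.bad (.inl (E.s.eqv E.cj (h1.elim id fun h1 => E.symm.s.iso_of E.s.toFm E.s.nq h1 ha' ha h3.symm) ha ha' h3))

theorem key {b : U} (hb : q b = 0) (h0 : b ≠ 0) (h1 : f b u' = 0) {c : F} (hc : c ≠ 0) {T : V ≃ₗ[F] V} (hT : T ∈ M)
    (h2 : ∀ v, T v = v + (c • ι' (r1 b (f b))) v) {x : V} (hx : x ∈ Xs ι u) (hx' : x ∉ Xs ι' u')
    (h3 : ι' (r1 b (f b)) x ∈ Xs ι u) : CC ι (cg T ι) :=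
  (E.g1 hT (fun x _ hx => by simp [h2, xs_kill hx b h1]) hx hx'
    (h2 x ▸ add_mem hx (Submodule.smul_mem _ c h3))).resolve_left
    fun h4 => E.bad (E.symm.s.gd E.symm.cj E.hk hb h0 hc h2 h4.symm).symm

theorem f2 (two : (2 : F) = 0) (hn : 4 ≤ finrank F U) {b : U} (hb : q b = 0) (h0 : b ≠ 0) (h1 : f b u' = 0) {x : V}
    (hx : x ∈ Xs ι u) (h2 : ι' (r1 b (f b)) x ∈ Xs ι u) : x ∈ Xs ι' u' := by_contra fun hx' => by
  obtain ⟨δ, hδ, h3⟩ := E.s.nq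
  obtain ⟨T, h4, h5⟩ := E.symm.s.tv hb h3
  exact no_cc two hn h5 (by simp [h.diag0 hb]) (fun v => (Xs ι' b).smul_mem δ (ir_mem _ _ _ v)) (E.symm.dim E.ne)
    (E.key hb h0 h1 hδ h4 h5 hx hx' h2)

theorem f1 {x : V} (hx : x ∈ Xs ι u) (h2 : ι' (r1 u' (f u')) x ∈ Xs ι u) : x ∈ Xs ι' u' := by
  by_contra hx'
  have h0 := h.diag0 E.hu
  have h0' := h.diag0 E.hu'
  have hr := r1_ne E.ne (f_ne h E.ne)
  have hr' := r1_ne E.ne' (f_ne h E.ne')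
  obtain ⟨δ, hδ, h3⟩ := E.s.nq
  obtain ⟨T, h4, h5⟩ := E.symm.s.tv E.hu' h3
  have hk := fun {c} hc {T} hT h5 => E.key E.hu' E.ne' h0' (c := c) hc (T := T) hT h5 hx hx' h2
  have h6 := hk hδ h4 h5
  by_cases two : (2 : F) = 0
  swap
  · have h7 : ∀ v, T⁻¹ v = v + (-δ • ι' (r1 u' (f u'))) v := fun v => inv_eq_of (by simp [h5, h0'])
    have h8 := hk (neg_ne_zero.2 hδ) (inv_mem h4) h7
    have h9 := cc_pair (hk (mul_ne_zero two hδ) (mul_mem (inv_mem (inv_mem h4)) h4) fun v => by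
      simp [mul_app, h5, h0', two_mul, add_smul, add_assoc])
    refine hr (i_inj ((h6.symm _).cancel hr (Cm.cancel (e := cg T ι (r1 u (f u)) * ι (r1 u (f u)))
      (fun y v => by rw [End.mul_apply, h8.symm _, h9 _]; rfl) hr fun v => ?_)))
    have h10 := ir_mem ι u (f u) v
    rw [End.mul_apply]
    generalize ι (r1 u (f u)) v = x at h10
    have h11 : (2 : F) • x = T x + T⁻¹ x := by rw [h5, h7, neg_smul, LinearMap.neg_apply]; module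
    rw [← smul_right_inj two, ← map_smul, ← map_smul, h11, map_add, cg_kill h10 h0, zero_add, ← h9 _,
      cg_kill h10 h0, map_zero, smul_zero]
  obtain ⟨hm, l, hl, l0, l1⟩ := (E.cs.resolve_left (not_not.2 two)).resolve_right fun hn =>
    hx' (E.f2 two hn E.hu' E.ne' h0' hx h2)
  have h7 : ∀ v, T (T v) = v := fun v => by simp [h5, h0', add_assoc, ← two_smul F, two]
  have h8 : ∀ c : F, c ≠ 0 → ∀ t ∈ M, (∀ v, t v = v + (c • ι (r1 u (f u))) v) → CC ι' (cg t ι') :=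
    fun c h8 t h10 h11 => by
    obtain ⟨y, h12, h13⟩ := ker_ind hm u (f u)
    obtain ⟨v, h14, h15, h16⟩ := h6.exists_mem E.ne (y := y) fun h => h13 0 (by simp [h])
    rw [mem_xs_cg, inv_eq_of (h7 v)] at h16
    refine E.symm.key E.hu E.ne h0 h8 h10 h11 ((Xs ι' u').smul_mem δ (ir_mem _ u' (f u') v)) (fun h17 => h14 ?_) ?_
    · simpa using xs_inf h13 (h5 v ▸ add_mem h15 h17) h16
    · rw [show δ • _ = T v - v from eq_sub_of_add_eq' (h5 v).symm]; simp [xs_kill h15 u h0, xs_kill h16 u h12]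
  obtain ⟨t, h12, h13⟩ := E.s.tv E.hu h3
  obtain ⟨t', h14, h15⟩ := E.s.tv E.hu (tau_fix h h3 hl)
  have h16 : ∀ v, t (t v) = v := fun v => by simp [h13, h0, add_assoc, ← two_smul F, two]
  have h17 : ∀ v, (t * t') v = v + (((1 + l) * δ) • ι (r1 u (f u))) v := fun v => by
    simp [mul_app, h13, h15, h0]; module
  have h18 := h8 _ hδ t h12 h13
  have h19 := h8 _ (mul_ne_zero l0 hδ) t' h14 h15
  have h20 := h8 _ (mul_ne_zero (fun h => l1 (by linear_combination h - two)) hδ) _ (mul_mem h12 h14) h17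
  have h21 : t⁻¹ = t := by ext v; exact inv_eq_of (h16 v)
  have h22 : CC (cg t ι') (cg t' ι') := cc_pair (h21.symm ▸ h20)
  have h23 : CC (cg t ι') (cg (t * t') ι') := cc_pair (by simpa)
  have h24 : CC (cg t' ι') (cg (t * t') ι') := cc_pair (by
    rwa [show t'⁻¹ * (t * t') = t from inv_mul_eq_of_eq_mul (by
      ext v; simp [mul_app, h13, h15, h0]; abel)])
  refine hr' (i_inj ((h20.symm _).cancel hr' (Cm.cancel
    (e := cg (t * t') ι' (r1 u' (f u')) * ι' (r1 u' (f u'))) (fun y v => by rw [End.mul_apply, h19.symm _, h24 _]; rfl)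
    hr' (Cm.cancel (e := cg t' ι' (r1 u' (f u')) * cg (t * t') ι' (r1 u' (f u')) * ι' (r1 u' (f u')))
      (fun y v => by rw [End.mul_apply, End.mul_apply, h18.symm _, h23 _, h22 _]; rfl) hr' fun v => ?_))))
  have h25 := ir_mem ι' u' (f u') v
  rw [End.mul_apply, End.mul_apply]
  generalize ι' (r1 u' (f u')) v = x at h25
  have h26 : x = (t * t') x + (t' x + t x) := by
    rw [h17, h13, h15, ← sub_eq_zero]
    simp only [LinearMap.smul_apply]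
    linear_combination (norm := module) two • (-x - ((1 + l) * δ) • ι (r1 u (f u)) x)
  rw [h26, map_add, cg_kill h25 h0', zero_add, map_add, map_add, ← h24 _, cg_kill h25 h0', map_zero, zero_add,
    ← h22 _, ← h23 _, cg_kill h25 h0', map_zero, map_zero]

theorem ff {v : V} (hv : v ∈ Xs ι u ⊔ Xs ι' u') (h1 : ι (r1 u (f u)) v = 0) : v ∈ Xs ι u := by
  obtain ⟨x, h2, x', h3, rfl⟩ := Submodule.mem_sup.1 hv
  refine add_mem h2 (E.symm.f1 h3 ?_)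
  rw [show ι (r1 u (f u)) x' = 0 by simpa [xs_kill h2 u (h.diag0 E.hu)] using h1]
  exact zero_mem _

end Ext

end Cfsg.Agent.H19.TX
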