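import Cfsg.Agent.H19.TX3

/-! Tensor factors carrying a symplectic or unitary form: no extremal pairs in dimension at least three. -/

set_option autoImplicit false
set_option maxHeartbeats 400000

namespace Cfsg.Agent.H19.TX

open Module H10 H11 H26.MX TW

variable {F : Type*} [Field F] {σ : F →+* F} {ε κ : F} {τ : F →+ F} {U V : Type*} [AddCommGroup U] [Module F U]
  [AddCommGroup V] [Module F V] {f : U →ₛₗ[σ] U →ₗ[F] F} {q : U → F} {B : V →ₛₗ[σ] V →ₗ[F] F}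
  {ι ι' : End F U →ₐ[F] End F V} {M : Subgroup (V ≃ₗ[F] V)} {u u' : U} {h : Cl ε κ τ f q}

/-- elements with controlled commutator space fixing a subspace -/
def Sg (M : Subgroup (V ≃ₗ[F] V)) (Z D : Submodule F V) : Subgroup (V ≃ₗ[F] V) where
  carrier := {z | z ∈ M ∧ (∀ v, z v - v ∈ Z) ∧ ∀ x ∈ D, z x = x}
  one_mem' := ⟨one_mem _, by simp, by simp⟩
  mul_mem' {a b} ha hb := ⟨mul_mem ha.1 hb.1, fun v => by simpa using add_mem (ha.2.1 (b v)) (hb.2.1 v),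
    fun x h1 => by rw [mul_app, hb.2.2 x h1, ha.2.2 x h1]⟩
  inv_mem' {a} ha := ⟨inv_mem ha.1, fun v => by simpa using neg_mem (ha.2.1 (a⁻¹ v)), fun x h1 => inv_eq_of (ha.2.2 x h1)⟩

theorem Fm.tvS (H : Fm h B M ι) {b : U} (hb : q b = 0) {c : F} (hc : τ c = 0) {Z D : Submodule F V} (hZ : Xs ι b ≤ Z)
    (hD : ∀ x ∈ D, ι (r1 b (f b)) x = 0) : ∃ T ∈ Sg M Z D, ∀ v, T v = v + (c • ι (r1 b (f b))) v :=
  (H.tv hb hc).imp fun T hT => ⟨⟨hT.1, fun v => by simpa [hT.2] using hZ ((Xs ι b).smul_mem c (ir_mem _ _ _ v)),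
    fun x hx => by simp [hT.2, hD x hx]⟩, hT.2⟩

theorem comm_mem {z T T' : V ≃ₗ[F] V} (h1 : T * z = z * T') {a a' : U} (ha' : a' ≠ 0) {c c' : F} (hc' : c' ≠ 0)
    (h2 : ∀ v, T v = v + (c • ι (r1 a (f a))) v) (h3 : ∀ v, T' v = v + (c' • ι' (r1 a' (f a'))) v) (h : Cl ε κ τ f q)
    (x : V) (hx : x ∈ Xs ι' a') : z x ∈ Xs ι a := by
  obtain ⟨v, rfl⟩ := xs_range ha' (f_ne h ha') hx
  have := LinearEquiv.congr_fun h1 v
  simp only [mul_app, h2, h3, map_add, add_right_inj, LinearMap.smul_apply, map_smul] at this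
  rw [← Submodule.smul_mem_iff _ hc', ← this]
  exact Submodule.smul_mem _ _ (ir_mem _ _ _ _)

variable [FiniteDimensional F U] [Nontrivial V]

theorem pure_of {z : V ≃ₗ[F] V} {g : End F U} {e : End F V} (h1 : Cm ι e) (h2 : ∀ v, z v = ι g (e v)) {a : U}
    {χ : Dual F U} (h3 : χ a = 1) (h4 : ∀ v ∈ Xs ι a, ι (r1 a χ) (z v - v) = 0) : ∃ g, ∀ v, z v = ι g v := by
  have h5 : ∀ v, χ (g a) • e v = v := fun v => sub_eq_zero.1 (eq_zero_of_ir (ι := ι) (a := a)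
    (by rintro rfl; simp at h3) fun ψ => by simpa [h2, h1 _, i_i ι g, mul_r1, h3] using h4 _ (ir_mem ι a ψ v))
  have h6 : χ (g a) ≠ 0 := fun h6 => let ⟨v, hv⟩ := exists_ne (0 : V); hv (by simpa [h6] using (h5 v).symm)
  exact ⟨(χ (g a))⁻¹ • g, fun v => by rw [h2, (eq_inv_smul_iff₀ h6).2 (h5 v)]; simp⟩

theorem stab_of {z : V ≃ₗ[F] V} (hz : (cg z ι).range = ι.range) {a : V} (h1 : a ≠ 0) (h2 : a ∈ Xs ι u)
    (h3 : z a ∈ Xs ι u') (x : V) (hx : x ∈ Xs ι u) : z x ∈ Xs ι u' := by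
  obtain ⟨g, e, h4, h5⟩ := norm_form hz
  obtain ⟨c, hc⟩ : ∃ c : F, g u = c • u' := by
    by_contra! h6
    exact app_ne_zero z h1 (xs_inf h6 h3 (h5 a ▸ xs_map (h4.mem h2) g))
  exact fun y hy => h5 x ▸ xs_map (h4.mem hx) g y (by simp [hc, hy])

variable [FiniteDimensional F V]

theorem Fm.ker_map (H : Fm h B M ι) {z : V ≃ₗ[F] V} (hz : z ∈ M) (h0 : u ≠ 0) (h1 : ∀ x ∈ Xs ι u, z x ∈ Xs ι u) {v : V}
    (hv : ι (r1 u (f u)) v = 0) : ι (r1 u (f u)) (z v) = 0 :=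
  ((H.conj hz).ker_eq H h0 h0 (Submodule.eq_of_le_of_finrank_eq
    (fun x hx => app_inv z x ▸ h1 _ (mem_xs_cg.1 hx)) (finrank_xs_cg _ _))).1 (by simp [hv])

variable [Finite F]

namespace Ext
variable (E : Ext h B M ι ι' u u')
include E

theorem move (h1 : Xs ι u ⊓ Xs ι' u' = ⊥) {y : U} (hy : q y = 0) (h0 : y ≠ 0) : Ext h B M ι ι' y u' :=
  ⟨E.s, E.cj, hy, h0, E.hu', E.ne', E.bad, fun k hk k' hk' a a' h2 h3 h4 h5 h6 =>
    (E.mx k hk k' hk' a a' h2 h3 h4 h5 h6).trans (by rw [h1, finrank_bot]; exact Nat.zero_le _), E.cs⟩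

section
variable (hm : 3 ≤ finrank F U)
include hm

theorem pure {z : V ≃ₗ[F] V} (hz : z ∈ M) (h1 : ∀ x ∈ Xs ι u, z x ∈ Xs ι u) (h2 : ∀ v, z v - v ∈ Xs ι u ⊔ Xs ι' u') :
    ∃ g, ∀ v, z v = ι g v := by
  obtain ⟨g, e, h3, h4⟩ := norm_form (E.s.norm hz E.hu E.ne E.ne h1)
  obtain ⟨a, h5, h6⟩ := ker_ind hm u (f u)
  obtain ⟨χ, h7, h8⟩ := exists_dual_pair h6
  exact pure_of h3 h4 h7 fun v hv => xs_kill (E.ff (h2 v) (by
    simp [xs_kill hv u h5, E.s.ker_map hz E.ne h1 (xs_kill hv u h5)])) _ h8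

theorem lz {z : V ≃ₗ[F] V} (hz : z ∈ M) (h1 : ∀ x ∈ Xs ι u, z x ∈ Xs ι u) (h2 : ∀ v, z v - v ∈ Xs ι u ⊔ Xs ι' u') :
    (∀ v, z v - v ∈ Xs ι u) ∨ Xs ι u ⊓ Xs ι' u' = ⊥ ∧ ∃ c, c ≠ 0 ∧ Xs ι' u' ≤ Xs ι u ⊔ Xs ι c := by
  obtain ⟨g, h3⟩ := E.pure hm hz h1 h2
  by_cases h4 : ∀ a, ∃ c : F, g a - a = c • u
  · refine .inl fun v y hy => ?_
    have : y * (g - 1) = 0 := LinearMap.ext fun a => by obtain ⟨c, hc⟩ := h4 a; simpa [hy] using congrArg y hc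
    simpa [h3] using congrArg (ι · v) this
  push Not at h4
  obtain ⟨a, h4⟩ := h4
  have h5 : g a - a ≠ 0 := fun h => h4 0 (by simp [h])
  obtain ⟨χ, hχ⟩ := exists_dual_one (F := F) h5
  have h6 : Xs ι u ⊔ Xs ι (g a - a) ≤ Xs ι u ⊔ Xs ι' u' := sup_le le_sup_left fun v hv => by
    convert h2 (ι (r1 a χ) v) using 1
    conv_lhs => rw [← xs_eq hv hχ]
    simp [-map_mul, h3, i_i ι g, mul_r1]
  have h7 := Submodule.finrank_sup_add_finrank_inf_eq (Xs ι u) (Xs ι (g a - a))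
  have h8 := Submodule.finrank_sup_add_finrank_inf_eq (Xs ι u) (Xs ι' u')
  have h9 := Submodule.finrank_mono h6
  have h10 := E.symm.dim (a := u') h5
  rw [show Xs ι u ⊓ Xs ι (g a - a) = ⊥ from eq_bot_iff.2 fun v hv => xs_inf h4 hv.1 hv.2, finrank_bot] at h7
  exact .inr ⟨Submodule.finrank_eq_zero.1 (by omega), _, h5,
    le_sup_right.trans (Submodule.eq_of_le_of_finrank_le h6 (by omega)).ge⟩

theorem plane (hc : (2 : F) ≠ 0 ∨ ∃ l : F, σ l = l ∧ l ≠ 0 ∧ l ≠ 1) :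
    Xs ι u ⊓ Xs ι' u' = ⊥ ∧ ∃ c, c ≠ 0 ∧ Xs ι' u' ≤ Xs ι u ⊔ Xs ι c := by
  have h0 := h.diag0 E.hu
  have h0' := h.diag0 E.hu'
  obtain ⟨δ, hδ, h1⟩ := E.s.nq
  have h2 := fun {c} (hc : τ c = 0) => E.s.tvS E.hu hc (Z := Xs ι u ⊔ Xs ι' u') (D := Xs ι u ⊓ Xs ι' u') le_sup_left
    fun x hx => xs_kill hx.1 u h0
  obtain ⟨T', h3, h4⟩ := E.symm.s.tvS E.hu' h1 (Z := Xs ι u ⊔ Xs ι' u') (D := Xs ι u ⊓ Xs ι' u') le_sup_right
    fun x hx => xs_kill hx.2 u' h0'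
  obtain ⟨T, hT, h5⟩ := h2 h1
  by_contra hn
  have lz := fun {z} hz h1 h2 => (E.lz hm (z := z) hz h1 h2).resolve_right hn
  by_cases two : (2 : F) = 0
  · have : Finite V := Module.finite_of_finite F
    have : Finite (V ≃ₗ[F] V) := DFunLike.finite _
    have h6 : ∀ c : F, c ≠ 0 → ∀ T ∈ Sg M (Xs ι u ⊔ Xs ι' u') (Xs ι u ⊓ Xs ι' u'),
        (∀ v, T v = v + (c • ι (r1 u (f u))) v) → ∃ g ∈ Sg M _ _, g⁻¹ * T * g = T' := fun c hc T hT h2 => by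
      refine (TA.dihedral_or (by ext v; simp [mul_app, h2, h0, add_assoc, ← two_smul F, two])
        (by ext v; simp [mul_app, h4, h0', add_assoc, ← two_smul F, two]) hT h3).resolve_right ?_
      rintro ⟨z, h7, h8, -, h9, h10, -⟩
      have h11 := lz h7.1 (comm_mem (by rw [← inv_mul_eq_iff_eq_mul, ← mul_assoc, h9]) E.ne hc h2 h2 h) h7.2.1
      obtain ⟨g, h12⟩ := E.symm.pure hm h7.1 (comm_mem (by rw [← inv_mul_eq_iff_eq_mul, ← mul_assoc, h10]) E.ne' hδ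
        h4 h4 h) (sup_comm (Xs ι u) _ ▸ h7.2.1)
      obtain ⟨a, h13, h14⟩ := eq_xs (E.dim E.ne') (x := g - 1) (fun h => h8 (by ext; simp [h12, sub_eq_zero.1 h]))
        fun v => by simpa [h12] using h11 v
      exact E.ne_xs E.ne h13 (.inl E.hu) h14.le
    obtain ⟨l, hl, l0, l1⟩ := hc.resolve_left (not_not.2 two)
    obtain ⟨T₂, h9, h10⟩ := h2 (tau_fix h h1 hl)
    obtain ⟨g, h11, h12⟩ := h6 _ hδ T hT h5
    obtain ⟨g₂, h13, h14⟩ := h6 _ (mul_ne_zero l0 hδ) T₂ h9 h10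
    have h15 := mul_mem h11 (inv_mem h13)
    have h16 : T * (g * g₂⁻¹) = g * g₂⁻¹ * T₂ := by
      rw [show T = g * (g⁻¹ * T * g) * g⁻¹ by group, h12, ← h14]; group
    generalize g * g₂⁻¹ = z at h15 h16
    have h17 := lz h15.1 (comm_mem h16 E.ne (mul_ne_zero l0 hδ) h5 h10 h) h15.2.1
    refine r1_ne E.ne (f_ne h E.ne) (i_inj (ι := ι) fun v => ?_)
    have h18 := LinearEquiv.congr_fun h16 v
    have h19 := xs_kill (h17 v) u h0
    simp only [mul_app, h5, h10, map_add, add_right_inj, LinearMap.smul_apply, map_smul, map_sub, sub_eq_zero,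
      E.s.fix_ker E.hu E.ne h15.1 h17 (xs_kill (ir_mem ι u (f u) v) u h0)] at h18 h19
    rwa [h19, ← sub_eq_zero, ← sub_smul, smul_eq_zero_iff_right (fun h => l1 (mul_right_cancel₀ hδ
      (by linear_combination -h)))] at h18
  have h8 : ∀ a ∈ (Xs ι' u').map (δ • ι (r1 u (f u))), ι' (r1 u' (f u')) a ∈ Xs ι u → a = 0 := by
    rintro _ ⟨x, hx, rfl⟩ h8
    have := E.f1 ((Xs ι u).smul_mem δ (ir_mem _ _ _ _)) h8
    simp [xs_kill (E.symm.f1 hx ((Submodule.smul_mem_iff _ hδ).1 this)) u h0]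
  have h8' : ∀ a ∈ (Xs ι' u').map (δ • ι (r1 u (f u))), a ∈ Xs ι u := by
    rintro _ ⟨x, -, rfl⟩; exact (Xs ι u).smul_mem δ (ir_mem _ _ _ _)
  obtain ⟨z, h9, a, h10, h11, h12, h13⟩ := TA.exists_neg two h5 h4 (fun v => by simp [h0'])
    (A := (Xs ι' u').map (δ • ι (r1 u (f u)))) (fun h9 => E.symm.ne_xs E.ne' E.ne (.inl E.hu') fun x hx =>
      E.symm.f1 hx (by
        have : δ • ι (r1 u (f u)) x = 0 := h9.le ⟨_, hx, rfl⟩
        simp [(smul_eq_zero_iff_right hδ).1 this]))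
    (fun a ha => by simp [xs_kill (h8' a ha) u h0]) (fun a _ => ⟨_, (Xs ι' u').smul_mem δ (ir_mem _ _ _ a), rfl⟩)
    fun a ha h9 => h8 a ha (E.symm.f1 (ir_mem _ _ _ _) (by
      simp only [LinearMap.smul_apply, map_smul, smul_eq_zero, hδ, false_or] at h9; simp [h9]))
  replace h9 : z ∈ Sg M _ _ := (Subgroup.closure_le _).2 (by rintro _ (rfl | rfl) <;> assumption) h9
  have h14 := h8' a h10
  rcases E.g1 h9.1 (fun x h1 h2 => h9.2.2 x ⟨h1, h2⟩) h14 (fun h15 => h11 (h8 a h10 (by simp [xs_kill h15 u' h0'])))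
    (h12 ▸ neg_mem h14) with h15 | h15
  · have h16 := lz h9.1 (stab_of h15.symm h11 h14 (h12 ▸ neg_mem h14)) h9.2.1 ((δ • ι' (r1 u' (f u'))) a)
    refine h11 (h8 a h10 ((Submodule.smul_mem_iff _ (mul_ne_zero (neg_ne_zero.2 two) hδ)).1 ?_))
    convert h16 using 1
    rw [h13, LinearMap.smul_apply]; module
  obtain ⟨y, h16, h17⟩ := ker_ind hm u (f u)
  obtain ⟨v, h18, h19, h20⟩ := h15.exists_mem (u := y) (fun h => h17 0 (by simp [h])) E.ne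
  exact h18 (xs_inf h17 (E.ff (by simpa using add_mem (h9.2.1 (z⁻¹ v)) (Submodule.mem_sup_left
    (mem_xs_cg.1 h20))) (xs_kill h19 u h16)) h19)

theorem false₁ (hc : (2 : F) ≠ 0 ∨ ∃ l : F, σ l = l ∧ l ≠ 0 ∧ l ≠ 1) : False := by
  obtain ⟨h1, c, -, h2⟩ := E.plane hm hc
  obtain ⟨φ, h3, h4, h5⟩ := ann2 hm u c
  obtain ⟨y, h6, h7, h8⟩ := exists_np h E.s.nq E.hu E.ne h3
  have h9 : y ≠ 0 := by rintro rfl; simp at h7
  obtain ⟨-, c', h10, h11⟩ := (E.move h1 h6 h9).plane hm hc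
  obtain ⟨χ, hχ⟩ := exists_dual_one (F := F) h10
  have h12 : Xs ι' u' ≤ Xs ι (c' - (φ c' / φ y) • y) := fun v hv => by
    obtain ⟨x, h12, x', h13, rfl⟩ := Submodule.mem_sup.1 (h11 hv)
    obtain ⟨w, h14, w', h15, h16⟩ := Submodule.mem_sup.1 (h2 hv)
    have h17 := congrArg (ι (r1 y ((φ y)⁻¹ • φ))) h16
    rw [map_add, map_add, xs_kill h14 _ (by simp [h4]), xs_kill h15 _ (by simp [h5]), xs_eq h12 (by simp [h8])] at h17
    convert xs_map h13 (1 - r1 y ((φ y)⁻¹ • φ)) using 1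
    · simp [div_eq_inv_mul, smul_smul]
    · rw [map_sub, map_one, LinearMap.sub_apply, End.one_apply]
      linear_combination (norm := module) -h17
  refine E.symm.ne_xs E.ne' (fun h13 => ?_) (.inl E.hu') h12
  exact E.symm.ne_xs E.ne' E.ne (.inl E.hu') fun v hv => by simp [show v = 0 by simpa using h12 hv 1 h13]

end

end Ext

end Cfsg.Agent.H19.TX
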