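import Cfsg.Agent.H19.TX5

/-! Tensor factors carrying a unitary form: the local analysis. -/

set_option autoImplicit false
set_option maxHeartbeats 400000

namespace Cfsg.Agent.H19.TX

open Module H10 H11 H26.MX TW TA

variable {F : Type*} [Field F] {σ : F →+* F} {U V : Type*} [AddCommGroup U] [Module F U]
  [AddCommGroup V] [Module F V] {f : U →ₛₗ[σ] U →ₗ[F] F} {q : U → F} {B : V →ₛₗ[σ] V →ₗ[F] F}
  {ι : End F U →ₐ[F] End F V} {M : Subgroup (V ≃ₗ[F] V)} {u : U} [FiniteDimensional F U]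

theorem Fq.gd_all {ε κ : F} {τ : F →+ F} {h : Cl ε κ τ f q} [Nontrivial V] [FiniteDimensional F V] [Finite F]
    (H : Fq h B M ι) (hm : 3 ≤ finrank F U) (hc : ((2 : F) ≠ 0 ∨ ∃ l : F, σ l = l ∧ l ≠ 0 ∧ l ≠ 1) ∨
      4 ≤ finrank F U ∧ (5 ≤ finrank F U ∨ σ ≠ RingHom.id F)) {k k' : V ≃ₗ[F] V} (hk : k ∈ M) (hk' : k' ∈ M) :
    Gd (cg k ι) (cg k' ι) := by
  by_contra h1
  obtain ⟨u, hu, h0⟩ := exists_iso h H.nq (by omega)
  have : Finite V := Module.finite_of_finite F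
  have : Finite U := Module.finite_of_finite F
  have : Finite (V ≃ₗ[F] V) := DFunLike.finite _
  obtain ⟨⟨k, k', a, a'⟩, ⟨hk, hk', h2, h3, h4, h5, h1⟩, hx⟩ := Set.exists_max_image
    {p : _ × _ × U × U | p.1 ∈ M ∧ p.2.1 ∈ M ∧ q p.2.2.1 = 0 ∧ p.2.2.1 ≠ 0 ∧ q p.2.2.2 = 0 ∧ p.2.2.2 ≠ 0 ∧
      ¬ Gd (cg p.1 ι) (cg p.2.1 ι)}
    (fun p => finrank F ↥(Xs (cg p.1 ι) p.2.2.1 ⊓ Xs (cg p.2.1 ι) p.2.2.2)) (Set.toFinite _)
    ⟨(k, k', u, u), hk, hk', h0, hu, h0, hu, h1⟩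
  have E : Ext h B M (cg k ι) (cg k' ι) a a' := ⟨H.conj hk, ⟨k' * k⁻¹, mul_mem hk' (inv_mem hk), by
    rw [cg_cg, inv_mul_cancel_right]⟩, h2, h3, h4, h5, h1, fun j hj j' hj' b b' h6 h7 h8 h9 h10 =>
      hx (j * k, j' * k, b, b') ⟨mul_mem hj hk, mul_mem hj' hk, h6, h7, h8, h9, h10⟩, by
      rcases hc with (hc | hc) | hc
      exacts [.inl hc, .inr (.inl ⟨hm, hc⟩), .inr (.inr hc.1)]⟩
  by_cases h6 : (2 : F) ≠ 0 ∨ ∃ l : F, σ l = l ∧ l ≠ 0 ∧ l ≠ 1
  · exact E.false₁ hm h6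
  replace hc := hc.resolve_left h6
  push Not at h6
  exact E.false₂ h6.1 hc.1 (hc.2.imp_right fun h7 => ⟨h7, fun c h8 => or_iff_not_imp_left.2 (h6.2 c h8)⟩)

theorem mem_xs_of {a : U} {v : V} (h : ∀ b (ψ : Dual F U), ψ a = 0 → ι (r1 b ψ) v = 0) : v ∈ Xs ι a := fun y hy => by
  rw [← sum_ir ι (ι y v)]
  exact Finset.sum_eq_zero fun k _ => by rw [i_i]; exact h _ ((finBasis F U).coord k ∘ₗ y) (by simp [hy])

variable (h : Hm σ f q)
include h

theorem tor [Finite F] (hm : finrank F U = 3) (hc : ∃ l : F, σ l = l ∧ l ≠ 0 ∧ l ≠ 1) : Tor h := fun u y hu hy h1 => by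
  obtain rfl : q = fun x => f x x := funext h.qq
  obtain ⟨l, h2, h3, h4⟩ := hc
  obtain ⟨c, rfl⟩ := h.isHerm.exists_norm h2
  have h5 : c ≠ 0 := by rintro rfl; simp at h3
  have h6 := h.sigma_ne h5
  have h7 := h.flip_one h1
  let s : End F U := (σ c / c) • (LinearMap.transvection (f y) ((c * c / σ c - 1) • u) ∘ₗ
    LinearMap.transvection (f u) ((c / (σ c * σ c) - 1) • y))
  have h8 : ∀ a, s a = (σ c / c) • a + ((c - σ c / c) * f y a) • u + (((σ c)⁻¹ - σ c / c) * f u a) • y := fun a => by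
    simp only [s, LinearMap.smul_apply, LinearMap.comp_apply, LinearMap.transvection.apply, map_add, map_smul, hy]
    match_scalars <;> field_simp <;> ring
  have h9 : LinearMap.det s = 1 := by
    simp [s, hm, h1, h7]; field_simp
  refine ⟨LinearMap.equivOfDetNeZero s (by simp [h9]), (mem_om_herm h.isHerm h).2 ⟨fun a b => ?_, h9⟩, c, σ c / c,
    (σ c)⁻¹, ?_, ?_, fun a ha => ⟨(c - σ c / c) * f y a, ?_⟩, fun h10 => h4 ?_, fun h10 => h4 ?_⟩
  · change f (s a) (s b) = _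
    simp [h8, hu, hy, h1, h7, h.invol, h.hs]
    field_simp; ring
  · change s u = _
    simp [h8, hu, h7]; module
  · change s y = _
    simp [h8, hy, h1]; module
  · change s a - _ = _
    simp [h8, ha]
  · field_simp at h10; rwa [mul_comm]
  · have h11 := congrArg σ h10
    simp only [map_div₀, h.invol, map_inv₀] at h11
    field_simp at h10 h11
    exact mul_right_cancel₀ h5 (by linear_combination σ c * h11 + h10)

theorem perp_pair (hm : 3 ≤ finrank F U) (hu : q u = 0) (c : F) : ∃ z z', f u z = 0 ∧ f u z' = 0 ∧ f z z' = c := by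
  obtain ⟨y, h1, h2⟩ := ker_ind hm u (f u)
  obtain ⟨z, h3, h4⟩ := h.perp_one (w := u) (y := y) fun h3 =>
    let ⟨c, hc⟩ := Submodule.mem_span_singleton.1 h3; h2 c hc.symm
  exact ⟨y, c • z, h1, by simp [h3], by simp [h4]⟩

theorem perp_span (hm : 3 ≤ finrank F U) (hu : q u = 0) (h0 : u ≠ 0) {S : Submodule F U}
    (hS : ∀ y w, q y = 0 → f u y = 1 → f u w = 0 → f w y = 0 → w ∈ S) {w : U} (hw : f u w = 0) : w ∈ S := by
  obtain ⟨y, h1, h2⟩ := part h hu h0
  have h3 : ∀ w, f u w = 0 → w ∉ F ∙ u → w ∈ S := fun w h3 h4 => by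
    obtain ⟨z, h5, h6⟩ := h.perp_one h4
    have h7 : f u (f w y • z) = 0 := by simp [h5]
    obtain ⟨c, hc⟩ := h.exists_tau (f w y • z)
    exact hS _ w (((h.eich_mem_isom hu h7 hc).2 y).trans h1) (by simp [h.eich_apply hu h7, h2, h5, h.diag0 hu]) h3
      (by simp [h.eich_apply hu h7, h2, h6, h.refl h3])
  by_cases h4 : w ∈ F ∙ u
  · obtain ⟨a, h5, h6⟩ := ker_ind hm u (f u)
    have h7 : a ∉ F ∙ u := fun h7 => let ⟨c, hc⟩ := Submodule.mem_span_singleton.1 h7; h6 c hc.symm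
    simpa using sub_mem (h3 (w + a) (by simp [hw, h5]) (by rwa [Submodule.add_mem_iff_right _ h4])) (h3 a h5 h7)
  · exact h3 w hw h4

/-- sandwiching with a transvection -/
theorem sw (hm : 3 ≤ finrank F U) {N : AddSubgroup (End F V)}
    (hN : ∀ s ∈ h.Om, ∀ y ∈ N, ι s.toLinearMap * y * ι s⁻¹.toLinearMap ∈ N) (hu : q u = 0) {y : End F V} (hy : y ∈ N)
    {l : F} (hl : σ l = l) : l • ι (r1 u (f u)) * y * ι (r1 u (f u)) ∈ N := by
  obtain ⟨δ, hδ, h1⟩ := h.nq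
  have h2 := h.diag0 hu
  have h3 : ∀ z c, f u z = 0 → (h.eich u z c).toLinearMap = 1 + (r1 u (f z) - r1 z (f u) - c • r1 u (f u)) :=
    fun z c hz => LinearMap.ext fun x => by simp [h.eich_apply hu hz, smul_smul]; abel
  have h4 : ∀ z, f u z = 0 → ∃ c c' : F, ∀ A A' : End F V, ι (r1 u (f u)) * A - A' * ι (r1 u (f u)) ∈ N →
      ι (r1 u (f u)) * (A * ι (r1 z (f u) - r1 u (f z) - c' • r1 u (f u))) -
        (ι (r1 u (f z) - r1 z (f u) - c • r1 u (f u)) * A') * ι (r1 u (f u)) ∈ N := fun z hz => by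
    obtain ⟨c, hc⟩ := h.exists_tau z
    refine ⟨c, 1 * f z z - c, fun A A' h4 => ?_⟩
    convert sub_mem (hN _ (h.eich_mem_om hu hz hc) _ h4) h4 using 1
    rw [h.eich_inv hu hz, h3 _ _ hz, h3 _ _ (by simp [hz])]
    ext v; simp [h2, hz, h.refl hz]; abel
  obtain ⟨t, ht⟩ := exists_sub_conj h.isHerm.ne h.invol (c := l / δ) (by simp [hl, h1, div_neg])
  obtain ⟨z, z', h5, h6, h7⟩ := perp_pair h hm hu t
  obtain ⟨c, c', h8⟩ := h4 z h5
  obtain ⟨d, d', h9⟩ := h4 z' h6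
  have h10 := hN _ (h.eich_mem_om (w := 0) (c := δ) hu (map_zero _) (by simp [h1, h.Q_zero])) _ hy
  rw [h.eich_inv hu (map_zero _), h3 _ _ (map_zero _), h3 _ _ (by simp)] at h10
  convert h9 _ _ (h8 (-δ • y - (δ * δ) • y * ι (r1 u (f u))) (-δ • y) (by
    convert sub_mem h10 hy using 1
    ext v; simp; module)) using 1
  ext v
  simp [h2, h5, h6, h.refl h5, h.refl h6, h7, ← h.hs z z']
  rw [← mul_div_cancel₀ l hδ, ← ht]; module

/-- an endomorphism with vanishing sandwiches commutes with the factor -/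
theorem nz [Finite F] (hm : 2 ≤ finrank F U) {y : End F V}
    (hy : ∀ b, q b = 0 → ∀ v, ι (r1 b (f b)) (y (ι (r1 b (f b)) v)) = 0) : Cm ι y := by
  obtain ⟨δ, hδ, h1⟩ := h.nq
  obtain ⟨α, hα⟩ := h.ne
  let β : U → Dual F U → V → U → U → V := fun x φ v a b => ι (r1 x (f a)) (y (ι (r1 b φ) v))
  have h2 : ∀ x φ v b, q b = 0 → β x φ v b b = 0 := fun x φ v b hb => by
    by_cases h0 : b = 0
    · simp [β, h0]
    obtain ⟨a, -, h2⟩ := part h hb h0
    simpa [h2, h.flip_one h2] using congrArg (ι (r1 x (f a))) (hy b hb (ι (r1 a φ) v))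
  have h3 : ∀ x φ v a b, q a = 0 → q b = 0 → f a b = 1 → β x φ v a b = β x φ v b a := fun x φ v a b ha hb h3 => by
    have h4 := h2 x φ v _ (q_add h ha hb (c := δ) (by simp [h1, h3]))
    have h5 := h2 x φ v a ha
    have h6 := h2 x φ v b hb
    simp only [β, map_add, LinearMap.map_smulₛₗ, LinearMap.add_apply, LinearMap.smul_apply, RingHom.id_apply,
      h1, map_smul] at h4 h5 h6 ⊢
    rw [← smul_right_inj hδ]
    linear_combination (norm := module) h4 - h5 + (δ * δ) • h6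
  have h4 : ∀ a b, q a = 0 → q b = 0 → f a b = 1 → ∀ x φ v w, f a w = 0 → β x φ v a w = 0 ∧ β x φ v w a = 0 :=
    fun a b ha hb h4 x φ v w hw => by
    have h5 : ∀ w, f a w = 0 → β x φ v a w = β x φ v w a := fun w hw => by
      obtain ⟨c, hc⟩ := h.exists_tau w
      have h5 := h3 x φ v a _ ha (((h.eich_mem_isom ha hw hc).2 b).trans hb) (by
        simp [h.eich_apply ha hw, h4, hw, h.diag0 ha])
      have h6 := h3 x φ v a b ha hb h4
      have h7 := h2 x φ v a ha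
      simp only [β, h.eich_apply ha hw, map_add, map_sub, LinearMap.map_smulₛₗ, LinearMap.add_apply, h4, mul_one,
        LinearMap.sub_apply, LinearMap.smul_apply, RingHom.id_apply, h7, map_one, one_smul, smul_zero, map_smul] at h5 h6 h7 ⊢
      linear_combination (norm := module) h6 - h5
    have h6 := h5 (α • w) (by simp [hw])
    have h7 := h5 w hw
    simp only [β, LinearMap.map_smulₛₗ, LinearMap.smul_apply, RingHom.id_apply, map_smul] at h6 h7 ⊢
    rw [← h7, and_self, ← smul_eq_zero_iff_right (sub_ne_zero.2 hα)]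
    linear_combination (norm := module) σ α • h7 - h6
  have h5 : ∀ a, q a = 0 → a ≠ 0 → ∀ v, y (ι (r1 a (f a)) v) = ι (r1 a (f a)) (y v) := fun a ha h0 v => by
    obtain ⟨b, hb, h5⟩ := part h ha h0
    have h6 : y (ι (r1 a (f a)) v) ∈ Xs ι a := mem_xs_of fun x ψ h6 => by
      obtain ⟨w, rfl⟩ := h.exists_B ψ
      exact (h4 a b ha hb h5 x _ v w (h.refl h6)).2
    rw [← xs_eq h6 (χ := f b) (by simp [h.flip_one h5])]
    refine (h3 a (f a) v a b ha hb h5).symm.trans ?_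
    have h7 : ∀ x φ, ι (r1 a (f a)) (y (ι (r1 x φ) v)) = f a x • β a φ v a b := fun x φ => by
      simpa [β, sub_eq_zero] using (h4 a b ha hb h5 a φ v (x - f a x • b) (by simp [h5])).1
    conv_rhs => rw [← sum_ir ι v]
    conv_lhs => rw [← (finBasis F U).sum_dual_apply_smul_coord (f a)]
    simp only [map_sum, h7]
    simp [β, -Basis.sum_dual_apply_smul_coord]
  obtain ⟨a, h0, ha⟩ := exists_iso h h.nq' hm
  exact top_tv h h.nq' ha h0 (S :=
    { carrier := {x | ∀ v, y (ι x v) = ι x (y v)}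
      zero_mem' := by simp
      add_mem' := fun h6 h7 v => by simp [h6 v, h7 v]
      smul_mem' := fun c x h6 v => by simp [h6 v] }) (fun x h6 x' h7 v => by simp [h6 _, h7 v]) (h5 a ha h0)
    fun b hb h6 => h5 b hb (by rintro rfl; simp at h6)

end Cfsg.Agent.H19.TX
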