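import Cfsg.Agent.H19.TX6

/-! Tensor powers of unitary spaces: from root elements to transvections. -/

set_option autoImplicit false
set_option maxHeartbeats 400000

namespace Cfsg.Agent.H19.TX

open Module H10 H11 H26.MX TW TA

variable {F : Type*} [Field F] {σ : F →+* F} {U V : Type*} [AddCommGroup U] [Module F U]
  [AddCommGroup V] [Module F V] {f : U →ₛₗ[σ] U →ₗ[F] F} {q : U → F} {B : V →ₛₗ[σ] V →ₗ[F] F} {Q : V → F}
  {M : Subgroup (V ≃ₗ[F] V)} {u : U} [FiniteDimensional F U]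

theorem In.comm' {x y : End F V} (h : In M x) (h' : In M y) (h1 : ∀ v, x (x v) = 0) (h2 : ∀ v, y (y v) = 0)
    (h3 : ∀ v, x (y (x v)) = 0) (h4 : ∀ v, y (x (y v)) = 0) : In M (x * y - y * x) := by
  obtain ⟨g, hg, h⟩ := h
  obtain ⟨g', hg', h'⟩ := h'
  refine ⟨g * g' * g⁻¹ * g'⁻¹, mul_mem (mul_mem (mul_mem hg hg') (inv_mem hg)) (inv_mem hg'), fun v => ?_⟩
  rw [mul_app, mul_app, mul_app, inv_eq_of (g := g') (x := v - y v) (by simp [h', h2]),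
    inv_eq_of (g := g) (x := v - y v - x (v - y v)) (by simp [h, h1])]
  simp [h, h', h1, h2, h3, h4]; abel

section one
variable {ι : End F U →ₐ[F] End F V}

theorem Cm.zero {y : End F V} (h : Cm ι y) (h0 : u ≠ 0) (h1 : ∀ x ∈ Xs ι u, y x = 0) (v : V) : y v = 0 := by
  obtain ⟨χ, hχ⟩ := exists_dual_one (F := F) h0
  rw [← sum_ir ι v, map_sum]
  exact Finset.sum_eq_zero fun k _ => by
    simpa [← h _, hχ] using congrArg (ι (r1 (finBasis F U k) χ)) (h1 _ (ir_mem ι u ((finBasis F U).coord k) v))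

omit [FiniteDimensional F U] in
theorem kz (h0 : u ≠ 0) {φ : Dual F U} {v : V} (hv : ι (r1 u φ) v = 0) (a : U) : ι (r1 a φ) v = 0 := by
  obtain ⟨χ, hχ⟩ := exists_dual_one (F := F) h0
  simpa [hχ] using congrArg (ι (r1 a χ)) hv

theorem ker_gen {y : U} {φ : Dual F U} (h1 : φ y = 1) {S : Submodule F V} (hS : ∀ w ψ v, φ w = 0 → ι (r1 w ψ) v ∈ S)
    {v : V} (hv : ι (r1 y φ) v = 0) : v ∈ S := by
  convert S.sum_mem (t := Finset.univ) fun k _ =>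
    hS (finBasis F U k - φ (finBasis F U k) • y) ((finBasis F U).coord k) v (by simp [h1]) using 1
  rw [← (finBasis F U).sum_dual_apply_smul_coord φ] at hv
  simpa [sum_ir, -Basis.sum_dual_apply_smul_coord, eq_sub_iff_add_eq] using hv

variable {ε κ : F} {τ : F →+ F} {h : Cl ε κ τ f q} (H : Fm h B M ι) (hu : q u = 0) (h0 : u ≠ 0)
include H hu h0

theorem Fm.kill {y : End F V} (h1 : In M y) (h2 : ∀ v, y v ∈ Xs ι u) {w : U} (hw : f u w = 0) {x : V}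
    (hx : x ∈ Xs ι w) : y x = 0 := by
  obtain ⟨g, h3, h4⟩ := h1
  simpa [h4] using H.fix_ker hu h0 h3 (by simpa [h4]) (xs_kill hx u hw)

/-- the central root elements -/
def Fm.Zs : AddSubgroup (End F V) where
  carrier := {y | In M y ∧ ∀ v, y v ∈ Xs ι u}
  zero_mem' := ⟨⟨1, one_mem _, by simp⟩, by simp⟩
  add_mem' ha hb := ⟨ha.1.mul hb.1 fun v => by
    simp [H.kill hu h0 ha.1 ha.2 (h.diag0 hu) (hb.2 v), add_comm], fun v => add_mem (ha.2 v) (hb.2 v)⟩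
  neg_mem' {y} ha := ⟨let ⟨g, h1, h2⟩ := ha.1; ⟨g⁻¹, inv_mem h1, fun v => inv_eq_of (by
    simp [h2, H.kill hu h0 ha.1 ha.2 (h.diag0 hu) (ha.2 v)])⟩, fun v => neg_mem (ha.2 v)⟩

end one

theorem Fm.qq_of {ι : End F U →ₐ[F] End F V} [Nontrivial V] {h : Hm σ f q} (H : Fm h B M ι) (hu : q u = 0) (h0 : u ≠ 0)
    (hZ : ∀ y ∈ H.Zs hu h0, ∃ c : F, ∀ v, y v = c • ι (r1 u (f u)) v) {θ : V ≃ₗ[F] V} (h1 : θ ∈ M)
    (h2 : ∀ x ∈ Xs ι u, θ x = x) (h3 : ∀ v, ι (r1 u (f u)) v = 0 → θ v - v ∈ Xs ι u) : ∃ x, ∀ v, θ v = ι x v := by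
  obtain ⟨n, hn⟩ : ∃ n : End F V, ∀ v, θ v = v + n v := ⟨θ.toLinearMap - 1, by simp⟩
  have h4 : ∀ v, ι (r1 u (f u)) (n v) = 0 := fun v => (H.ker_iff h0).2 fun x hx => by
    have := H.iso θ h1 x v
    simpa [h2 x hx, hn v] using this
  simp only [hn, add_eq_left, add_sub_cancel_left] at h2 h3
  have h5 := h.diag0 hu
  have h6 : ∀ w, f u w = 0 → ∃ c : F, ∀ v,
      -n (ι (r1 w (f u)) v) - ι (r1 u (f w)) (n v) = c • ι (r1 u (f u)) v := fun w hw => by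
    obtain ⟨c, hc⟩ := h.exists_tau w
    obtain ⟨g, h6, h7⟩ := H.ei hu hw hc
    refine hZ (-(n * ι (r1 w (f u))) - ι (r1 u (f w)) * n) ⟨⟨θ * g * θ⁻¹ * g⁻¹,
      mul_mem (mul_mem (mul_mem h1 h6) (inv_mem h1)) (inv_mem h6), fun v => ?_⟩,
      fun v => sub_mem (neg_mem (h3 _ (by simp [hw]))) (ir_mem _ _ _ _)⟩
    obtain ⟨v, rfl⟩ := (g * θ).surjective v
    have h8 := h3 _ (h4 v)
    have h9 := h3 (ι (r1 w (f u)) v) (by simp [hw])
    rw [show (θ * g * θ⁻¹ * g⁻¹) ((g * θ) v) = θ (g v) by simp [mul_app]]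
    simp [mul_app, h7, hn, h4, kz h0 (h4 _), h2 _ (ir_mem ι u _ _), h5, hw, h.refl hw, xs_kill h9 u (h.refl hw),
      xs_kill h8 u (h.refl hw)]
    abel
  obtain ⟨α, hα⟩ := h.ne
  obtain ⟨y, hy, h7⟩ := part h hu h0
  obtain ⟨v₀, h8⟩ : ∃ v, ι (r1 u (f u)) v ≠ 0 := by
    by_contra! h8; exact r1_ne h0 (f_ne h h0) (i_inj h8)
  obtain ⟨ξ, h9⟩ := exists_dual_one (F := F) h8
  obtain ⟨b, hb⟩ := h.exists_B (ξ ∘ₗ n ∘ₗ LinearMap.applyₗ v₀ ∘ₗ ι.toLinearMap ∘ₗ r1.flip (f u))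
  have h10 : ∀ w, f u w = 0 → ∀ v, n (ι (r1 w (f u)) v) = f b w • ι (r1 u (f u)) v := fun w hw => by
    obtain ⟨c, hc⟩ := h6 w hw
    obtain ⟨d, hd⟩ := h6 (α • w) (by simp [hw])
    have h10 : ∀ v, n (ι (r1 w (f u)) v) = ((d - σ α * c) / (σ α - α)) • ι (r1 u (f u)) v := fun v => by
      have h10 := hd v
      simp only [LinearMap.map_smulₛₗ, map_smul, LinearMap.smul_apply, RingHom.id_apply] at h10
      rw [← smul_right_inj (sub_ne_zero.2 hα), smul_smul, mul_div_cancel₀ _ (sub_ne_zero.2 hα)]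
      linear_combination (norm := module) h10 - σ α • hc v
    simp [hb, h10, h9]
  have h11 : f u b = 0 := h.refl (by simp [hb, h2 _ (ir_mem ι u _ _)])
  obtain ⟨c, hc⟩ := h.exists_tau b
  obtain ⟨g, h12, h13⟩ := H.ei hu h11 hc
  obtain ⟨d, hd⟩ := hZ ((g⁻¹ * θ).toLinearMap - 1) ⟨⟨_, mul_mem (inv_mem h12) h1, by simp⟩,
    H.img_mem (mul_mem (inv_mem h12) h1) fun v hv => inv_eq_of (by
      have := ker_gen (ι := ι) h7 (S := LinearMap.ker (n - ι (r1 u (f b)))) (fun w ψ v hw => by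
        simpa [h7, sub_eq_zero] using h10 w hw (ι (r1 y ψ) v)) (kz h0 hv y)
      simp [h13, hn, kz h0 hv, ← sub_eq_zero.1 this])⟩
  refine ⟨(1 + (r1 u (f b) - r1 b (f u) - c • r1 u (f u))) * (1 + d • r1 u (f u)), fun v => ?_⟩
  rw [← app_inv g (θ v), show g⁻¹ (θ v) = v + d • ι (r1 u (f u)) v by rw [← hd]; simp [mul_app], h13]
  simp

end Cfsg.Agent.H19.TX
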