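import Cfsg.Agent.H19.TX7

/-! Tensor powers of unitary spaces: overgroups of the tensor induced subgroup. -/

set_option autoImplicit false
set_option maxHeartbeats 400000

namespace Cfsg.Agent.H19.TX

open Module H10 H11 H26.MX TW TA Function

variable {F : Type*} [Field F] {σ : F →+* F} {U V : Type*} [AddCommGroup U] [Module F U]
  [AddCommGroup V] [Module F V] {f : U →ₛₗ[σ] U →ₗ[F] F} {q : U → F} {B : V →ₛₗ[σ] V →ₗ[F] F} {Q : V → F}
  {M : Subgroup (V ≃ₗ[F] V)} {T : Type} [Fintype T] [DecidableEq T] {ι : T → (End F U →ₐ[F] End F V)}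
  {pt : MultilinearMap F (fun _ : T => U) V} {c₀ ε κ ε' κ' : F} {τ τ' : F →+ F}

/-- a tensor power of a classical space and an overgroup -/
structure MF (h : Cl ε κ τ f q) (hV : Cl ε' κ' τ' B Q) (M : Subgroup (V ≃ₗ[F] V))
    (ι : T → (End F U →ₐ[F] End F V)) (pt : MultilinearMap F (fun _ : T => U) V) (c₀ : F) : Prop where
  up : ∀ i x a, ι i x (pt a) = pt (update a i (x (a i)))
  sp : ∀ W : Submodule F V, (∀ a, pt a ∈ W) → ∀ v, v ∈ W
  gen : ∀ A : Subalgebra F (End F V), (∀ i x, ι i x ∈ A) → A = ⊤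
  bp : ∀ a b, B (pt a) (pt b) = c₀ * ∏ i, f (a i) (b i)
  ne : c₀ ≠ 0
  le : M ≤ Isom B Q
  om : ∀ i, ∀ s ∈ h.Om, ∃ g ∈ M, ∀ v, g v = ι i s.toLinearMap v
  cyc : ∀ i j l, i ≠ j → j ≠ l → i ≠ l → ∃ s ∈ M, cg s (ι i) = ι j ∧ cg s (ι j) = ι l ∧ cg s (ι l) = ι i ∧
    ∀ a, a ≠ i → a ≠ j → a ≠ l → cg s (ι a) = ι a

/-- root elements central in several radicals -/
def Ty (q : U → F) (M : Subgroup (V ≃ₗ[F] V)) (ι : T → (End F U →ₐ[F] End F V)) (J : Finset T) (y : End F V) : Prop :=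
  y ≠ 0 ∧ In M y ∧ ∀ j ∈ J, ∃ u, q u = 0 ∧ u ≠ 0 ∧ ∀ v, y v ∈ Xs (ι j) u

namespace MF

section gen
variable {h : Cl ε κ τ f q} {hV : Cl ε' κ' τ' B Q} (D : MF h hV M ι pt c₀)
include D

theorem cc (i j : T) (hij : i ≠ j) : CC (ι i) (ι j) := fun x y v => sub_eq_zero.1 <|
  D.sp (LinearMap.ker (ι j x * ι i y - ι i y * ι j x)) (fun a => by simp [D.up, hij, hij.symm, update_comm hij]) v

theorem bu (a b : T → U) (j : T) (x y : U) : B (pt (update a j x)) (pt (update b j y)) =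
    (c₀ * ∏ i ∈ Finset.univ.erase j, f (a i) (b i)) * f x y := by
  rw [D.bp, ← Finset.prod_erase_mul _ _ (Finset.mem_univ j), update_self, update_self, mul_assoc]
  congr 2
  exact Finset.prod_congr rfl fun i hi => by
    rw [update_of_ne (Finset.ne_of_mem_erase hi), update_of_ne (Finset.ne_of_mem_erase hi)]

theorem fm [FiniteDimensional F V] (i : T) : Fm h B M (ι i) := by
  refine ⟨fun v hv => hV.form.separatingRight hV.sep hv, fun x y => hV.refl, fun g hg => (D.le hg).1,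
    fun a b v w => sub_eq_zero.1 ?_, D.om i⟩
  refine D.sp (LinearMap.ker (B.flip w ∘ₛₗ ι i (r1 a (f b)) - ε • B.flip (ι i (r1 b (f a)) w))) (fun x => ?_) v
  refine D.sp (LinearMap.ker (B (ι i (r1 a (f b)) (pt x)) - ε • B (pt x) ∘ₗ ι i (r1 b (f a)))) (fun y => ?_) w
  have h1 := D.bu x y i (r1 a (f b) (x i)) (y i)
  have h2 := D.bu x y i (x i) (r1 b (f a) (y i))
  rw [update_eq_self] at h1 h2
  rw [LinearMap.mem_ker, LinearMap.sub_apply, LinearMap.smul_apply, LinearMap.comp_apply, D.up, D.up, h1, h2]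
  simp [h.symm b (x i)]
  linear_combination (-(c₀ * ∏ j ∈ Finset.univ.erase i, f (x j) (y j)) * σ (f b (x i)) * f a (y i)) * h.eps_mul

theorem cap {a : T → U} (ha : ∀ j, a j ≠ 0) {v : V} (hv : ∀ j, v ∈ Xs (ι j) (a j)) : v ∈ F ∙ pt a := by
  have h1 : ∀ J : Finset T, ∃ p : End F V, p v = v ∧ ∀ b, p (pt b) ∈ F ∙ pt (J.piecewise a b) := fun J => by
    induction J using Finset.induction_on with
    | empty => exact ⟨1, rfl, fun b => by simp⟩
    | insert j J hj ih =>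
      obtain ⟨p, h1, h2⟩ := ih
      obtain ⟨χ, hχ⟩ := exists_dual_one (F := F) (ha j)
      refine ⟨ι j (r1 (a j) χ) * p, by rw [End.mul_apply, h1, xs_eq (hv j) hχ], fun b => ?_⟩
      obtain ⟨c, hc⟩ := Submodule.mem_span_singleton.1 (h2 b)
      rw [End.mul_apply, ← hc, map_smul, D.up, r1_apply, pt.map_update_smul, Finset.piecewise_insert]
      exact Submodule.smul_mem _ _ (Submodule.smul_mem _ _ (Submodule.mem_span_singleton_self _))
  obtain ⟨p, h2, h3⟩ := h1 Finset.univ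
  exact h2 ▸ D.sp ((F ∙ pt a).comap p) (by simpa using h3) v

theorem ind {P : T → U → Prop} (j : T) {W : Submodule F V}
    (h1 : ∀ i, i ≠ j → ∀ S : Submodule F U, (∀ b, P i b → b ∈ S) → ∀ x, x ∈ S) (w : U)
    (h2 : ∀ a : T → U, (∀ i, i ≠ j → P i (a i)) → pt (update a j w) ∈ W) (a : T → U) : pt (update a j w) ∈ W := by
  have h3 : ∀ J : Finset T, ∀ a : T → U, (∀ i, i ≠ j → i ∉ J → P i (a i)) → pt (update a j w) ∈ W := fun J => by
    induction J using Finset.induction_on with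
    | empty => simpa using h2
    | insert i J hi ih =>
      intro a ha
      by_cases h3 : i = j
      · exact ih a fun l h4 h5 => ha l h4 (by simp [h3, h4, h5])
      simpa [update_comm h3, ← update_comm h3] using h1 i h3 (W.comap (pt.toLinearMap (update a j w) i)) (fun b hb => by
        simpa [update_comm h3] using ih (update a i b) fun l h4 h5 => by
          by_cases h6 : l = i
          · simpa [h6]
          · simpa [h6] using ha l h4 (by simp [h5, h6])) (a i)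
  exact h3 Finset.univ a (by simp)

end gen

variable {h : Hm σ f q} {hV : Hm σ B Q} (D : MF h hV M ι pt c₀) [FiniteDimensional F U] [FiniteDimensional F V]
  [Finite F] (hm : 3 ≤ finrank F U)
include D hm

omit [Finite F] in
theorem sw' {i j : T} (hij : i ≠ j) {u b : U} (hu : q u = 0) (h0 : u ≠ 0) (hb : q b = 0) {y : End F V}
    (hy : y ∈ (D.fm i).Zs hu h0) {l : F} (hl : σ l = l) :
    l • ι j (r1 b (f b)) * y * ι j (r1 b (f b)) ∈ (D.fm i).Zs hu h0 := sw h hm (fun s hs y hy => by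
  obtain ⟨g, h4, h5⟩ := D.om j s hs
  exact ⟨hy.1.conj h4 fun v => by
    rw [h5, h5, End.mul_apply, End.mul_apply, i_i, show s⁻¹.toLinearMap * s.toLinearMap = 1 by ext; simp]; simp, fun v => (D.cc i j hij _).mem (hy.2 _)⟩) hb hy hl

theorem step {J : Finset T} {y : End F V} (hy : Ty q M ι J y) {i j : T} (hi : i ∈ J) (hj : j ∉ J)
    (h1 : ¬ Cm (ι j) y) : ∃ b, Ty q M ι (insert j J) (ι j (r1 b (f b)) * y * ι j (r1 b (f b))) := by
  obtain ⟨u, hu, h0, h2⟩ := hy.2.2 i hi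
  obtain ⟨b, hb, v, h3⟩ : ∃ b, q b = 0 ∧ ∃ v, ι j (r1 b (f b)) (y (ι j (r1 b (f b)) v)) ≠ 0 := by
    by_contra! h3; exact h1 (nz h (by omega) h3)
  refine ⟨b, fun h4 => h3 (LinearMap.congr_fun h4 v), ?_, Finset.forall_mem_insert .. |>.2
    ⟨⟨b, hb, by rintro rfl; simp at h3, fun v => ir_mem _ _ _ _⟩, fun l hl => ?_⟩⟩
  · simpa using (D.sw' hm (by rintro rfl; exact hj hi) hu h0 hb ⟨hy.2.1, h2⟩ (map_one σ)).1
  · obtain ⟨a, h4, h5, h6⟩ := hy.2.2 l hl
    exact ⟨a, h4, h5, fun v => (D.cc l j (by rintro rfl; exact hj hl) _).mem (h6 _)⟩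

theorem fill (K : Finset T) : ∀ (J : Finset T) (y : End F V), Ty q M ι J y → J.Nonempty →
    (∀ j ∈ K, ∃ w, w ≠ 0 ∧ ∀ x ∈ Xs (ι j) w, y x = 0) → ∃ y', Ty q M ι (J ∪ K) y' := by
  induction K using Finset.induction_on with
  | empty => exact fun J y hy _ _ => ⟨y, by simpa⟩
  | insert j K hj ih =>
    rintro J y hy ⟨i, hi⟩ h1
    by_cases h2 : j ∈ J
    · simpa [Finset.insert_eq_of_mem (Finset.mem_union_left K h2)] using
        ih J y hy ⟨i, hi⟩ fun l hl => h1 l (by simp [hl])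
    obtain ⟨w, h3, h4⟩ := h1 j (by simp)
    obtain ⟨b, hb⟩ := D.step hm hy hi h2 fun h5 => hy.1 (LinearMap.ext (Cm.zero h5 h3 h4))
    simpa using ih _ _ hb (by simp) fun l hl => (h1 l (by simp [hl])).imp fun w hw => ⟨hw.1, fun x hx => by
      simp [hw.2 _ ((D.cc l j (by rintro rfl; exact hj hl) _).mem hx)]⟩

theorem big {J : Finset T} {y : End F V} (hy : Ty q M ι J y) (hJ : 1 < J.card) :
    ∃ y, Ty q M ι Finset.univ y := by
  obtain ⟨J, ⟨hJ, y, hy⟩, hx⟩ := Set.exists_max_image {J : Finset T | 1 < J.card ∧ ∃ y, Ty q M ι J y} Finset.card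
    (Set.toFinite _) ⟨J, hJ, y, hy⟩
  refine ⟨y, (Finset.eq_univ_of_forall (s := J) fun l => by_contra fun hl => ?_) ▸ hy⟩
  obtain ⟨i, hi, j, hj, hij⟩ := Finset.one_lt_card.1 hJ
  have h1 : ∀ l, l ∉ J → Cm (ι l) y := fun l hl => by_contra fun h1 => by
    obtain ⟨b, hb⟩ := D.step hm hy hi hl h1
    simpa [hl] using hx _ ⟨hJ.trans_le (Finset.card_le_card (Finset.subset_insert _ _)), _, hb⟩
  have hil : i ≠ l := by rintro rfl; exact hl hi
  obtain ⟨s, hs, h2, h3, h4, h5⟩ := D.cyc i j l hij (by rintro rfl; exact hl hj) hil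
  let Gp : (V ≃ₗ[F] V) → Prop := fun g => g ∈ M ∧ (∀ a, a ∉ J.erase i → ∀ x v, g (ι a x v) = ι a x (g v)) ∧
    ∀ a u, q u = 0 → u ≠ 0 → ∃ u', q u' = 0 ∧ u' ≠ 0 ∧ ∀ v ∈ Xs (ι a) u, g v ∈ Xs (ι a) u'
  have h6 : ∀ g, Gp g → Ty q M ι (insert l (J.erase i)) ((g * s).conjAlgEquiv F y) ∧
      Cm (ι i) ((g * s).conjAlgEquiv F y) := fun g hg => by
    refine ⟨⟨by simpa using hy.1, hy.2.1.conj (mul_mem hg.1 hs) fun v =>
      congrArg (fun v => (g * s) (y v)) (inv_app _ v), fun a ha => ?_⟩, fun x v => ?_⟩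
    · obtain ⟨b, h6, h7⟩ : ∃ b ∈ J, cg s (ι b) = ι a := by
        by_cases h6 : a = l
        · exact ⟨j, hj, h6 ▸ h3⟩
        by_cases h7 : a = j
        · exact ⟨i, hi, h7 ▸ h2⟩
        simp only [Finset.mem_insert, h6, false_or, Finset.mem_erase] at ha
        exact ⟨a, ha.2, h5 a ha.1 h7 h6⟩
      obtain ⟨u, h8, h9, h10⟩ := hy.2.2 b h6
      exact (hg.2.2 a u h8 h9).imp fun u' h11 => ⟨h11.1, h11.2.1, fun v =>
        h11.2.2 _ (h7 ▸ mem_xs_cg.2 (by simpa using h10 _))⟩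
    · obtain ⟨v, rfl⟩ := g.surjective v
      have h6 : ∀ v, g (ι i x v) = ι i x (g v) := hg.2.1 i (by simp) x
      have h7 : ∀ v, ι i x v = s (ι l x (s⁻¹ v)) := fun v => by rw [← h4]; rfl
      change g (s (y (s⁻¹ (g⁻¹ _)))) = ι i x (g (s (y (s⁻¹ (g⁻¹ _)))))
      rw [← h6, ← h6, inv_app, inv_app, h7, h7, inv_app, inv_app, h1 l hl]
  obtain ⟨u, hu, h0, h7⟩ := hy.2.2 i hi
  obtain ⟨g, hg, h8⟩ : ∃ g, Gp g ∧ y * (g * s).conjAlgEquiv F y - (g * s).conjAlgEquiv F y * y ≠ 0 := by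
    by_contra! h8
    let K : Submodule F V :=
      { carrier := {v | ∀ g, Gp g → ∀ x, y (g (ι i x v)) = 0}
        zero_mem' := by simp
        add_mem' := fun h9 h10 g hg x => by simp [h9 g hg x, h10 g hg x]
        smul_mem' := fun c v h9 g hg x => by simp [h9 g hg x] }
    let A : Subalgebra F (End F V) :=
      { carrier := {e | ∀ v ∈ K, e v ∈ K}
        add_mem' := fun h9 h10 v hv => add_mem (h9 v hv) (h10 v hv)
        mul_mem' := fun h9 h10 v hv => h9 _ (h10 v hv)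
        algebraMap_mem' := fun c v hv => K.smul_mem c hv }
    have h9 : Gp 1 := ⟨one_mem _, fun _ _ _ _ => rfl, fun _ u h9 h10 => ⟨u, h9, h10, fun _ => id⟩⟩
    have h10 := D.gen A fun a x => by
      by_cases h10 : a = i
      · exact fun v hv g hg x' => by rw [h10, i_i]; exact hv g hg _
      by_cases h11 : a ∈ J
      swap
      · refine fun v hv g hg x' => ?_
        rw [← D.cc i a (Ne.symm h10) x, hg.2.1 a (by simp [h11]), h1 a h11, hv g hg, map_zero]
      obtain ⟨δ, hδ, h12⟩ := h.nq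
      have h13 : ∀ b, q b = 0 → ι a (r1 b (f b)) ∈ A := fun b hb v hv g hg x' => by
        have h13 := h.eich_mem_om (w := 0) (c := δ) hb (map_zero _) (by simp [h12, h.Q_zero])
        obtain ⟨k, h14, h15⟩ := D.om a _ h13
        have h16 := hv (g * k) ⟨mul_mem hg.1 h14, fun c hc z v => by
          simp [mul_app, h15, D.cc c a (by rintro rfl; simp [h10, h11] at hc) _ z, ← hg.2.1 c hc z],
          fun c w h16 h17 => by
            by_cases h18 : c = a
            · exact (hg.2.2 c _ (((h.om_le_isom h13).2 w).trans h16) (by simpa)).imp fun w' h19 =>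
                ⟨h19.1, h19.2.1, fun v hv => h19.2.2 _ (by change k v ∈ _; rw [h15, ← h18]; exact xs_map hv _)⟩
            · exact (hg.2.2 c w h16 h17).imp fun w' h19 =>
                ⟨h19.1, h19.2.1, fun v hv => h19.2.2 _ (by change k v ∈ _; rw [h15]; exact (D.cc c a h18 _).mem hv)⟩⟩ x'
        rw [mul_app, h15, show (h.eich b 0 δ).toLinearMap = 1 - δ • r1 b (f b) by ext; simp [h.tv hb, smul_smul]] at h16
        simpa [hv g hg, hδ, D.cc i a (Ne.symm h10) _ x'] using h16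
      exact top_tv h h.nq' hu h0 (S := A.toSubmodule.comap (ι a).toLinearMap)
        (fun x h14 x' h15 => by simpa using A.mul_mem h14 h15) (h13 u hu) (fun b hb _ => h13 b hb) x
    obtain ⟨v, h11⟩ := DFunLike.ne_iff.1 (h6 1 h9).1.1
    obtain ⟨ξ, hξ⟩ := exists_dual_one (F := F) h11
    refine hy.1 (LinearMap.ext fun w => ?_)
    have h12 := h10.ge (Algebra.mem_top (x := r1 w ξ)) ((1 * s).conjAlgEquiv F y v) (fun g hg x => by
      rw [← (h6 1 h9).2]
      obtain ⟨b, h12, h13, h14⟩ := hy.2.2 j hj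
      obtain ⟨b', h15, h16, h17⟩ := (h6 g hg).1.2.2 j (by simp [hj, hij.symm])
      change y ((g * s) (y (s⁻¹ _))) = 0
      rw [← inv_app g (ι i x v)]
      by_cases h18 : ∃ c : F, b' = c • b
      · obtain ⟨c, rfl⟩ := h18
        exact (D.fm j).kill h12 h13 hy.2.1 h14 (by simp [h.diag0 h12]) (h17 _)
      · exact xs_inf (not_exists.1 h18) (h14 _) ((sub_eq_zero.1 (LinearMap.congr_fun (h8 g hg) _)).symm ▸ h17 _)) 1 h9 1
    rw [r1_apply, hξ] at h12
    simpa using h12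
  obtain ⟨⟨-, h9, h10⟩, h11⟩ := h6 g hg
  generalize (g * s).conjAlgEquiv F y = x at h8 h9 h10 h11
  obtain ⟨d, h12, h13, h14⟩ := h10 l (by simp)
  have h15 := fun v => (D.fm i).kill hu h0 hy.2.1 h7 (h.diag0 hu) (x := v)
  have h16 := fun v => (D.fm l).kill h12 h13 h9 h14 (h.diag0 h12) (x := v)
  obtain ⟨z, hz⟩ := D.fill hm (J.erase i) {i, l} _ ⟨h8, In.comm' hy.2.1 h9 (fun v => h15 _ (h7 v))
    (fun v => h16 _ (h14 v)) (fun v => h15 _ (h11.mem (h7 v))) fun v => h16 _ ((h1 l hl).mem (h14 v)), by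
      simp only [Finset.mem_insert, Finset.mem_singleton, forall_eq_or_imp, forall_eq]
      exact ⟨⟨u, hu, h0, fun v => sub_mem (h7 _) (h11.mem (h7 v))⟩,
        d, h12, h13, fun v => sub_mem ((h1 l hl).mem (h14 v)) (h14 _)⟩⟩ (by simp) fun a ha => by
      obtain ⟨b, h17, h18, h19⟩ := hy.2.2 a (Finset.mem_of_mem_erase ha)
      obtain ⟨b', h20, h21, h22⟩ := h10 a (by simp [ha])
      obtain ⟨w, h23, h24, h25⟩ := ker2 hm (f b) (f b')
      exact ⟨w, h23, fun v hv => by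
        simp [(D.fm a).kill h17 h18 hy.2.1 h19 h24 hv, (D.fm a).kill h20 h21 h9 h22 h25 hv]⟩
  rw [show {i, l} ∪ J.erase i = insert l J by ext a; by_cases h : a = i <;> simp [h, hi]] at hz
  simpa [hl] using hx _ ⟨hJ.trans_le (Finset.card_le_card (Finset.subset_insert _ _)), _, hz⟩

omit [FiniteDimensional F U] [Finite F] hm in
theorem qp {a : T → U} {i : T} (ha : q (a i) = 0) : Q (pt a) = 0 := by
  rw [hV.qq, D.bp, Finset.prod_eq_zero (Finset.mem_univ i) (h.diag0 ha), mul_zero]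

variable [Nontrivial T]

theorem tvs {y : End F V} (hy : Ty q M ι Finset.univ y) {a : T → U} (ha : ∀ j, q (a j) = 0 ∧ a j ≠ 0) {d : F}
    (hd : σ d = -d) : hV.eich (pt a) 0 d ∈ M := by
  choose u hu h0 h1 using fun j => hy.2.2 j (Finset.mem_univ j)
  let P : (T → U) → F → Prop := fun a d => In M (d • r1 (pt a) (B (pt a)))
  have h2 : ∀ a d, (∀ j, q (a j) = 0 ∧ a j ≠ 0) → d ≠ 0 → σ d = -d → P a d → ∀ j b, q b = 0 → f b (a j) ≠ 0 →
      ∀ d, σ d = -d → P (update a j b) d := fun a d ha h2 h3 h4 j b hb h5 d' h6 => by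
    obtain ⟨i, hi⟩ := exists_ne j
    have h7 := h.sigma_ne h5
    convert (D.sw' hm hi (ha i).1 (ha i).2 hb (y := d • r1 (pt a) (B (pt a))) ⟨h4, fun v x hx => by
      simp [D.up, hx, pt.map_update_zero]⟩ (l := d' / (d * (σ (f b (a j)) * f b (a j)))) (by
        simp [h3, h6, h.invol, mul_comm])).1 using 1
    ext v
    have h8 := (D.fm j).adj b b (pt a) v
    simp only [D.up, r1_apply, pt.map_update_smul, LinearMap.map_smulₛₗ, LinearMap.smul_apply, smul_eq_mul,
      one_mul] at h8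
    simp [← h8, D.up, pt.map_update_smul, smul_smul]
    congr 1; field_simp
  obtain ⟨d₀, h3, h4, h5⟩ : ∃ d, d ≠ 0 ∧ σ d = -d ∧ P u d := by
    obtain ⟨i⟩ : Nonempty T := inferInstance
    choose φ hφ using fun v => Submodule.mem_span_singleton.1 (D.cap h0 fun j => h1 j v)
    obtain ⟨v, hv⟩ := DFunLike.ne_iff.1 hy.1
    obtain ⟨w, -, h3⟩ := part hV (D.qp (hu i)) fun h3 => hv (by simp [← hφ, h3])
    obtain ⟨g, h4, h5⟩ := hy.2.1
    have h6 : ∀ v, φ v = -σ (φ w) * B (pt u) v := fun v => by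
      have := (D.le h4).1 w v
      simp [h5, ← hφ, hV.diag0 (D.qp (hu i)), hV.flip_one h3] at this
      linear_combination this
    refine ⟨-σ (φ w), fun h7 => hv (by simp [← hφ, h6 v, h7]), by simpa [h.invol, h3, neg_eq_iff_eq_neg] using h6 w,
      g, h4, fun v => by simp [h5, ← hφ, h6 v, smul_smul, mul_comm]⟩
  have h6 : ∀ J : Finset T, ∃ d, d ≠ 0 ∧ σ d = -d ∧ P (J.piecewise a u) d := fun J => by
    induction J using Finset.induction_on with
    | empty => exact ⟨d₀, h3, h4, by simpa⟩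
    | insert j J hj ih =>
      obtain ⟨d, h6, h7, h8⟩ := ih
      have h9 : ∀ j, q (J.piecewise a u j) = 0 ∧ J.piecewise a u j ≠ 0 := fun j => by
        by_cases h9 : j ∈ J <;> simp [h9, ha, hu, h0]
      obtain ⟨b, h10, h11, h12⟩ := exists_np h h.nq' (h9 j).1 (h9 j).2 (f_ne h (ha j).2)
      refine ⟨d, h6, h7, ?_⟩
      simpa [Finset.piecewise_insert] using h2 _ d (fun l => by
        by_cases h13 : l = j
        · subst h13; simpa [h10] using fun h13 => h12 (by simp [h13])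
        · simpa [h13] using h9 l) h6 h7 (h2 _ d h9 h6 h7 h8 j b h10 (by simp [h.flip_one h11]) d h7) j (a j) (ha j).1
        (by simpa) d h7
  obtain ⟨d₁, h7, h8, h9⟩ := h6 Finset.univ
  obtain ⟨j⟩ : Nonempty T := inferInstance
  obtain ⟨b, h10, h11⟩ := part h (ha j).1 (ha j).2
  rw [Finset.piecewise_univ] at h9
  obtain ⟨g, h12, h13⟩ := h2 _ d₁ (fun l => by
    by_cases h13 : l = j
    · subst h13; simpa [h10] using fun h13 => by simp [h13] at h11
    · simpa [h13] using ha l) h7 h8 (h2 _ d₁ ha h7 h8 h9 j b h10 (by simp [h.flip_one h11]) d₁ h8) j (a j) (ha j).1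
    (by simp [h11]) (-d) (by simp [hd])
  convert h12 using 1
  ext v
  simp [h13, hV.tv (D.qp (ha j).1), sub_eq_add_neg, smul_smul]

end MF

end Cfsg.Agent.H19.TX
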