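import Cfsg.Agent.H19.TX8

/-! Tensor powers of unitary spaces: the overgroups normalise the decomposition. -/

set_option autoImplicit false
set_option maxHeartbeats 400000

namespace Cfsg.Agent.H19.TX

open Module H10 H11 H26.MX TW TA Function

variable {F : Type*} [Field F] {σ : F →+* F} {U V : Type*} [AddCommGroup U] [Module F U]
  [AddCommGroup V] [Module F V] {f : U →ₛₗ[σ] U →ₗ[F] F} {q : U → F} {B : V →ₛₗ[σ] V →ₗ[F] F} {Q : V → F}
  {M : Subgroup (V ≃ₗ[F] V)} {T : Type} [Fintype T] [DecidableEq T] {ι : T → (End F U →ₐ[F] End F V)}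
  {pt : MultilinearMap F (fun _ : T => U) V} {c₀ : F} [FiniteDimensional F U] [FiniteDimensional F V]

theorem perm_of [Nontrivial T] [Nontrivial V] (hm : 3 ≤ finrank F U) (hc : ∀ i j, i ≠ j → CC (ι i) (ι j))
    (hg : ∀ A : Subalgebra F (End F V), (∀ i x, ι i x ∈ A) → A = ⊤)
    (hs : ∀ i j k, i ≠ j → j ≠ k → i ≠ k → ∃ s ∈ M, cg s (ι i) = ι j)
    (hd : ∀ i, ∀ k ∈ M, ∀ k' ∈ M, Gd (cg k (ι i)) (cg k' (ι i))) {k : V ≃ₗ[F] V} (hk : k ∈ M) :
    ∃ σ : Equiv.Perm T, ∀ i, (cg k (ι i)).range ≤ (ι (σ i)).range := by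
  have h1 : ∀ i, ∃ j, (cg k (ι i)).range ≤ (ι j).range := fun i => by
    by_contra! h1
    have h2 : ∀ s ∈ M, ∀ j, cg s (ι i) = ι j → CC (ι j) (cg k (ι i)) := fun s h2 j h3 =>
      h3 ▸ (hd i s h2 k hk).resolve_left fun h4 => h1 j (h3 ▸ h4.ge)
    obtain ⟨j, hj⟩ := exists_ne i
    by_cases h3 : ∀ l, l ≠ i → l = j
    · refine h1 j ?_
      rintro _ ⟨x, rfl⟩
      exact mem_of_cm hm hc hg (by rintro _ ⟨y, rfl⟩; exact hc i j hj.symm y)
        (fun l hl y => h3 l hl ▸ ⟨y, rfl⟩) (h2 1 (one_mem _) i rfl x)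
    push Not at h3
    obtain ⟨l, h3, h4⟩ := h3
    refine h1 j ?_
    rintro _ ⟨x, rfl⟩
    obtain ⟨c, h5⟩ := scal_of_cm hg (e := cg k (ι i) x) fun a => by
      by_cases h5 : i = a
      · exact h5 ▸ h2 1 (one_mem _) i rfl x
      by_cases h6 : a = j
      · obtain ⟨s, h7, h8⟩ := hs i a l h5 (h6 ▸ h4.symm) h3.symm
        exact h2 s h7 a h8 x
      · obtain ⟨s, h7, h8⟩ := hs i a j h5 h6 hj.symm
        exact h2 s h7 a h8 x
    exact ⟨c • 1, LinearMap.ext fun v => by simpa using (h5 v).symm⟩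
  choose σ h2 using h1
  have h3 : ∀ ι : End F U →ₐ[F] End F V, finrank F ι.range = finrank F (End F U) := fun ι =>
    (AlgEquiv.ofInjective ι ((injective_iff_map_eq_zero _).2 fun x hx =>
      i_inj (ι := ι) (by simp [hx]))).toLinearEquiv.finrank_eq.symm
  exact ⟨Equiv.ofBijective σ (Finite.injective_iff_bijective.1 fun i j h4 => by_contra fun h5 =>
    not_cc hm ((hc i j h5).conj k) ((h2 i).trans (h4 ▸ (Subalgebra.eq_of_le_of_finrank_eq (h2 j)
      ((h3 _).trans (h3 _).symm)).ge))), h2⟩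

namespace MF

variable {h : Hm σ f q} {hV : Hm σ B Q} (D : MF h hV M ι pt c₀) [Finite F] (hm : 3 ≤ finrank F U) [Nontrivial T]
include D hm

theorem om_le (hT : ∀ a : T → U, (∀ j, q (a j) = 0 ∧ a j ≠ 0) → ∀ d, σ d = -d → hV.eich (pt a) 0 d ∈ M) :
    hV.Om ≤ M := by
  obtain ⟨δ, hδ, h1⟩ := h.nq
  have h2 : ∀ a : T → U, (∀ j, q (a j) = 0 ∧ a j ≠ 0) → ∀ j x y, B (pt (update a j x)) (pt (update a j y)) = 0 :=
    fun a ha j x y => let ⟨i, hi⟩ := exists_ne j; by
    rw [D.bu, Finset.prod_eq_zero (i := i) (by simp [hi]) (h.diag0 (ha i).1), mul_zero, zero_mul]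
  have h3 : ∀ a : T → U, (∀ j, q (a j) = 0 ∧ a j ≠ 0) → ∀ j x, Q (pt (update a j x)) = 0 :=
    fun a ha j x => by rw [hV.qq, h2 a ha]
  have h4 : ∀ a : T → U, (∀ j, q (a j) = 0 ∧ a j ≠ 0) → ∀ j y, q y = 0 → f (a j) y = 1 →
      (δ * δ) • pt (update a j y) ∈ hV.Ar M (pt a) := fun a ha j y hy h4 => by
    have h5 : ∀ x, q x = 0 → f y x ≠ 0 ∨ f (a j) x ≠ 0 → ∀ d, σ d = -d → hV.eich (pt (update a j x)) 0 d ∈ M :=
      fun x hx h5 => hT _ fun l => by
        by_cases h6 : l = j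
        · subst h6; simpa [hx] using fun h6 => by simp [h6] at h5
        · simpa [h6] using ha l
    have h6 := mul_mem (h5 _ (q_add h (ha j).1 hy (c := δ) (by simp [h1, h4])) (.inl (by
      simp [h.diag0 hy, h.flip_one h4])) δ h1) (mul_mem (h5 _ (ha j).1 (.inl (by simp [h.flip_one h4])) (-δ)
      (by simp [h1])) (h5 _ (h.sing_smul hy δ) (.inr (by simp [h4, hδ])) (-δ) (by simp [h1])))
    have h7 := h2 a ha j
    have h8 := h3 a ha j
    rw [← update_eq_self j a]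
    generalize a j = u at h6 ⊢
    have h9 : B (pt (update a j u)) ((δ * δ) • pt (update (update a j u) j y)) = 0 := by simp [h7]
    refine (hV.mem_ar (h8 _)).2 ⟨h9, 0, by simp [hV.Q_smul, h8], ?_⟩
    convert h6 using 1
    ext v
    simp only [mul_app, hV.tv (h8 _), hV.eich_apply (h8 _) h9]
    simp [h7, h1, pt.map_update_add, pt.map_update_smul]
    module
  have h5 : ∀ a : T → U, (∀ j, q (a j) = 0 ∧ a j ≠ 0) → ∀ j w, f (a j) w = 0 →
      -pt a ∈ hV.Ar M (pt (update a j w)) := fun a ha j w hw => by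
    obtain ⟨y, hy, h5⟩ := part h (ha j).1 (ha j).2
    have h6 : f (a j) ((δ * δ)⁻¹ • w) = 0 := by simp [hw]
    obtain ⟨c, hc⟩ := h.exists_tau ((δ * δ)⁻¹ • w)
    obtain ⟨g, h7, h8⟩ := D.om j _ (h.eich_mem_om (ha j).1 h6 hc)
    have h9 := h4 a ha j y hy h5
    have h10 : Q (pt a) = 0 := D.qp (ha j).1
    have h11 := add_mem (sub_mem h9 (hV.map_mem_ar_fix D.le h7 (by
      rw [h8, D.up, LinearEquiv.coe_coe, h.eich_fix c (h.diag0 (ha j).1) (h.refl h6), update_eq_self]) h9))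
      (hV.smul_mem_ar h10 (δ * δ * (f ((δ * δ)⁻¹ • w) y - c)))
    obtain ⟨h12, d, h13, h14⟩ := (hV.mem_ar h10).1 (show pt (update a j w) ∈ _ by
      convert h11 using 1
      simp only [map_smul, h8, D.up, update_self, update_idem, LinearEquiv.coe_coe, h.eich_apply (ha j).1 h6, h5,
        pt.map_update_add, pt.map_update_sub, pt.map_update_smul, update_eq_self]
      match_scalars <;> field_simp <;> ring)
    rw [h3 a ha] at h13
    have h15 := mul_mem h14 (hT a ha (-d) (by simpa [neg_eq_iff_add_eq_zero, add_comm] using h13))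
    rw [hV.eich_mul h10 h12 (by simp)] at h15
    refine (hV.mem_ar (h3 a ha j w)).2 ⟨by simp [hV.refl h12], 0, by simp [hV.form.neg, h10], ?_⟩
    simpa [hV.eich_swap h10 (h3 a ha j w) h12] using h15
  have h6 : ∀ u : T → U, (∀ j, q (u j) = 0 ∧ u j ≠ 0) → ∀ j w, f (u j) w = 0 → ∀ a,
      pt (update a j w) ∈ hV.Arm M (pt u) := fun u hu j w hw =>
    D.ind (P := fun i b => q b = 0 ∧ f (u i) b = 1) j (fun i _ S hS => span_np h h.nq' (hu i).1 (hu i).2
      fun b h6 h7 => hS b ⟨h6, h7⟩) w fun a ha => perp_span h hm (hu j).1 (hu j).2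
      (S := (hV.Arm M (pt u)).comap (pt.toLinearMap a j)) (fun y w hy h6 h7 h8 c => by
        have h9 : ∀ l, q (update a j (u j) l) = 0 ∧ update a j (u j) l ≠ 0 := fun l => by
          by_cases h9 : l = j
          · simpa [h9] using hu j
          · simpa [h9, (ha l h9).1] using fun h10 => by simpa [h10] using (ha l h9).2
        have h10 : ∀ x y, B (pt (update a j x)) (pt (update u j y)) = c₀ * f x y := fun x y => by
          rw [D.bu, Finset.prod_eq_one fun i hi => h.flip_one (ha i (Finset.ne_of_mem_erase hi)).2 |>.trans rfl, mul_one]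
        have h11 := h10 (u j) (u j)
        have h12 := h10 ((-c / (δ * δ * c₀)) • w) (u j)
        rw [update_eq_self] at h11 h12
        convert hV.ar_move D.le (h3 _ h9 j _) (by simpa [h.refl h7] using h12) (h4 u hu j y hy h6)
          (h5 _ h9 j ((-c / (δ * δ * c₀)) • w) (by simp [h7])) (by simp [h11, h.diag0 (hu j).1])
          (by simp [h10, h8]) using 1
        have := D.ne
        simp only [update_idem, map_neg, map_smul, LinearMap.neg_apply, h10, h6, pt.map_update_smul,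
          MultilinearMap.toLinearMap_apply, smul_eq_mul]
        match_scalars; field_simp) hw
  have h7 : ∀ u y : T → U, (∀ j, q (u j) = 0 ∧ u j ≠ 0) → (∀ j, f (u j) (y j) = 1) → hV.Full M (pt u) :=
    fun u y hu hy => by
    obtain ⟨j⟩ : Nonempty T := inferInstance
    refine hV.full_of_ar (D.qp (hu j).1) (fun v hv => hV.ar_of_arm ?_) fun c hc =>
      hT u hu c (eq_neg_of_add_eq_zero_right hc)
    obtain ⟨s, hs, _, h7, rfl⟩ := Submodule.mem_sup.1 (D.sp (hV.Arm M (pt u) ⊔ F ∙ pt y) (fun a => by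
      rw [← update_eq_self j a, ← sub_add_cancel (a j) (f (u j) (a j) • y j), pt.map_update_add, pt.map_update_smul]
      refine add_mem (Submodule.mem_sup_left (h6 u hu j _ (by simp [hy]) a)) (Submodule.smul_mem _ _
        (D.ind (P := fun i b => f (u i) b = 0 ∨ b = y i) j (fun i _ S hS x => ?_) _ (fun a ha => ?_) a))
      · simpa using add_mem (hS (x - f (u i) x • y i) (.inl (by simp [hy]))) (S.smul_mem (f (u i) x) (hS _ (.inr rfl)))
      by_cases h7 : ∃ i, i ≠ j ∧ f (u i) (a i) = 0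
      · obtain ⟨i, h7, h8⟩ := h7
        simpa [update_comm h7.symm] using
          Submodule.mem_sup_left (T := F ∙ pt y) (h6 u hu i _ h8 (update a j (y j)))
      · rw [show update a j (y j) = y from funext fun i => by
          by_cases h8 : i = j
          · simp [h8]
          · simpa [h8] using (ha i h8).resolve_left fun h9 => h7 ⟨i, h8, h9⟩]
        exact Submodule.mem_sup_right (Submodule.mem_span_singleton_self _)) v)
    obtain ⟨c, rfl⟩ := Submodule.mem_span_singleton.1 h7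
    simpa [show c = 0 by simpa [hV.ar_perp (hV.ar_of_arm hs), D.bp, hy, D.ne] using hv] using hs
  obtain ⟨u, h0, hu⟩ := exists_iso h h.nq' (by omega)
  obtain ⟨y, hy, h8⟩ := part h hu h0
  exact hV.om_le_of_full D.le (h7 (fun _ => u) (fun _ => y) (fun _ => ⟨hu, h0⟩) fun _ => h8)
    (h7 (fun _ => y) (fun _ => u) (fun _ => ⟨hy, by rintro rfl; simp at h8⟩) fun _ => h.flip_one h8)
    (by simp [D.bp, h8, D.ne])

variable [Nontrivial V] (hc : (∃ l : F, σ l = l ∧ l ≠ 0 ∧ l ≠ 1) ∨ 4 ≤ finrank F U) (hM : ¬ hV.Om ≤ M)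
include hc hM

theorem fq (i : T) : Fq h B M (ι i) := by
  refine ⟨D.fm i, h.nq', or_iff_not_imp_left.2 fun h1 => tor h (by omega) (hc.resolve_right h1),
    fun u hu h0 θ => (D.fm i).qq_of hu h0 fun y hy => ?_⟩
  by_cases h1 : ∀ j, j ≠ i → Cm (ι j) y
  · obtain ⟨a, -, h2⟩ := part h hu h0
    obtain ⟨e, h3, h4, h5⟩ := coef (ι i) (f a) a y
    obtain ⟨c, h6⟩ := scal_of_cm D.gen (e := e) fun j => by
      by_cases h6 : j = i
      · exact h6 ▸ h3
      · exact fun x v => (h5 (ι j x) (D.cc i j (Ne.symm h6) x) (fun v => (h1 j h6 x v).symm) v).symm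
    refine ⟨c, fun v => ?_⟩
    rw [← map_smul, ← h6, ← h4, xs_eq (hy.2 _) (h.flip_one h2), ← sub_eq_zero, ← map_sub]
    exact ker_gen (ι := ι i) h2 (S := LinearMap.ker y) (fun w ψ v hw =>
      (D.fm i).kill hu h0 hy.1 hy.2 hw (ir_mem _ _ _ _)) (by simp [h2])
  push Not at h1
  obtain ⟨j, h1, h2⟩ := h1
  obtain ⟨b, hb⟩ := D.step hm (J := {i}) ⟨by rintro rfl; exact h2 fun _ _ => by simp, hy.1, by
    simpa using ⟨u, hu, h0, hy.2⟩⟩ (Finset.mem_singleton_self i) (by simpa) h2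
  obtain ⟨z, hz⟩ := D.big hm hb (by simp [h1])
  exact absurd (D.om_le hm fun a ha d => D.tvs hm hz ha) hM

theorem perm {k : V ≃ₗ[F] V} (hk : k ∈ M) : ∃ σ : Equiv.Perm T, ∀ i, (cg k (ι i)).range ≤ (ι (σ i)).range :=
  perm_of hm D.cc D.gen (fun i j l h1 h2 h3 => (D.cyc i j l h1 h2 h3).imp fun _ h4 => ⟨h4.1, h4.2.1⟩)
    (fun i _ h1 _ h2 => (D.fq hm hc hM i).gd_all hm (hc.imp .inr fun h3 => ⟨h3, .inr h.isHerm.ne⟩) h1 h2) hk

end MF

end Cfsg.Agent.H19.TX
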